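import Mathlib
import Cfsg.Agent.L.Fz0
import Cfsg.Agent.S0364
import Cfsg.Agent.S0365
import Cfsg.Agent.S0366

/-! # Part F of the identification `N(J(T))/J(T) ≅ M₂₄` -/

set_option autoImplicit false
open Subgroup L.Fz
open scoped Pointwise

namespace H10.FzF
universe u
variable {G : Type u} [Group G] {A M B : Subgroup G} {D : Set G} {z : G} {Ω : Type u} {τ : Ω → Ω → G} {σ : M →* Equiv.Perm Ω}

theorem orb (M : Subgroup G) (z : G) :
    Nat.card (M ⊓ centralizer {z} : Subgroup G) * {x | ∃ m ∈ M, m * z * m⁻¹ = x}.ncard = Nat.card M := by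
  letI : MulAction M G := MulAction.compHom G (MulAut.conj.comp M.subtype)
  have a : MulAction.stabilizer M z = (M ⊓ centralizer {z}).subgroupOf M := by
    ext m
    rw [MulAction.mem_stabilizer_iff, mem_subgroupOf, mem_inf, mem_centralizer_singleton_iff]
    exact ⟨fun e => ⟨m.2, mul_inv_eq_iff_eq_mul.1 e⟩, fun e => mul_inv_eq_iff_eq_mul.2 e.2⟩
  have b : MulAction.orbit M z = {x | ∃ m ∈ M, m * z * m⁻¹ = x} :=
    Set.ext fun x => ⟨fun ⟨m, e⟩ => ⟨m, m.2, e⟩, fun ⟨m, i, e⟩ => ⟨⟨m, i⟩, e⟩⟩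
  rw [← b, ← MulAction.index_stabilizer, a, ← Nat.card_congr (subgroupOfEquivOfLe (inf_le_left (a := M) (b := centralizer {z}))).toEquiv,
    card_mul_index]

theorem comm (h : Cf A M B D z) {x y : G} (i : x ∈ A) (j : y ∈ A) : x * y = y * x := by
  rw [← inv_eq_of_mul_eq_one_right (h.sq _ (mul_mem i j)), mul_inv_rev, inv_eq_of_mul_eq_one_right (h.sq _ i),
    inv_eq_of_mul_eq_one_right (h.sq _ j)]

theorem ker (h : Cf A M B D z) (r : Tr M D τ σ) (m : M) : σ m = 1 ↔ m.1 ∈ A := by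
  refine ⟨fun e => h.cen m m.2 fun x i => ?_, fun a => Equiv.ext fun i => ?_⟩
  · have c : ∀ t ∈ D, Commute m.1 t := fun t o => by
      obtain ⟨i, j, -, rfl⟩ := r.surj t o
      exact mul_inv_eq_iff_eq_mul.1 (by rw [r.act, e]; rfl)
    by_cases x1 : x = 1
    · simp [x1]
    by_cases xD : x ∈ D
    · exact c x xD
    obtain ⟨g, gm, rfl⟩ := h.trZ x i x1 xD
    obtain ⟨t, tD, tB⟩ := h.exD
    rw [show g * z * g⁻¹ = g * t * g⁻¹ * (g * (t * z) * g⁻¹) by rw [conj_mul, ← mul_assoc t, h.sq t (h.DA t tD).1, one_mul]]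
    exact (c _ (h.Dc g gm t tD)).mul_right (c _ (h.Dc g gm _ (h.Bz t tD tB)))
  · have : Finite Ω := Nat.finite_of_card_ne_zero (by rw [r.card]; norm_num)
    have c : ∀ j, j ≠ i → σ m i = i ∨ σ m i = j := fun j n =>
      (r.inj i j _ _ n.symm (by rw [← r.act, comm h a (h.DA _ (r.mem _ _ n.symm)).1, mul_inv_cancel_right])).imp
        (fun e => e.1.symm) fun e => e.2.symm
    by_contra n
    have s : (Set.univ : Set Ω) ⊆ {i, σ m i} := fun j _ => by
      by_cases e : j = i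
      exacts [.inl e, .inr ((c j e).resolve_left n).symm]
    have := (Set.ncard_le_ncard s).trans (Set.ncard_insert_le _ _)
    rw [Set.ncard_univ, r.card, Set.ncard_singleton] at this
    omega

theorem cM [Finite G] (h : Cf A M B D z) (n : Nb B D z) : Nat.card (M ⊓ centralizer {z} : Subgroup G) * 1771 = Nat.card M := by
  rw [← orb M z]
  congr 1
  have e : {x | ∃ m ∈ M, m * z * m⁻¹ = x} = (A : Set G) \ insert 1 D := by
    ext x
    refine ⟨?_, fun ⟨a, b⟩ => h.trZ x a (fun e => b (.inl e)) fun e => b (.inr e)⟩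
    rintro ⟨m, i, rfl⟩
    refine ⟨h.nM m i z (h.BA h.zB), fun k => k.elim (fun k => h.z1 (conj_eq_one_iff.1 k)) fun k => h.zD ?_⟩
    simpa [mul_assoc] using h.Dc _ (inv_mem i) _ k
  rw [e, Set.ncard_diff (by rintro _ (rfl | k); exacts [one_mem A, (h.DA _ k).1]), Set.ncard_insert_of_notMem fun k => (h.DA _ k).2 rfl,
    n.d, ← Nat.card_coe_set_eq, SetLike.coe_sort_coe, h.cA]

theorem top {X : Type*} [Group X] [IsSimpleGroup X] (c : Nat.card X = 244823040) (H : Subgroup X) (d : 81607680 ∣ Nat.card H) :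
    H = ⊤ := by
  have : Finite X := Nat.finite_of_card_ne_zero (by rw [c]; norm_num)
  have i : H.index ≤ 3 := by
    have := H.card_mul_index
    have := Nat.le_of_dvd Nat.card_pos d
    nlinarith
  rcases (normalCore_normal H).eq_bot_or_eq_top with e | e
  · rw [normalCore_eq_ker, MonoidHom.ker_eq_bot_iff] at e
    classical
    have := Fintype.ofFinite (X ⧸ H)
    have := Nat.card_le_card_of_injective _ e
    rw [c, Nat.card_eq_fintype_card, Fintype.card_perm, ← Nat.card_eq_fintype_card, ← index_eq_card] at this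
    have := this.trans (Nat.factorial_le i)
    norm_num [Nat.factorial] at this
  · exact top_le_iff.1 (e ▸ H.normalCore_le)

/-- part F -/
theorem f : FStmt.{u} := fun {G} _ _ {A M B D z Ω τ σ} e h k n r he => by
  let φ : M →* Cfsg.M24 := (e.permCongrHom.toMonoidHom.comp σ).codRestrict _ he
  have φ1 : ∀ m, φ m = 1 ↔ m.1 ∈ A := fun m =>
    (Subtype.ext_iff.trans (map_eq_one_iff e.permCongrHom e.permCongrHom.injective)).trans (ker h r m)
  have φk : φ.ker = A.subgroupOf M := Subgroup.ext φ1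
  have := Cfsg.Agent.S0365.result
  have φs : Function.Surjective φ := MonoidHom.range_eq_top.1 (top Cfsg.Agent.S0364.result _ (by
    have a := φ.ker.card_mul_index
    rw [index_ker, φk, Nat.card_congr (subgroupOfEquivOfLe h.AM).toEquiv, h.cA, ← cM h n] at a
    obtain ⟨c, hc⟩ := k.c45
    exact ⟨c, by rw [hc] at a; omega⟩))
  have n1 : (A.subgroupOf M).Normal := φk ▸ φ.normal_ker
  refine ⟨⟨n1, ⟨(QuotientGroup.quotientMulEquivOfEq φk.symm).trans (QuotientGroup.quotientKerEquivOfSurjective φ φs)⟩⟩,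
    fun t o => ?_⟩
  obtain ⟨i, j, ij, rfl⟩ := r.surj t o
  have := Cfsg.Agent.S0366.result
  have t2 := MulAction.isMultiplyPretransitive_of_le (G := Cfsg.M24) (α := Cfsg.GolayPt) (m := 2) (n := 5) (by norm_num)
    (by rw [Nat.card_eq_fintype_card]; decide)
  obtain ⟨g, g1, g2⟩ := MulAction.is_two_pretransitive_iff.1 t2 (e.injective.ne ij) (show (none : Cfsg.GolayPt) ≠ some 0 by simp)
  have key : ∀ m : M, m.1 ∈ centralizer {τ i j} ↔
      (g * φ m * g⁻¹).1 ∈ MulAction.stabilizer (Equiv.Perm Cfsg.GolayPt) ({none, some 0} : Set Cfsg.GolayPt) := fun m => by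
    have a : ∀ l, (g * φ m * g⁻¹).1 • g • e l = g • e (σ m l) := fun l => by
      show (g * φ m * g⁻¹) • g • e l = _
      rw [mul_smul, inv_smul_smul, mul_smul]
      congr 1
      show e.permCongr (σ m) (e l) = _
      simp
    rw [MulAction.mem_stabilizer_iff, Set.smul_set_insert, Set.smul_set_singleton, ← g1, ← g2, a, a, Set.pair_eq_pair_iff,
      mem_centralizer_singleton_iff, ← mul_inv_eq_iff_eq_mul, r.act]
    simp only [smul_left_cancel_iff, e.injective.eq_iff]
    refine ⟨fun q => (r.inj i j _ _ ij q.symm).imp (fun q => ⟨q.1.symm, q.2.symm⟩) fun q => ⟨q.2.symm, q.1.symm⟩, ?_⟩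
    rintro (⟨p, q⟩ | ⟨p, q⟩) <;> rw [p, q]
    exact r.symm _ _
  let ψ : (M ⊓ centralizer {τ i j} : Subgroup G) →*
      (Cfsg.M24 ⊓ MulAction.stabilizer (Equiv.Perm Cfsg.GolayPt) ({none, some 0} : Set Cfsg.GolayPt) : Subgroup _) :=
    (Cfsg.M24.subtype.comp ((MulAut.conj g).toMonoidHom.comp (φ.comp (inclusion inf_le_left)))).codRestrict _ fun m =>
      ⟨(g * φ (inclusion inf_le_left m) * g⁻¹).2, (key (inclusion inf_le_left m)).1 m.2.2⟩
  have ψk : ψ.ker = A.subgroupOf (M ⊓ centralizer {τ i j}) := Subgroup.ext fun m => by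
    have a : ψ m = 1 ↔ g * φ (inclusion inf_le_left m) * g⁻¹ = 1 := by
      rw [Subtype.ext_iff, Subtype.ext_iff (a2 := (1 : Cfsg.M24))]; rfl
    exact (a.trans conj_eq_one_iff).trans (φ1 _)
  have ψs : Function.Surjective ψ := fun p => by
    obtain ⟨m, em⟩ := φs (g⁻¹ * ⟨p.1, p.2.1⟩ * g)
    have a : g * φ m * g⁻¹ = ⟨p.1, p.2.1⟩ := by rw [em]; group
    exact ⟨⟨m.1, m.2, (key m).2 (a ▸ p.2.2)⟩, Subtype.ext (show (g * φ m * g⁻¹).1 = p.1 by rw [a])⟩
  have n2 : (A.subgroupOf (M ⊓ centralizer {τ i j})).Normal := ψk ▸ ψ.normal_ker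
  exact ⟨n2, ⟨(QuotientGroup.quotientMulEquivOfEq ψk.symm).trans (QuotientGroup.quotientKerEquivOfSurjective ψ ψs)⟩⟩

end H10.FzF
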