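import Cfsg.Agent.H06.J0
import Cfsg.Agent.H14.M24Stab

/-! Part H of S5566: the hexad subgroup `2⁴ : A₆` of `M₂₂`. -/

set_option autoImplicit false

namespace H10.JH

open Subgroup

abbrev A6 := alternatingGroup (Fin 6)

theorem cA : Nat.card A6 = 360 := by
  rw [nat_card_alternatingGroup]; simp [Nat.factorial]

theorem sA : IsSimpleGroup A6 := alternatingGroup.isSimpleGroup (by simp)

theorem a1 (J : Subgroup A6) (h : J.index ≤ 5) : J = ⊤ := by
  have := sA
  rcases J.normalCore_normal.eq_bot_or_eq_top with k | k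
  · exfalso
    rw [normalCore_eq_ker] at k
    have h1 := Nat.card_le_card_of_injective _ ((MonoidHom.ker_eq_bot_iff _).1 k)
    rw [cA, Nat.card_perm] at h1
    have h2 : (Nat.card (A6 ⧸ J)).factorial ≤ (5 : ℕ).factorial := Nat.factorial_le h
    simp [Nat.factorial] at h2
    omega
  · exact top_le_iff.1 (k ▸ J.normalCore_le)

theorem a3 (E : Subgroup A6) (h : ∀ g ∈ E, g * g = 1) : Nat.card E ≤ 4 := by
  have : Fact (Nat.Prime 2) := ⟨Nat.prime_two⟩
  have hE : IsPGroup 2 E := fun g => ⟨1, Subtype.ext (by simpa [pow_two] using h g g.2)⟩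
  let c : A6 := ⟨⟨![1, 2, 3, 0, 5, 4], ![3, 0, 1, 2, 5, 4], by decide, by decide⟩, by
    rw [Equiv.Perm.mem_alternatingGroup]; decide⟩
  have c4 : c ^ 4 = 1 := by apply Subtype.ext; decide
  have c2 : c * c ≠ 1 := by intro k; have := congrArg Subtype.val k; revert this; decide
  have hc : IsPGroup 2 (zpowers c) := fun g => ⟨2, by
    obtain ⟨_, i, rfl⟩ := g
    apply Subtype.ext
    change (c ^ i) ^ (2 ^ 2) = 1
    rw [← zpow_natCast, ← zpow_mul, mul_comm, zpow_mul, zpow_natCast]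
    norm_num [c4]⟩
  obtain ⟨P, hP⟩ := hE.exists_le_sylow
  obtain ⟨Q, hQ⟩ := hc.exists_le_sylow
  have cP : Nat.card P = 8 := by
    rw [Sylow.card_eq_multiplicity, cA]
    have : Nat.factorization 360 2 = 3 := by
      rw [show (360 : ℕ) = 2 ^ 3 * 45 from rfl, Nat.factorization_mul (by norm_num) (by norm_num),
        Nat.prime_two.factorization_pow]
      simp [Nat.factorization_eq_zero_of_not_dvd]
    rw [this]; rfl
  have d := card_dvd_of_le hP
  rw [cP] at d
  by_contra k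
  have e8 : Nat.card E = 8 := by
    have := Nat.le_of_dvd (by norm_num) d
    interval_cases (Nat.card E) <;> first | omega | (exfalso; revert d; decide)
  have eP : E = P := eq_of_le_of_card_ge hP (by rw [cP, e8])
  obtain ⟨g, hg⟩ := MulAction.exists_smul_eq A6 Q P
  have m : g * c * g⁻¹ ∈ E := by
    rw [eP, ← hg]
    exact smul_mem_pointwise_smul c (MulAut.conj g) _ (hQ (mem_zpowers c))
  have := h _ m
  apply c2
  calc c * c = g⁻¹ * (g * c * g⁻¹ * (g * c * g⁻¹)) * g := by group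
    _ = 1 := by rw [this]; group

variable {H : Type} [Group H] [Finite H] (φ : H →* A6) (hφ : Function.Surjective φ)
include hφ

theorem b1 (J : Subgroup H) (h : φ.ker ≤ J) (k : J.index ≤ 5) : J = ⊤ := by
  have := a1 (J.map φ) (by rw [index_map_eq _ hφ h]; exact k)
  rw [← comap_map_eq_self h, this, comap_top]

theorem b2 (J : Subgroup H) (h : φ.ker ≤ J) (k : J.Normal) : J = ⊤ ∨ J ≤ φ.ker := by
  have := sA
  rcases (k.map φ hφ).eq_bot_or_eq_top with k | k
  · exact .inr ((Subgroup.map_eq_bot_iff _).1 k)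
  · left; rw [← comap_map_eq_self h, k, comap_top]

omit hφ in
theorem b3 (E : Subgroup H) (h : ∀ g ∈ E, g * g = 1) : Nat.card E ≤ 4 * Nat.card ↥(E ⊓ φ.ker) := by
  have h1 := a3 (E.map φ) (by rintro _ ⟨g, hg, rfl⟩; rw [← map_mul, h g hg, map_one])
  have h2 := (φ.ker.subgroupOf E).card_mul_index
  have h3 : (φ.ker.subgroupOf E).index = Nat.card (E.map φ) := relIndex_ker E φ
  have h4 : Nat.card (φ.ker.subgroupOf E) = Nat.card ↥(E ⊓ φ.ker) := by
    rw [← inf_subgroupOf_left]
    exact Nat.card_congr (subgroupOfEquivOfLe inf_le_left).toEquiv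
  rw [← h2, h3, h4, mul_comm]
  exact Nat.mul_le_mul_right _ h1

theorem b4 (c : Nat.card φ.ker = 16) (e : ∀ y ∈ φ.ker, y * y = 1) (nc : ∃ k, ∃ y ∈ φ.ker, k * y ≠ y * k)
    (y : φ.ker) (y' : φ.ker) (h : y ≠ 1) (h' : y' ≠ 1) : ∃ k : H, k * y * k⁻¹ = y' := by
  classical
  have : Fact (Nat.Prime 5) := ⟨by norm_num⟩
  letI : MulAction H φ.ker := MulAction.compHom φ.ker (MulAut.conjNormal : H →* MulAut φ.ker)
  have sm : ∀ (g : H) (x : φ.ker), ((g • x : φ.ker) : H) = g * x * g⁻¹ := fun g x => rfl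
  have ab : ∀ a ∈ φ.ker, ∀ b ∈ φ.ker, a * b = b * a := fun a ha b hb => by
    have h1 := eq_inv_of_mul_eq_one_left (e _ (mul_mem ha hb))
    rw [h1, mul_inv_rev, ← eq_inv_of_mul_eq_one_left (e a ha), ← eq_inv_of_mul_eq_one_left (e b hb)]
  have cH : Nat.card H = 5760 := by
    rw [← φ.ker.card_mul_index, c, index_ker, MonoidHom.range_eq_top.2 hφ, card_top, cA]
  have key : ∀ x : φ.ker, x ≠ 1 → 10 ≤ (MulAction.orbit H x).ncard := by
    intro x hx
    rw [← MulAction.index_stabilizer]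
    set J := MulAction.stabilizer H x
    have hJ : φ.ker ≤ J := fun a ha => Subtype.ext (by rw [sm, ab a ha x x.2]; group)
    have cen : ∀ f : H, orderOf f = 5 → f ∉ J := by
      intro f hf hfJ
      let C := (centralizer ({f} : Set H)).subgroupOf φ.ker
      have := Fintype.ofFinite φ.ker
      have f5 : f ^ 5 = 1 := hf ▸ pow_orderOf_eq_one f
      have m := Equiv.Perm.card_fixedPoints_modEq (p := 5) (n := 1) (f := (MulAction.toEndHom f : Function.End φ.ker)) (by
        rw [← map_pow, pow_one, f5, map_one])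
      have mC : ∀ x : φ.ker, x ∈ C ↔ f • x = x := fun x => by
        rw [mem_subgroupOf, mem_centralizer_singleton_iff, Subtype.ext_iff, sm, mul_inv_eq_iff_eq_mul, eq_comm]
      rw [Fintype.card_eq_nat_card, Fintype.card_eq_nat_card, c,
        ← Nat.card_congr (Equiv.subtypeEquivRight mC : C ≃ (MulAction.toEndHom f : Function.End φ.ker).fixedPoints)] at m
      have d := C.card_subgroup_dvd_card
      rw [c] at d
      have n1 : Nat.card C ≠ 1 := fun k => hx (by
        have := (mC x).2 hfJ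
        rwa [Subgroup.card_eq_one.1 k, mem_bot] at this)
      have e16 : Nat.card C = 16 := by
        have := Nat.le_of_dvd (by norm_num) d
        interval_cases (Nat.card C) <;> first | omega | (exfalso; revert d; decide) | (exfalso; revert m; decide)
      have ct : C = ⊤ := eq_top_of_card_eq _ (e16.trans c.symm)
      rcases b2 φ hφ (centralizer (φ.ker : Set H)) (fun a ha b hb => ab b hb a ha) inferInstance with k | k
      · obtain ⟨g, z, hz, ne⟩ := nc
        exact ne ((k ▸ mem_top g : g ∈ centralizer (φ.ker : Set H)) z hz).symm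
      · have hf' : f ∈ φ.ker := k fun z hz => mem_centralizer_singleton_iff.1 (ct ▸ mem_top _ : (⟨z, hz⟩ : φ.ker) ∈ C)
        have := orderOf_dvd_of_pow_eq_one ((pow_two f).trans (e f hf'))
        rw [hf] at this
        omega
    have d5 : 5 ∣ J.index := by
      have h1 := J.card_mul_index
      have h2 : ¬ 5 ∣ Nat.card J := fun k => by
        obtain ⟨f, hf⟩ := exists_prime_orderOf_dvd_card' 5 k
        exact cen f (by rw [← hf, orderOf_coe]) f.2
      exact ((Nat.Prime.dvd_mul (by norm_num)).1 (by rw [h1, cH]; norm_num)).resolve_left h2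
    have p0 : J.index ≠ 0 := index_ne_zero_of_finite
    by_contra k
    have := b1 φ hφ J hJ (by omega)
    rw [this, index_top] at d5
    omega
  by_contra k
  have dj : Disjoint (MulAction.orbit H y) (MulAction.orbit H y') := by
    rw [Set.disjoint_left]
    rintro _ ⟨g, rfl⟩ ⟨g', hg⟩
    apply k
    refine ⟨g'⁻¹ * g, ?_⟩
    rw [← sm, mul_smul]
    simp only at hg
    rw [← hg, inv_smul_smul]
  have h1 := Set.ncard_union_eq dj
  have h2 := Set.ncard_le_ncard (Set.subset_univ (MulAction.orbit H y ∪ MulAction.orbit H y'))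
  rw [Set.ncard_univ, c] at h2
  have := key y h
  have := key y' h'
  omega

omit hφ in
theorem hx {Γ : Type} [Group Γ] [Finite Γ] (K Y : Subgroup Γ) (ψ : K →* A6) (hψ : Function.Surjective ψ) (YK : Y ≤ K)
    (hk : ψ.ker = Y.subgroupOf K) (c : Nat.card Y = 16) (e : ∀ y ∈ Y, y * y = 1) (nc : ∃ k ∈ K, ∃ y ∈ Y, k * y ≠ y * k) :
    Cfsg.Agent.H06.J.Hx 1 K Y := by
  have mk : ∀ g : K, g ∈ ψ.ker ↔ (g : Γ) ∈ Y := fun g => by rw [hk, mem_subgroupOf]
  have cc : ∀ E ≤ K, Nat.card (E.subgroupOf K) = Nat.card E := fun E h => Nat.card_congr (subgroupOfEquivOfLe h).toEquiv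
  refine ⟨one_mem _, YK, c, e, fun k hk y hy => (mk (⟨k, hk⟩ * ⟨y, YK hy⟩ * ⟨k, hk⟩⁻¹)).1
    (ψ.normal_ker.conj_mem _ ((mk _).2 hy) _), fun y hy y' hy' h h' => ?_, fun J _ h _ k => ?_, fun N NK h _ k => ?_, fun E EK h => ?_⟩
  · obtain ⟨k0, a, y0, b, ne⟩ := nc
    obtain ⟨k, a⟩ := b4 ψ hψ (by rw [hk, cc Y YK, c]) (fun y hy => Subtype.ext (e y ((mk y).1 hy)))
      ⟨⟨k0, a⟩, ⟨y0, YK b⟩, (mk _).2 b, fun q => ne (congrArg Subtype.val q)⟩ ⟨⟨y, YK hy⟩, (mk _).2 hy⟩ ⟨⟨y', YK hy'⟩, (mk _).2 hy'⟩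
      (fun q => h (congrArg (fun t : ψ.ker => (t.1 : Γ)) q)) (fun q => h' (congrArg (fun t : ψ.ker => (t.1 : Γ)) q))
    exact ⟨k, k.2, congrArg Subtype.val a⟩
  · exact subgroupOf_eq_top.1 (b1 ψ hψ (J.subgroupOf K) (fun g hg => h ((mk g).1 hg)) k)
  · rcases b2 ψ hψ (N.subgroupOf K) (fun g hg => h ((mk g).1 hg)) ⟨fun n hn g => k g g.2 n hn⟩ with q | q
    · exact .inl (subgroupOf_eq_top.1 q)
    · exact .inr fun g hg _ => (mk ⟨g, NK hg⟩).1 (q hg)
  · have := b3 ψ (E.subgroupOf K) fun g hg => Subtype.ext (h g hg)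
    rwa [hk, cc E EK, show E.subgroupOf K ⊓ Y.subgroupOf K = (E ⊓ Y).subgroupOf K from rfl, cc _ (inf_le_left.trans EK)] at this

omit hφ

open Cfsg MulAction H14
open scoped Pointwise

theorem oc (p : GolayPt) (h1 : p ≠ none) (h2 : p ≠ some 0) : ∃ o ∈ octads, none ∈ o ∧ some 0 ∈ o ∧ p ∈ o := by
  obtain ⟨g, hg, h⟩ := M24_map_inj (k := 3) (by norm_num) ![pt 0, pt 1, pt 2] ![none, some 0, p] (by decide)
    (by simp [Function.Injective, Fin.forall_fin_succ, h1, h2, h1.symm, h2.symm])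
  have k : ∀ i, ![none, some 0, p] i ∈ g • toSet 0x149f := fun i => by
    rw [← h i]
    exact Finset.smul_mem_smul_finset (by revert i; decide +kernel)
  exact ⟨_, smul_octad hg oct0_mem, k 0, k 1, k 2⟩

theorem h : Cfsg.Agent.H06.J.HStmt := by
  classical
  obtain ⟨o, ho, o1, o2, -⟩ := oc (some 1) (by decide) (by decide)
  let S := M24 ⊓ stabilizer (Equiv.Perm GolayPt) o
  let K0 := S ⊓ stabilizer (Equiv.Perm GolayPt) (none : GolayPt) ⊓ stabilizer (Equiv.Perm GolayPt) (some 0 : GolayPt)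
  let Y0 := M24 ⊓ fixingSubgroup (Equiv.Perm GolayPt) (o : Set GolayPt)
  have o8 : 5 ≤ (o ∩ o).card := by rw [Finset.inter_self, ho.2]; norm_num
  have YK : Y0 ≤ K0 := fun g hg => ⟨⟨⟨hg.1, smul_octad_eq_of_fix hg.1 ho (fun x hx => hg.2 ⟨x, hx⟩) o8⟩, hg.2 ⟨_, o1⟩⟩, hg.2 ⟨_, o2⟩⟩
  have KM : K0 ≤ Spor.M22 := fun g hg => ⟨⟨hg.1.1.1, hg.1.2⟩, hg.2⟩
  have cM : Nat.card Spor.M22 = 443520 := by
    rw [← card_stab_pt2 (p := none) (q := some 0) (by decide)]
    exact Nat.card_congr
      { toFun x := ⟨⟨x.1, x.2.1.1⟩, x.2.1.2, x.2.2⟩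
        invFun x := ⟨x.1.1, ⟨x.1.2, x.2.1⟩, x.2.2⟩
        left_inv _ := rfl
        right_inv _ := rfl }
  have cS : Nat.card S = 322560 := by
    rw [← card_stab_octad ho]
    exact Nat.card_congr
      { toFun x := ⟨⟨x.1, x.2.1⟩, x.2.2⟩
        invFun x := ⟨x.1.1, x.1.2, x.2⟩
        left_inv _ := rfl
        right_inv _ := rfl }
  have c1 := card_eq_mul_stab S none (o : Set GolayPt) (fun g hg => (mem_iff_of_smul_eq hg.2 _).2 o1) fun q hq => by
    obtain ⟨g, hg, a, b⟩ := octad_pt_trans ho ho (s := {none}) (by simpa using o1) (by simp) (fun _ => q) (by simp) fun _ _ => hq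
    exact ⟨g, ⟨hg, a⟩, b _ (by simp)⟩
  have c2 := card_eq_mul_stab (S ⊓ stabilizer (Equiv.Perm GolayPt) (none : GolayPt)) (some 0 : GolayPt) (o.erase none : Set GolayPt)
    (fun g hg => Finset.mem_coe.2 (Finset.mem_erase.2 ⟨fun e => absurd (g.injective (e.trans hg.2.symm)) (by decide),
      (mem_iff_of_smul_eq hg.1.2 _).2 o2⟩)) fun q hq => by
    have hq' := Finset.mem_erase.1 (Finset.mem_coe.1 hq)
    obtain ⟨g, hg, a, b⟩ := octad_pt_trans ho ho (s := {none, some 0}) (by simp [Finset.insert_subset_iff, o1, o2]) (by simp)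
      (fun x => if x = none then none else q) (by simp [Set.InjOn, hq'.1, hq'.1.symm]) fun x _ => by
        split_ifs
        · exact o1
        · exact hq'.2
    exact ⟨g, ⟨⟨hg, a⟩, by simpa using b none (by simp)⟩, by simpa using b (some 0) (by simp)⟩
  rw [cS, Set.ncard_coe_finset, ho.2] at c1
  rw [Set.ncard_coe_finset, Finset.card_erase_of_mem o1, ho.2] at c2
  have cK0 : Nat.card K0 = 5760 := by change Nat.card _ = _ * Nat.card K0 at c2; omega
  have cK : Nat.card (K0.subgroupOf Spor.M22) = 5760 := (Nat.card_congr (subgroupOfEquivOfLe KM).toEquiv).trans cK0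
  have cY : Nat.card (Y0.subgroupOf Spor.M22) = 16 :=
    (Nat.card_congr (subgroupOfEquivOfLe (YK.trans KM)).toEquiv).trans (card_fix_octad ho)
  have YK' : Y0.subgroupOf Spor.M22 ≤ K0.subgroupOf Spor.M22 := fun g hg => YK hg
  let t := (o.erase none).erase (some 0)
  have t6 : t.card = 6 := by
    rw [Finset.card_erase_of_mem (Finset.mem_erase.2 ⟨by decide, o2⟩), Finset.card_erase_of_mem o1, ho.2]
  have pr : ∀ g ∈ K0, ∀ x, g x ∈ t ↔ x ∈ t := fun g hg x => by
    have a : g none = none := hg.1.2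
    have b : g (some 0) = some 0 := hg.2
    simp only [t, Finset.mem_erase, mem_iff_of_smul_eq hg.1.1.2]
    conv_lhs => rw [← a, ← b]
    simp only [ne_eq, g.apply_eq_iff_eq]
  let ψ : K0.subgroupOf Spor.M22 →* Equiv.Perm t :=
    { toFun g := g.1.1.subtypePerm (pr _ g.2)
      map_one' := rfl
      map_mul' _ _ := rfl }
  have kψ : ψ.ker = (Y0.subgroupOf Spor.M22).subgroupOf _ := Subgroup.ext fun g => ⟨fun hg => ⟨g.2.1.1.1, fun x => by
      by_cases a : x.1 = none
      · change g.1.1 x.1 = x.1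
        rw [a]; exact g.2.1.2
      by_cases b : x.1 = some 0
      · change g.1.1 x.1 = x.1
        rw [b]; exact g.2.2
      exact congrArg Subtype.val (Equiv.congr_fun (MonoidHom.mem_ker.1 hg) ⟨x.1, Finset.mem_erase.2 ⟨b, Finset.mem_erase.2 ⟨a, x.2⟩⟩⟩)⟩,
    fun hg => MonoidHom.mem_ker.2 (Equiv.ext fun x => Subtype.ext
      (hg.2 ⟨x.1, Finset.mem_of_mem_erase (Finset.mem_of_mem_erase x.2)⟩))⟩
  have h2 := ψ.ker.card_mul_index
  have h3 := ψ.range.card_mul_index
  rw [index_ker, cK, kψ, Nat.card_congr (subgroupOfEquivOfLe YK').toEquiv, cY] at h2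
  rw [Nat.card_perm, Nat.card_eq_fintype_card (α := t), Fintype.card_coe, t6, show Nat.card ψ.range = 360 by omega] at h3
  have ra : ψ.range = alternatingGroup t :=
    Equiv.Perm.eq_alternatingGroup_of_index_eq_two (by norm_num [Nat.factorial] at h3; omega)
  let e : ψ.range ≃* A6 := (MulEquiv.subgroupCongr ra).trans (t.equivFinOfCardEq t6).altCongrHom
  refine ⟨K0.subgroupOf _, Y0.subgroupOf _, hx _ _ (e.toMonoidHom.comp ψ.rangeRestrict)
    (e.surjective.comp ψ.rangeRestrict_surjective) YK' ?_ cY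
    (fun y hy => Subtype.ext (sq_eq_one_of_fix_octad hy.1 ho fun x hx => hy.2 ⟨x, hx⟩)) ?_, ?_⟩
  · rw [← kψ, ← ψ.ker_rangeRestrict]
    exact Subgroup.ext fun g => by simp [MonoidHom.mem_ker]
  · by_contra! k
    have ex : ∀ s : Finset GolayPt, s.card < 24 → ∃ p, p ∉ s := fun s hs => by
      by_contra! q
      rw [Finset.eq_univ_iff_forall.2 q, Finset.card_univ, card_pt] at hs
      omega
    obtain ⟨p, hp⟩ := ex o (by rw [ho.2]; norm_num)
    obtain ⟨o', ho', a1, a2, a3⟩ := oc p (fun e => hp (e ▸ o1)) fun e => hp (e ▸ o2)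
    obtain ⟨p', hp'⟩ := ex (o ∪ o') ((Finset.card_union_le _ _).trans_lt (by rw [ho.2, ho'.2]; norm_num))
    rw [Finset.mem_union, not_or] at hp'
    have i4 : (o' ∩ o).card ≤ 4 := by
      by_contra q
      exact hp (octad_eq_of_five ho' ho (by omega) ▸ a3)
    have s6 : 6 ≤ (insert none (insert (some 0) (o' \ o))).card := by
      rw [Finset.card_insert_of_notMem (by simp [o1]), Finset.card_insert_of_notMem (by simp [o2])]
      have := Finset.card_sdiff_add_card_inter o' o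
      rw [ho'.2] at this
      omega
    have KY : K0.subgroupOf Spor.M22 ≤ Y0.subgroupOf Spor.M22 := fun g hg => by
      have yy : ∀ r, r ∉ o → ∃ y ∈ Y0.subgroupOf Spor.M22, y.1 p = r := fun r hr => by
        obtain ⟨y, a, b, c⟩ := octad_out_trans ho hp hr
        have : y ∈ Y0 := ⟨a, fun x => b x x.2⟩
        exact ⟨⟨y, KM (YK this)⟩, this, c⟩
      obtain ⟨y, hy, e⟩ := yy (g.1 p) ((mem_iff_of_smul_eq hg.1.1.2 p).not.2 hp)
      have m : y⁻¹ * g ∈ K0.subgroupOf Spor.M22 := mul_mem (inv_mem (YK' hy)) hg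
      have f0 : (y⁻¹ * g).1 p = p := by
        change y.1⁻¹ (g.1 p) = p
        rw [← e]; simp
      have f1 : ∀ r, r ∉ o → (y⁻¹ * g).1 r = r := fun r hr => by
        obtain ⟨z, hz, rfl⟩ := yy r hr
        have := congrArg (fun w : Spor.M22 => w.1 p) (k _ m z hz)
        change (y⁻¹ * g).1 (z.1 p) = z.1 ((y⁻¹ * g).1 p) at this
        rw [this, f0]
      have one : (y⁻¹ * g).1 = 1 := eq_one_of_fix_octad m.1.1.1 ho'
        (by simp [Finset.insert_subset_iff, a1, a2]) s6 hp'.2 (fun x hx => by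
          simp only [Finset.mem_insert, Finset.mem_sdiff] at hx
          rcases hx with rfl | rfl | hx
          · exact m.1.2
          · exact m.2
          · exact f1 x hx.2) (f1 _ hp'.1)
      rw [← inv_mul_eq_one.1 (Subtype.ext one : y⁻¹ * g = 1)]
      exact hy
    have := card_le_of_le KY
    omega
  · have := (K0.subgroupOf Spor.M22).card_mul_index
    rw [cK, cM] at this
    omega

end H10.JH
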