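import Mathlib
import Cfsg.Agent.H10.AsSL

/-!
# Overgroups of the monomial group, `q ≥ 5`
* `mon_of_HG` : in `GL n`, `n ≥ 4`;  `mon_of_HS` : in `SL n`, `n ≥ 6`
-/

namespace H10.C2
open Matrix Cfsg Cfsg.Geo H10.As Equiv

variable {ι : Type} [Fintype ι] [DecidableEq ι] {F : Type*} [Field F] {M : Subgroup (GL ι F)}
  {x y k : Matrix ι ι F} {a : F} {w ψ w' ψ' : ι → F}

def In (M : Subgroup (GL ι F)) (x : Matrix ι ι F) : Prop := ∃ g ∈ M, g.1 = x
def Pt1 (w : ι → F) : Prop := ∃ i, ∀ k, k ≠ i → w k = 0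
def Mon (x : Matrix ι ι F) : Prop := ∀ j, Pt1 (x *ᵥ Pi.single j 1)
def HS (M : Subgroup (GL ι F)) : Prop :=
  ∀ (π : Perm ι) (c : ι → F), ((Perm.sign π : ℤ) : F) * ∏ i, c i = 1 → In M (mo π c)
def HG (M : Subgroup (GL ι F)) : Prop := ∀ (π : Perm ι) (c : ι → F), (∀ i, c i ≠ 0) → In M (mo π c)
def RT (M : Subgroup (GL ι F)) : Prop := ∃ i j, i ≠ j ∧ ∃ c, c ≠ 0 ∧ In M (1 + single i j c)

theorem In.mul (h : In M x) (h' : In M y) : In M (x * y) := by
  obtain ⟨g, a, rfl⟩ := h; obtain ⟨g', b, rfl⟩ := h'; exact ⟨_, M.mul_mem a b, rfl⟩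
theorem In.of_mul (h : In M k) (h' : In M (x * k)) : In M x := by
  obtain ⟨g, a, rfl⟩ := h; obtain ⟨g', b, e⟩ := h'; exact ⟨_, M.mul_mem b (M.inv_mem a), by simp [e]⟩
theorem In.of_mul' (h : In M k) (h' : In M (k * x)) : In M x := by
  obtain ⟨g, a, rfl⟩ := h; obtain ⟨g', b, e⟩ := h'; exact ⟨_, M.mul_mem (M.inv_mem a) b, by simp [e]⟩
theorem HG.hs (h : HG M) : HS M := fun π c e => h π c fun i hi => by
  rw [Finset.prod_eq_zero (Finset.mem_univ i) hi] at e; simp at e

theorem det_mo (π : Perm ι) (c : ι → F) : det (mo π c) = (Perm.sign π : ℤ) * ∏ i, c i := by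
  rw [show mo π c = (diagonal c).submatrix π.symm id by
    ext i j; simp [mo, diagonal_apply, symm_apply_eq]; split_ifs with h <;> simp [h], det_permute, det_diagonal]
  simp
theorem mo_mul (π : Perm ι) (c : ι → F) (i j : ι) : (mo π c * x) (π i) j = c i * x i j := by simp [mo, mul_apply]
theorem mul_mo (π : Perm ι) (c : ι → F) (i j : ι) : (x * mo π c) i j = x i (π j) * c j := by simp [mo, mul_apply]
theorem vecMul_mo (π : Perm ι) (c : ι → F) (j : ι) : (ψ ᵥ* mo π c) j = ψ (π j) * c j := by simp [mo, vecMul, dotProduct]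

theorem mon_eq {g : GL ι F} (h : Mon g.1) : ∃ π c, g.1 = mo π c := by
  choose f hf using h
  simp only [mulVec_single_one, col_apply] at hf
  have : Function.Surjective f := fun i => by_contra fun h => g.det_ne_zero (det_eq_zero_of_row_eq_zero i fun j =>
    hf j i fun e => h ⟨j, e.symm⟩)
  exact ⟨.ofBijective f this.bijective_of_finite, fun j => g.1 (f j) j, by
    ext i j; simp only [mo, of_apply, ofBijective_apply]; split_ifs with h; exacts [by rw [h], hf j i h]⟩

/-- `diag(a, a⁻¹)` -/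
def d2 (r m : ι) (a : F) : ι → F := fun p => if p = r then a else if p = m then a⁻¹ else 1
theorem prod_d2 {r m : ι} (h : r ≠ m) (ha : a ≠ 0) : ((Perm.sign (1 : Perm ι) : ℤ) : F) * ∏ i, d2 r m a i = 1 := by
  rw [Finset.prod_eq_mul r m h (fun c _ h => by simp [d2, h.1, h.2]) (by simp) (by simp)]; simp [d2, h.symm, ha]

theorem exists_nmem (s : Finset ι) {n : ℕ} (h : s.card ≤ n) (hn : n < Fintype.card ι) : ∃ i, i ∉ s := by
  by_contra! H; rw [Finset.eq_univ_iff_forall.2 H, Finset.card_univ] at h; omega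

theorem HS.ab (h : HS M) (hn : 4 ≤ Fintype.card ι) (a0 : a ≠ 0) (a2 : a * a ≠ 1) (I : ι → Prop) (x0 : x ≠ 0)
    (hx : ∀ i j, x i j ≠ 0 → I i ∧ ¬ I j) (h1 : In M (1 + x)) : RT M := by
  classical
  induction e : (Finset.univ.filter fun p : ι × ι => x p.1 p.2 ≠ 0).card using Nat.strong_induction_on generalizing x with
  | _ n ih =>
  obtain ⟨i, j, b⟩ : ∃ i j, x i j ≠ 0 := by by_contra! H; exact x0 (Matrix.ext H)
  by_cases H : ∀ k l, x k l ≠ 0 → k = i ∧ l = j
  · refine ⟨i, j, fun e => (hx i j b).2 (e ▸ (hx i j b).1), _, b, by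
      convert h1; ext k l; by_cases c : x k l = 0
      · rw [c, single_apply]; split_ifs with d; exacts [(b (by rwa [d.1, d.2])).elim, rfl]
      · obtain ⟨rfl, rfl⟩ := H k l c; simp⟩
  push Not at H
  obtain ⟨k, l, c, d⟩ := H
  have kl : k ≠ l := fun e => (hx k l c).2 (e ▸ (hx k l c).1)
  have a1 : a ≠ 1 := by rintro rfl; simp at a2
  obtain ⟨r, m, e1, e2, e3⟩ : ∃ r m, r ≠ m ∧ d2 r m a i = d2 r m a j ∧ d2 r m a k ≠ d2 r m a l := by
    obtain ⟨r, r1, r2, r3⟩ : ∃ r, (r = k ∨ r = l) ∧ r ≠ i ∧ r ≠ j := by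
      by_cases f : k = i
      · exact ⟨l, .inr rfl, f ▸ kl.symm, d f⟩
      · exact ⟨k, .inl rfl, f, fun e => (hx i j b).2 (e ▸ (hx k l c).1)⟩
    obtain ⟨m, hm⟩ := exists_nmem {i, j, r} Finset.card_le_three (by omega)
    simp only [Finset.mem_insert, Finset.mem_singleton, not_or] at hm
    have : a ≠ a⁻¹ := fun e => a2 (by nth_rw 1 [e]; exact inv_mul_cancel₀ a0)
    refine ⟨r, m, Ne.symm hm.2.2, by simp [d2, r2.symm, r3.symm, Ne.symm hm.1, Ne.symm hm.2.1], ?_⟩
    rcases r1 with rfl | rfl <;> simp only [d2, kl, kl.symm, if_true, if_false] <;> split_ifs <;> simp [*, eq_comm]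
  set t := d2 r m a
  have t0 : ∀ p, t p ≠ 0 := fun p => by simp only [t, d2]; split_ifs <;> simp [a0]
  refine ih _ (e ▸ Finset.card_lt_card ⟨fun p => by simpa using fun _ h => h,
    fun H => by simpa [e2, t0] using @H (i, j) (by simpa)⟩)
    (x := of fun p q => (t p / t q - 1) * x p q) (fun H => by simpa [sub_eq_zero, c, div_eq_iff, t0, e3] using congr($H k l))
    (fun p q H => hx p q (right_ne_zero_of_mul H)) (h1.of_mul ((h 1 t (prod_d2 e1 a0)).of_mul ?_)) rfl
  convert (h 1 t (prod_d2 e1 a0)).mul h1 using 1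
  ext p q
  have : ((of fun p q => (t p / t q - 1) * x p q) * x) p q = 0 := Finset.sum_eq_zero fun s _ => by
    by_contra H; exact (hx p s (right_ne_zero_of_mul (left_ne_zero_of_mul H))).2 (hx s q (right_ne_zero_of_mul H)).1
  have := t0 q
  rw [mul_mo, ← Perm.one_apply p, mo_mul]
  simp only [mul_add, add_mul, one_mul, mul_one, Matrix.add_apply, Perm.one_apply, of_apply, one_apply, *]
  split_ifs with f <;> [subst f; skip] <;> linear_combination x p _ * div_mul_cancel₀ (t p) this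

theorem HS.le (h : HS M) (hn : 3 ≤ Fintype.card ι) (h1 : RT M) : specialLinear ι F ≤ M := by
  obtain ⟨i, j, b, c, c0, h1⟩ := h1
  have : M.comap SpecialLinearGroup.toGL = ⊤ := H09.eq_top_of_transvection_mem _ fun k l d e => by
    suffices In M (1 + single k l e) from this.elim fun g hg => Subgroup.mem_comap.2
      ((Units.ext hg.2 : g = SpecialLinearGroup.toGL (SpecialLinearGroup.transvection d e)) ▸ hg.1)
    by_cases e0 : e = 0
    · exact ⟨1, M.one_mem, by simp [e0]⟩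
    obtain ⟨π, rfl, rfl⟩ : ∃ π : Perm ι, π i = k ∧ π j = l := ⟨swap (swap i k j) l * swap i k, by
      rw [Perm.mul_apply, swap_apply_left, swap_apply_of_ne_of_ne _ d]
      exact fun e => b ((swap i k).injective (by rwa [swap_apply_left])), by simp⟩
    obtain ⟨m, hm⟩ := exists_nmem {i, j} Finset.card_le_two (by omega)
    simp only [Finset.mem_insert, Finset.mem_singleton, not_or] at hm
    have := h π (fun p => if p = i then e / c else if p = m then (Perm.sign π : ℤ) * c / e else 1) (by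
      rw [Finset.prod_eq_mul i m (Ne.symm hm.1) (fun c _ h => by simp [h.1, h.2]) (by simp) (by simp)]
      rcases Int.units_eq_one_or (Perm.sign π) with f | f <;> simp [f, hm.1] <;> field_simp)
    refine this.of_mul ?_
    convert this.mul h1 using 1
    ext p q
    obtain ⟨p, rfl⟩ := π.surjective p
    rw [mul_mo, mo_mul]
    by_cases p = i <;> by_cases q = j <;> simp [one_apply, single_apply, Ne.symm hm.2, b, b.symm, eq_comm, *]
    all_goals split_ifs <;> simp_all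
  intro g hg
  exact (Units.ext rfl : SpecialLinearGroup.toGL ⟨g, H09.mem_specialLinear.1 hg⟩ = g) ▸ this.ge (Subgroup.mem_top _)

/-- centre and axis -/
def Pr (M : Subgroup (GL ι F)) (w ψ : ι → F) : Prop :=
  ∃ g ∈ M, ∃ j, g.1 *ᵥ Pi.single j 1 = w ∧ ψ ᵥ* g.1 = Pi.single j 1

theorem Pr.one (h : Pr M w ψ) : ψ ⬝ᵥ w = 1 := by
  obtain ⟨g, -, j, rfl, e⟩ := h; rw [dotProduct_mulVec, e]; simp
theorem Pr.map (h : Pr M w ψ) (hk : In M k) (e : k *ᵥ w = w') (e' : ψ' ᵥ* k = ψ) : Pr M w' ψ' := by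
  obtain ⟨g, a, j, rfl, b⟩ := h; obtain ⟨k, c, rfl⟩ := hk
  exact ⟨_, M.mul_mem c a, j, by rw [← e, mulVec_mulVec]; rfl, by simp [← vecMul_vecMul, e', b]⟩
theorem pr_single (i : ι) : Pr M (Pi.single i 1) (Pi.single i 1) := ⟨1, M.one_mem, i, one_mulVec _, vecMul_one _⟩

namespace HG
variable (h : HG M)
include h

theorem hom (h1 : Pr M w ψ) (a0 : a ≠ 0) : In M (1 + (a - 1) • vecMulVec w ψ) := by
  obtain ⟨g, b, j, rfl, e⟩ := h1
  refine In.of_mul ⟨g, b, rfl⟩ ?_
  convert In.mul ⟨g, b, rfl⟩ (h 1 (Function.update 1 j a) fun i => by by_cases f : i = j <;> simp [*]) using 1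
  ext p q
  by_cases f : q = j <;> simp [add_mul, vecMulVec_mul, e, mul_mo, vecMulVec_apply, f]; ring

theorem step (h1 : Pr M w ψ) (h2 : Pr M w' ψ') (a0 : a ≠ 0) :
    Pr M (w' + ((a - 1) * (ψ ⬝ᵥ w')) • w) (ψ' + ((a⁻¹ - 1) * (ψ' ⬝ᵥ w)) • ψ) :=
  h2.map (h.hom h1 a0) (by simp [add_mulVec, smul_mulVec, vecMulVec_mulVec, smul_smul, mul_comm]) (by
    simp only [vecMul_add, vecMul_one, vecMul_smul, vecMul_vecMulVec, add_dotProduct, smul_dotProduct, h1.one, smul_eq_mul]
    match_scalars <;> field_simp <;> ring)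

variable (hn : 4 ≤ Fintype.card ι) (a0 : a ≠ 0) (a2 : a * a ≠ 1) (hr : ¬ RT M)
include hn a0 a2 hr

theorem uniq (h1 : Pr M w ψ) (h2 : Pr M w ψ') : ψ = ψ' := by
  obtain ⟨g, b, j, c, e⟩ := h1
  replace h2 := h2.map ⟨g⁻¹, M.inv_mem b, rfl⟩ (w' := Pi.single j 1) (ψ' := ψ' ᵥ* g.1) (by rw [← c, mulVec_mulVec, Units.inv_mul, one_mulVec]) (by simp)
  refine vecMul_injective_of_isUnit g.isUnit (e.trans ?_)
  change _ = ψ' ᵥ* g.1
  generalize ψ' ᵥ* g.1 = ρ at h2
  have h3 : ρ j = 1 := by simpa using h2.one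
  have a1 : a - 1 ≠ 0 := by rw [sub_ne_zero]; rintro rfl; simp at a2
  by_contra H
  refine hr (h.hs.ab hn a0 a2 (· = j) (x := ((a - 1) / a) • vecMulVec (Pi.single j 1) (ρ - Pi.single j 1)) (fun e => H ?_)
    (fun p q e => ⟨by_contra fun f => by simp [vecMulVec_apply, f] at e, fun f => by simp [vecMulVec_apply, f, h3] at e⟩)
    ((h 1 (Function.update 1 j a) fun i => by by_cases f : i = j <;> simp [*]).of_mul' ?_))
  · ext q; exact (by simpa [vecMulVec_apply, a0, a1, sub_eq_zero] using congr($e j q) : ρ q = _).symm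
  convert h.hom h2 a0 using 1
  ext p q
  rw [← Perm.one_apply p, mo_mul]
  by_cases f : p = j <;> simp [vecMulVec_apply, f, one_apply, Pi.single_apply, eq_comm]
  split_ifs <;> field_simp <;> ring

theorem zero (h1 : Pr M w ψ) {k : ι} (e : w k = 0) : ψ k = 0 := by
  have := congrFun (h.uniq hn a0 a2 hr h1 (h1.map (h 1 (Function.update 1 k a) fun i => by by_cases f : i = k <;> simp [*])
    (ψ' := Function.update ψ k (ψ k / a)) (funext fun p => by
      rw [← Perm.one_apply p, mo_mulVec]; by_cases f : p = k <;> simp [*]) (funext fun p => by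
      rw [vecMul_mo]; by_cases f : p = k <;> simp [*]))) k
  rw [Function.update_self, eq_div_iff a0, mul_right_eq_self₀] at this
  exact this.resolve_left (by rintro rfl; simp at a2)

theorem eq (h1 : Pr M w ψ) {i j : ι} (e : w i ≠ 0) (e' : w j ≠ 0) : ψ i * w i = ψ j * w j := by
  classical
  have z' : ∀ p, w (swap i j p) = 0 ↔ w p = 0 := fun p => by rw [swap_apply_def]; split_ifs <;> simp [*]
  have := congrFun (h.uniq hn a0 a2 hr h1 (h1.map (h (swap i j) (fun p => if w p = 0 then 1 else w (swap i j p) / w p)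
    fun p => by split_ifs <;> simp [*]) (ψ' := fun p => if w p = 0 then 0 else ψ (swap i j p) * w (swap i j p) / w p)
    (funext fun p => ?_) (funext fun p => ?_))) i
  · simpa [e, eq_div_iff] using this
  · obtain ⟨p, rfl⟩ := (swap i j).surjective p
    rw [mo_mulVec]; split_ifs with f <;> simp [f, z', (z' p).2]
  · rw [vecMul_mo]; by_cases f : w p = 0 <;> simp [f, z', h.zero hn a0 a2 hr h1]; field_simp [mt (z' p).1 f]

theorem half (a3 : a * a * a ≠ 1) (h1 : Pr M w ψ) {i j : ι} (b : i ≠ j) (e : w i ≠ 0) (e' : w j ≠ 0) :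
    a * a = -1 ∧ 2 * (ψ i * w i) = 1 := by
  have H : ∀ c : F, c ≠ 0 → c * c ≠ 1 → c + ψ i * w i * (c - 1) ^ 2 = 0 := fun c c0 c2 => by
    have h2 := h.step h1 (pr_single i) c0
    have c1 : c - 1 ≠ 0 := by rw [sub_ne_zero]; rintro rfl; simp at c2
    have h3 := h.eq hn a0 a2 hr h1 e e'
    by_cases f : 1 + (c - 1) * ψ i * w i = 0
    · have := h.zero hn a0 a2 hr h2 (k := i) (by simpa using f)
      simp at this; field_simp at this
      exact (c2 (by linear_combination (c - 1) * (f + this))).elim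
    have p0 : ψ i ≠ 0 := fun p0 => by
      have := h1.one
      rw [dotProduct, Finset.sum_eq_zero fun p _ => by
        by_cases q : w p = 0; exacts [by simp [q], by simp [← h.eq hn a0 a2 hr h1 e q, p0]]] at this
      simp at this
    have := h.eq hn a0 a2 hr h2 (i := i) (j := j) (by simpa using f) (by simp [b.symm, c1, p0, e'])
    simp [b.symm] at this; field_simp at this
    linear_combination this + (c - 1) ^ 2 * ψ i * w i * h3
  have h2 := H a a0 a2
  have h3 : a * a = -1 := by_contra fun f => by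
    have h3 := H (a * a) (mul_ne_zero a0 a0) fun e => (mul_self_eq_one_iff.1 e).elim a2 f
    have a1 : a - 1 ≠ 0 := by rw [sub_ne_zero]; rintro rfl; simp at a2
    exact a3 (by
      have := mul_left_cancel₀ a0 (show a * (a * a + a + 1) = a * 0 by linear_combination (a + 1) ^ 2 * h2 - h3)
      linear_combination (a - 1) * this)
  exact ⟨h3, mul_left_cancel₀ a0 (by linear_combination -h2 + ψ i * w i * h3)⟩

theorem mon (a3 : a * a * a ≠ 1) {g : GL ι F} (hg : g ∈ M) : Mon g.1 := fun j => by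
  have h1 : Pr M _ (Pi.single j 1 ᵥ* (g⁻¹).1) := ⟨g, hg, j, rfl, by rw [vecMul_vecMul, Units.inv_mul, vecMul_one]⟩
  generalize g.1 *ᵥ Pi.single j 1 = w at h1
  generalize Pi.single j 1 ᵥ* (g⁻¹).1 = ψ at h1
  by_contra! H
  simp only [Pt1, not_exists, not_forall] at H
  obtain ⟨i, -, e⟩ := H j
  obtain ⟨j, b, e'⟩ := H i
  obtain ⟨c, d⟩ := h.half hn a0 a2 hr a3 h1 b.symm e e'
  have d' := (h.half hn a0 a2 hr a3 h1 b e' e).2
  have t : (2 : F) ≠ 0 := fun t => by simp [t] at d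
  have ai : a⁻¹ = -a := inv_eq_of_mul_eq_one_right (by linear_combination -c)
  have a1 : a - 1 ≠ 0 := by rw [sub_ne_zero]; rintro rfl; simp at a2
  have a1' : 1 + a ≠ 0 := fun f => a2 (by linear_combination (a - 1) * f)
  have o := h1.one
  have sm : ∀ (u v : ι → F) (p : ι), (∀ q, q ≠ p → u q * v q = ψ q * w q) → u ⬝ᵥ v = 1 - ψ p * w p + u p * v p := fun u v p f => by
    rw [← o, dotProduct, dotProduct, ← Finset.add_sum_erase _ _ (Finset.mem_univ p),
      ← Finset.add_sum_erase _ _ (Finset.mem_univ p), Finset.sum_congr rfl fun q hq => f q (Finset.ne_of_mem_erase hq)]; ring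
  by_cases f : ∃ k, w k = 0
  · obtain ⟨k, f⟩ := f
    have f' := h.zero hn a0 a2 hr h1 f
    have kj : k ≠ j := by rintro rfl; exact e' f
    have h2 := h.step h1 (h1.map (h (swap j k) 1 (by simp)) (w' := w ∘ swap j k) (ψ' := ψ ∘ swap j k) (funext fun p => by
      obtain ⟨p, rfl⟩ := (swap j k).surjective p; simp [mo_mulVec]) (funext fun p => by simp [vecMul_mo])) a0
    rw [sm ψ _ j fun q hq => by by_cases r : q = k <;> simp [swap_apply_of_ne_of_ne, *],
      sm _ w j fun q hq => by by_cases r : q = k <;> simp [swap_apply_of_ne_of_ne, *]] at h2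
    have j1 : 1 - ψ j * w j ≠ 0 := fun r => one_ne_zero (α := F) (by linear_combination d' + 2 * r)
    have := h.eq hn a0 a2 hr h2 (i := k) (j := j) (by simp [f, e']) (by simp [f, e', a1, j1])
    simp [f, f', ai] at this
    refine t ?_
    linear_combination (8 * (ψ j * w j) ^ 2 - 12 * ψ j * w j - 2) * d' + 8 * this - 8 * ψ j * w j * (1 - ψ j * w j) ^ 2 * c
  push Not at f
  obtain ⟨l, hl⟩ := exists_nmem {i, j} Finset.card_le_two (by omega)
  simp only [Finset.mem_insert, Finset.mem_singleton, not_or] at hl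
  have h2 := h.step h1 (h1.map (h 1 (Function.update 1 i (-a)) fun p => by by_cases r : p = i <;> simp [*])
    (w' := Function.update w i (-a * w i)) (ψ' := Function.update ψ i (a * ψ i)) (funext fun p => by
      rw [← Perm.one_apply p, mo_mulVec]; by_cases r : p = i <;> simp [*]) (funext fun p => by
      rw [vecMul_mo]; by_cases r : p = i <;> simp [r]; linear_combination -ψ i * c)) a0
  rw [sm ψ _ i fun q hq => by simp [hq], sm _ w i fun q hq => by simp [hq]] at h2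
  simp only [Function.update_self] at h2
  rw [show (a - 1) * (1 - ψ i * w i + ψ i * (-a * w i)) = a from mul_left_cancel₀ t
    (by linear_combination (1 - a * a) * d + (-1) * c), show (a⁻¹ - 1) * (1 - ψ i * w i + a * ψ i * w i) = -a from
    mul_left_cancel₀ t (by rw [ai]; linear_combination (1 - a * a) * d + (-1) * c)] at h2
  have := (h.half hn a0 a2 hr a3 h2 (Ne.symm hl.2) (by simp [b, ← one_add_mul, a1', f]) (by simp [hl.1, ← one_add_mul, a1', f])).2
  simp [b] at this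
  exact one_ne_zero (α := F) (by linear_combination this - 2 * d' + 2 * ψ j * w j * c)

end HG

theorem Pt1.smul (h : Pt1 w) (c : F) : Pt1 (c • w) := h.imp fun i h k e => by simp [h k e]

theorem Mon.pt (h : Mon x) (h1 : Pt1 w) : Pt1 (x *ᵥ w) := by
  obtain ⟨i, e⟩ := h1
  rw [show w = w i • Pi.single i 1 from funext fun k => by by_cases f : k = i <;> simp [*], mulVec_smul]
  exact (h i).smul _

theorem mon_mo (π : Perm ι) (c : ι → F) : Mon (mo π c) := fun j => ⟨π j, fun k e => by simp [mo, e]⟩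

namespace HS
variable (h : HS M) (hn : 5 ≤ Fintype.card ι) (a0 : a ≠ 0) (a2 : a * a ≠ 1) (a3 : a * a * a ≠ 1) (hr : ¬ RT M)
  (hM : M ≤ specialLinear ι F)
include h hn a0 a2 hr

omit hn a0 a2 hr in
theorem le_of_mon {g : GL ι F} (hg : g ∈ specialLinear ι F) (h1 : Mon g.1) : g ∈ M := by
  obtain ⟨π, c, e⟩ := mon_eq h1
  obtain ⟨k, a, b⟩ := h π c (by rw [← det_mo, ← e]; exact H09.mem_specialLinear.1 hg)
  exact (Units.ext (b.trans e.symm) : k = g) ▸ a

include a3 hM in
theorem fix1 {g : GL ι F} (hg : g ∈ M) {o : ι} (h1 : ∀ k, k ≠ o → g.1 k o = 0) : Mon g.1 := by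
  let P : Subgroup (GL ι F) :=
    { carrier := {g | ∃ c : F, g.1 *ᵥ Pi.single o 1 = c • Pi.single o 1}
      one_mem' := ⟨1, by rw [one_smul]; exact one_mulVec _⟩
      mul_mem' := fun ⟨c, e⟩ ⟨d, f⟩ => ⟨d * c, by rw [Units.val_mul, ← mulVec_mulVec, f, mulVec_smul, e, smul_smul]⟩
      inv_mem' := fun {g} ⟨c, e⟩ => ⟨c⁻¹, by
        have e' := congrArg ((g⁻¹).1 *ᵥ ·) e
        simp only [mulVec_mulVec, Units.inv_mul, one_mulVec, mulVec_smul] at e'
        have : c ≠ 0 := by rintro rfl; simpa using congrFun e' o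
        rw [eq_inv_smul_iff₀ this, ← e']⟩ }
  have hP : ∀ {g : GL ι F}, g ∈ P ↔ ∀ k, k ≠ o → g.1 k o = 0 := ⟨fun ⟨c, e⟩ k f => by simpa [f] using congrFun e k,
    fun H => ⟨_, funext fun k => by by_cases f : k = o <;> simp [f, H]; rfl⟩⟩
  let ρ : ↥(M ⊓ P) →* Matrix {i // i ≠ o} {i // i ≠ o} F :=
    { toFun g := g.1.1.submatrix (↑) (↑)
      map_one' := submatrix_one _ Subtype.val_injective
      map_mul' := fun g g' => by
        ext p q
        simp only [Subgroup.coe_mul, Units.val_mul, submatrix_apply, mul_apply]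
        rw [Fintype.sum_eq_add_sum_subtype_ne _ o, hP.1 g.2.2 p p.2, zero_mul, zero_add] }
  have hn' : 4 ≤ Fintype.card {i // i ≠ o} := by simp; omega
  have hL : HG ρ.toHomUnits.range := fun π c c0 => by
    obtain ⟨k, b, e⟩ := h (Perm.ofSubtype π) (fun i => if f : i = o then (Perm.sign π : ℤ) * (∏ i, c i)⁻¹ else c ⟨i, f⟩) (by
      rw [Fintype.prod_eq_mul_prod_subtype_ne _ o, Perm.sign_ofSubtype,
        Finset.prod_congr rfl fun (i : {i // i ≠ o}) _ => dif_neg i.2]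
      rcases Int.units_eq_one_or (Perm.sign π) with f | f <;> simp [f, Finset.prod_ne_zero_iff, c0])
    exact ⟨_, ⟨⟨k, b, hP.2 fun i f => by simp [e, mo, f, Perm.ofSubtype_apply_of_not_mem]⟩, rfl⟩, by
      ext p q; simp [ρ, e, mo, Perm.ofSubtype_apply_of_mem π q.2, q.2, Subtype.ext_iff]⟩
  have o0 : ∀ g : GL ι F, g ∈ P → g.1 o o ≠ 0 := fun g hg e => g.det_ne_zero (det_eq_zero_of_column_eq_zero o fun i => by
    by_cases f : i = o; exacts [f ▸ e, hP.1 hg i f])
  have h2 : ¬ RT ρ.toHomUnits.range := fun ⟨i, j, b, c, c0, _, ⟨⟨g, hg, hg'⟩, rfl⟩, e⟩ => by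
    replace e : ∀ p q : {i // i ≠ o}, g.1 p q = (1 + single i j c) p q := fun p q => congr($e p q)
    obtain ⟨l, hl⟩ := exists_nmem {i, j} Finset.card_le_two (by omega)
    simp only [Finset.mem_insert, Finset.mem_singleton, not_or] at hl
    have jl : j.1 ≠ l := fun e => hl.2 (Subtype.ext e.symm)
    set t := d2 j.1 l.1 a with et
    have t0 : ∀ p, t p ≠ 0 := fun p => by simp only [t, d2]; split_ifs <;> simp [a0]
    have t1 : t o = 1 := by simp [t, d2, j.2.symm, l.2.symm]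
    have t2 : t i = 1 := by simp [t, d2, Subtype.val_inj, b, Ne.symm hl.1]
    let Y : Matrix ι ι F := of fun p q => (t p / t q - 1) * g.1 p q
    have y1 : ∀ p q, p ≠ o → p ≠ i → Y p q = 0 := fun p q f f' => by
      by_cases r : q = o
      · simp [Y, r, hP.1 hg' p f]
      by_cases s : p = q
      · simp [Y, s, t0]
      · simp [Y, e ⟨p, f⟩ ⟨q, r⟩, one_apply, s, single_apply, Subtype.ext_iff, Ne.symm f']
    have y2 : ∀ p, Y p o = 0 := fun p => by by_cases f : p = o <;> simp [Y, f, t0, hP.1 hg']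
    have y3 : ∀ p, Y p i = 0 := fun p => by
      by_cases f : p = o
      · simp [Y, f, t1, t2]
      by_cases s : p = i <;> simp [Y, e ⟨p, f⟩ i, one_apply, s, single_apply, Subtype.ext_iff, t0, b.symm]
    have y4 : ∀ v : ι → F, (∀ p, p ≠ o → p ≠ i → v p = 0) → Y *ᵥ v = 0 := fun v hv => funext fun p =>
      Finset.sum_eq_zero fun q _ => by by_cases q = o <;> by_cases q = i <;> simp [*]
    refine hr (h.ab (by omega) a0 a2 (fun p => p = o ∨ p = i) (x := Y * (g⁻¹).1) (fun e' => ?_) (fun p q e' => ⟨by_contra fun f =>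
      e' (by simp [mul_apply, y1 p _ (not_or.1 f).1 (not_or.1 f).2]), fun f => e' ?_⟩)
      (In.of_mul ⟨g, hg, rfl⟩ ((h 1 t (prod_d2 jl a0)).of_mul ?_)))
    · have := congr(($e' * g.1) i j)
      rw [mul_assoc, Units.inv_mul, mul_one] at this
      simp [Y, e i j, t2, b, c0, sub_eq_zero, et, d2, Subtype.val_inj, Ne.symm hl.1] at this
      simp [this] at a2
    · have := o0 g hg'
      obtain ⟨v, c, d⟩ : ∃ v : ι → F, (∀ p, p ≠ o → p ≠ i → v p = 0) ∧ g.1 *ᵥ v = Pi.single q 1 := by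
        rcases f with rfl | rfl
        · exact ⟨Pi.single q (g.1 q q)⁻¹, fun p f _ => by simp [f], funext fun p => by
            by_cases f : p = q <;> simp [f, this, hP.1 hg']⟩
        · exact ⟨Pi.single i.1 1 - Pi.single o (g.1 o i / g.1 o o), fun p f f' => by simp [f, f'], funext fun p => by
            by_cases f : p = o
            · simp [f, mulVec_sub, i.2.symm]; field_simp; ring
            · simp [mulVec_sub, hP.1 hg' p f, e ⟨p, f⟩ i, b.symm, one_apply, Pi.single_apply, Subtype.ext_iff]⟩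
      have := congrFun (y4 v c) p
      rw [show v = (g⁻¹).1 *ᵥ Pi.single q 1 by rw [← d, mulVec_mulVec, Units.inv_mul, one_mulVec], mulVec_mulVec] at this
      simpa using this
    convert (h 1 t (prod_d2 jl a0)).mul ⟨g, hg, rfl⟩ using 1
    ext p q
    rw [add_mul, mul_assoc Y, Units.inv_mul, mul_mo, ← Perm.one_apply p, mo_mul]
    simp only [mul_one, one_mul, Matrix.add_apply, Perm.one_apply, of_apply, Y]
    linear_combination g.1 p _ * div_mul_cancel₀ (t p) (t0 q)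
  have h3 := hL.mon hn' a0 a2 h2 a3 ⟨⟨g, hg, hP.2 h1⟩, rfl⟩
  have h4 := o0 g (hP.2 h1)
  let χ : ι → F := fun q => if q = o then 0 else -g.1 o q / g.1 o o
  have h5 : Mon (g * H09.glTv (Pi.single o 1) χ (by simp [χ])).1 := fun q => by
    by_cases f : q = o
    · exact ⟨o, fun p e => by simp [f, mul_add, mul_vecMulVec, vecMulVec_apply, h1 p e]⟩
    obtain ⟨p, e⟩ := h3 ⟨q, f⟩
    refine ⟨p, fun s r => ?_⟩
    by_cases r' : s = o
    · simp [f, mul_add, mul_vecMulVec, vecMulVec_apply, r', χ]; field_simp; ring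
    · simpa [mul_add, mul_vecMulVec, vecMulVec_apply, h1 s r', ρ] using e ⟨s, r'⟩ (mt (congrArg Subtype.val) r)
  by_cases h6 : vecMulVec (Pi.single o 1) χ = 0
  · simpa [h6] using h5
  exact (hr (h.ab (by omega) a0 a2 (· = o) h6 (fun p q e => ⟨by_contra fun f => by simp [vecMulVec_apply, f] at e,
    fun f => by simp [vecMulVec_apply, f, χ] at e⟩) ⟨_, (M.mul_mem_cancel_left hg).1
      (h.le_of_mon (Subgroup.mul_mem _ (hM hg) (H09.glTv_det _ _ _)) h5), rfl⟩)).elim

end HS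

theorem pt_prop {u v : ι → F} {l : ι} (h : Pt1 u) (h' : Pt1 v) (e : u l ≠ 0) (e' : v l ≠ 0) : ∃ c : F, u = c • v := by
  obtain ⟨i, a⟩ := h; obtain ⟨j, b⟩ := h'
  obtain rfl : l = i := by_contra fun f => e (a l f)
  obtain rfl : l = j := by_contra fun f => e' (b l f)
  exact ⟨u l / v l, funext fun k => by by_cases f : k = l <;> simp [*]⟩

theorem exists_even (hn : 4 ≤ Fintype.card ι) {t s k : ι} (ht : t ≠ k) (hs : s ≠ k) :
    ∃ π : Perm ι, Perm.sign π = 1 ∧ π t = s ∧ π k = k := by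
  by_cases e : t = s
  · exact ⟨1, by simp [e]⟩
  obtain ⟨l, hl⟩ := exists_nmem {t, s, k} Finset.card_le_three (by omega)
  simp only [Finset.mem_insert, Finset.mem_singleton, not_or] at hl
  exact ⟨swap t s * swap s l, by simp [e, Ne.symm hl.2.1], by simp [swap_apply_of_ne_of_ne e (Ne.symm hl.1)], by
    simp [swap_apply_of_ne_of_ne, ht.symm, hs.symm, Ne.symm hl.2.2]⟩

section
variable {C : (ι → F) → Prop} (dep : ∀ {u u0 u1 u2}, C u → C u0 → C u1 → C u2 →
      u = u0 + u1 - u2 → ∃ c : F, u = c • u0 ∨ u = c • u1 ∨ u = c • u2)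
    (z1 : ∀ x, C x → ∀ k l, k ≠ l → x k = 0 → x l ≠ 0)
    (pm : ∀ π : Perm ι, Perm.sign π = 1 → ∀ y, C y → C (y ∘ π)) {y : ι → F} (hy : C y)
include dep z1 pm hy

theorem tri {i j l p q s : ι} (H : List.Pairwise (· ≠ ·) [i, j, l, p, q, s]) : y i = y j ∨ y p = y q := by
    simp only [List.pairwise_cons, List.mem_cons, List.not_mem_nil, or_false, forall_eq_or_imp, forall_eq] at H
    obtain ⟨⟨a1, a2, a3, a4, a5⟩, ⟨b1, b2, b3, b4⟩, ⟨c1, c2, c3⟩, ⟨d1, d2⟩, d3, -⟩ := H
    have e1 : Perm.sign (swap i j * swap j l) = 1 := by simp [a1, b1]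
    have e2 : Perm.sign (swap p q * swap q s) = 1 := by simp [d1, d3]
    have h1 := pm _ e1 y hy
    have h2 := pm _ e2 y hy
    have h3 := pm _ e1 _ h2
    have H : y ∘ ⇑(swap i j * swap j l) + y ∘ ⇑(swap p q * swap q s) =
        y + (y ∘ ⇑(swap p q * swap q s)) ∘ ⇑(swap i j * swap j l) := funext fun t => by
      by_cases t = i ∨ t = j ∨ t = l
      · rcases ‹_› with rfl | rfl | rfl <;> simp [swap_apply_of_ne_of_ne, a1.symm, a2.symm, b1.symm, add_comm, *]
      · simp_all [swap_apply_of_ne_of_ne]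
    obtain ⟨c, h4⟩ := dep hy h1 h2 h3 (by rw [H]; abel)
    obtain ⟨d, h5⟩ := dep h1 hy h3 h2 (by rw [← H]; abel)
    have f1 := z1 y hy i j a1
    have f2 := z1 y hy p q d1
    have f3 := z1 y hy p s d2
    have f4 := z1 y hy q s d3
    have k : ∀ {u v : ι → F}, u = v → u i = v i ∧ u j = v j ∧ u l = v l ∧ u p = v p ∧ u q = v q ∧ u s = v s := by
      rintro _ _ rfl; simp
    replace h4 := h4.imp k (Or.imp k k)
    replace h5 := h5.imp k (Or.imp k k)
    simp only [Pi.smul_apply, Function.comp_apply, Perm.mul_apply, smul_eq_mul, swap_apply_left, swap_apply_right,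
      swap_apply_of_ne_of_ne, ne_eq, not_false_eq_true, a1.symm, a2.symm, a3.symm, a4.symm, a5.symm, b1.symm, b2.symm,
      b3.symm, b4.symm, c1.symm, c2.symm, c3.symm, d1.symm, d2.symm, d3.symm, a1, a2, a3, a4, a5, b1, b2, b3, b4, c1, c2, c3,
      d1, d2, d3] at h4 h5
    clear H h1 h2 h3 k
    grind

theorem full (hn : 6 ≤ Fintype.card ι) (r : (ι → F) → ι) (hr : ∀ x y, C x → C y → r x = r y → ∃ c : F, x = c • y)
    (one : C 1) (i j : ι) : y i = y j := by
  have H : ∀ i j, y i ≠ y j → ∀ p q, p ∉ ({i, j} : Finset ι) → q ∉ ({i, j} : Finset ι) → y p = y q := fun i j a p q b c => by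
    by_cases d : p = q
    · rw [d]
    obtain ⟨l, hl⟩ := exists_nmem {i, j, p, q} Finset.card_le_four (by omega)
    obtain ⟨s, hs⟩ := exists_nmem {i, j, p, q, l} Finset.card_le_five (by omega)
    have : i ≠ j := by rintro rfl; exact a rfl
    simp only [Finset.mem_insert, Finset.mem_singleton, not_or] at hl hs b c
    exact (tri dep z1 pm hy (l := l) (s := s) (by simp [Ne.symm, *])).resolve_left a
  by_contra h
  obtain ⟨s, c, a, b⟩ : ∃ s c, y s ≠ c ∧ ∀ p, p ≠ s → y p = c := by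
    obtain ⟨p, hp⟩ := exists_nmem {i, j} Finset.card_le_two (by omega)
    obtain ⟨q, hq⟩ := exists_nmem {i, j, p} Finset.card_le_three (by omega)
    have : i ≠ j := by rintro rfl; exact h rfl
    by_cases e : y i = y p
    · exact ⟨j, y p, fun f => h (e.trans f.symm), fun t f => by
        by_cases d : t = i; exacts [d ▸ e, H i j h t p (by simp [*]) hp]⟩
    · exact ⟨i, y p, e, fun t f => by
        by_cases d : t = j
        · rw [d, H i p e j q (by clear dep; grind) (by clear dep; grind), H i j h q p (by clear dep; grind) hp]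
        · exact H i j h t p (by simp [*]) hp⟩
  have : ∀ t, ∃ π : Perm ι, Perm.sign π = 1 ∧ π t = s := fun t => by
    obtain ⟨k, hk⟩ := exists_nmem {t, s} Finset.card_le_two (by omega)
    exact (exists_even (t := t) (s := s) (k := k) (by omega) (by clear dep; grind) (by clear dep; grind)).imp
      fun _ h => ⟨h.1, h.2.1⟩
  choose π e1 e2 using this
  have e3 : ∀ t p, p ≠ t → y (π t p) = c := fun t p f => b _ fun e => f ((π t).injective (e.trans (e2 t).symm))
  obtain ⟨t, e⟩ := (Finite.injective_iff_surjective (f := fun t => r (y ∘ π t))).1 (fun t t' e => by_contra fun f => by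
    obtain ⟨d, e⟩ := hr _ _ (pm _ (e1 t) y hy) (pm _ (e1 t') y hy) e
    obtain ⟨k, hk⟩ := exists_nmem {t, t'} Finset.card_le_two (by omega)
    simp only [Finset.mem_insert, Finset.mem_singleton, not_or] at hk
    exact a ((by simpa [e2, e3 _ _ f] using congrFun e t : y s = d * c).trans
      (by simpa [e3 _ _ hk.1, e3 _ _ hk.2] using (congrFun e k).symm))) (r 1)
  obtain ⟨d, e⟩ := hr _ _ (pm _ (e1 t) y hy) one e
  obtain ⟨k, hk⟩ := exists_nmem {t} (Finset.card_singleton t).le (by omega)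
  exact a ((by simpa [e2] using congrFun e t : y s = d).trans (by simpa [e3 _ _ (by simpa using hk)] using (congrFun e k).symm))

end

/-- multiples of columns -/
def Cl (g : GL ι F) (x : ι → F) : Prop := x ≠ 0 ∧ Pt1 ((g⁻¹).1 *ᵥ x)

theorem inv_mv (g : GL ι F) (x : ι → F) : (g⁻¹).1 *ᵥ g.1 *ᵥ x = x := by rw [mulVec_mulVec, Units.inv_mul, one_mulVec]
theorem mv_inv (g : GL ι F) (x : ι → F) : g.1 *ᵥ (g⁻¹).1 *ᵥ x = x := inv_mv g⁻¹ x
theorem mv_ne (g : GL ι F) {x : ι → F} (h : x ≠ 0) : g.1 *ᵥ x ≠ 0 := fun e => h (by rw [← inv_mv g x, e, mulVec_zero])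
theorem cl_col (g : GL ι F) (j : ι) : Cl g (g.1 *ᵥ Pi.single j 1) :=
  ⟨mv_ne g (by simp), j, fun k e => by rw [inv_mv]; simp [e]⟩

theorem Cl.prop {g : GL ι F} {u v : ι → F} {l : ι} (h : Cl g u) (h' : Cl g v) (e : ((g⁻¹).1 *ᵥ u) l ≠ 0)
    (e' : ((g⁻¹).1 *ᵥ v) l ≠ 0) : ∃ c : F, u = c • v :=
  (pt_prop h.2 h'.2 e e').imp fun c f => by rw [← mv_inv g u, f, mulVec_smul, mv_inv]

theorem Cl.dep {g : GL ι F} {u u0 u1 u2 : ι → F} {c0 c1 c2 : F} (h : Cl g u) (h0 : Cl g u0) (h1 : Cl g u1) (h2 : Cl g u2)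
    (e : u = c0 • u0 + c1 • u1 + c2 • u2) : ∃ c : F, u = c • u0 ∨ u = c • u1 ∨ u = c • u2 := by
  obtain ⟨l, f⟩ := Function.ne_iff.1 (mv_ne g⁻¹ h.1)
  by_cases a0 : ((g⁻¹).1 *ᵥ u0) l = 0; swap
  · exact (h.prop h0 f a0).imp fun _ => .inl
  by_cases a1 : ((g⁻¹).1 *ᵥ u1) l = 0; swap
  · exact (h.prop h1 f a1).imp fun _ e => .inr (.inl e)
  refine (h.prop h2 f fun a2 => f ?_).imp fun _ e => .inr (.inr e)
  simp only [e, mulVec_add, mulVec_smul, Pi.add_apply, Pi.smul_apply, a0, a1, a2, smul_zero, add_zero, Pi.zero_apply]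

theorem cl_rk (g : GL ι F) [Nonempty ι] : ∃ r : (ι → F) → ι, ∀ x y, Cl g x → Cl g y → r x = r y → ∃ c : F, x = c • y := by
  choose! r hr using fun x (h : Cl g x) => Function.ne_iff.1 (mv_ne g⁻¹ h.1)
  exact ⟨r, fun x y a b e => a.prop b (hr x a) (e ▸ hr y b)⟩

theorem cl_ex (g : GL ι F) (k : ι) : ∃ x, Cl g x ∧ x k ≠ 0 := by
  by_contra! H
  exact g.det_ne_zero (det_eq_zero_of_row_eq_zero k fun j => by simpa using H _ (cl_col g j))

namespace HS
variable (h : HS M) (hn : 6 ≤ Fintype.card ι) (a0 : a ≠ 0) (a2 : a * a ≠ 1) (a3 : a * a * a ≠ 1) (hr : ¬ RT M)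
  (hM : M ≤ specialLinear ι F) {g : GL ι F} (hg : g ∈ M) {f : ι → F}
include h hn a0 a2 a3 hr hM hg

theorem star {j : ι} (h1 : Pt1 (g.1 *ᵥ Pi.single j 1)) : Mon g.1 := by
  obtain ⟨i, e⟩ := h1
  obtain ⟨k, b, c⟩ := h (swap i j) (Function.update 1 i (Perm.sign (swap i j) : ℤ)) (by
    rw [Finset.prod_update_of_mem (Finset.mem_univ i)]
    rcases Int.units_eq_one_or (Perm.sign (swap i j)) with f | f <;> simp [f])
  have d : ∀ p q, (k * g).1 (swap i j p) q = 0 ↔ g.1 p q = 0 := fun p q => by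
    rw [Units.val_mul, c, mo_mul]
    rcases Int.units_eq_one_or (Perm.sign (swap i j)) with f | f <;> by_cases f' : p = i <;> simp [f, f']
  refine fun q => (h.fix1 (by omega) a0 a2 a3 hr hM (M.mul_mem b hg) (o := j) (fun p f => ?_) q).elim fun l H =>
    ⟨swap i j l, fun p f => by simpa using (d p q).1 (by simpa using H (swap i j p) (by rwa [Ne, swap_apply_eq_iff]))⟩
  rw [← swap_apply_self i j p, d]
  simpa using e (swap i j p) (by rwa [Ne, swap_apply_eq_iff, swap_apply_left])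

theorem st (hw : Cl g w) (hk : In M k) (e : k *ᵥ w = w) (hf : Cl g f) : Cl g (k *ᵥ f) := by
  obtain ⟨k, hk, rfl⟩ := hk
  obtain ⟨j, c⟩ := Function.ne_iff.1 (mv_ne g⁻¹ hw.1)
  obtain ⟨d, b⟩ := (cl_col g j).prop hw (by rw [inv_mv]; simp) c
  have := (h.star hn a0 a2 a3 hr hM (M.mul_mem (M.mul_mem (M.inv_mem hg) hk) hg) (j := j) (by
    rw [Units.val_mul, Units.val_mul, ← mulVec_mulVec, ← mulVec_mulVec, b, mulVec_smul, e, mulVec_smul]
    exact hw.2.smul d)).pt hf.2
  rw [Units.val_mul, Units.val_mul, ← mulVec_mulVec, ← mulVec_mulVec, mv_inv] at this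
  exact ⟨mv_ne k hf.1, this⟩

theorem pm (hw : Cl g w) {π : Perm ι} (hπ : Perm.sign π = 1) (hz : ∀ p, w p = 0 → π p = p) (hf : Cl g f) :
    ∃ f', Cl g f' ∧ (∀ p, w p = 0 → f' p = f p) ∧ ∀ p, w p ≠ 0 → f' (π p) * w p = w (π p) * f p := by
  classical
  let u : ι → F := fun p => if w p = 0 then 1 else w p
  have u0 : ∀ p, u p ≠ 0 := fun p => by simp only [u]; split_ifs <;> simp [*]
  have z : ∀ p, w p ≠ 0 → w (π p) ≠ 0 := fun p a b => a (π.injective (hz _ b) ▸ b)
  refine ⟨_, h.st hn a0 a2 a3 hr hM hg hw (h π (fun p => u (π p) / u p) (by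
    simp [hπ, Equiv.prod_comp π u, Finset.prod_ne_zero_iff, u0])) (funext fun p => ?_) hf, fun p e => ?_, fun p e => ?_⟩
  · obtain ⟨p, rfl⟩ := π.surjective p
    rw [mo_mulVec]; by_cases e : w p = 0 <;> simp [u, e, hz p, z p]
  · rw [← hz p e, mo_mulVec]; simp [hz p e, u0]
  · rw [mo_mulVec]; simp [u, e, z p e]; field_simp

variable (hg' : ¬ Mon g.1)
include hg'

theorem np (hf : Cl g f) : ¬ Pt1 f := fun e => by
  obtain ⟨j, c⟩ := Function.ne_iff.1 (mv_ne g⁻¹ hf.1)
  obtain ⟨d, b⟩ := (cl_col g j).prop hf (by rw [inv_mv]; simp) c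
  exact hg' (h.star hn a0 a2 a3 hr hM hg (b ▸ e.smul d))

theorem z1 (hw : Cl g w) {k l : ι} (b : k ≠ l) (e : w k = 0) : w l ≠ 0 := fun e' => by
  have H : ∀ w, Cl g w → ∀ k l, k ≠ l → w k = 0 → w l = 0 → ∀ f, Cl g f → f k ≠ 0 → ∀ m, m ≠ k → m ≠ l → f m = 0 :=
    fun w hw k l b e e' f hf c m d d' => by_contra fun i => by
    have j : ∀ (x : ι → F) p, (mo 1 (d2 k l a) *ᵥ x) p = d2 k l a p * x p := mo_mulVec 1 _
    have s := fun f => h.st hn a0 a2 a3 hr hM hg (f := f) hw (h 1 _ (prod_d2 b a0)) (funext fun p => by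
      rw [j, d2]; split_ifs <;> simp [*])
    obtain ⟨t, r⟩ := (s _ (s _ (s _ hf))).dep (c0 := 1) (c1 := -(1 + a + a⁻¹)) (c2 := 1 + a + a⁻¹) hf (s _ hf) (s _ (s _ hf))
      (funext fun p => by simp only [Pi.add_apply, Pi.smul_apply, j, d2, smul_eq_mul]; split_ifs <;> field_simp <;> ring)
    have : ∀ {u v : ι → F}, u = v → u m = v m ∧ u k = v k := by rintro _ _ rfl; simp
    replace r := r.imp this (Or.imp this this)
    simp only [Pi.smul_apply, j, d2, smul_eq_mul, d, d', if_true, if_false] at r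
    grind
  obtain ⟨f, c, d⟩ := cl_ex g k
  obtain ⟨p, hp⟩ := exists_nmem {k, l} Finset.card_le_two (by omega)
  obtain ⟨q, hq⟩ := exists_nmem {k, l, p} Finset.card_le_three (by omega)
  obtain ⟨r, hr'⟩ := exists_nmem {k, l, p, q} Finset.card_le_four (by omega)
  simp only [Finset.mem_insert, Finset.mem_singleton, not_or] at hp hq hr'
  have i := H w hw k l b e e' f c d
  obtain ⟨f', c', d'⟩ := cl_ex g p
  refine h.np hn a0 a2 a3 hr hM hg hg' c' ⟨p, fun s j => ?_⟩
  by_cases m : s = q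
  · exact H f c p r (Ne.symm hr'.2.2.1) (i p hp.1 hp.2) (i r hr'.1 hr'.2.1) f' c' d' s j (m ▸ Ne.symm hr'.2.2.2)
  · exact H f c p q (Ne.symm hq.2.2) (i p hp.1 hp.2) (i q hq.1 hq.2.1) f' c' d' s j m

theorem z2 (hw : Cl g w) : ∃ k, w k = 0 := by
  by_contra! H
  have : Nonempty ι := Fintype.card_pos_iff.1 (by omega)
  obtain ⟨r, hr'⟩ := cl_rk g
  have c : ∀ {u v : ι → F} {c : F}, w * u = c • (w * v) → u = c • v := fun e => funext fun p =>
    mul_left_cancel₀ (H p) (by simpa [mul_left_comm] using congrFun e p)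
  have d := fun y hy => full (C := fun y => Cl g (w * y)) (fun a b d e f => (a.dep (c0 := 1) (c1 := 1) (c2 := -1) b d e (by
      rw [f, mul_sub, mul_add]; module)).imp fun _ => Or.imp c (Or.imp c c))
    (fun x b k l d e => by simpa [H] using h.z1 hn a0 a2 a3 hr hM hg hg' b d (by simp [e])) (fun π e y b => by
      obtain ⟨f, i, -, j⟩ := h.pm hn a0 a2 a3 hr hM hg hw (π := π⁻¹) (by simpa) (fun p e => (H p e).elim) b
      rwa [show w * y ∘ π = f from funext fun p =>
        mul_right_cancel₀ (H (π p)) (by simpa [mul_comm, mul_left_comm] using (j (π p) (H _)).symm)]) (y := y) hy hn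
    (fun y => r (w * y)) (fun x y a b e => (hr' _ _ a b e).imp fun _ => c) (by simpa)
  obtain ⟨i, j, b⟩ := Fintype.exists_pair_of_one_lt_card (α := ι) (by omega)
  have e : ∀ j, ∃ t : F, (Pi.single j 1 : ι → F) = t • (g⁻¹).1 *ᵥ w := fun j => ⟨((g.1 *ᵥ Pi.single j 1) / w) i, by
    rw [← mulVec_smul]; refine (inv_mv g _).symm.trans (congrArg _ (funext fun p => ?_))
    rw [d ((g.1 *ᵥ Pi.single j 1) / w) (by convert cl_col g j; ext p; simp [mul_div_cancel₀, H p]) i p]; simp [H p]⟩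
  obtain ⟨s, e1⟩ := e i
  obtain ⟨t, e2⟩ := e j
  have := congrFun e1 i; have := congrFun e1 j; have := congrFun e2 j
  simp only [Pi.single_eq_same, Pi.single_eq_of_ne b.symm, Pi.smul_apply, smul_eq_mul] at *
  grind

theorem zinj (hw : Cl g w) (hf : Cl g f) {i : ι} (e : w i = 0) (e' : f i = 0) : ∃ c : F, w = c • f := by
  have z := fun {x k l} (b : Cl g x) (d : k ≠ l) => h.z1 hn a0 a2 a3 hr hM hg hg' b d
  have : ∀ t, ∃ y, Cl g y ∧ y t = 0 := fun t => by
    by_cases b : t = i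
    · exact ⟨w, hw, b ▸ e⟩
    obtain ⟨y, c, d⟩ := cl_ex g i
    obtain ⟨s, j⟩ := h.z2 hn a0 a2 a3 hr hM hg hg' c
    have m : s ≠ i := by rintro rfl; exact d j
    obtain ⟨π, p1, rfl, p3⟩ := exists_even (by omega) m b
    obtain ⟨y', q1, -, q2⟩ := h.pm hn a0 a2 a3 hr hM hg hw p1 (fun p o => by
      rwa [show p = i from by_contra fun r => z hw r o e]) c
    exact ⟨y', q1, by simpa [j, z hw m.symm e] using q2 s (z hw m.symm e)⟩
  choose Y y1 y2 using this
  have : Nonempty ι := ⟨i⟩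
  obtain ⟨r, hr'⟩ := cl_rk g
  have H : ∀ x t s, Cl g x → x s = 0 → r (Y t) = r x → s = t := fun x t s b c d => by_contra fun j => by
    obtain ⟨k, m⟩ := hr' _ _ (y1 t) b d
    exact z (y1 t) j (by simp [m, c]) (y2 t)
  have s := (Finite.injective_iff_surjective (f := fun t => r (Y t))).1 fun t t' d => (H _ t t' (y1 t') (y2 t') d).symm
  obtain ⟨t, b⟩ := s (r w)
  obtain ⟨t', b'⟩ := s (r f)
  exact hr' _ _ hw hf (by rw [← b, ← b', ← H _ _ _ hw e b, ← H _ _ _ hf e' b'])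

omit hg' in
theorem mon : Mon g.1 := by
  by_contra hg'
  have z := fun {g} (hg : g ∈ M) hg' {x k l} (b : Cl g x) (d : k ≠ l) => h.z1 hn a0 a2 a3 hr hM hg hg' b d
  have zc : ∀ {g} (hg : g ∈ M), ¬ Mon g.1 → ∀ i j l, j ≠ l → g.1 i j = 0 → g.1 i l ≠ 0 := fun {g} hg hg' i j l b c d => by
    obtain ⟨t, e⟩ := h.zinj hn a0 a2 a3 hr hM hg hg' (cl_col g j) (cl_col g l) (i := i) (by simpa) (by simpa)
    have := congrFun (congrArg ((g⁻¹).1 *ᵥ ·) e) j
    simp only [mulVec_smul, inv_mv] at this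
    simp [b] at this
  obtain ⟨α, β, b⟩ := Fintype.exists_pair_of_one_lt_card (α := ι) (by omega)
  have hi : ¬ Mon (g⁻¹).1 := fun e => h.np hn a0 a2 a3 hr hM hg hg' ⟨by simp, e α⟩ ⟨α, fun k e => by simp [e]⟩
  obtain ⟨k, c⟩ := h.z2 hn a0 a2 a3 hr hM hg hg' (cl_col g α)
  obtain ⟨k', c'⟩ := h.z2 hn a0 a2 a3 hr hM hg hg' (cl_col g β)
  have d := fun l => z hg hg' (cl_col g α) (k := k) (l := l)
  have d' := fun l => z hg hg' (cl_col g β) (k := k') (l := l)
  have e := fun {p} π b c => h.pm hn a0 a2 a3 hr hM hg (cl_col g α) (π := π) b c (cl_col g β) |>.imp fun f H =>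
    And.intro H (h.zinj hn a0 a2 a3 hr hM hg hg' H.1 (cl_col g β) (i := p))
  simp only [mulVec_single_one, col_apply] at c c' d d' e
  have kk : k ≠ k' := by rintro rfl; exact zc hg hg' k α β b c c'
  have ρ : ∀ p q, p ∉ ({k, k'} : Finset ι) → q ∉ ({k, k'} : Finset ι) → p ≠ q → g.1 q β * g.1 p α = g.1 q α * g.1 p β :=
    fun p q i j m => by
    obtain ⟨l, hl⟩ := exists_nmem {k, k', p, q} Finset.card_le_four (by omega)
    simp only [Finset.mem_insert, Finset.mem_singleton, not_or] at i j hl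
    obtain ⟨f, ⟨-, f1, f2⟩, f3⟩ := e (p := k') (swap p q * swap q l) (by simp [m, Ne.symm hl.2.2.2]) fun s o => by
      obtain rfl : k = s := by_contra fun r => d s r c o
      simp [swap_apply_of_ne_of_ne, Ne.symm i.1, Ne.symm j.1, Ne.symm hl.1]
    obtain ⟨t, rfl⟩ := f3 (by
      simpa [swap_apply_of_ne_of_ne, Ne.symm i.2, Ne.symm j.2, Ne.symm hl.2.1, c', d k' kk c] using f2 k' (d k' kk c)) c'
    obtain rfl : t = 1 := by simpa [d' k kk.symm c'] using f1 k c
    simpa [swap_apply_of_ne_of_ne m (Ne.symm hl.2.2.1)] using f2 p (d p (Ne.symm i.1) c)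
  have nz : ∀ γ, ∃ s, ∀ j, j ≠ s → (g⁻¹).1 γ j ≠ 0 := fun γ => by
    by_cases H : ∃ s, (g⁻¹).1 γ s = 0
    · exact H.imp fun s e j i => zc (M.inv_mem hg) hi γ s j i.symm e
    · exact ⟨γ, fun j _ e => H ⟨j, e⟩⟩
  obtain ⟨s, i⟩ := nz α
  obtain ⟨s', i'⟩ := nz β
  obtain ⟨j, hj⟩ := exists_nmem {k, k', s, s'} Finset.card_le_four (by omega)
  simp only [Finset.mem_insert, Finset.mem_singleton, not_or] at hj
  have H : ∀ c : F, c ≠ 0 → c ≠ 1 → c + c * (c - 1) * (g.1 j α * (g⁻¹).1 α j) + (1 - c) * (g.1 j β * (g⁻¹).1 β j) = 0 :=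
    fun t t0 t1 => by
    obtain ⟨u, u1, u2⟩ := h 1 _ (prod_d2 b t0)
    have x1 := M.mul_mem (M.mul_mem hg u1) (M.inv_mem hg)
    have x2 : ∀ p, ((g * u * g⁻¹).1 *ᵥ Pi.single j 1) p =
        Pi.single (M := fun _ => F) j 1 p + (t - 1) * (g⁻¹).1 α j * g.1 p α + (t⁻¹ - 1) * (g⁻¹).1 β j * g.1 p β := fun p => by
      rw [Units.val_mul, Units.val_mul, ← mulVec_mulVec, ← mulVec_mulVec, u2, show mo 1 (d2 α β t) *ᵥ (g⁻¹).1 *ᵥ Pi.single j 1 =
        (g⁻¹).1 *ᵥ Pi.single j 1 + Pi.single α ((t - 1) * (g⁻¹).1 α j) + Pi.single β ((t⁻¹ - 1) * (g⁻¹).1 β j) from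
        funext fun q => (mo_mulVec 1 _ _ q).trans (by
          by_cases q = α <;> by_cases q = β <;> simp_all [d2, -coe_units_inv] <;> ring), mulVec_add, mulVec_add, mv_inv]
      simp [mul_comm]
    have t2 : t - 1 ≠ 0 := sub_ne_zero.2 t1
    have t3 : t⁻¹ - 1 ≠ 0 := sub_ne_zero.2 (by simpa)
    have x3 : ((g * u * g⁻¹).1 *ᵥ Pi.single j 1) k ≠ 0 := by
      rw [x2]; simp [c, Ne.symm hj.1, t3, d' k kk.symm c', i' j hj.2.2.2, -coe_units_inv, -mulVec_single_one]
    have x4 : ((g * u * g⁻¹).1 *ᵥ Pi.single j 1) k' ≠ 0 := by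
      rw [x2]; simp [c', Ne.symm hj.2.1, t2, d k' kk c, i j hj.2.2.1, -coe_units_inv, -mulVec_single_one]
    have x5 : ¬ Mon (g * u * g⁻¹).1 := fun e => by
      obtain ⟨l, e⟩ := e j
      exact kk ((by_contra fun f => x3 (e k f) : k = l).trans (by_contra fun f => x4 (e k' f) : k' = l).symm)
    obtain ⟨p, x6⟩ := h.z2 hn a0 a2 a3 hr hM x1 x5 (cl_col _ j)
    by_cases f : p = j
    · rw [x2, f, Pi.single_eq_same] at x6; field_simp at x6; linear_combination x6
    obtain ⟨q, hq⟩ := exists_nmem {k, k', p, j} Finset.card_le_four (by omega)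
    simp only [Finset.mem_insert, Finset.mem_singleton, not_or] at hq
    have p1 : k ≠ p := by rintro rfl; exact x3 x6
    have p2 : k' ≠ p := by rintro rfl; exact x4 x6
    refine (z x1 x5 (cl_col _ j) (Ne.symm hq.2.2.1) x6 (mul_left_cancel₀ (d p p1 c) ?_)).elim
    rw [x2, Pi.single_eq_of_ne f] at x6
    rw [x2, Pi.single_eq_of_ne hq.2.2.2]
    linear_combination g.1 q α * x6 + (t⁻¹ - 1) * (g⁻¹).1 β j * ρ p q (by simp [p1.symm, p2.symm]) (by simp [hq]) (Ne.symm hq.2.2.1)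
  have a1 : a ≠ 1 := by rintro rfl; simp at a2
  have h1 := H a a0 a1
  have h2 := H (a * a) (by simp [a0]) a2
  have h3 := H (a * a * a) (by simp [a0]) a3
  generalize g.1 j α * (g⁻¹).1 α j = A at *
  generalize g.1 j β * (g⁻¹).1 β j = B at *
  grind

end HS
end H10.C2
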