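import Mathlib
import Cfsg.Agent.H10.MxG

/-!
# Overgroups of `SL(U) ∘ SL(W)` in `GL(Hom(W, U))`, `2 ≤ dim U < dim W`
* `HT.dichotomy` : `M` normalises the left multiplications or contains all transvections
-/

namespace H10.Mx

open Module LinearMap

variable {F U W : Type*} [Field F] [AddCommGroup U] [Module F U] [AddCommGroup W] [Module F W]

theorem trans_ind {P : U → Prop} (hn : 2 ≤ finrank F U) (h : ∀ x (φ : Dual F U) w, φ w = 0 → P x → P (x + φ x • w))
    {u v : U} (hu : u ≠ 0) (hv : v ≠ 0) (h0 : P u) : P v := by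
  have H : ∀ u v : U, u ≠ 0 → v ∉ F ∙ u → P u → P v := fun u v hu h1 h0 => by
    obtain ⟨φ, a, b⟩ := exists_dual_val (K := F) (v := v - u) (t := u) (fun h2 => by
      obtain ⟨k, hk⟩ := Submodule.mem_span_singleton.1 h2
      have h3 : k ≠ 0 := by rintro rfl; exact hu (by simpa using hk.symm)
      exact h1 (Submodule.mem_span_singleton.2 ⟨k⁻¹ + 1, by
        rw [add_smul]; nth_rw 1 [← hk]; rw [inv_smul_smul₀ h3]; simp⟩)) 1
    simpa [b] using h u φ _ a h0
  by_cases h1 : v ∈ F ∙ u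
  · obtain ⟨w, hw⟩ := exists_not_mem_pt hn u
    exact H w v (by rintro rfl; exact hw (zero_mem _)) (fun h2 => hw ((Submodule.span_singleton_le_iff_mem _ _).2 h1
      (by_contra fun h3 => Form.not_mem_span_singleton_symm hv h3 h2))) (H u w hu hw h0)
  · exact H u v hu h1 h0

theorem exists_dual_ne (hn : 2 ≤ finrank F U) (u : U) : ∃ φ : Dual F U, φ ≠ 0 ∧ φ u = 0 := by
  obtain ⟨w, hw⟩ := exists_not_mem_pt hn u
  obtain ⟨φ, a, b⟩ := exists_dual_val hw (1 : F)
  exact ⟨φ, fun h => by simp [h] at b, a⟩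

theorem exists_dual_ne₂ (hn : 3 ≤ finrank F U) (v t : U) : ∃ ψ : Dual F U, ψ ≠ 0 ∧ ψ v = 0 ∧ ψ t = 0 := by
  have := Module.finite_of_finrank_pos (show 0 < finrank F U by omega)
  obtain ⟨w, hw⟩ : ∃ w, w ∉ (F ∙ v) ⊔ F ∙ t := by
    by_contra! h4
    have := Submodule.finrank_add_le_finrank_add_finrank (F ∙ v) (F ∙ t)
    have := finrank_span_singleton_le (F := F) v
    have := finrank_span_singleton_le (F := F) t
    rw [show (F ∙ v) ⊔ F ∙ t = ⊤ from eq_top_iff.2 fun w _ => h4 w, finrank_top] at *; omega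
  obtain ⟨f, a, b⟩ := exists_dual_sep hw
  exact ⟨f, fun h => by simp [h] at b, a _ (Submodule.mem_sup_left (Submodule.mem_span_singleton_self v)),
    a _ (Submodule.mem_sup_right (Submodule.mem_span_singleton_self t))⟩

theorem exists_one {f : Dual F U} (h : f ≠ 0) : ∃ y, f y = 1 := LinearMap.surjective h 1

theorem smulRight_eq_zero {f : Dual F W} {u : U} : f.smulRight u = 0 ↔ f = 0 ∨ u = 0 := by
  refine ⟨fun h => or_iff_not_imp_left.2 fun h0 => ?_, by rintro (rfl | rfl) <;> ext <;> simp⟩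
  obtain ⟨y, hy⟩ := exists_one h0
  simpa [hy] using LinearMap.congr_fun h y

variable (W) in
def ll (m : U →ₗ[F] U) : (W →ₗ[F] U) →ₗ[F] W →ₗ[F] U := llcomp F W U U m
variable (U) in
def rr (f : Dual F W) (y : W) : (W →ₗ[F] U) →ₗ[F] W →ₗ[F] U := lcomp F U (f.smulRight y)
variable (U) in
def pu (f : Dual F W) : Submodule F (W →ₗ[F] U) := range (smulRightₗ f)

@[simp] theorem ll_apply (m : U →ₗ[F] U) (v : W →ₗ[F] U) (y : W) : ll W m v y = m (v y) := rfl
theorem rr_eq (f : Dual F W) (y : W) (v : W →ₗ[F] U) : rr U f y v = f.smulRight (v y) := by ext; simp [rr]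
@[simp] theorem rr_apply (f : Dual F W) (y z : W) (v : W →ₗ[F] U) : rr U f y v z = f z • v y := by simp [rr]
theorem mem_pu {f : Dual F W} {v : W →ₗ[F] U} : v ∈ pu U f ↔ ∃ u, f.smulRight u = v := Iff.rfl
theorem pu_inj {f : Dual F W} (h : f ≠ 0) : Function.Injective (smulRightₗ f : U →ₗ[F] W →ₗ[F] U) :=
  (injective_iff_map_eq_zero _).2 fun _ e => (smulRight_eq_zero.1 e).resolve_left h
theorem finrank_pu {f : Dual F W} (h : f ≠ 0) : finrank F (pu U f) = finrank F U := finrank_range_of_inj (pu_inj h)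

theorem mem_pu_of {f : Dual F W} (h : f ≠ 0) {v : W →ₗ[F] U} (hv : ∀ y, f y = 0 → v y = 0) : v ∈ pu U f := by
  obtain ⟨y, hy⟩ := exists_one h
  exact ⟨v y, LinearMap.ext fun z => by
    have := hv (z - f z • y) (by simp [hy])
    rw [map_sub, map_smul, sub_eq_zero] at this; simpa using this.symm⟩

variable (F U W) in
def StT : Set (Submodule F (W →ₗ[F] U)) := {P | ∃ f, f ≠ 0 ∧ P = pu U f}

theorem hom_sum [FiniteDimensional F W] (v : W →ₗ[F] U) :
    v = ∑ i, ((finBasis F W).coord i).smulRight (v (finBasis F W i)) :=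
  (finBasis F W).ext fun j => by simp [Finsupp.single_apply]

theorem hom_ext [FiniteDimensional F W] {Z : Type*} [AddCommGroup Z] [Module F Z] {X Y : (W →ₗ[F] U) →ₗ[F] Z}
    (h : ∀ (f : Dual F W) u, X (f.smulRight u) = Y (f.smulRight u)) : X = Y :=
  LinearMap.ext fun v => by rw [hom_sum v, map_sum, map_sum]; simp only [h]

theorem ll_of_pres [FiniteDimensional F W] (hn : 2 ≤ finrank F W) {θ : (W →ₗ[F] U) →ₗ[F] W →ₗ[F] U}
    (h : ∀ (f : Dual F W) u, θ (f.smulRight u) ∈ pu U f) : ∃ m, θ = ll W m := by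
  choose β hβ using fun f u => mem_pu.1 (h f u)
  obtain ⟨f₀, f0, -⟩ := exists_dual_ne hn 0
  obtain ⟨y, hy⟩ := exists_one f0
  have H : ∀ f f' : Dual F W, f ≠ 0 → f' ∉ F ∙ f → ∀ u, β f u = β f' u := fun f f' h0 h1 u => by
    have e : (f + f').smulRight (β (f + f') u) = f.smulRight (β f u) + f'.smulRight (β f' u) := by
      have := hβ (f + f') u
      rw [show (f + f').smulRight u = f.smulRight u + f'.smulRight u by ext; simp [add_smul], map_add,
        ← hβ, ← hβ] at this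
      exact this
    obtain ⟨φ, a, b⟩ := exists_dual_val h1 (1 : F)
    obtain ⟨ψ, c, d⟩ := exists_dual_val (Form.not_mem_span_singleton_symm h0 h1) (1 : F)
    obtain ⟨z, rfl⟩ := (Module.evalEquiv F W).surjective φ
    obtain ⟨z', rfl⟩ := (Module.evalEquiv F W).surjective ψ
    simp only [evalEquiv_apply, Dual.eval_apply] at a b c d
    have e1 := LinearMap.congr_fun e z
    have e2 := LinearMap.congr_fun e z'
    simp [a, b, c, d] at e1 e2
    rw [← e1, e2]
  refine ⟨applyₗ y ∘ₗ θ ∘ₗ smulRightₗ f₀, hom_ext fun f u => ?_⟩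
  have e : β f₀ u = θ (f₀.smulRight u) y := by rw [← hβ]; simp [hy]
  by_cases h0 : f = 0
  · subst h0; rw [smulRight_eq_zero.2 (Or.inl rfl), map_zero, map_zero]
  have e' : β f u = β f₀ u := trans_ind (F := F) (P := fun f => f ≠ 0 → β f u = β f₀ u)
    (by rwa [Subspace.dual_finrank_eq]) (fun x φ w h1 h2 h3 => by
      by_cases h4 : x + φ x • w ∈ F ∙ x
      · obtain ⟨c, hc⟩ := Submodule.mem_span_singleton.1 h4
        have : φ x • w = 0 := by
          by_cases h5 : φ x = 0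
          · simp [h5]
          · have := congrArg φ hc
            simp only [map_smul, map_add, h1, smul_eq_mul, mul_zero, add_zero] at this
            rw [mul_left_eq_self₀.1 this |>.resolve_right h5, one_smul, left_eq_add] at hc; exact hc
        rw [this, add_zero] at h3 ⊢; exact h2 h3
      · have h5 : x ≠ 0 := by rintro rfl; simp at h4
        rw [← H _ _ h5 h4, h2 h5]) f0 h0 (fun _ => rfl) h0
  rw [← hβ, e', e]; ext z; simp [smulRightₗ]

structure HT (M : Subgroup ((W →ₗ[F] U) ≃ₗ[F] W →ₗ[F] U)) : Prop where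
  l : ∀ (φ : Dual F U) u, φ u = 0 → Un M (ll W (φ.smulRight u))
  r : ∀ (f : Dual F W) y, f y = 0 → Un M (rr U f y)
  d : 2 ≤ finrank F U
  n : finrank F U < finrank F W
  ex : 3 ≤ finrank F U ∨ ∃ c : F, c ≠ 0 ∧ c ≠ 1

namespace HT
variable {M : Subgroup ((W →ₗ[F] U) ≃ₗ[F] W →ₗ[F] U)} (h : HT M) [FiniteDimensional F U] [FiniteDimensional F W]
include h

omit [FiniteDimensional F U] [FiniteDimensional F W] in
theorem ub {f : Dual F W} {y : W} (h0 : f y = 0) : Ub M (pu U f) (rr U f y) :=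
  ⟨fun v => ⟨_, (rr_eq f y v).symm⟩, by rintro _ ⟨u, rfl⟩; ext; simp [smulRightₗ, h0], h.r f y h0⟩

theorem exists_mp {A : Submodule F (W →ₗ[F] U)} (hA : A ∈ Fam M (StT F U W)) (hA' : A ∉ StT F U W) :
    ∃ A B, MP M (StT F U W) A B := by
  by_contra H
  have h1 : ∀ B ∈ Fam M (StT F U W), ∀ v ∈ A, v ≠ 0 → v ∈ B → A = B := fun B hB v a b c => by_contra fun e =>
    H (Mx.exists_mp hA hB e ((Submodule.ne_bot_iff _).2 ⟨v, ⟨a, c⟩, b⟩))
  have h2 : ∀ v ∈ A, v ≠ 0 → ∀ x ∈ M, x v = v → ∀ v' ∈ A, x v' - v' ∈ A := fun v a b x hx e v' hv' =>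
    sub_mem ((h1 _ (fam_map hA hx) v a b ⟨v, a, e⟩).ge (Submodule.mem_map_of_mem hv')) hv'
  have h3 : ∀ (f : Dual F W) (u : U), f.smulRight u ∈ A → f = 0 ∨ u = 0 := fun f u a => by_contra fun b =>
    hA' ⟨f, fun e => b (Or.inl e), h1 _ (mem_fam ⟨f, fun e => b (Or.inl e), rfl⟩) _ a (mt smulRight_eq_zero.1 b) ⟨u, rfl⟩⟩
  have hd := h.d
  have hn := h.n
  have h4 : finrank F A = finrank F U := by
    obtain ⟨g, -, _, ⟨f, hf, rfl⟩, rfl⟩ := hA; rw [LinearEquiv.finrank_map_eq, finrank_pu hf]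
  have h5 : ∀ v ∈ A, v ≠ 0 → ∀ y, v y = 0 → ∀ v' ∈ A, v' y = 0 := fun v a b y c v' d => by
    obtain ⟨f, f0, f1⟩ := exists_dual_ne (F := F) (U := W) (by omega) y
    obtain ⟨x, hx, e⟩ := h.r f y f1
    exact (h3 f _ (by simpa [e, rr_eq] using h2 v a b x hx (by ext; simp [e, c]) v' d)).resolve_left f0
  obtain ⟨v, hv, v0⟩ := (Submodule.ne_bot_iff A).1 (by rintro rfl; simp at h4; omega)
  have h6 : Function.Surjective v := by
    by_contra h6
    obtain ⟨u, hu⟩ : ∃ u, u ∉ range v := not_forall.1 h6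
    obtain ⟨φ, a, b⟩ := exists_dual_sep hu
    obtain ⟨u', c, d⟩ := exists_ker hd φ
    obtain ⟨x, hx, e⟩ := h.l φ u' d
    obtain ⟨y, hy⟩ : ∃ y, v y ≠ 0 := by by_contra! h; exact v0 (LinearMap.ext h)
    have h7 : ∀ v' ∈ A, ∀ z, φ (v' z) = 0 := fun v' hv' z => LinearMap.congr_fun ((h3 (φ ∘ₗ v') u' (by
      convert h2 v hv v0 x hx (by ext z; simp [e, a _ ⟨z, rfl⟩]) v' hv' using 1
      ext; simp [e])).resolve_right c) z
    have h8 := finrank_le_finrank_of_injective (f := ((applyₗ y).domRestrict A).codRestrict (ker φ)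
      fun v' => h7 v'.1 v'.2 y) ((injective_iff_map_eq_zero _).2 fun v' e => Subtype.ext (by_contra fun e' =>
        hy (h5 _ v'.2 e' y (congrArg Subtype.val e) v hv)))
    have := Submodule.finrank_lt (s := ker φ) fun e => by simp [ker_eq_top.1 e] at b
    omega
  obtain ⟨s, hs⟩ := v.exists_rightInverse_of_surjective (range_eq_top.2 h6)
  have h7 : ∀ v' ∈ A, v' ∈ F ∙ v := fun v' hv' => by
    have H : ∀ y (φ : Dual F U), φ (v y) = 0 → ∀ c : F, c • ((φ ∘ₗ v').smulRight (v y) - (φ ∘ₗ v).smulRight (v' y)) -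
        (c * c * φ (v' y)) • (φ ∘ₗ v).smulRight (v y) ∈ A := fun y φ a c => by
      obtain ⟨x, hx, e⟩ := h.l (c • φ) (v y) (by simp [a])
      obtain ⟨x', hx', e'⟩ := h.r (-c • φ ∘ₗ v) y (by simp [a])
      convert h2 v hv v0 _ (M.mul_mem hx hx') (by ext z; simp [LinearEquiv.mul_apply, e, e', a, mul_smul]) v' hv' using 1
      ext z; simp [LinearEquiv.mul_apply, e, e']; module
    obtain ⟨c, hc⟩ := scalar_of_pres (K := F) (exists_not_mem_pt hd) (θ := v' ∘ₗ s) fun u => by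
      have e : v (s u) = u := LinearMap.congr_fun hs u
      by_contra h8
      have u0 : u ≠ 0 := by rintro rfl; simp at h8
      obtain ⟨φ, a, b⟩ := exists_dual_val (K := F) h8 1
      simp only [comp_apply] at b
      have φ0 : φ ∘ₗ v ≠ 0 := fun h => by
        obtain ⟨z, hz⟩ := h6 (v' (s u)); simpa [hz, b] using LinearMap.congr_fun h z
      rcases h.ex with h9 | ⟨c, c0, c1⟩
      · obtain ⟨ψ, d1, d2, d3⟩ := exists_dual_ne₂ h9 u (v' (s u))
        have h10 := H (s u) φ (by rwa [e]) 1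
        by_cases h11 : (1 : F) • ((φ ∘ₗ v').smulRight (v (s u)) - (φ ∘ₗ v).smulRight (v' (s u))) -
          (1 * 1 * φ (v' (s u))) • (φ ∘ₗ v).smulRight (v (s u)) = 0
        · obtain ⟨z, hz⟩ := exists_one φ0
          have := congrArg φ (LinearMap.congr_fun h11 z)
          simp only [comp_apply] at hz
          simp [e, a, b, hz] at this
        obtain ⟨u', hu'⟩ := exists_one d1
        set w := (1 : F) • ((φ ∘ₗ v').smulRight (v (s u)) - (φ ∘ₗ v).smulRight (v' (s u))) -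
          (1 * 1 * φ (v' (s u))) • (φ ∘ₗ v).smulRight (v (s u)) with hw
        have h12 : ker w = ker v := le_antisymm (fun z hz => h5 w h10 h11 z hz v hv) fun z hz => h5 v hv v0 z hz w h10
        have h13 := w.finrank_range_add_finrank_ker
        have h14 := v.finrank_range_add_finrank_ker
        rw [range_eq_top.2 h6, finrank_top, ← h12] at h14
        obtain ⟨z, hz⟩ := (Submodule.eq_top_of_finrank_eq (S := range w) (by omega)).ge (Submodule.mem_top (x := u'))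
        simp [← hz, hw, e, d2, d3] at hu'
      · have := sub_mem (H (s u) φ (by rwa [e]) c) (A.smul_mem c (H (s u) φ (by rwa [e]) 1))
        refine (h3 (φ ∘ₗ v) ((c - c * c) • u) (by convert this using 1; ext; simp [e, b]; module)).elim φ0 fun h9 => ?_
        exact mul_ne_zero c0 (sub_ne_zero.2 c1.symm) (by linear_combination (smul_eq_zero_iff_left u0).1 h9)
    refine Submodule.mem_span_singleton.2 ⟨c, LinearMap.ext fun y => ?_⟩
    have := h5 v hv v0 (s (v y) - y) (by rw [map_sub, sub_eq_zero]; exact LinearMap.congr_fun hs _) v' hv'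
    rw [map_sub, sub_eq_zero] at this
    rw [← this]; exact (hc _).symm
  have := Submodule.finrank_mono (show A ≤ _ from h7)
  have := finrank_span_singleton_le (F := F) v
  omega

theorem exists_ub {A B : Submodule F (W →ₗ[F] U)} (hm : MP M (StT F U W) A B) :
    ∃ f X, f ≠ 0 ∧ Ub M (pu U f) X ∧ ∀ y, f y = 0 → X ≠ rr U f y := by
  by_contra! H
  obtain ⟨_, -, _, ⟨f, hf, rfl⟩, -, hm'⟩ := hm.std
  clear hm; have hm := hm'; clear hm'
  obtain ⟨t, ht, ht'⟩ := hm.exists_not (r := finrank F U) (by rintro _ ⟨v, hv, rfl⟩; exact finrank_pu hv)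
  obtain ⟨g, hg, _, ⟨f', hf', rfl⟩, e⟩ := hm.r
  rw [e] at hm ht
  have hd := h.d
  have hn := h.n
  have hk : ∀ f : Dual F W, f ≠ 0 → finrank F (ker f) + 1 = finrank F W := fun f hf => Dual.finrank_ker_add_one_of_ne_zero hf
  obtain ⟨s, ⟨⟨u₀, rfl⟩, hs⟩, s0⟩ := (Submodule.ne_bot_iff _).1 hm.nb
  obtain ⟨y, hy, y0, hy'⟩ : ∃ y, f y = 0 ∧ y ≠ 0 ∧ f.smulRight (t y) ∈ (pu U f').map (g : _ →ₗ[F] _) := by
    let S := ((pu U f').map (g : _ →ₗ[F] _)).comap (smulRightₗ f : U →ₗ[F] _)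
    have h1 := S.finrank_quotient_add_finrank
    have h2 : finrank F S ≠ 0 := fun e => s0 (by rw [show u₀ = 0 from (Submodule.finrank_eq_zero.1 e).le hs, map_zero])
    have := hk f hf
    obtain ⟨y, a, b⟩ := (Submodule.ne_bot_iff _).1 (ker_ne_bot_of_finrank_lt (f := S.mkQ ∘ₗ t ∘ₗ (ker f).subtype) (by omega))
    exact ⟨y, y.2, fun e => b (Subtype.ext e), (Submodule.Quotient.mk_eq_zero S).1 a⟩
  obtain ⟨x, hx, e⟩ := h.r f y hy
  have h1 := hm.stab hx (fun z a b => by rwa [e, (h.ub hy).ker z a, add_zero]) ht ht' (by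
    rw [e, rr_eq]; exact add_mem ht hy')
  have hX := (h.ub hy).cn (symm_mem hg)
  set X := cn g.symm (rr U f y) with eX
  let k := g⁻¹ * x * g
  have hk' : k ∈ M := M.mul_mem (M.mul_mem (M.inv_mem hg) hx) hg
  have k1 : ∀ v, k v = v + X v := fun v => by simp [k, LinearEquiv.mul_apply, e, eX]
  have k2 : ∀ v ∈ pu U f', k v ∈ pu U f' := fun v hv => mem_map_iff.1 (h1 _ (Submodule.mem_map_of_mem hv))
  have k3 : ∀ u, ∃ v, X v = g.symm (f.smulRight u) := fun u => by
    obtain ⟨φ, -, a⟩ := exists_dual_val (K := F) (v := 0) (t := y) (by simpa using y0) 1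
    exact ⟨g.symm (φ.smulRight u), by simp [eX, rr_eq, a]⟩
  choose α hα using fun u => k2 _ ⟨u, rfl⟩
  have k4 : ∀ y', f' y' = 0 → ∃ ρ, f' ρ = 0 ∧ ∀ v, α (v y') = v ρ + X v ρ := fun y' a => by
    have := (h.ub a).cn hk'
    rw [map_eq_of_le k2] at this
    obtain ⟨ρ, b, c⟩ := H f' _ hf' this
    refine ⟨ρ, b, fun v => pu_inj hf' ?_⟩
    have := LinearMap.congr_fun c (k v)
    rw [cn_apply, LinearEquiv.symm_apply_apply, rr_eq, rr_eq, k1 v] at this
    exact (hα _).trans this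
  have k6 : ∀ (Z : Submodule F W), Z ≤ ker f' → finrank F (range ((lcomp F U Z.subtype) ∘ₗ X)) < finrank F U := fun Z hZ => by
    let T := (lcomp F U Z.subtype) ∘ₗ (g.symm : _ →ₗ[F] _) ∘ₗ (smulRightₗ f : U →ₗ[F] _)
    have a : range ((lcomp F U Z.subtype) ∘ₗ X) ≤ range T := by
      rintro _ ⟨v, rfl⟩; exact ⟨g v y, by simp [T, eX, rr_eq, smulRightₗ]⟩
    have b := T.finrank_range_add_finrank_ker
    have c : finrank F (ker T) ≠ 0 := fun e => s0 (by
      obtain ⟨u, hu⟩ := mem_pu.1 (mem_map_iff.1 hs)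
      rw [show u₀ = 0 from (Submodule.finrank_eq_zero.1 e).le (show T u₀ = 0 by
        ext z
        show g.symm ((smulRightₗ f : U →ₗ[F] _) u₀) z = 0
        rw [← hu]; simp [show f' z = 0 from hZ z.2]), map_zero])
    have := Submodule.finrank_mono a
    omega
  choose! ρ ρ1 ρ2 using k4
  have k7 : ∀ y', f' y' = 0 → ρ y' ∈ F ∙ y' := fun y' a => by
    by_contra b
    obtain ⟨φ, c, d⟩ := exists_dual_val b (1 : F)
    have := k6 (F ∙ ρ y') ((Submodule.span_singleton_le_iff_mem _ _).2 (ρ1 y' a))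
    refine this.not_ge (finrank_le_finrank_of_injective (f := rangeRestrict _ ∘ₗ smulRightₗ φ)
      ((injective_iff_map_eq_zero _).2 fun u hu => ?_))
    have e1 := LinearMap.congr_fun (congrArg Subtype.val hu) ⟨_, Submodule.mem_span_singleton_self _⟩
    have e2 := ρ2 y' a (φ.smulRight u)
    have e3 := ρ2 y' a 0
    simp [smulRightₗ] at e1
    simp [c, d] at e2 e3
    rwa [e3, e1, add_zero, eq_comm] at e2
  have k8 : ∀ a b : W, (∀ v : W →ₗ[F] U, k v a = k v b) → a = b := fun a b H => by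
    by_contra e
    obtain ⟨φ, -, c⟩ := exists_dual_val (K := F) (v := 0) (t := a - b) (by simpa [sub_eq_zero] using e) 1
    have := H (k.symm (φ.smulRight u₀))
    rw [LinearEquiv.apply_symm_apply, ← sub_eq_zero, ← map_sub] at this
    exact s0 (by rw [show u₀ = 0 by simpa [c] using this, map_zero])
  have k9 : ∀ a b, α (a + b) = α a + α b := fun a b => pu_inj hf' (by rw [map_add, hα, hα, hα, map_add, map_add])
  have k10 : ∀ (c : F) a, α (c • a) = c • α a := fun a b => pu_inj hf' (by rw [map_smul, hα, hα, map_smul, map_smul])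
  have k11 : ∀ y', f' y' = 0 → ∀ v, k v (ρ y') = α (v y') := fun y' a v => by rw [ρ2 y' a, k1]; rfl
  obtain ⟨c, hc⟩ := scalar_of_pres (F := F) (K := F) (V := ker f') (exists_not_mem_pt (by have := hk f' hf'; omega))
    (θ := ⟨⟨fun z => ⟨ρ z, ρ1 z z.2⟩, fun a b => Subtype.ext (k8 _ _ fun v => by
      simp only [Submodule.coe_add, map_add, k11 _ a.2, k11 _ b.2, k11 _ (a + b).2, ← k9]
      rw [← map_add]; exact k11 _ (a + b).2 v)⟩, fun c a => Subtype.ext (k8 _ _ fun v => by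
      show k v (ρ ↑(c • a)) = k v (c • ρ a)
      rw [k11 _ (c • a).2, map_smul, k11 _ a.2, ← k10, Submodule.coe_smul, map_smul])⟩) fun z => by
      obtain ⟨c, hc⟩ := Submodule.mem_span_singleton.1 (k7 z z.2)
      exact mem_pt.2 ⟨c, Subtype.ext hc⟩
  have k12 : ∀ y', f' y' = 0 → ∀ v, c • X v y' = α (v y') - c • v y' := fun y' a v => by
    rw [ρ2 y' a, show ρ y' = c • y' from congrArg Subtype.val (hc ⟨y', a⟩)]; simp
  by_cases k13 : ∀ u, α u = c • u
  · have c0 : c ≠ 0 := by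
      rintro rfl
      have := hα u₀
      rw [k13, zero_smul, map_zero, eq_comm, LinearEquiv.map_eq_zero_iff] at this
      exact smulRight_eq_zero.not.1 s0 (Or.inr ((smulRight_eq_zero.1 this).resolve_left hf'))
    obtain ⟨_, ⟨u, rfl⟩, b⟩ := hm.symm.exists_not (r := finrank F U) (by rintro _ ⟨v, hv, rfl⟩; exact finrank_pu hv)
    obtain ⟨v, hv⟩ := k3 u
    refine b (mem_map_iff.2 (hv ▸ mem_pu_of hf' fun z hz => ?_))
    simpa [k13, c0] using k12 z hz v
  obtain ⟨u, hu⟩ := not_forall.1 k13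
  refine (k6 _ le_rfl).not_ge (le_trans (by have := hk f' hf'; rw [Subspace.dual_finrank_eq]; omega)
    (finrank_le_finrank_of_injective (M := Dual F (ker f')) (f := rangeRestrict _ ∘ₗ smulRightₗ.flip u ∘ₗ
      Subspace.dualLift (ker f')) ((injective_iff_map_eq_zero _).2 fun φ e => LinearMap.ext fun z => ?_)))
  have e1 := LinearMap.congr_fun (congrArg Subtype.val e) z
  have e2 := k12 z z.2 ((Subspace.dualLift (ker f') φ).smulRight u)
  simp [smulRightₗ] at e1
  rw [e1, smul_zero, smulRight_apply, Subspace.dualLift_of_subtype, k10, smul_comm, ← smul_sub, eq_comm,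
    smul_eq_zero, sub_eq_zero] at e2
  exact e2.resolve_right hu

omit [FiniteDimensional F U] in
theorem exists_tv {f : Dual F W} {X : (W →ₗ[F] U) →ₗ[F] W →ₗ[F] U} (hf : f ≠ 0) (hX : Ub M (pu U f) X)
    (hX' : ∀ y, f y = 0 → X ≠ rr U f y) : ∃ (u : U) (μ : Dual F U) (y : W), u ≠ 0 ∧ μ ≠ 0 ∧ y ≠ 0 ∧ μ u = 0 ∧ f y = 0 ∧
      Tv M (f.smulRight u) (μ ∘ₗ applyₗ y) := by
  have hd := h.d
  have hn := h.n
  obtain ⟨y₀, h0⟩ := exists_one hf
  have h1 : ∀ v, X v = f.smulRight (X v y₀) := fun v => by obtain ⟨u, hu⟩ := mem_pu.1 (hX.im v); simp [← hu, h0]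
  obtain ⟨f', u, h2⟩ : ∃ (f' : Dual F W) (u : U), X (f'.smulRight u) y₀ ∉ F ∙ u := by
    by_contra! H
    choose c hc using fun f' : Dual F W => scalar_of_pres (F := F) (K := F) (exists_not_mem_pt hd)
      (θ := applyₗ y₀ ∘ₗ X ∘ₗ smulRightₗ f') (H f')
    replace hc : ∀ (f' : Dual F W) u, X (f'.smulRight u) y₀ = c f' • u := hc
    obtain ⟨u, u0, -⟩ := exists_ker hd 0
    obtain ⟨y, hy⟩ := (Module.evalEquiv F W).surjective ⟨⟨c, fun a b => smul_left_injective F u0 (by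
      simp only [add_smul, ← hc]
      rw [show (a + b).smulRight u = a.smulRight u + b.smulRight u by ext; simp [add_smul], map_add]; rfl)⟩,
      fun a b => smul_left_injective F u0 (by
      simp only [RingHom.id_apply, smul_eq_mul, mul_smul, ← hc]
      rw [show (a • b).smulRight u = a • b.smulRight u by ext; simp [mul_smul], map_smul]; rfl)⟩
    replace hy : ∀ f' : Dual F W, f' y = c f' := fun f' => LinearMap.congr_fun hy f'
    refine hX' y ?_ (hom_ext fun f' u => by rw [h1, hc, rr_eq, ← hy]; rfl)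
    have := hc f u
    rw [hX.ker _ (mem_pu.2 ⟨u, rfl⟩), LinearMap.zero_apply, eq_comm, smul_eq_zero_iff_left u0] at this
    rw [hy, this]
  obtain ⟨y, ⟨y1, y2⟩, y0⟩ : ∃ y, (f y = 0 ∧ f' y = 0) ∧ y ≠ 0 := by
    obtain ⟨y, a, b⟩ := (Submodule.ne_bot_iff _).1 (ker_ne_bot_of_finrank_lt (f := f.prod f') (by simp; omega))
    exact ⟨y, by simpa using a, b⟩
  let T : (U →ₗ[F] U) → (W →ₗ[F] U) →ₗ[F] W →ₗ[F] U := fun m => smulRightₗ f ∘ₗ m ∘ₗ applyₗ y
  have hT : ∀ m v z, T m v z = f z • m (v y) := fun _ _ _ => rfl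
  have s1 : ∀ m m', Un M (T m) → Un M (T m') → Un M (T (m - m')) := fun m m' a b => by
    convert a.sub b (fun z => by ext; simp [hT, y1]) (fun z => by ext; simp [hT, y1]) using 1
    ext; simp [hT, smul_sub]
  have s2 : ∀ m (φ : Dual F U) w, φ w = 0 → Un M (T m) →
      Un M (T ((φ ∘ₗ m).smulRight w - φ.smulRight (m w) - φ (m w) • φ.smulRight w)) := fun m φ w a b => by
    obtain ⟨x, hx, e⟩ := h.l φ w a
    have := s1 (m + ((φ ∘ₗ m).smulRight w - φ.smulRight (m w) - φ (m w) • φ.smulRight w)) m (by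
      convert b.cn hx using 1
      ext v z; simp [hT, e, inv_eq_of e fun z => by ext; simp [a]]; module) b
    rwa [add_sub_cancel_left] at this
  let m : U →ₗ[F] U := applyₗ y₀ ∘ₗ X ∘ₗ smulRightₗ f'
  have s3 : ∀ c : F, Un M (T (c • m)) := fun c => by
    convert (h.r (c • f') y (by simp [y2])).comm hX.un (fun z => by ext; simp [y2]) (fun z => hX.ker _ (hX.im z))
      (fun z => by rw [h1]; ext; simp [y1]) using 1
    ext v z
    rw [hT, comp_apply X, rr_eq, h1, show (c • f').smulRight (v y) = c • f'.smulRight (v y) by ext; simp [mul_smul], map_smul]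
    rfl
  have u0 : u ≠ 0 := by rintro rfl; simp [smulRight_eq_zero.2 (Or.inr rfl)] at h2
  obtain ⟨φ, a, b⟩ := exists_dual_val h2 (1 : F)
  replace b : φ (m u) = 1 := b
  have φ0 : φ ≠ 0 := by rintro rfl; simp at b
  suffices ∃ μ : Dual F U, μ ≠ 0 ∧ μ u = 0 ∧ Un M (T (μ.smulRight u)) from this.elim fun μ c =>
    ⟨u, μ, y, u0, c.1, y0, c.2.1, y1, c.2.2.tv fun z => by ext; simp [hT, smul_smul, mul_comm]⟩
  rcases h.ex with h3 | ⟨c, c0, c1⟩
  · obtain ⟨μ, d1, d2, d3⟩ := exists_dual_ne₂ h3 u (m u)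
    refine ⟨-μ, neg_ne_zero.2 d1, by simp [d2], ?_⟩
    convert s2 _ μ u d2 (s2 _ φ u a (s3 1)) using 2
    ext; simp [a, b, d2, d3]
  · refine ⟨(c * c - c) • φ, smul_ne_zero (by
      rw [← mul_sub_one]; exact mul_ne_zero c0 (sub_ne_zero.2 c1)) φ0, by simp [a], ?_⟩
    convert s1 _ _ (s2 _ φ u a (s3 c)) (s2 _ (c • φ) u (by simp [a]) (s3 1)) using 2
    ext; simp [b]; module

theorem basic {f : Dual F W} {u : U} {μ : Dual F U} {y : W} (hf : f ≠ 0) (hu : u ≠ 0) (hμ : μ ≠ 0) (hy : y ≠ 0)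
    (h1 : μ u = 0) (h2 : f y = 0) (H : Tv M (f.smulRight u) (μ ∘ₗ applyₗ y)) (f' : Dual F W) (u' : U) (μ' : Dual F U)
    (y' : W) (h3 : μ' u' = 0) (h4 : f' y' = 0) : Tv M (f'.smulRight u') (μ' ∘ₗ applyₗ y') := by
  have hd := h.d
  have hn := h.n
  have r1 : ∀ (f : Dual F W) u (μ : Dual F U) y (f' : Dual F W) z, f' z = 0 → Tv M (f.smulRight u) (μ ∘ₗ applyₗ y) →
      Tv M ((f + f z • f').smulRight u) (μ ∘ₗ applyₗ (y - f' y • z)) := fun f u μ y f' z a b => by
    obtain ⟨x, hx, e⟩ := h.r f' z a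
    convert b.conj hx using 1
    · ext; simp [e, add_smul, smul_smul, mul_comm]
    · ext; simp [inv_eq_of e fun z => by ext; simp [a]]
  have r2 : ∀ (f : Dual F W) u (μ : Dual F U) y (φ : Dual F U) w, φ w = 0 → Tv M (f.smulRight u) (μ ∘ₗ applyₗ y) →
      Tv M (f.smulRight (u + φ u • w)) ((μ - μ w • φ) ∘ₗ applyₗ y) := fun f u μ y φ w a b => by
    obtain ⟨x, hx, e⟩ := h.l φ w a
    convert b.conj hx using 1
    · ext; simp [e, smul_smul]
    · ext; simp [inv_eq_of e fun z => by ext; simp [a], mul_comm]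
  have z0 : ∀ (f : Dual F W) (u : U) Φ, f = 0 ∨ u = 0 → Tv M (f.smulRight u) Φ := fun f u Φ a =>
    smulRight_eq_zero.2 a ▸ ⟨1, M.one_mem, by simp⟩
  have a1 : ∀ z, f z = 0 → z ∉ F ∙ y → Tv M (f.smulRight u) (μ ∘ₗ applyₗ z) := fun z a b => by
    obtain ⟨φ, c, d⟩ := exists_dual_val (Form.not_mem_span_singleton_symm hy b) (1 : F)
    have := r1 _ _ _ _ φ z c H
    rw [a, zero_smul, add_zero] at this
    convert H.sub this (by simp [h1]) (by simp [h1]) using 1
    ext; simp [d]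
  have a2 : ∀ z, f z = 0 → Tv M (f.smulRight u) (μ ∘ₗ applyₗ z) := fun z a => by
    by_cases b : z ∈ F ∙ y; swap
    · exact a1 z a b
    obtain ⟨z', c⟩ := exists_not_mem_pt (K := F) (V := ker f)
      (by have := Dual.finrank_ker_add_one_of_ne_zero hf; omega) ⟨y, h2⟩
    have d : z'.1 ∉ F ∙ y := fun d => c (by
      obtain ⟨k, e⟩ := Submodule.mem_span_singleton.1 d; exact Submodule.mem_span_singleton.2 ⟨k, Subtype.ext e⟩)
    convert (a1 (z + z') (by simp [a, mem_ker.1 z'.2]) fun e => d ((add_mem_cancel_left b).1 e)).sub (a1 z' z'.2 d)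
      (by simp [h1]) (by simp [h1]) using 1
    ext; simp
  have a3 : ∀ (f : Dual F W) z, f z = 0 → Tv M (f.smulRight u) (μ ∘ₗ applyₗ z) := fun f' => by
    by_cases e : f' = 0
    · exact fun _ _ => z0 _ _ _ (Or.inl e)
    refine trans_ind (F := F) (P := fun f : Dual F W => ∀ z, f z = 0 → Tv M (f.smulRight u) (μ ∘ₗ applyₗ z))
      (by rw [Subspace.dual_finrank_eq]; omega) (fun x φ w a b z c => ?_) hf e a2
    obtain ⟨t, rfl⟩ := (Module.evalEquiv F W).surjective φ
    simp only [evalEquiv_apply, Dual.eval_apply] at a c ⊢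
    simpa [a] using r1 _ _ _ _ w t a (b (z + w z • t) (by simpa [mul_comm] using c))
  have a4 : ∀ φ : Dual F U, φ u = 0 → ∀ (f : Dual F W) z, f z = 0 → Tv M (f.smulRight u) (φ ∘ₗ applyₗ z) := fun φ a f z b => by
    by_cases c : μ ∈ F ∙ φ
    · obtain ⟨k, rfl⟩ := Submodule.mem_span_singleton.1 c
      convert a3 f (k⁻¹ • z) (by simp [b]) using 1
      ext; simp [left_ne_zero_of_smul hμ]
    obtain ⟨ψ, d, e⟩ := exists_dual_val c (1 : F)
    obtain ⟨w, rfl⟩ := (Module.evalEquiv F U).surjective ψ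
    simp only [evalEquiv_apply, Dual.eval_apply] at d e
    have := r2 _ _ _ _ φ w d (a3 f z b)
    rw [a, zero_smul, add_zero] at this
    convert (a3 f z b).sub this (by simp [h1]) (by simp [h1, a]) using 1
    ext; simp [e]
  by_cases e : u' = 0
  · exact z0 _ _ _ (Or.inr e)
  refine trans_ind (F := F) (P := fun u => ∀ φ : Dual F U, φ u = 0 → ∀ (f : Dual F W) z, f z = 0 →
    Tv M (f.smulRight u) (φ ∘ₗ applyₗ z)) hd (fun x φ w a b ψ c f z d => ?_) hu e a4 μ' h3 f' y' h4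
  simpa [a] using r2 _ _ _ _ φ w a (b (ψ + ψ w • φ) (by simpa [mul_comm] using c) f z d)

omit [FiniteDimensional F U] in
theorem full_of (H : ∀ (f : Dual F W) (u : U) (μ : Dual F U) (y : W), μ u = 0 → f y = 0 →
    Tv M (f.smulRight u) (μ ∘ₗ applyₗ y)) (v : W →ₗ[F] U) : v ∈ fullSub M := by
  have hd := h.d
  have hn := h.n
  rw [hom_sum v]
  refine Submodule.sum_mem _ fun i _ => ?_
  generalize (finBasis F W).coord i = f
  generalize v (finBasis F W i) = u
  by_cases h0 : f = 0 ∨ u = 0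
  · rw [smulRight_eq_zero.2 h0]; exact zero_mem _
  obtain ⟨f0, u0⟩ := not_or.1 h0
  have hk := Dual.finrank_ker_add_one_of_ne_zero f0
  have t1 : ∀ (μ : Dual F U) y, f y = 0 → Tv M (f.smulRight u) (μ ∘ₗ applyₗ y) := fun μ y a => by
    by_cases b : μ u = 0
    · exact H f u μ y b a
    obtain ⟨u', c, d⟩ := exists_ker hd μ
    obtain ⟨μ', e, g⟩ := exists_dual_val (K := F) (v := u) (t := u') (fun e => by
      obtain ⟨k, rfl⟩ := Submodule.mem_span_singleton.1 e
      exact b (by simpa [left_ne_zero_of_smul c] using d)) 1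
    obtain ⟨z, hz⟩ := exists_not_mem_pt (K := F) (V := ker f) (by omega) ⟨y, a⟩
    obtain ⟨f', i, j⟩ := exists_dual_val (K := F) (v := y) (t := z.1) (fun d => hz (by
      obtain ⟨k, e⟩ := Submodule.mem_span_singleton.1 d; exact Submodule.mem_span_singleton.2 ⟨k, Subtype.ext e⟩)) 1
    simpa [g, j] using (H f u μ' z e z.2).extract (H f' u' μ y d i) (by simp [e]) (by simp [d]) (by simp [a])
  have t2 : ∀ (μ : Dual F U) y, μ u = 0 → f y = 1 → Tv M (f.smulRight u) (μ ∘ₗ applyₗ y) := fun μ y a b => by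
    obtain ⟨μ', -, g⟩ := exists_dual_val (K := F) (v := 0) (t := u) (by simpa using u0) 1
    obtain ⟨z, z0, hz⟩ := exists_ker (K := F) (V := W) (by omega) f
    obtain ⟨f', i, j⟩ := exists_dual_val (K := F) (v := y) (t := z) (fun e => by
      obtain ⟨k, rfl⟩ := Submodule.mem_span_singleton.1 e
      exact left_ne_zero_of_smul z0 (by simpa [b] using hz)) 1
    simpa [g, j] using (t1 μ' z hz).extract (H f' u μ y a i) (by simp [hz]) (by simp [a]) (by simp [a])
  intro Φ hΦ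
  obtain ⟨y, hy⟩ := exists_one f0
  let b := finBasis F W
  have t3 : ∀ s : Finset (Fin (finrank F W)), Tv M (f.smulRight u)
      (∑ i ∈ s, (Φ ∘ₗ smulRightₗ (b.coord i)) ∘ₗ applyₗ (b i - f (b i) • y)) := fun s => by
    induction s using Finset.induction_on with
    | empty => exact tv_zero
    | insert i s hi ih => rw [Finset.sum_insert hi]; exact (t1 _ _ (by simp [hy])).add ih (by simp [hy])
  convert (t2 (Φ ∘ₗ smulRightₗ f) y hΦ hy).add (t3 Finset.univ) (by simpa [hy] using hΦ) using 1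
  ext v
  have := hom_sum (v - f.smulRight (v y))
  rw [sub_eq_iff_eq_add'] at this
  conv_lhs => rw [this]
  simp [b, smulRightₗ]

theorem dichotomy : (∀ v, v ∈ fullSub M) ∨ ∀ g ∈ M, ∀ m, ∃ m', ∀ v, g (ll W m v) = ll W m' (g v) := by
  by_cases H : ∀ A ∈ Fam M (StT F U W), A ∈ StT F U W
  · refine Or.inr fun g hg m => ?_
    obtain ⟨m', e⟩ := ll_of_pres (θ := cn g (ll W m)) (by have := h.d; have := h.n; omega) fun f u => by
      by_cases hf : f = 0
      · rw [smulRight_eq_zero.2 (Or.inl hf), map_zero]; exact zero_mem _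
      obtain ⟨f', -, e⟩ := H _ (fam_map (mem_fam ⟨f, hf, rfl⟩) (symm_mem hg))
      obtain ⟨a, ha⟩ := mem_pu.1 (e.le (Submodule.mem_map_of_mem (show f.smulRight u ∈ _ from ⟨u, rfl⟩)))
      rw [cn_apply, ← show _ = g.symm _ from ha]
      exact mem_map_iff.1 (e.ge (mem_pu.2 ⟨m a, by ext; simp⟩))
    exact ⟨m', fun v => by simp [← e]⟩
  push Not at H
  obtain ⟨A, hA, hA'⟩ := H
  obtain ⟨A, B, hm⟩ := h.exists_mp hA hA'
  obtain ⟨f, X, a, b, c⟩ := h.exists_ub hm
  obtain ⟨u, μ, y, d1, d2, d3, d4, d5, d6⟩ := h.exists_tv a b c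
  exact Or.inl (h.full_of (h.basic a d1 d2 d3 d4 d5 d6))

end HT

/-- transport of automorphisms along a linear equivalence -/
def cM (T : U ≃ₗ[F] W) : (U ≃ₗ[F] U) →* (W ≃ₗ[F] W) :=
  MonoidHom.mk' (fun g => T.symm ≪≫ₗ g ≪≫ₗ T) fun _ _ => by ext; simp [LinearEquiv.mul_apply]

@[simp] theorem cM_apply (T : U ≃ₗ[F] W) (g : U ≃ₗ[F] U) (w : W) : cM T g w = T (g (T.symm w)) := rfl

theorem full_of_cM {T : U ≃ₗ[F] W} {M : Subgroup (U ≃ₗ[F] U)} (h : ∀ v, v ∈ fullSub (M.map (cM T))) (v : U) :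
    v ∈ fullSub M := fun f hf => by
  obtain ⟨_, ⟨g, hg, rfl⟩, e⟩ := h (T v) (f ∘ₗ (T.symm : W →ₗ[F] U)) (by simpa using hf)
  exact ⟨g, hg, fun x => T.injective (by simpa using e (T x))⟩

section
open Matrix Cfsg Cfsg.Geo H10.As
open scoped Kronecker
variable {ι κ μ : Type} [Fintype ι] [DecidableEq ι] [Fintype κ] [DecidableEq κ] [Fintype μ] [DecidableEq μ]
  (e : ι ≃ κ × μ) (P : GL ι F)

/-- the tensor space as a space of linear maps -/
noncomputable def tq : (ι → F) ≃ₗ[F] (μ → F) →ₗ[F] κ → F :=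
  (lq e P).symm ≪≫ₗ LinearEquiv.curry F F κ μ ≪≫ₗ Matrix.ofLinearEquiv F ≪≫ₗ toLin'

theorem tq_mulVec {g : Matrix ι ι F} {a : Matrix κ κ F} {b : Matrix μ μ F} (h : pm e P g = a ⊗ₖ b) (x : ι → F) :
    tq e P (g *ᵥ x) = toLin' a ∘ₗ tq e P x ∘ₗ toLin' bᵀ := by
  obtain ⟨x, rfl⟩ := (lq e P).surjective x
  rw [mulVec_lq, h]
  simp only [tq, LinearEquiv.trans_apply, LinearEquiv.symm_apply_apply, ← toLin'_mul]
  congr 1; ext i j
  simp [Matrix.mul_apply, Matrix.mulVec, dotProduct, Fintype.sum_prod_type, Finset.mul_sum, mul_assoc, mul_comm]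

theorem det_pl (g : GL ι F) : det (pl e P g).1 = det g.1 := by
  simp [pl_val, pm, cj_apply, mul_right_comm _ (det g.1), GeneralLinearGroup.det_ne_zero P]

variable {e P}

theorem tens_cases (h1 : 2 ≤ Fintype.card κ) (h2 : Fintype.card κ < Fintype.card μ)
    (hex : 3 ≤ Fintype.card κ ∨ ∃ c : F, c ≠ 0 ∧ c ≠ 1) {M : Subgroup (GL ι F)}
    (hM : ∀ u v, det u.1 = 1 → det v.1 = 1 → (pl e P).symm (kU u v) ∈ M) : specialLinear ι F ≤ M ∨ TL M e P := by
  have : Nonempty κ := Fintype.card_pos_iff.1 (by omega)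
  have : Nonempty μ := Fintype.card_pos_iff.1 (by omega)
  have H : ∀ (u : GL κ F) (v : GL μ F), det u.1 = 1 → det v.1 = 1 → ∃ x ∈ (M.map (glEquiv (ι := ι) (F := F)).toMonoidHom).map (cM (tq e P)),
      ∀ z, x z = toLin' u.1 ∘ₗ z ∘ₗ toLin' v.1ᵀ := fun u v a b =>
    ⟨_, ⟨_, ⟨_, hM u v a b, rfl⟩, rfl⟩, fun z => (tq_mulVec e P (by
      rw [← pl_val, MulEquiv.apply_symm_apply, kU_val]) _).trans (by simp)⟩
  have h : HT ((M.map (glEquiv (ι := ι) (F := F)).toMonoidHom).map (cM (tq e P))) := by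
    refine ⟨fun φ u a => ?_, fun f y a => ?_, by simpa, by simpa, by simpa⟩
    · obtain ⟨g, b, c⟩ := exists_sl_tv u φ a
      obtain ⟨x, hx, d⟩ := H g 1 (H09.mem_specialLinear.1 b) (by simp)
      exact ⟨x, hx, fun z => LinearMap.ext fun y => by simp [d, c]⟩
    · obtain ⟨g, b, c⟩ := exists_sl_tv y f a
      obtain ⟨x, hx, d⟩ := H 1 ⟨g.1ᵀ, (g⁻¹).1ᵀ, by rw [← transpose_mul]; simp, by rw [← transpose_mul]; simp⟩ (by simp)
        (by simpa using H09.mem_specialLinear.1 b)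
      exact ⟨x, hx, fun z => LinearMap.ext fun y => by simp [d, c]⟩
  refine h.dichotomy.imp (fun H => specialLinear_le_of_fullSub (full_of_cM H)) fun H g hg => ?_
  obtain ⟨u, v, h⟩ := exists_kron_eq (g := pl e P g) fun a => by
    obtain ⟨m, hm⟩ := H _ ⟨_, ⟨g, hg, rfl⟩, rfl⟩ (toLin' a)
    refine ⟨toMatrix' m, ?_⟩
    rw [← (pm e P).apply_symm_apply (kl _ a), cj_pl, ← AlgEquiv.eq_symm_apply]
    refine matrix_eq_iff_mulVec.2 fun x => (tq e P).injective ?_
    have := hm (tq e P ((g⁻¹).1 *ᵥ x))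
    have e1 : ∀ a x, tq e P ((pm e P).symm (kl μ a) *ᵥ x) = ll _ (toLin' a) (tq e P x) := fun a x =>
      (tq_mulVec e P ((pm e P).apply_symm_apply _) x).trans (LinearMap.ext fun y => by simp)
    rw [← e1, cM_apply, cM_apply, LinearEquiv.symm_apply_apply, LinearEquiv.symm_apply_apply] at this
    rw [e1, toLin'_toMatrix', cj_apply, ← mulVec_mulVec, ← mulVec_mulVec]
    exact this.trans (congrArg _ (congrArg _ (mulVec_inv_mulVec g x)))
  exact ⟨u, v, Units.ext (h.trans (kU_val _ _).symm)⟩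

theorem isMaximalIn_tens_sl {m k : ℕ} {e : ι ≃ Fin m × Fin k} (h1 : 2 ≤ m) (h2 : m < k)
    (hex : 3 ≤ m ∨ ∃ c : F, c ≠ 0 ∧ c ≠ 1) :
    IsMaximalIn (specialLinear ι F) (tensorProductSubgroup m k e P ⊓ specialLinear ι F) :=
  ⟨lt_of_le_of_ne inf_le_right fun h => (big_sl (by rw [Fintype.card_congr e]; simp; nlinarith)).not_TL (by simpa)
    (by simp; omega) (tl_iff.2 (h.ge.trans inf_le_left)), fun _ a b =>
    (tens_cases (by simpa) (by simpa) (by simpa) fun u v c d => a ⟨(mem_co e P).2 ⟨u, v, by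
      rw [MulEquiv.apply_symm_apply, kU_val]⟩, H09.mem_specialLinear.2 (by
      rw [← det_pl e P, MulEquiv.apply_symm_apply, kU_val, det_kronecker, c, d]; simp)⟩).symm.imp
      (fun h => le_antisymm (le_inf (tl_iff.1 h) b) a) (le_antisymm b)⟩

end
end H10.Mx
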