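import Mathlib
import Cfsg.Agent.H10.C2A
import Cfsg.Agent.H10.MxT
import Cfsg.Agent.H10.AsFm

/-!
# Overgroups of `GL(U) ≀ S_t ∩ SL`, and maximality of decomposition stabilisers in `SL`
-/

namespace H10.C2
open Module LinearMap Equiv H10.Mx

section
variable {F U : Type*} {τ : Type} [Field F] [AddCommGroup U] [Module F U] [Fintype τ] [DecidableEq τ]

theorem exists_ker_ne (hn : 2 ≤ finrank F U) (f : Dual F U) : ∃ y, y ≠ 0 ∧ f y = 0 := by
  have := Module.finite_of_finrank_pos (show 0 < finrank F U by omega)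
  by_contra! H
  have := LinearMap.finrank_le_finrank_of_injective (f := f) ((injective_iff_map_eq_zero f).2 fun y h => by_contra fun e => H y e h)
  simp at this; omega

theorem exists_ker_not (hn : 3 ≤ finrank F U) (f : Dual F U) (v : U) : ∃ y, y ∉ F ∙ v ∧ f y = 0 := by
  have := Module.finite_of_finrank_pos (show 0 < finrank F U by omega)
  by_contra! H
  have h1 := Submodule.finrank_mono (show ker f ≤ F ∙ v from fun y h => by_contra fun e => H y e h)
  have := finrank_span_singleton_le (F := F) v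
  have := f.finrank_range_add_finrank_ker
  have := (range f).finrank_le
  simp at this; omega

def HB (M : Subgroup ((τ → U) ≃ₗ[F] τ → U)) : Prop :=
  ∀ (π : Perm τ) (s : τ → U →ₗ[F] U), ((Perm.sign π : ℤ) : F) ^ finrank F U * ∏ i, LinearMap.det (s i) = 1 →
    ∃ g ∈ M, ∀ x i, g x (π i) = s i (x i)

def RR (M : Subgroup ((τ → U) ≃ₗ[F] τ → U)) (i j : τ) : Prop :=
  ∀ u (f : Dual F U), Tv M (Pi.single i u) (f ∘ₗ proj j)

namespace HB
variable {M : Subgroup ((τ → U) ≃ₗ[F] τ → U)} (h : HB M) [FiniteDimensional F U]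
include h

theorem tv (i : τ) {u : U} {f : Dual F U} (e : f u = 0) : Tv M (Pi.single i u) (f ∘ₗ proj i) := by
  obtain ⟨g, a, b⟩ := h 1 (Function.update 1 i (transvection f u)) (by
    rw [Finset.prod_eq_single i (fun j _ e => by simp [e]) (by simp)]; simp [e])
  exact ⟨g, a, fun x => funext fun j => (b x j).trans (by by_cases c : j = i <;> simp [c, transvection.apply])⟩

variable (hn : 2 ≤ finrank F U)
include hn

theorem rr {i j : τ} (b : i ≠ j) {u y : U} (hu : u ≠ 0) {φ : Dual F (τ → U)} (h0 : φ (Pi.single i u) = 0)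
    (h1 : Tv M (Pi.single i u) φ) (hy : φ (Pi.single j y) ≠ 0) : RR M i j := by
  have H : ∀ (f : Dual F U) z, f z = 0 → φ (Pi.single j z) = 1 → Tv M (Pi.single i u) (f ∘ₗ proj j) := fun f z a c => by
    simpa [c] using h1.extract (h.tv j a) h0 (by simp [a]) (by simp [b.symm])
  have H2 : ∀ f : Dual F U, Tv M (Pi.single i u) (f ∘ₗ proj j) := fun f => by
    obtain ⟨z, hz⟩ := exists_one (f := φ ∘ₗ single F (fun _ => U) j) fun e => hy congr($e y)
    obtain ⟨w, w0, hw⟩ := exists_ker_ne hn (φ ∘ₗ single F (fun _ => U) j)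
    simp only [comp_apply, coe_single] at hz hw
    have e1 : φ (Pi.single j (z + w)) = 1 := by simp [Pi.single_add, hz, hw]
    obtain ⟨g, g1, g2⟩ := exists_dual_val (K := F) (v := z + w) (t := z) (fun e => by
      obtain ⟨c, e⟩ := Submodule.mem_span_singleton.1 e
      obtain rfl : c = 1 := by rw [← e, Pi.single_smul, map_smul, e1] at hz; simpa using hz
      exact w0 (by simpa using e)) (f z)
    simpa [sub_comp] using (H (f - g) z (by simp [g2]) hz).add (H g _ g1 e1) (by simp [b.symm])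
  intro v f
  by_cases e : u ∈ F ∙ v
  · obtain ⟨c, rfl⟩ := Submodule.mem_span_singleton.1 e
    have := H2 (c⁻¹ • f)
    rwa [Pi.single_smul, tv_smul, smul_comp, smul_inv_smul₀ (left_ne_zero_of_smul hu)] at this
  obtain ⟨g, g1, g2⟩ := exists_dual_val e (1 : F)
  simpa [g2] using (H2 f).extract_left (h.tv i g1) (by simp [b.symm]) (by simp [g1]) (by simp [b.symm])

theorem move {i j : τ} (b : i ≠ j) (h1 : RR M i j) (π : Perm τ) : RR M (π i) (π j) := by
  obtain ⟨u, hu⟩ := exists_not_mem_pt hn (0 : U)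
  obtain ⟨f, -, f1⟩ := exists_dual_val hu (1 : F)
  obtain ⟨g, a, c⟩ := h π (Function.update 1 i (transvection ((((Perm.sign π : ℤ) : F) ^ finrank F U - 1) • f) u)) (by
    rw [Finset.prod_eq_single i (fun j _ e => by simp [e]) (by simp)]
    rcases Int.units_eq_one_or (Perm.sign π) with e | e <;> simp [e, f1, ← mul_pow])
  have d : ∀ k y, ∃ z, g (Pi.single k y) = Pi.single (π k) z := fun k y => ⟨_, funext fun l => by
    obtain ⟨l, rfl⟩ := π.surjective l
    rw [c]; by_cases e : l = k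
    · rw [e, Pi.single_eq_same (π k)]
    · simp [e]⟩
  obtain ⟨z, e⟩ := d i u
  obtain ⟨y, e'⟩ := d j u
  refine h.rr hn (π.injective.ne b) (u := z) (y := y) (fun z0 => hu ?_) (by simp [← e, b.symm]) (e ▸ (h1 u f).conj a)
    (by simp [← e', f1])
  simpa [z0] using e

theorem full {i j : τ} (b : i ≠ j) (h1 : RR M i j) (v : τ → U) : v ∈ fullSub M := by
  have H : ∀ k l, k ≠ l → RR M k l := fun k l d => by
    convert h.move hn b h1 (swap (swap i k j) l * swap i k)
    · rw [Perm.mul_apply, swap_apply_left, swap_apply_of_ne_of_ne _ d]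
      exact fun e => b ((swap i k).injective (by rwa [swap_apply_left]))
    · simp
  rw [← Finset.univ_sum_single v]
  refine sum_mem fun k _ f e => ?_
  have : ∀ s : Finset τ, Tv M (Pi.single k (v k)) (∑ l ∈ s, (f ∘ₗ single F (fun _ => U) l) ∘ₗ proj l) := fun s => by
    induction s using Finset.induction with
    | empty => exact tv_zero
    | insert l s a ih =>
      rw [Finset.sum_insert a]
      by_cases c : k = l
      · subst c; exact (h.tv k (f := f ∘ₗ single F (fun _ => U) k) e).add ih (by simpa)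
      · exact (H k l c _ _).add ih (by simp [Ne.symm c])
  convert this .univ
  refine LinearMap.ext fun x => ?_
  simp only [coe_sum, Finset.sum_apply, comp_apply, coe_single, proj_apply, ← map_sum, Finset.univ_sum_single]

theorem dich (hex : 3 ≤ finrank F U ∨ 3 ≤ Fintype.card τ ∧ ∃ c : F, c ≠ 0 ∧ c ≠ 1) :
    (∀ v, v ∈ fullSub M) ∨ ∀ g ∈ M, ∀ i, ∃ j, ∀ u k, k ≠ j → g (Pi.single i u) k = 0 := by
  refine or_iff_not_imp_right.2 fun H => ?_
  push Not at H
  obtain ⟨g, hg, i, H⟩ := H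
  obtain ⟨u, p, q, b, hp, hq⟩ : ∃ u p q, p ≠ q ∧ g (Pi.single i u) p ≠ 0 ∧ g (Pi.single i u) q ≠ 0 := by
    obtain ⟨u, p, -, a⟩ := H i
    obtain ⟨w, q, b, c⟩ := H p
    by_cases d : g (Pi.single i u) q = 0
    · by_cases e : g (Pi.single i w) p = 0
      exacts [⟨u + w, p, q, b.symm, by simpa [Pi.single_add, e], by simpa [Pi.single_add, d]⟩, ⟨w, p, q, b.symm, e, c⟩]
    · exact ⟨u, p, q, b.symm, a, d⟩
  obtain ⟨f, f0, f1⟩ := exists_dual_ne hn u
  have h1 := (h.tv i f1).conj hg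
  obtain ⟨j, y, hy⟩ : ∃ j y, ((f ∘ₗ proj i) ∘ₗ (g.symm : (τ → U) →ₗ[F] τ → U)) (Pi.single j y) ≠ 0 := by
    by_contra! H
    have : ((f ∘ₗ proj i) ∘ₗ (g.symm : (τ → U) →ₗ[F] τ → U)) = 0 := pi_ext H
    exact f0 (LinearMap.ext fun y => by simpa using congr($this (g (Pi.single i y))))
  have h0 : ((f ∘ₗ proj i) ∘ₗ (g.symm : (τ → U) →ₗ[F] τ → U)) (g (Pi.single i u)) = 0 := by simpa
  generalize (f ∘ₗ proj i) ∘ₗ (g.symm : (τ → U) →ₗ[F] τ → U) = φ at *
  generalize g (Pi.single i u) = v at *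
  obtain ⟨q, b, hq⟩ : ∃ q, q ≠ j ∧ v q ≠ 0 := (eq_or_ne p j).elim (fun e => ⟨q, e ▸ b.symm, hq⟩) fun e => ⟨p, e, hp⟩
  clear hp
  by_cases H : ∃ w, φ (Pi.single q w) = 0 ∧ v q ∉ F ∙ w ∧ w ≠ 0
  · obtain ⟨w, a, c, w0⟩ := H
    obtain ⟨ψ, d, e⟩ := exists_dual_val c (1 : F)
    exact h.full hn b (h.rr hn b w0 a (by simpa [e] using h1.extract_left (h.tv q d) h0 (by simpa) a) hy)
  push Not at H
  obtain ⟨ht, c, c0, c1⟩ := hex.resolve_left fun h3 => by
    obtain ⟨w, a, d⟩ := exists_ker_not h3 (φ ∘ₗ single F (fun _ => U) q) (v q)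
    exact a (H w d (Form.not_mem_span_singleton_symm hq a) ▸ zero_mem _)
  have z : ∀ k, ∃ w, ∃ ψ : Dual F U, φ (Pi.single k w) = 0 ∧ ψ w = 1 := fun k => by
    obtain ⟨w, a, d⟩ := exists_ker_ne hn (φ ∘ₗ single F (fun _ => U) k)
    exact ⟨w, (exists_dual_val (v := (0 : U)) (by simpa using a) (1 : F)).imp fun ψ e => ⟨d, e.2⟩⟩
  choose z ψ z0 z1 using z
  have a : ∀ k l, k ≠ l → Tv M (v + ((c - 1) * ψ k (v k)) • (Pi.single k (z k) : τ → U) +
      ((c⁻¹ - 1) * ψ l (v l)) • (Pi.single l (z l) : τ → U)) φ :=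
    fun k l d => by
    obtain ⟨x, a, e⟩ := h 1 (Function.update (Function.update 1 k (transvection ((c - 1) • ψ k) (z k))) l
      (transvection ((c⁻¹ - 1) • ψ l) (z l))) (by
      rw [Finset.prod_eq_mul k l d (fun j _ e => by simp [e.1, e.2]) (by simp) (by simp)]; simp [d, z1, c0])
    have e' : ∀ y, x y = y + ((c - 1) * ψ k (y k)) • (Pi.single k (z k) : τ → U) +
        ((c⁻¹ - 1) * ψ l (y l)) • (Pi.single l (z l) : τ → U) :=
      fun y => funext fun m => (e y m).trans (by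
        by_cases m = k <;> by_cases m = l <;> simp_all [transvection.apply])
    convert h1.conj a using 1
    · exact (e' v).symm
    · exact LinearMap.ext fun y => by obtain ⟨y, rfl⟩ := x.surjective y; nth_rw 1 [e' y]; simp [z0]
  obtain ⟨p, hp⟩ := exists_nmem {q} (Finset.card_singleton q).le (by omega)
  obtain ⟨r, hr⟩ := exists_nmem {q, p} Finset.card_le_two (by omega)
  simp only [Finset.mem_insert, Finset.mem_singleton, not_or] at hp hr
  have e := ((a p q hp).sub_left (a p r (Ne.symm hr.2)) (by simp [h0, z0])).sub_left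
    (h1.sub_left (a q r (Ne.symm hr.1)) (by simp [h0, z0])) (by simp [h0, z0])
  obtain ⟨t, ht⟩ := Submodule.mem_span_singleton.1 (by_contra fun d => by simpa [H _ (z0 q) d] using z1 q : v q ∈ F ∙ z q)
  refine h.full hn b (h.rr hn b (u := ((c - 1) * (c - 1) * c⁻¹ * ψ q (v q)) • z q) (fun e => hq ?_) (by simp [Pi.single_smul, z0]) ?_ hy)
  · have := congrArg (ψ q) e
    simp [z1, c0, sub_eq_zero, c1, ← ht] at this
    simp [← ht, this]
  · convert e using 1
    rw [Pi.single_smul]; match_scalars <;> field_simp <;> ring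

end HB
end

section
open Matrix Cfsg Cfsg.Geo H10.As
variable {ι μ : Type} [Fintype ι] [DecidableEq ι] [Fintype μ] [DecidableEq μ] {F : Type*} [Field F] {t : ℕ}
  (e : ι ≃ μ × Fin t) (P : GL ι F)

noncomputable def bq : (ι → F) ≃ₗ[F] Fin t → μ → F :=
  (lq e P).symm ≪≫ₗ LinearEquiv.funCongrLeft F F (.prodComm _ _) ≪≫ₗ LinearEquiv.curry F F _ _

theorem bq_lq (x : μ × Fin t → F) (i : Fin t) (j : μ) : bq e P (lq e P x) i j = x (j, i) := by simp [bq]

variable {e P} {D : Fin t → Submodule F (ι → F)}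

theorem mem_bq (h : BD D e P) {i : Fin t} {v : ι → F} : v ∈ D i ↔ ∀ k, k ≠ i → bq e P v k = 0 := by
  obtain ⟨x, rfl⟩ := (lq e P).surjective v
  exact (h _ _).trans ⟨fun H k a => funext fun j => (bq_lq ..).trans (H _ a), fun H a b => (bq_lq ..).symm.trans (congrFun (H _ b) _)⟩

theorem bm_mem [Nonempty μ] (h : BD D e P) (ht : 2 ≤ t) (π : Perm (Fin t)) (u : Fin t → Matrix μ μ F)
    (h1 : ((Perm.sign π : ℤ) : F) ^ Fintype.card μ * ∏ i, det (u i) = 1) :
    ∃ g ∈ decompositionStabilizer D ⊓ specialLinear ι F, pm e P g.1 = bm π u := by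
  have : det (bm π u) = 1 := by rw [det_bm]; simpa using h1
  have h2 := (pl e P).apply_symm_apply (GeneralLinearGroup.mkOfDetNeZero (bm π u) (by simp [this]))
  exact ⟨_, ⟨h.le ht fun i => ⟨π i, fun a b c d => by rw [← pl_val, h2]; simp [bm, c, d]⟩, pl_mem_sl this⟩, congrArg Units.val h2⟩

theorem blk_cases (h : BD D e P) (ht : 2 ≤ t) (hn : 2 ≤ Fintype.card μ)
    (hex : 3 ≤ Fintype.card μ ∨ 3 ≤ t ∧ ∃ c : F, c ≠ 0 ∧ c ≠ 1) {M : Subgroup (GL ι F)}
    (hM : decompositionStabilizer D ⊓ specialLinear ι F ≤ M) : specialLinear ι F ≤ M ∨ M ≤ decompositionStabilizer D := by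
  have : Nonempty μ := Fintype.card_pos_iff.1 (by omega)
  have H : HB ((M.map (glEquiv (ι := ι) (F := F)).toMonoidHom).map (cM (bq e P))) := fun π s a => by
    obtain ⟨g, b, c⟩ := bm_mem h ht π (fun i => toMatrix' (s i)) (by simpa using a)
    refine ⟨_, ⟨_, ⟨g, hM b, rfl⟩, rfl⟩, fun x i => funext fun j => ?_⟩
    obtain ⟨x, rfl⟩ := (bq e P).surjective x
    obtain ⟨x, rfl⟩ := (lq e P).surjective x
    rw [cM_apply, LinearEquiv.symm_apply_apply]
    change bq e P (g.1 *ᵥ _) _ _ = _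
    rw [mulVec_lq, bq_lq, c, bm_mulVec, ← toLin'_apply, toLin'_toMatrix', funext (bq_lq e P x i)]
  refine (H.dich (by simpa) (by simpa)).imp (fun H => specialLinear_le_of_fullSub (full_of_cM H)) fun H g hg =>
    dstab_of_maps (h.mdec ht) fun i => (H _ ⟨_, ⟨g, hg, rfl⟩, rfl⟩ i).imp fun j hj v hv => (mem_bq h).2 fun k a => ?_
  have := hj (bq e P v i) k a
  rwa [show Pi.single i (bq e P v i) = bq e P v from funext fun l => by
    by_cases c : l = i <;> simp [c, (mem_bq h).1 hv l], cM_apply, LinearEquiv.symm_apply_apply] at this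

theorem exists_gen [Fintype F] (h : 5 ≤ Fintype.card F) : ∃ a : F, a ≠ 0 ∧ a * a ≠ 1 ∧ a * a * a ≠ 1 := by
  classical
  obtain ⟨a, ha⟩ := IsCyclic.exists_ofOrder_eq_natCard (α := Fˣ)
  rw [Nat.card_eq_fintype_card, Fintype.card_units] at ha
  have H : ∀ k, 0 < k → k < 4 → (a : F) ^ k ≠ 1 := fun k a0 b c =>
    pow_ne_one_of_lt_orderOf a0.ne' (by omega) (Units.ext (by simpa using c) : a ^ k = 1)
  exact ⟨a, a.ne_zero, by simpa [sq] using H 2 (by simp) (by simp), by simpa [pow_succ] using H 3 (by simp) (by simp)⟩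

theorem frame_cases [Fintype F] (hD : IsMDecomposition 1 D) (hn : 6 ≤ Fintype.card ι) (hq : 5 ≤ Fintype.card F)
    {M : Subgroup (GL ι F)} (hM : decompositionStabilizer D ⊓ specialLinear ι F ≤ M) (hM' : M ≤ specialLinear ι F) :
    specialLinear ι F ≤ M ∨ M ≤ decompositionStabilizer D := by
  obtain ⟨e, P, h⟩ := exists_bd' hD
  obtain ⟨a, a0, a2, a3⟩ := exists_gen hq
  have hc : 6 ≤ Fintype.card (Fin 1 × Fin t) := Fintype.card_congr e ▸ hn
  have H : HS (M.map (pl e P).toMonoidHom) := fun π c b => by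
    let ε : Fin 1 × Fin t ≃ Fin t := .uniqueProd _ _
    obtain ⟨g, d, f⟩ := bm_mem h hD.two_le (ε.permCongr π) (fun i => of fun _ _ => c (ε.symm i)) (by
      simpa [ε.symm.prod_comp c] using b)
    refine ⟨_, ⟨g, hM d, rfl⟩, f.trans (Matrix.ext fun a b => ?_)⟩
    obtain ⟨a, rfl⟩ := ε.symm.surjective a
    obtain ⟨b, rfl⟩ := ε.symm.surjective b
    simp only [bm, mo, of_apply, permCongr_apply, symm_apply_eq]; rfl
  by_cases hr : RT (M.map (pl e P).toMonoidHom)
  · refine .inl fun g hg => ?_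
    obtain ⟨g', b, c⟩ := H.le (by omega) hr (H09.mem_specialLinear.2 ((det_pl e P g).trans (H09.mem_specialLinear.1 hg)))
    exact (pl e P).injective c ▸ b
  refine .inr fun g hg => h.le hD.two_le fun i => ?_
  obtain ⟨j, b⟩ := H.mon hc a0 a2 a3 hr (by
    rintro _ ⟨g, hg, rfl⟩; exact H09.mem_specialLinear.2 ((det_pl e P g).trans (H09.mem_specialLinear.1 (hM' hg))))
    ⟨g, hg, rfl⟩ (0, i)
  refine ⟨j.2, fun a ⟨c, d⟩ f k => ?_⟩
  obtain rfl : c = 0 := Subsingleton.elim _ _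
  subst f
  simpa [pl_val] using b a (by rintro rfl; exact k rfl)

theorem isMaximalIn_dec_sl [Fintype F] {m : ℕ} (hn : 6 ≤ Fintype.card ι) (hD : IsMDecomposition m D)
    (h1 : ¬ (m = 1 ∧ Fintype.card F ≤ 4)) (h2 : ¬ (m = 2 ∧ Fintype.card F = 2)) :
    IsMaximalIn (specialLinear ι F) (decompositionStabilizer D ⊓ specialLinear ι F) := by
  refine ⟨lt_of_le_of_ne inf_le_right fun h => not_sl_dstab hD (h.ge.trans inf_le_left), fun M a b =>
    Or.imp (fun h => le_antisymm (le_inf h b) a) (le_antisymm b) (Or.symm ?_)⟩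
  have := hD.pos
  have h3 := mdec_card hD
  by_cases h4 : m = 1
  · subst h4; exact frame_cases hD hn (by omega) a b
  obtain ⟨e, P, h⟩ := exists_bd' hD
  refine blk_cases h hD.two_le (by simp; omega) (or_iff_not_imp_left.2 fun h5 => ?_) a
  obtain rfl : m = 2 := by simp at h5; omega
  refine ⟨by omega, by_contra fun H => h2 ⟨rfl, ?_⟩⟩
  classical
  rw [← Finset.card_univ, Finset.card_eq_two]
  exact ⟨0, 1, zero_ne_one, Finset.ext fun c => by simpa [or_iff_not_imp_left] using fun h => by_contra fun h' => H ⟨c, h, h'⟩⟩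

end
end H10.C2
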