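import Mathlib
import Cfsg.Agent.H10.C2B
import Cfsg.Agent.H10.SubfL

/-! # Packaged maximality results in `SL` -/

namespace H10.C2
open Matrix Cfsg Cfsg.Geo
variable {F : Type*} [Field F] [Fintype F] {n : ℕ}

omit [Fintype F] in
theorem sim_symp (hn : 9 ≤ n) (f : (Fin n → F) → (Fin n → F) → F) (hf : IsSymplecticForm f) :
    IsMaximalIn (specialLinear (Fin n) F) (similarityGroup f ⊓ specialLinear (Fin n) F) := by
  obtain ⟨φ, _, h1, h2⟩ := exists_ofAlt hf
  have : Nonempty (Fin n) := ⟨⟨0, by omega⟩⟩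
  exact isMaximalIn_sim (Form.std_of_isAltF h1) (by simpa) (fun g => (mem_similarityGroup_iff h2 _).2
    ⟨1, fun x y => by simp [toGL_mulVec]⟩) (mem_similarityGroup_iff h2)

theorem sim_unit (hn : 9 ≤ n) (σ : F ≃+* F) (f : (Fin n → F) → (Fin n → F) → F) (hf : IsUnitaryForm σ f) :
    IsMaximalIn (specialLinear (Fin n) F) (similarityGroup f ⊓ specialLinear (Fin n) F) := by
  obtain ⟨q, φ, _, h1, -, h2⟩ := exists_ofHerm hf
  have : Nonempty (Fin n) := ⟨⟨0, by omega⟩⟩
  exact isMaximalIn_sim (h1.std (by simp; omega)) (by simpa) (fun g => (mem_similarityGroup_iff h2 _).2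
    ⟨1, fun x y => by simp [toGL_mulVec]⟩) (mem_similarityGroup_iff h2)

theorem sim_quad (hn : 9 ≤ n) (hodd : Odd (Fintype.card F)) (Q : (Fin n → F) → F) (hQ : IsNondegenerateQuadraticForm Q) :
    IsMaximalIn (specialLinear (Fin n) F) (quadSimilarityGroup Q ⊓ specialLinear (Fin n) F) := by
  obtain ⟨Q, rfl, _⟩ := exists_ofQuad hQ
  have h2 := two_ne_zero_of_odd_card hodd
  have : Nonempty (Fin n) := ⟨⟨0, by omega⟩⟩
  refine isMaximalIn_sim ((Form.isQuad_ofQuad Q).std (by simp; omega)) (by simpa)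
    (fun g => ⟨1, fun v => by simpa [toGL_mulVec] using Form.Isom.Q_map g v⟩) fun g => ?_
  rw [← mem_similarityGroup_iff (f := QuadraticMap.polar Q) fun x y => QuadraticMap.polar_comm _ _ _]
  refine exists_congr fun c => ⟨fun h u v => ?_, fun h v => mul_left_cancel₀ h2 ?_⟩
  · simp only [QuadraticMap.polar, ← Matrix.mulVec_add, h]; ring
  · have := h v v
    simp only [QuadraticMap.polar_self, nsmul_eq_mul, Nat.cast_ofNat] at this
    linear_combination this

theorem exists_ne01 (h : 3 ≤ Fintype.card F) : ∃ c : F, c ≠ 0 ∧ c ≠ 1 := by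
  classical
  by_contra H
  have := Finset.card_le_two.trans' (Finset.card_le_card (show Finset.univ ⊆ {(0 : F), 1} from fun c _ => by
    by_contra h0; exact H ⟨c, by simpa using h0⟩))
  simp at this; omega

end H10.C2
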