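import Mathlib
import Cfsg.Agent.H10.SlMax
import Cfsg.Agent.H10.SubfL5

/-! # Similarity groups are maximal in `SL_n` for `n ≥ 6` -/

namespace H10

open Module

namespace Form
variable {F V : Type*} [Field F] [AddCommGroup V] [Module F V] {φ : Form F V}
  [φ.Nondeg] [FiniteDimensional F V]

variable (φ) in
theorem exists_nondeg_orth (l : List V) : ∃ W, φ.NondegOn W ∧
    finrank F V ≤ finrank F W + 2 * l.length ∧ ∀ x ∈ l, x ∈ φ.perp W := by
  set L := Submodule.span F {x | x ∈ l}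
  obtain ⟨C, hC⟩ := (φ.perp L ⊓ L).exists_isCompl
  refine ⟨φ.perp L ⊓ C, fun x hx h0 => Submodule.disjoint_def.1 hC.disjoint x ⟨hx.1, ?_⟩ hx.2, ?_,
    fun x hx => φ.mem_perp'.2 fun y hy => φ.mem_perp.1 hy.1 x (Submodule.subset_span hx)⟩
  · refine (φ.perp_perp L).le (φ.mem_perp'.2 fun y hy => ?_)
    obtain ⟨a, b, rfl⟩ := exists_add_of_isCompl hC y
    rw [map_add, φ.mem_perp'.1 hx.1 a a.2.2, zero_add]
    exact h0 b ⟨by simpa using (φ.perp L).sub_mem hy a.2.1, b.2⟩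
  · have h1 := finrank_add_le_inf (φ.perp L) C
    have h2 := Submodule.finrank_add_eq_of_isCompl hC
    have h3 := Submodule.finrank_mono (inf_le_right : φ.perp L ⊓ L ≤ L)
    have h4 := φ.finrank_perp L
    have h5 : finrank F L ≤ l.length := finrank_span_list_le (F := F) l
    omega

namespace Std
variable (h : φ.Std)
include h

theorem exists_E_eqOn' (l : List V) (hn : 2 * l.length + 2 ≤ finrank F V) (g : φ.Isom) :
    ∃ k ∈ φ.E, ∀ x ∈ l, k.1 x = g.1 x := by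
  obtain ⟨W, h1, h2, h3⟩ := φ.exists_nondeg_orth l
  obtain ⟨r, hr, hr'⟩ := h.adj _ h1 (by omega) g
  exact ⟨_, hr', fun x hx => by rw [Isom.mul_apply, hr x (h3 x hx)]⟩

theorem perp_le_of_inv' (hn : 6 ≤ finrank F V) {p : V} (hp : φ.Q p = 0) (hp0 : p ≠ 0)
    {A : Submodule F V} (hpA : p ∈ A) (hA : ∀ k ∈ φ.E, k.1 p = p → ∀ x ∈ A, k.1 x ∈ A) {u : V}
    (hu : u ∈ A) (hu' : u ∉ F ∙ p) (hpu : φ.B p u = 0) : φ.perp (F ∙ p) ≤ A := by
  obtain ⟨f, hyp⟩ := φ.exists_hyp hp hp0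
  have h1 := hyp.finrank_perp
  have h2 : φ.perp (Submodule.span F {p, f}) ≤ A := by
    refine h.wc A _ (fun x hx hxA hx0 y hy hy0 hQ => ?_) hyp.nondegOn.perp (by omega) _
      (hyp.proj_mem u) ?_ fun h0 => hu' ?_
    · obtain ⟨g, hg, hg'⟩ := hyp.nondegOn.perp.exists_fix_map hx hy hx0 hy0 hQ.symm
      obtain ⟨k, hk, hk'⟩ := h.exists_E_eqOn' [p, x] (by simpa using hn) g
      simp only [List.mem_cons, List.not_mem_nil, or_false, forall_eq_or_imp, forall_eq] at hk'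
      rw [← hg', ← hk'.2]
      exact hA k hk (hk'.1.trans (hg p (φ.le_perp_perp _ (Submodule.subset_span (by simp))))) x hxA
    · rw [hpu, zero_smul, sub_zero]
      exact A.sub_mem hu (A.smul_mem _ hpA)
    · rw [hpu, zero_smul, sub_zero, sub_eq_zero] at h0
      exact Submodule.mem_span_singleton.2 ⟨_, h0.symm⟩
  intro y hy
  have := h2 (hyp.proj_mem y)
  rw [φ.mem_perp_singleton.1 hy, zero_smul, sub_zero] at this
  simpa using A.add_mem this (A.smul_mem (φ.ε * φ.B f y) hpA)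

theorem exists_eq_mul' (hn : 6 ≤ finrank F V) (B' : V →ₛₗ[φ.σ] V →ₗ[F] F)
    (H : ∀ p w, φ.Q p = 0 → φ.B p w = 0 → B' p w = 0) : ∃ c, ∀ x y, B' x y = c * φ.B x y := by
  have h1 : ∀ p, φ.Q p = 0 → ∃ c, ∀ y, B' p y = c * φ.B p y := fun p hp => by
    by_cases hp0 : p = 0
    · exact ⟨0, by simp [hp0]⟩
    obtain ⟨z, hz⟩ := φ.exists_B_eq_one hp0
    refine ⟨B' p z, fun y => ?_⟩
    have := H p (y - φ.B p y • z) hp (by simp [hz])
    simp only [map_sub, map_smul, smul_eq_mul] at this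
    linear_combination this
  choose! c hc using h1
  have h2 : ∀ p y, φ.Q p = 0 → φ.Q y = 0 → φ.B p y = 0 → p ∉ F ∙ y → c p = c (p + y) :=
    fun p y hp hy hpy h3 => by
      obtain ⟨z, h4, h5⟩ := φ.exists_sep' h3
      have h6 := hc (p + y) (by rw [φ.Q_add_of_orth hpy, hp, hy, add_zero]) z
      simpa [hc p hp, hc y hy, h5, h4 y (Submodule.mem_span_singleton_self y)] using h6
  have h2' : ∀ p y, p ≠ 0 → φ.Q p = 0 → φ.Q y = 0 → φ.B p y = 0 → y ∉ F ∙ p → c p = c y :=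
    fun p y h0 hp hy hpy h3 => by
      rw [h2 p y hp hy hpy (not_mem_span_singleton_symm h0 h3), add_comm, ← h2 y p hy hp (φ.B_symm_zero hpy) h3]
  obtain ⟨p, -, hp0, hp⟩ := h.sing ⊤ (by simp; omega)
  have h3 : ∀ z, z ≠ 0 → φ.Q z = 0 → c z = c p := fun z hz0 hz => by
    have := finrank_span_singleton_le (F := F) p
    obtain ⟨y, -, h4, h5, h6⟩ := h.exists_sing_orth ⊤ (F ∙ p) [p, z] (by simp; omega)
    simp only [List.mem_cons, List.not_mem_nil, or_false, forall_eq_or_imp, forall_eq] at h6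
    by_cases h8 : y ∈ F ∙ z
    · have h9 : z ∈ F ∙ y := by
        by_contra h9; exact not_mem_span_singleton_symm (by rintro rfl; simp at h4) h9 h8
      obtain ⟨a, rfl⟩ := Submodule.mem_span_singleton.1 h9
      exact (h2' p _ hp0 hp hz (by simp [h6.1]) fun h0 =>
        h4 ((Submodule.span_singleton_le_iff_mem _ _).2 h0 h8)).symm
    rw [h2' z y hz0 hz h5 h6.2 h8, h2' p y hp0 hp h5 h6.1 h4]
  refine ⟨c p, fun x y => ?_⟩
  have := h.le_of_sing (A := LinearMap.ker (B' - c p • φ.B)) φ.nondegOn_top (by simp; omega)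
    (fun w _ hw0 hw => by ext y; simp [hc w hw, h3 w hw0 hw]) (Submodule.mem_top (x := x))
  simpa [sub_eq_zero] using LinearMap.congr_fun (LinearMap.mem_ker.1 this) y

theorem mem_fullSub_of' (hn : 6 ≤ finrank F V) {M : Subgroup (V ≃ₗ[F] V)}
    (hM : ∀ k ∈ φ.E, k.1 ∈ M) {p u : V} (hp : φ.Q p = 0) (hp0 : p ≠ 0) (hu : u ∉ F ∙ p)
    (hpu : φ.B p u = 0) (H : ∀ c : F, ∃ d : F, Tv M p (φ.B (c • u + d • p))) (v : V) :
    v ∈ fullSub M := by
  have hpp := φ.B_self_eq_zero hp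
  have h0 : ∀ k ∈ φ.E, k.1 p = p → ∀ x, Tv M p (φ.B x) → Tv M p (φ.B (k.1 x)) := fun k hk h1 x hx => by
    convert hx.conj (hM k hk) using 1
    · exact h1.symm
    · ext y; simp [Isom.B_symm_right]
  have h1 : ∀ d : F, Tv M p (φ.B (d • p)) := fun d => by
    obtain ⟨e, he⟩ := H 1
    obtain ⟨w, h2, h3⟩ := φ.exists_sep hu
    have h4 : φ.B p (φ.σ d • w) = 0 := by
      simp [φ.B_symm_zero (h2 p (Submodule.mem_span_singleton_self p))]
    obtain ⟨s, hs, -⟩ := φ.half (φ.σ d • w)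
    have h5 : φ.B ((1 : F) • u + e • p) p = 0 := by simp [φ.B_symm_zero hpu, hpp]
    convert (h0 _ (φ.siegel_mem_E hp h4 hs) (siegel_apply_self hp h4 hs) _ he).sub he
      (by nth_rw 3 [← siegel_apply_self hp h4 hs]; rwa [Isom.B_map]) h5 using 1
    rw [← map_sub, φ.siegel_apply hp h4 hs]
    simp [hpu, hpp, h3, h2 p (Submodule.mem_span_singleton_self p)]
  let A : Submodule F V :=
    { carrier := {x | φ.B x p = 0 ∧ ∀ c : F, Tv M p (φ.B (c • x))}
      zero_mem' := ⟨by simp, fun c => by simpa using tv_zero⟩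
      add_mem' := fun {x y} hx hy => ⟨by simp [hx.1, hy.1], fun c => by
        rw [smul_add, map_add]; exact (hx.2 c).add (hy.2 c) (by simp [hx.1])⟩
      smul_mem' := fun c x hx => ⟨by simp [hx.1], fun d => by rw [smul_smul]; exact hx.2 _⟩ }
  have h2 : φ.perp (F ∙ p) ≤ A := by
    refine h.perp_le_of_inv' hn hp hp0 (A := A) ⟨hpp, h1⟩ (fun k hk hkp x hx => ⟨?_, fun c => ?_⟩)
      ⟨φ.B_symm_zero hpu, fun c => ?_⟩ hu hpu
    · rw [← hkp, Isom.B_map]; exact hx.1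
    · rw [← map_smul]; exact h0 k hk hkp _ (hx.2 c)
    · obtain ⟨d, hd⟩ := H c
      convert hd.sub (h1 d) (by simp [φ.B_symm_zero hpu, hpp]) (by simp [hpp]) using 1
      simp
  have h3 : p ∈ fullSub M := fun f hf => by
    obtain ⟨x, rfl⟩ := φ.exists_B_eq f
    simpa using (h2 (φ.mem_perp_singleton.2 (φ.B_symm_zero hf))).2 1
  refine h.le_of_sing φ.nondegOn_top (by simp; omega) (fun w _ hw0 hw => ?_) Submodule.mem_top
  obtain ⟨k, hk, rfl⟩ := h.exists_E_map (by omega) hp0 hw0 (hp.trans hw.symm)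
  exact map_mem_fullSub h3 (hM k hk)

variable (hn : 6 ≤ finrank F V) {M : Subgroup (V ≃ₗ[F] V)} (hM : ∀ k ∈ φ.E, k.1 ∈ M)
  (hf : ¬ ∀ v, v ∈ fullSub M) {t : V ≃ₗ[F] V} (ht : t ∈ M) {p : V} (hp : φ.Q p = 0) (hp0 : p ≠ 0)
  (htp : t p = p)
include hn hM hf ht hp hp0 htp

theorem pres_of_fix : ∃ c, ∀ x, φ.B p x = c * φ.B p (t x) := by
  obtain ⟨u, hu⟩ := φ.exists_B_eq (φ.B p ∘ₗ (t.symm : V →ₗ[F] V))
  have hu' : ∀ x, φ.B p (t.symm x) = φ.B u x := fun x => by simp [hu]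
  have h15 : t.symm p = p := by rw [t.symm_apply_eq, htp]
  have hpp := φ.B_self_eq_zero hp
  by_cases h1 : u ∈ F ∙ p
  · obtain ⟨a, rfl⟩ := Submodule.mem_span_singleton.1 h1
    exact ⟨φ.σ a, fun x => by simpa using hu' (t x)⟩
  have hup : φ.B u p = 0 := by rw [← hu', h15, hpp]
  refine absurd (h.mem_fullSub_of' hn hM hp hp0 h1 (φ.B_symm_zero hup) fun c => ?_) hf
  obtain ⟨z, -, h2, h3⟩ := φ.exists_orth ⊤ (Submodule.span F {p, u}) [p, u]
    (by have := finrank_span_pair_le (F := F) p u; simp; omega)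
  obtain ⟨w₀, h4, h5⟩ := φ.exists_sep h2
  simp only [List.mem_cons, List.not_mem_nil, or_false, forall_eq_or_imp, forall_eq] at h3
  obtain ⟨w, h6, h7, h8⟩ : ∃ w, φ.B p w = 0 ∧ φ.B u w = 0 ∧ φ.B w z = φ.ε * φ.σ c :=
    ⟨(φ.ε * c) • w₀, by simp [φ.B_symm_zero (h4 p (Submodule.subset_span (by simp)))],
      by simp [φ.B_symm_zero (h4 u (Submodule.subset_span (by simp)))], by simp [h5]⟩
  have h9 : φ.B p (t.symm z) = 0 := by rw [hu', h3.2]
  obtain ⟨s, hs, -⟩ := φ.half w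
  obtain ⟨s', hs', -⟩ := φ.half (t.symm z)
  set m : V ≃ₗ[F] V := t * (φ.siegel p _ s').1 * t⁻¹ with hm
  have hmM : m ∈ M := M.mul_mem (M.mul_mem ht (hM _ (φ.siegel_mem_E hp h9 hs'))) (M.inv_mem ht)
  have hm' : ∀ x, m x = x + φ.B (t.symm z) (t.symm x) • p - (φ.ε * φ.B u x) • z -
      (φ.ε * s' * φ.B u x) • p := fun x => by
    simp [hm, φ.siegel_apply hp h9 hs', hu', htp]
  have hσ := hM _ (φ.siegel_mem_E hp h6 hs)
  refine ⟨-φ.σ (φ.ε * φ.B (t.symm z) (t.symm w)), ((φ.siegel p w s).1 * m)⁻¹ * (m * (φ.siegel p w s).1),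
    M.mul_mem (M.inv_mem (M.mul_mem hσ hmM)) (M.mul_mem hmM hσ), fun x => ?_⟩
  rw [LinearEquiv.mul_apply, LinearEquiv.coe_inv, LinearEquiv.symm_apply_eq]
  simp only [LinearEquiv.mul_apply, hm', φ.siegel_apply hp h6 hs, map_add, map_sub, map_smul, h15, hup,
    hpp, h3.1, h7, h8, φ.B_symm_zero h6, φ.B_symm_zero h9, smul_eq_mul, LinearMap.map_smulₛₗ,
    LinearMap.add_apply, LinearMap.smul_apply, map_neg, σ_σ]
  match_scalars
  · ring
  · linear_combination (φ.σ c * φ.B u x) * φ.ε_mul_ε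
  · ring
  · ring

theorem van_of_fix (h13 : ∀ x, φ.B p (t x) = φ.B p x) (w y : V) (hw : φ.B p w = 0) (hy : φ.B p y = 0) :
    φ.B (t w) (t y) = φ.B w y := by
  have h14 : ∀ x, φ.B p (t.symm x) = φ.B p x := fun x => by rw [← h13, t.apply_symm_apply]
  have h15 : t.symm p = p := by rw [t.symm_apply_eq, htp]
  obtain ⟨u, hu⟩ := φ.exists_B_eq (φ.B w ∘ₗ (t.symm : V →ₗ[F] V) - φ.B (t w))
  by_cases h1 : u ∈ F ∙ p
  · obtain ⟨a, rfl⟩ := Submodule.mem_span_singleton.1 h1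
    have := LinearMap.congr_fun hu (t y)
    simp [h13, hy] at this
    linear_combination this
  refine absurd (h.mem_fullSub_of' hn hM hp hp0 h1 ?_ fun c => ?_) hf
  · refine φ.B_symm_zero ?_
    simp [hu, h15, φ.B_symm_zero hw, φ.B_symm_zero ((h13 _).trans hw)]
  have h16 : φ.B p (c • w) = 0 := by simp [hw]
  have h17 : φ.B p (t (c • w)) = 0 := by rw [h13, h16]
  obtain ⟨s, hs, -⟩ := φ.half (c • w)
  obtain ⟨s', hs', -⟩ := φ.half (t (c • w))
  refine ⟨φ.σ (φ.ε * (s' - s)), (φ.siegel p _ s').1⁻¹ * (t * (φ.siegel p _ s).1 * t⁻¹),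
    M.mul_mem (M.inv_mem (hM _ (φ.siegel_mem_E hp h17 hs')))
      (M.mul_mem (M.mul_mem ht (hM _ (φ.siegel_mem_E hp h16 hs))) (M.inv_mem ht)), fun x => ?_⟩
  rw [LinearEquiv.mul_apply, LinearEquiv.coe_inv, LinearEquiv.symm_apply_eq, map_add,
    map_smul (φ.siegel p _ s').1, siegel_apply_self hp h17 hs', φ.siegel_apply hp h17 hs']
  simp only [LinearEquiv.mul_apply, LinearEquiv.coe_inv, φ.siegel_apply hp h16 hs, map_add, map_sub,
    map_smul, htp, h14, LinearEquiv.apply_symm_apply, LinearMap.map_smulₛₗ, hu, σ_σ,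
    LinearMap.add_apply, LinearMap.smul_apply, LinearMap.sub_apply, LinearMap.comp_apply,
    LinearEquiv.coe_coe, smul_eq_mul]
  module

omit hf ht hp hp0 htp in
theorem mem_fullSub_of_not_sim' (hc : (∃ c, c + φ.ε * φ.σ c ≠ 0) ∨ ∀ x, φ.Q x = 0) {g : V ≃ₗ[F] V} (hg : g ∈ M)
    (hg' : ¬ ∃ c, ∀ x y, φ.B (g x) (g y) = c * φ.B x y) : ∀ v, v ∈ fullSub M := by
  by_contra hf
  obtain ⟨p₀, w₀, s₀, h1, h2, h3, w, y, h4⟩ : ∃ p w s, φ.Q p = 0 ∧ φ.B p w = 0 ∧ φ.T s = φ.Q w ∧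
      ∃ x y, φ.B (g ((φ.siegel p w s).1 x)) (g ((φ.siegel p w s).1 y)) ≠ φ.B (g x) (g y) := by
    by_contra h0
    push Not at h0
    refine hg' (h.exists_eq_mul' (by omega) ((φ.B.comp (g : V →ₗ[F] V)).compl₂ (g : V →ₗ[F] V))
      fun p w hp hw => ?_)
    change φ.B (g p) (g w) = 0
    by_cases hp0 : p = 0
    · simp [hp0]
    have h1 : ∀ w y, φ.B p w = 0 → ∃ s, φ.B w y * φ.B (g p) (g p) - φ.ε * φ.B p y * φ.B (g p) (g w) -
        φ.ε * s * φ.B p y * φ.B (g p) (g p) = 0 := fun w y hw => by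
      obtain ⟨s, hs, -⟩ := φ.half w
      have := h0 p w s hp hw hs p y
      rw [siegel_apply_self hp hw hs, φ.siegel_apply hp hw hs] at this
      simp only [map_add, map_sub, map_smul, smul_eq_mul] at this
      exact ⟨s, by linear_combination this⟩
    obtain ⟨u, -, h2, h3⟩ := φ.exists_orth ⊤ (F ∙ p) [p]
      (by have := finrank_span_singleton_le (F := F) p; simp; omega)
    obtain ⟨y, h4, h5⟩ := φ.exists_sep' h2
    obtain ⟨s, h6⟩ := h1 u y (by simpa using h3)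
    rw [h5, h4 p (Submodule.mem_span_singleton_self p)] at h6
    obtain ⟨z, hz⟩ := φ.exists_B_eq_one hp0
    obtain ⟨s, h7⟩ := h1 w z hw
    simp only [one_mul, mul_zero, zero_mul, sub_zero] at h6
    simpa [h6, hz, φ.ε_ne_zero] using h7
  set t : V ≃ₗ[F] V := g * (φ.siegel p₀ w₀ s₀).1 * g⁻¹ with ht
  have htM : t ∈ M := M.mul_mem (M.mul_mem hg (hM _ (φ.siegel_mem_E h1 h2 h3))) (M.inv_mem hg)
  obtain ⟨a, ha⟩ := φ.exists_B_eq (φ.B p₀ ∘ₗ (g.symm : V →ₗ[F] V))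
  obtain ⟨b, hb⟩ := φ.exists_B_eq (φ.B w₀ ∘ₗ (g.symm : V →ₗ[F] V))
  have ht' : ∀ x, t x = x + φ.B b x • g p₀ - (φ.ε * φ.B a x) • g w₀ - (φ.ε * s₀ * φ.B a x) • g p₀ :=
    fun x => by simp [ht, φ.siegel_apply h1 h2 h3, ha, hb]
  let D : V →ₛₗ[φ.σ] V →ₗ[F] F := (φ.B.comp (t : V →ₗ[F] V)).compl₂ (t : V →ₗ[F] V) - φ.B
  have hD : ∀ x y, D x y = φ.B (t x) (t y) - φ.B x y := fun _ _ => rfl
  have hD' : ∀ x y, D y x = φ.ε * φ.σ (D x y) := fun x y => by
    rw [hD, hD, φ.symm (t x), φ.symm x, map_sub, mul_sub]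
  have key : ∀ p, φ.Q p = 0 → φ.B a p = 0 → φ.B b p = 0 →
      (∀ x, D p x = 0) ∧ (p ≠ 0 → ∀ x y, φ.B p x = 0 → φ.B p y = 0 → D x y = 0) := fun p hp h5 h6 => by
    have h7 : t p = p := by simp [ht', h5, h6]
    by_cases hp0 : p = 0
    · simp [hp0]
    have h8 : ∀ x, φ.B p (t x) = φ.B p x := by
      obtain ⟨c, hc⟩ := h.pres_of_fix hn hM hf htM hp hp0 h7
      by_cases h9 : c = 1
      · simpa [h9, eq_comm] using hc
      have h10 : φ.B p (g p₀) = 0 := by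
        have := hc (g p₀)
        rw [ht'] at this
        simp [ha, hb, φ.B_self_eq_zero h1, φ.B_symm_zero h2] at this
        exact (mul_eq_zero.1 (show (1 - c) * _ = 0 by linear_combination this)).resolve_left (sub_ne_zero.2 (Ne.symm h9))
      have h11 : φ.B p (g w₀) = 0 := by
        have := hc (g w₀)
        rw [ht'] at this
        simp [ha, hb, h2, h10] at this
        exact (mul_eq_zero.1 (show (1 - c) * _ = 0 by linear_combination this)).resolve_left (sub_ne_zero.2 (Ne.symm h9))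
      intro x
      simp [ht', h10, h11]
    exact ⟨fun x => by rw [hD, h7, h8, sub_self], fun _ x y hx hy => by
      rw [hD, h.van_of_fix hn hM hf htM hp hp0 h7 h8 x y hx hy, sub_self]⟩
  refine h4 (sub_eq_zero.1 (show D (g w) (g y) = 0 from ?_) ▸ by simp [ht])
  have hab := finrank_span_pair_le (F := F) a b
  have hK := φ.finrank_perp (Submodule.span F {a, b})
  by_cases h5 : ∃ p q, φ.Q p = 0 ∧ φ.B a p = 0 ∧ φ.B b p = 0 ∧ φ.Q q = 0 ∧ φ.B a q = 0 ∧ φ.B b q = 0 ∧ φ.B p q ≠ 0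
  · obtain ⟨p, q, h5, h6, h7, h8, h9, h10, h11⟩ := h5
    have h12 := (key q h8 h9 h10).1
    have := (key p h5 h6 h7).2 (by rintro rfl; simp at h11) (g w - (φ.B p (g w) / φ.B p q) • q)
      (g y - (φ.B p (g y) / φ.B p q) • q) (by simp [h11]) (by simp [h11])
    simpa [h12, hD' q] using this
  push Not at h5
  obtain ⟨c₀, hc⟩ | hc := hc
  swap
  · have := Submodule.finrank_mono (show φ.perp (Submodule.span F {a, b}) ≤ Submodule.span F {a, b} from
      fun x hx => (φ.perp_perp _).le (φ.mem_perp.2 fun z hz => h5 z x (hc _) (φ.mem_perp_pair.1 hz).1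
        (φ.mem_perp_pair.1 hz).2 (hc _) (φ.mem_perp_pair.1 hx).1 (φ.mem_perp_pair.1 hx).2))
    omega
  obtain ⟨p, -, hp0, hp, h6⟩ := h.exists_sing_orth ⊤ ⊥ [a, b] (by simp; omega)
  obtain ⟨q, -, hq0, hq, h7⟩ := h.exists_sing_orth ⊤ (F ∙ p) [a, b]
    (by have := finrank_span_singleton_le (F := F) p; simp; omega)
  simp only [List.mem_cons, List.not_mem_nil, or_false, forall_eq_or_imp, forall_eq, Submodule.mem_bot] at h6 h7 hp0
  have h8 := h5 p q hp h6.1 h6.2 hq h7.1 h7.2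
  have hq0' := not_mem_span_singleton_symm hp0 hq0
  obtain ⟨x₁, h9, h10⟩ := φ.exists_sep' hq0'
  obtain ⟨x₂, h11, h12⟩ := φ.exists_sep' hq0
  replace h9 := h9 q (Submodule.mem_span_singleton_self q)
  replace h11 := h11 p (Submodule.mem_span_singleton_self p)
  have kp := (key p hp h6.1 h6.2).2 hp0
  have kq := (key q hq h7.1 h7.2).2 (by rintro rfl; simp at hq0)
  have h13 : D x₁ x₂ = 0 := by
    by_contra h13
    have := (key (φ.σ (c₀ / D x₁ x₂) • p + q) (by rw [φ.Q_add_of_orth (by simp [h8]), φ.Q_smul_of_sing hp, hq, add_zero])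
      (by simp [h6, h7]) (by simp [h6, h7])).2 (fun h0 => hq0 (Submodule.mem_span_singleton.2
        ⟨-φ.σ (c₀ / D x₁ x₂), by rw [neg_smul, neg_eq_iff_add_eq_zero, h0]⟩))
      (x₁ - (c₀ / D x₁ x₂) • x₂) (x₁ - (c₀ / D x₁ x₂) • x₂) (by simp [h9, h10, h11, h12]) (by simp [h9, h10, h11, h12])
    simp only [map_sub, map_smul, LinearMap.map_smulₛₗ, LinearMap.sub_apply, LinearMap.smul_apply,
      kq x₁ x₁ h9 h9, kp x₂ x₂ h11 h11, hD' x₁ x₂, smul_eq_mul, map_div₀] at this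
    have h14 : φ.σ (D x₁ x₂) ≠ 0 := by simpa using h13
    refine hc (mul_left_cancel₀ (mul_ne_zero h14 h13) ?_)
    field_simp at this
    linear_combination -this
  have h14 : ∀ x, D x₁ x = 0 := fun x => by
    simpa [h13] using kq x₁ (x - φ.B q x • x₂) h9 (by simp [h12])
  simpa [h14, hD' x₁] using kp (g w - φ.B p (g w) • x₁) (g y - φ.B p (g y) • x₁) (by simp [h10]) (by simp [h10])

end Std
end Form

open Matrix Cfsg Cfsg.Geo

theorem isMaximalIn_sim' {ι : Type} [Fintype ι] [DecidableEq ι] {F : Type*} [Field F] {φ : Form F (ι → F)}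
    [φ.Nondeg] (h : φ.Std) (hn : 6 ≤ Fintype.card ι) (hc : (∃ c, c + φ.ε * φ.σ c ≠ 0) ∨ ∀ x, φ.Q x = 0)
    {S : Subgroup (GL ι F)} (h1 : ∀ g : φ.Isom, φ.toGL g ∈ S)
    (h2 : ∀ g : GL ι F, g ∈ S ↔ ∃ c, ∀ x y, φ.B (g.1 *ᵥ x) (g.1 *ᵥ y) = c * φ.B x y) :
    IsMaximalIn (specialLinear ι F) (S ⊓ specialLinear ι F) := by
  refine ⟨lt_of_le_of_ne inf_le_right fun h0 => ?_, fun M hM hM' => ?_⟩
  · obtain ⟨p, y, h3, -⟩ := h.exists_hyp_orth [] (by simp; omega)
    have := h3.finrank_perp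
    obtain ⟨u, hu, hu0⟩ := Submodule.exists_mem_ne_zero_of_ne_bot (p := φ.perp (Submodule.span F {p, y}))
      (fun h => by rw [h] at this; simp at this; omega)
    obtain ⟨x, hx, h4⟩ : ∃ x ∈ φ.perp (Submodule.span F {p, y}), φ.B u x ≠ 0 := by
      by_contra! h4; exact hu0 (h3.nondegOn.perp u hu h4)
    rw [φ.mem_perp_pair] at hu hx
    obtain ⟨g, hg, hg'⟩ := exists_sl_tv p (φ.B u) (φ.B_symm_zero hu.1)
    obtain ⟨c, hc⟩ := (h2 g).1 (h0.ge hg).1
    simpa [hg', h4, φ.B_symm_zero hu.2, φ.B_symm_zero hx.2, h3.Bef] using hc x y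
  by_cases h3 : M ≤ S
  · exact Or.inl (le_antisymm (le_inf h3 hM') hM)
  obtain ⟨g, hg, hg'⟩ := SetLike.not_le_iff_exists.1 h3
  refine Or.inr (le_antisymm hM' (specialLinear_le_of_fullSub fun v =>
    h.mem_fullSub_of_not_sim' (g := glEquiv g) (by simpa using hn) (fun k hk => Subgroup.mem_map.2
      ⟨φ.toGL k, hM ⟨h1 k, toGL_mem_specialLinear hk⟩, ?_⟩) hc (Subgroup.mem_map_of_mem _ hg)
      (fun h4 => hg' ((h2 g).2 h4)) v))
  exact LinearEquiv.ext fun x => toGL_mulVec k x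

variable {F : Type*} [Field F] [Fintype F] {n : ℕ}

omit [Fintype F] in
theorem sim_symp' (hn : 6 ≤ n) (f : (Fin n → F) → (Fin n → F) → F) (hf : IsSymplecticForm f) :
    IsMaximalIn (specialLinear (Fin n) F) (similarityGroup f ⊓ specialLinear (Fin n) F) := by
  obtain ⟨φ, _, h1, h2⟩ := exists_ofAlt hf
  have : Nonempty (Fin n) := ⟨⟨0, by omega⟩⟩
  exact isMaximalIn_sim' (Form.std_of_isAltF h1) (by simpa) (.inr h1.Q_eq) (fun g => (mem_similarityGroup_iff h2 _).2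
    ⟨1, fun x y => by simp [toGL_mulVec]⟩) (mem_similarityGroup_iff h2)

theorem sim_unit' (hn : 6 ≤ n) (σ : F ≃+* F) (f : (Fin n → F) → (Fin n → F) → F) (hf : IsUnitaryForm σ f) :
    IsMaximalIn (specialLinear (Fin n) F) (similarityGroup f ⊓ specialLinear (Fin n) F) := by
  obtain ⟨q, φ, _, h1, -, h2⟩ := exists_ofHerm hf
  have : Nonempty (Fin n) := ⟨⟨0, by omega⟩⟩
  exact isMaximalIn_sim' (h1.std (by simp; omega)) (by simpa) (.inl (by simpa [h1.herm.T_eq, h1.herm.ε_eq] using h1.exists_T)) (fun g => (mem_similarityGroup_iff h2 _).2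
    ⟨1, fun x y => by simp [toGL_mulVec]⟩) (mem_similarityGroup_iff h2)

theorem sim_quad' (hn : 6 ≤ n) (hodd : Odd (Fintype.card F)) (Q : (Fin n → F) → F) (hQ : IsNondegenerateQuadraticForm Q) :
    IsMaximalIn (specialLinear (Fin n) F) (quadSimilarityGroup Q ⊓ specialLinear (Fin n) F) := by
  obtain ⟨Q, rfl, _⟩ := exists_ofQuad hQ
  have h2 := two_ne_zero_of_odd_card hodd
  have : Nonempty (Fin n) := ⟨⟨0, by omega⟩⟩
  refine isMaximalIn_sim' ((Form.isQuad_ofQuad Q).std (by simp; omega)) (by simpa)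
    (.inl ⟨1, by simpa [Form.ofQuad, one_add_one_eq_two] using h2⟩)
    (fun g => ⟨1, fun v => by simpa [toGL_mulVec] using Form.Isom.Q_map g v⟩) fun g => ?_
  rw [← mem_similarityGroup_iff (f := QuadraticMap.polar Q) fun x y => QuadraticMap.polar_comm _ _ _]
  refine exists_congr fun c => ⟨fun h u v => ?_, fun h v => mul_left_cancel₀ h2 ?_⟩
  · simp only [QuadraticMap.polar, ← Matrix.mulVec_add, h]; ring
  · have := h v v
    simp only [QuadraticMap.polar_self, nsmul_eq_mul, Nat.cast_ofNat] at this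
    linear_combination this

end H10
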