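import Mathlib
import Cfsg.Agent.H10.FrC

/-!
# Orthogonal frames, III: maximality of frame stabilisers in `Ω` over prime fields
* `Fr.star`, `Fr.key`, `Fr.le_dstab`, `isMaximalIn_frame`
-/

namespace H10

open Module

namespace Form
variable {F V : Type*} [Field F] [AddCommGroup V] [Module F V] {φ : Form F V} {κ : Type*}
variable [φ.Nondeg] [FiniteDimensional F V]

theorem Neg.mem_iff {z : φ.Isom} {W : Submodule F V} (h : Neg z W) (hW : φ.NondegOn W) (h2 : (2 : F) ≠ 0) {x : V} :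
    x ∈ W ↔ z.1 x = -x := by
  refine ⟨h.1 x, fun a => ?_⟩
  obtain ⟨u, hu, y, hy, rfl⟩ := hW.split x
  rw [map_add, h.1 u hu, h.2 y hy, neg_add, add_right_inj, eq_neg_iff_add_eq_zero, ← two_smul F,
    smul_eq_zero_iff_right h2] at a
  simpa [a]

omit [φ.Nondeg] [FiniteDimensional F V] in
theorem nondegOn_map_isom {W : Submodule F V} (hW : φ.NondegOn W) (g : φ.Isom) :
    φ.NondegOn (W.map (g.1 : V →ₗ[F] V)) := by
  rintro _ ⟨x, hx, rfl⟩ H
  simpa using hW x hx fun y hy => by simpa using H _ ⟨y, hy, rfl⟩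

variable [Fintype κ] [DecidableEq κ] [Finite F]

namespace Fr
variable {e : κ → V} {N : F} (h : φ.Fr e N)
include h

theorem fr {g : φ.Isom} {a : V} (ha : φ.Rt e a) (hg : ∀ b, φ.Rt e b → chi (φ.Q a) = chi (φ.Q b) → φ.Rt e (g.1 b)) :
    g ∈ φ.dstab (ln F e) := h.mem_dstab.2 fun i => by
  by_cases c : chi (φ.Q a) = chi (2 * N)
  swap
  · have c' := (h.root_chi ha).resolve_right c
    have r := hg _ (h.rt_e i) (by rw [c', h.Qe])
    obtain ⟨j, hj⟩ := h.root_ex r
    exact ⟨j, ((h.root_cls r hj).resolve_right fun ⟨_, _, _, d⟩ => c (by rw [c', ← d, Isom.Q_map, h.Qe])).1⟩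
  have r1 : ∀ j, j ≠ i → φ.Rt e (g.1 (e j) + g.1 (e i)) := fun j a => map_add g.1 _ _ ▸
    hg _ (h.rt_add a).2 (by rw [c, (h.rt_add a).1])
  have r2 : ∀ j, j ≠ i → φ.Rt e (g.1 (e j) - g.1 (e i)) := fun j a => map_sub g.1 _ _ ▸
    hg _ (h.rt_sub a).2.1 (by rw [c, (h.rt_sub a).1])
  obtain ⟨j, hj⟩ := h.ex [i] (by simp)
  obtain ⟨k, hk, -⟩ := ex_not (φ.supp e (g.1 (e j) + g.1 (e i)) ∪ φ.supp e (g.1 (e j) - g.1 (e i))) [] (by
    have := h.root_supp (r1 j (by simpa using hj)); have := h.root_supp (r2 j (by simpa using hj))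
    have := Finset.card_union_le (φ.supp e (g.1 (e j) + g.1 (e i))) (φ.supp e (g.1 (e j) - g.1 (e i)))
    have := h.n10; simp only [List.length_nil]; omega)
  simp only [Finset.mem_union, mem_supp, not_or, not_not, map_add, map_sub] at hk
  replace hk : φ.B (e k) (g.1 (e i)) = 0 := mul_left_cancel₀ h.h2 (by linear_combination hk.1 - hk.2)
  clear hj j
  obtain ⟨j, hj⟩ : ∃ j, φ.B (e k) (g.1 (e j)) ≠ 0 := by
    by_contra! H
    exact h.ne0 k (by simpa using (h.tot ((g⁻¹).1 (e k)) fun j => by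
      rw [← Isom.B_map g, Isom.apply_inv_apply, h.q.B_comm, H]))
  have ji : j ≠ i := by rintro rfl; exact hj hk
  obtain ⟨l, l1, l2⟩ := h.root_at (i := k) (r1 j ji) (by simpa [hk])
  obtain ⟨m, m1, m2⟩ := h.root_at (i := k) (r2 j ji) (by simpa [hk])
  obtain rfl : l = m := by
    by_contra a
    obtain ⟨s, t, hs⟩ := Submodule.mem_span_pair.1 l2
    have a1 : φ.B (g.1 (e j) + g.1 (e i)) (g.1 (e j) - g.1 (e i)) = 0 := by simp [h.Bij, ji, ji.symm]
    have a2 := congrArg (φ.B (e k)) hs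
    rw [← hs] at a1
    simp only [map_add, map_smulₛₗ, LinearMap.add_apply, LinearMap.smul_apply, h.mem_pair.1 m2 l l1 a] at a1
    simp only [map_add, map_smul, h.Bee, h.orth k l l1.symm, hk, map_sub, smul_eq_mul, h.q.σ_eq] at a1 a2
    exact hj (by rw [show s = 0 by simpa [hj] using a1] at a2; simpa using a2.symm)
  refine ⟨l, h.mem_ln.2 fun n a => ?_⟩
  by_cases b : n = k
  · rw [b, hk]
  have a1 := h.mem_pair.1 l2 n b a
  have a2 := h.mem_pair.1 m2 n b a
  rw [map_add] at a1; rw [map_sub] at a2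
  exact mul_left_cancel₀ h.h2 (by linear_combination a1 - a2)

theorem rt_mv {x : φ.Isom} (hx : x ∈ φ.dstab (ln F e)) (h1 : x ≠ 1) : ∃ i, φ.Rt e (e i - x.1 (e i)) := by
  obtain ⟨i, hi⟩ : ∃ i, x.1 (e i) ≠ e i := by
    by_contra! H; exact h1 (Isom.ext fun y => by rw [h.expand y]; simp [H])
  obtain ⟨j, hj⟩ := h.mem_dstab.1 hx i
  exact ⟨i, sub_eq_add_neg (e i) _ ▸ h.rt_diff (neg_mem hj) (by simp [h.Qe])
    (by rwa [← sub_eq_add_neg, sub_ne_zero, ne_comm])⟩

variable (hF : ∀ c : F, ∃ n : ℕ, c = n) {M : Subgroup φ.Isom} (hM : φ.E ⊓ φ.dstab (ln F e) ≤ M) (hM' : M ≤ φ.E)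
  (hE : ¬ φ.E ≤ M) {g : φ.Isom} (hg : g ∈ M)
include hF hM hM' hE hg

theorem star {a : V} (ha : φ.Rt e a) (hj : φ.Rt e (g.1 a)) : g ∈ φ.dstab (ln F e) := by
  have r1 := h.q.refl_mul_self a
  have r2 := ha.2
  set L := rex M _ r1
  have h1 : φ.E ⊓ φ.dstab (ln F e) ≤ L := fun x hx => Or.inl ⟨hM hx, hM ⟨by
    simpa [h.q.refl_inv] using φ.E_normal.conj_mem x hx.1 (φ.refl a), mul_mem (mul_mem r2 hx.2) r2⟩⟩
  have h2 : Rf L a := ⟨ha.1, Or.inr (by simp [r1])⟩
  have h3 : ∀ g ∈ L, g ∈ φ.E ∨ g * φ.refl a ∈ φ.E := fun g hg => hg.imp (fun e => hM' e.1) fun e => hM' e.1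
  have h4 : g ∈ L := Or.inl ⟨hg, by
    have := mul_mem (h.rr hM ha hj (by simp)) hg
    rwa [← h.q.refl_conj, ← mul_assoc, ← mul_assoc, inv_mul_cancel_right] at this⟩
  have h5 : ¬ φ.E ≤ L := fun e => hE fun x hx => (e hx).elim And.left fun e =>
    (h.blk.refl_not_mem ha.1 ((φ.E.mul_mem_cancel_left hx).1 (hM' e.1))).elim
  exact h.fr ha fun b b1 b2 => by_contra fun c =>
    h5 (h.gf hF h1 h2 ha h3 ((h.blk.rf h1 h2 r2 b1.2 b1.1 b2).map h.q h4) c)

theorem mv {b x y : V} (hb : φ.Rt e b) (hx : φ.Rt e x) (hy : φ.Rt e y) (c : chi (φ.Q x) = chi (φ.Q y))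
    (h1 : y ∉ F ∙ x) (h2 : φ.B x (g.1 b) = 0) (h3 : φ.B y (g.1 b) = 0) :
    ∃ b, φ.Rt e b ∧ g.1 b ∈ Submodule.span F {x, y} := by
  have h4 := h.star hF hM hM' hE (mul_mem (mul_mem (inv_mem hg) (h.rr hM hx hy c)) hg) hb (by
    simpa only [Isom.mul_apply, h.q.refl_of_orth h2, h.q.refl_of_orth h3, Isom.inv_apply_apply])
  obtain ⟨i, hi⟩ := h.rt_mv h4 fun a => h1 (by
    rw [mul_assoc, inv_mul_eq_one, eq_comm, mul_eq_right, mul_eq_one_iff_eq_inv, h.q.refl_inv] at a
    have := congrArg (·.1 y) a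
    simp only [h.q.refl_self hy.1, h.q.refl_apply x] at this
    exact (Submodule.smul_mem_iff _ h.h2).1 (Submodule.mem_span_singleton.2 ⟨(φ.Q x)⁻¹ * φ.B x y, by
      linear_combination (norm := module) -this⟩))
  refine ⟨_, hi, ?_⟩
  simp only [map_sub, Isom.mul_apply, Isom.apply_inv_apply, h.q.refl_apply, add_assoc, sub_add_cancel_left]
  exact neg_mem (add_mem (Submodule.smul_mem _ _ (Submodule.subset_span (by simp)))
    (Submodule.smul_mem _ _ (Submodule.subset_span (by simp))))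

theorem key {b x y : V} (hb : φ.Rt e b) (hx : φ.Rt e x) (hy : φ.Rt e y) (c : chi (φ.Q x) = chi (φ.Q y))
    (h1 : y ∉ F ∙ x) (h2 : φ.B x (g.1 b) = 0) (h3 : φ.B y (g.1 b) = 0) : g ∈ φ.dstab (ln F e) := by
  obtain ⟨b, hb, h4⟩ := h.mv hF hM hM' hE hg hb hx hy c h1 h2 h3
  obtain ⟨f, hf⟩ := Function.Embedding.exists_of_card_le_finset (α := Fin 3 × Fin 2)
    (s := (φ.supp e x ∪ φ.supp e y)ᶜ) (by
      have := h.root_supp hx; have := h.root_supp hy; have := h.n10
      have := Finset.card_union_le (φ.supp e x) (φ.supp e y)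
      simp only [Finset.card_compl, Fintype.card_prod, Fintype.card_fin]; omega)
  have h5 : ∀ a, φ.B (e (f a)) (g.1 b) = 0 := fun a => by
    have := hf ⟨a, rfl⟩
    obtain ⟨s, t, e'⟩ := Submodule.mem_span_pair.1 h4
    simp only [Finset.coe_compl, Finset.coe_union, Set.mem_compl_iff, Set.mem_union, Finset.mem_coe, mem_supp,
      not_or, not_not] at this
    simp [← e', this]
  have h6 := fun a : Fin 3 => h.mv hF hM hM' hE hg hb (h.rt_e (f (a, 0))) (h.rt_e (f (a, 1))) (by rw [h.Qe, h.Qe])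
    (fun c => by simpa [h.Bee, h.h2, h.N0] using h.mem_ln.1 c (f (a, 1)) (by simp)) (h5 _) (h5 _)
  choose u u1 u2 using h6
  by_contra hg'
  have h7 : ∀ a a' a'' : Fin 3, a ≠ a' → a'' ≠ a → a'' ≠ a' → chi (φ.Q (u a)) ≠ chi (φ.Q (u a')) :=
    fun a a' a'' n1 n2 n3 c => by
      have o : ∀ a k, k ≠ f (a, 0) → k ≠ f (a, 1) → (φ.refl (g.1 (u a))).1 (e k) = e k := fun a k b c =>
        h.q.refl_of_orth (φ.B_symm_zero (h.mem_pair.1 (u2 a) k b c))
      have h8 := mul_mem (mul_mem hg (h.rr hM (u1 a) (u1 a') c)) (inv_mem hg)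
      rw [← conj_mul, h.q.refl_conj, h.q.refl_conj] at h8
      have h9 := h.mem_dstab.1 (h.star hF hM hM' hE h8 (h.rt_e (f (a'', 0))) (by
        rw [Isom.mul_apply, o a' _ (by simp [n3]) (by simp), o a _ (by simp [n2]) (by simp)]; exact h.rt_e _))
      refine hg' (h.star hF hM hM' hE hg (u1 a) ⟨by simpa using (u1 a).1, h.mem_dstab.2 fun k => ?_⟩)
      by_cases d : k = f (a, 0) ∨ k = f (a, 1)
      · have := h9 k
        rwa [Isom.mul_apply, o a' k (by rcases d with rfl | rfl <;> simp [n1])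
          (by rcases d with rfl | rfl <;> simp [n1])] at this
      · exact ⟨k, by rw [o a k (not_or.1 d).1 (not_or.1 d).2]; exact Submodule.mem_span_singleton_self _⟩
  have t1 := h7 0 1 2 (by simp) (by simp) (by simp)
  have t2 := h7 0 2 1 (by simp) (by simp) (by simp)
  have t3 := h7 1 2 0 (by simp) (by simp) (by simp)
  rcases Int.units_eq_one_or (chi (φ.Q (u 0))) with e | e <;> rcases Int.units_eq_one_or (chi (φ.Q (u 1))) with e' | e' <;>
    rcases Int.units_eq_one_or (chi (φ.Q (u 2))) with e'' | e'' <;> simp_all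

theorem of_comm {T : Finset κ} (h0 : T.Nonempty) (hT : T.card ≤ 4) {z : φ.Isom} (hz : Neg z (co F e T))
    (c : g * z = z * g) : g ∈ φ.dstab (ln F e) := by
  obtain ⟨a, ha⟩ := h0
  have h1 := h.mem_co.1 ((hz.mem_iff (h.nd T) h.h2 (x := g.1 (e a))).2 (by
    rw [← Isom.mul_apply, ← c, Isom.mul_apply, hz.1 _ (e_mem ha), map_neg]))
  obtain ⟨k, k1, -⟩ := ex_not T [] (by have := h.n10; simp; omega)
  obtain ⟨l, l1, l2⟩ := ex_not T [k] (by have := h.n10; simp; omega)
  exact h.key hF hM hM' hE hg (h.rt_e a) (h.rt_e k) (h.rt_e l) (by rw [h.Qe, h.Qe])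
    (fun c => by simpa [h.Bee, h.h2, h.N0] using h.mem_ln.1 c l (by simpa using l2)) (h1 k k1) (h1 l l1)

theorem le_dstab : g ∈ φ.dstab (ln F e) := by
  have : Finite V := Module.finite_of_finite F
  have n := h.n10
  obtain ⟨T, -, T1⟩ := Finset.exists_subset_card_eq (s := (Finset.univ : Finset κ)) (n := 2) (by simp; omega)
  obtain ⟨S, -, S1⟩ := Finset.exists_subset_card_eq (s := (Finset.univ : Finset κ)) (n := 4) (by simp; omega)
  obtain ⟨t, t1, t2, t3, -⟩ := h.neg T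
  obtain ⟨z, z1, z2, z3, -⟩ := h.neg S
  have tM := hM ⟨t3 (by rw [T1]; decide), t2⟩
  have s1 := z1.conj g
  have sM := mul_mem (mul_mem hg (hM ⟨z3 (by rw [S1]; decide), z2⟩)) (inv_mem hg)
  have s2 : g * z * g⁻¹ * (g * z * g⁻¹) = 1 := by rw [conj_mul, z1.mul_self (h.nd S), mul_one, mul_inv_cancel]
  have rk : ∀ (k : φ.Isom) T, finrank F ((co F e T).map (k.1 : V →ₗ[F] V)) = T.card := fun k T => by
    rw [LinearEquiv.finrank_map_eq, h.finrank_co]
  have hs : z = g⁻¹ * (g * z * g⁻¹) * g := by group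
  generalize g * z * g⁻¹ = s at *
  have t4 := t1.mul_self (h.nd T)
  have ti := inv_eq_of_mul_eq_one_right t4
  have si := inv_eq_of_mul_eq_one_right s2
  have c1 : t * (t * s) * t⁻¹ = (t * s)⁻¹ := by rw [← mul_assoc, t4, one_mul, mul_inv_rev, si]
  have c2 : s * (t * s) * s⁻¹ = (t * s)⁻¹ := by rw [mul_inv_rev, si, ti, mul_assoc, mul_assoc, s2, mul_one]
  obtain ⟨j, hj | hj⟩ := Nat.even_or_odd' (orderOf (t * s))
  swap
  · have a := congrArg (· ^ j) c1
    simp only [conj_pow, inv_pow] at a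
    have b := pow_orderOf_eq_one (t * s)
    have : s = (t * s) ^ j * t * ((t * s) ^ j)⁻¹ := by
      rw [hj, pow_succ, two_mul, pow_add, ← mul_assoc, mul_eq_one_iff_eq_inv, si] at b
      rw [← a, ← mul_assoc, ← mul_assoc, mul_assoc _ t t, t4, mul_one, ti, b]
    have c := t1.conj ((t * s) ^ j)
    rw [← this] at c
    have d : (co F e S).map (g.1 : V →ₗ[F] V) = (co F e T).map (((t * s) ^ j).1 : V →ₗ[F] V) := Submodule.ext fun x => by
      rw [s1.mem_iff (nondegOn_map_isom (h.nd S) g) h.h2, c.mem_iff (nondegOn_map_isom (h.nd T) _) h.h2]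
    have := rk g S
    rw [d, rk] at this; omega
  have y1 : (t * s) ^ j * (t * s) ^ j = 1 := by rw [← pow_add, ← two_mul, ← hj, pow_orderOf_eq_one]
  have y2 : (t * s) ^ j ≠ 1 := pow_ne_one_of_lt_orderOf (by have := orderOf_pos (t * s); omega)
    (by have := orderOf_pos (t * s); omega)
  have y3 : ∀ r : φ.Isom, r * (t * s) * r⁻¹ = (t * s)⁻¹ → (t * s) ^ j * r = r * (t * s) ^ j := fun r hr => by
    have := congrArg (· ^ j) hr
    simp only [conj_pow, inv_pow, inv_eq_of_mul_eq_one_right y1] at this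
    exact (mul_inv_eq_iff_eq_mul.1 this).symm
  have y4 := y3 t c1
  have y5 := y3 s c2
  have yM := pow_mem (mul_mem tM sM) j
  have y6 : ∀ x ∈ φ.perp (co F e T) ⊓ φ.perp ((co F e S).map (g.1 : V →ₗ[F] V)), ((t * s) ^ j).1 x = x := fun x a =>
    ((φ.fix (F ∙ x)).pow_mem (φ.mem_fix_span.2 (by simp [Isom.mul_apply, t1.2 x a.1, s1.2 x a.2])) j)
      x (Submodule.mem_span_singleton_self x)
  generalize (t * s) ^ j = y at *
  have d1 := h.mem_dstab.1 (h.of_comm hF hM hM' hE yM (Finset.card_pos.1 (by omega)) (by omega) t1 y4)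
  obtain ⟨i, hi⟩ := h.rt_mv (h.of_comm hF hM hM' hE (mul_mem (mul_mem (inv_mem hg) yM) hg)
    (Finset.card_pos.1 (by omega)) S1.le z1 (by rw [hs]; simp [mul_assoc, ← mul_assoc y, y5]))
    (by simpa [mul_assoc, inv_mul_eq_one] using y2)
  have y7 : ∀ x, y.1 (y.1 x) = x := fun x => by rw [← Isom.mul_apply, y1, Isom.one_apply]
  have r : ∀ k, e k + y.1 (e k) ≠ 0 → φ.Rt e (e k + y.1 (e k)) := fun k => (d1 k).elim fun l a =>
    h.rt_diff a (by simp [h.Qe])
  have o : ∀ k, φ.B (e k + y.1 (e k)) (g.1 (e i - (g⁻¹ * y * g).1 (e i))) = 0 := fun k => by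
    have := Isom.B_map y (e k) (y.1 (g.1 (e i)))
    simp only [map_sub, Isom.mul_apply, Isom.apply_inv_apply, map_add, LinearMap.add_apply, Isom.B_map, y7] at this ⊢
    rw [this]; ring
  by_contra hg'
  have H : ∀ c : ℤˣ, ∃ u, ∀ k, chi (φ.Q (e k + y.1 (e k))) = c → e k + y.1 (e k) ∈ F ∙ u := fun c => by
    by_cases a : ∃ k, e k + y.1 (e k) ≠ 0 ∧ chi (φ.Q (e k + y.1 (e k))) = c
    · obtain ⟨k, k1, k2⟩ := a
      refine ⟨e k + y.1 (e k), fun l b => by_contra fun d => hg' (h.key hF hM hM' hE hg hi (r k k1)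
        (r l fun a => d (by rw [a]; exact zero_mem _)) (k2.trans b.symm) d (o k) (o l))⟩
    · exact ⟨0, fun k b => by by_contra d; exact a ⟨k, fun a => d (by rw [a]; exact zero_mem _), b⟩⟩
  obtain ⟨u, hu⟩ := H 1
  obtain ⟨w, hw⟩ := H (-1)
  have a1 := (Submodule.finrank_mono (show φ.perp (co F e T) ⊓ φ.perp ((co F e S).map (g.1 : V →ₗ[F] V)) ≤
    Submodule.span F {u, w} from fun x a => (Submodule.smul_mem_iff _ h.h2).1 (by
      have b := y6 x a
      rw [two_smul]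
      nth_rw 2 [← b]
      rw [h.expand x, map_sum, ← Finset.sum_add_distrib]
      refine sum_mem fun k _ => ?_
      rw [map_smul, ← smul_add]
      refine Submodule.smul_mem _ _ ?_
      rcases Int.units_eq_one_or (chi (φ.Q (e k + y.1 (e k)))) with c | c
      exacts [Submodule.span_mono (by simp) (hu k c), Submodule.span_mono (by simp) (hw k c)]))).trans
    (finrank_span_pair_le u w)
  have a2 := finrank_le_inf_perp (φ := φ) (φ.perp (co F e T)) ((co F e S).map (g.1 : V →ₗ[F] V))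
  rw [rk, h.perp_co, h.finrank_co, Finset.card_compl, ← h.perp_co] at a2
  omega

omit hF hM hM' hE hg in
theorem not_E_le : ¬ φ.E ≤ φ.dstab (ln F e) := fun H => by
  have n := h.n10
  obtain ⟨i, -⟩ := h.ex [] (by simp)
  obtain ⟨p, p1, p0, p2⟩ := h.q.exists_singular (W := co F e {i}ᶜ) (by rw [h.finrank_co, Finset.card_compl]; simp; omega)
  have p3 := h.mem_co.1 p1 i (by simp)
  obtain ⟨g, g1, g2⟩ := h.blk.std.exists_E_map h.blk.n5 (h.ne0 i) (v := e i + p)
    (fun a => by simpa [p3, h.Bee, h.h2, h.N0] using congrArg (φ.B (e i)) a) (by simp [φ.Q_add_of_orth p3, p2])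
  obtain ⟨j, hj⟩ := h.mem_dstab.1 (H g1) i
  rw [g2, h.mem_ln] at hj
  obtain rfl : i = j := by_contra fun a => by simpa [p3, h.Bee, h.h2, h.N0] using hj i a
  exact p0 (h.tot p fun k => by
    by_cases a : k = i
    · rw [a, p3]
    · simpa [h.orth k i a] using hj k a)

end Fr
end Form

section gl
open Matrix Cfsg Cfsg.Geo

/-- stabilisers of orthogonal frames over prime fields -/
theorem isMaximalIn_frame {ι : Type} [Fintype ι] [DecidableEq ι] {F : Type*} [Field F] [Fintype F]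
    {Q : (ι → F) → F} (hQ : IsNondegenerateQuadraticForm Q) (hn : 10 ≤ Fintype.card ι)
    (hp : (Fintype.card F).Prime) {t : ℕ} {D : Fin t → Submodule F (ι → F)} (hD : IsOrthogonalMDecomposition Q 1 D) :
    IsMaximalIn (omegaGL Q) (decompositionStabilizer D ⊓ omegaGL Q) := by
  obtain ⟨Q, rfl, _⟩ := exists_ofQuad hQ
  have h := blk_of (by omega) hD
  have hc := card_eq_of_dec hD.decomp.decomp
  have hF : ∀ c : F, ∃ n : ℕ, c = n := fun c => by
    have := Fact.mk hp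
    obtain ⟨x, rfl⟩ := (ZMod.ringEquivOfPrime F hp rfl).surjective c
    exact ⟨x.val, by rw [← map_natCast (ZMod.ringEquivOfPrime F hp rfl), ZMod.natCast_zmod_val]⟩
  obtain ⟨i⟩ : Nonempty (Fin t) := ⟨⟨0, by omega⟩⟩
  have := (h.od.nondeg i).nondeg
  have h2 := (h.q.restrict (D i)).two_ne_zero_of_odd (by rw [h.rk]; exact odd_one)
  obtain ⟨a, ha, a0⟩ := h.q.exists_Q_ne (h.od.nondeg i) fun e => by have := h.rk i; rw [e, finrank_bot] at this; omega
  choose e e1 e2 e3 using h.exists_eq ha (by rintro rfl; simp at a0)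
  obtain rfl : D = Form.ln F e := funext fun j => (Submodule.eq_of_le_of_finrank_le
    ((Submodule.span_singleton_le_iff_mem _ _).2 (e1 j)) (by rw [h.rk, finrank_span_singleton (e2 j)])).symm
  have f : (Form.ofQuad Q).Fr e _ := ⟨h.q, h2, a0, e3, fun i j a => h.od.orth i j a (e1 j) _ (e1 i),
    fun x a => h.od.eq_zero fun i => (Form.ofQuad Q).mem_perp_singleton.2 (a i), by simp; omega⟩
  rw [omegaGL_eq_E _ (by omega)]
  refine isMaximalIn_map _ (by rw [comap_decompositionStabilizer]; exact f.not_E_le) fun M hM g hg hg1 hg2 => ?_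
  rw [comap_decompositionStabilizer] at hM
  by_contra hE
  exact hg2 ((comap_decompositionStabilizer _).ge (f.le_dstab hF (M := M ⊓ (Form.ofQuad Q).E)
    (le_inf hM inf_le_left) inf_le_right (fun e => hE (e.trans inf_le_left)) ⟨hg, hg1⟩))

end gl
end H10
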