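import Mathlib
import Cfsg.Agent.H10.MxK
import Cfsg.Agent.H10.Dec

/-!
# Extension field subgroups of symplectic groups
* `FK.sp_sp` : overgroups of `Sp(K)`; `FK.sp_u` : overgroups of `SU(K)`
-/

namespace H10.Mx

open Module Form

variable {F K V : Type*} [Field F] [Field K] [Algebra F K] [AddCommGroup V] [Module F V] [Module K V]
  [IsScalarTower F K V]

theorem hN_of {ψ : Form K V} [ψ.Nondeg] [FiniteDimensional K V] (H : ∀ v w, ψ.Q v = 0 → ψ.Q w = 0 → ψ.B v w ≠ 0 →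
    ∀ W : Submodule K V, W = ψ.perp (Submodule.span K {v, w}) ∧ finrank K W + 2 = finrank K V →
      ∃ u ∈ W, u ≠ 0 ∧ (ψ.Q u = 0 ∨ ψ.Q u = ψ.T (2 * ψ.B v w))) (v w : V) (hv : ψ.Q v = 0) (hw : ψ.Q w = 0)
    (b : ψ.B v w ≠ 0) : ∃ u, ψ.Q u = 0 ∧ u ∉ (K ∙ v) ⊔ (K ∙ w) ∧ ψ.Q (v + w + u) = 0 := by
  have g : ψ.B v v * ψ.B w w - ψ.B v w * ψ.B w v ≠ 0 := by simp [ψ.B_self_eq_zero hv, b, mt ψ.B_symm_zero b]
  obtain ⟨u, u1, u0, u2⟩ := H v w hv hw b _ ⟨rfl, by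
    rw [← ψ.finrank_perp (Submodule.span K {v, w}), finrank_span_pair_of_li (ψ.linearIndependent_pair_of_gram g), add_comm]⟩
  have n : ∀ z ∈ (K ∙ v) ⊔ (K ∙ w), u + z ∉ (K ∙ v) ⊔ (K ∙ w) := fun z hz e => u0 (Submodule.disjoint_def.1
    (ψ.nondegOn_iff_disjoint.1 (ψ.nondegOn_pair g)) u (by rw [Submodule.span_insert]; exact (add_mem_cancel_right hz).1 e) u1)
  have m1 := Submodule.mem_sup_left (T := K ∙ w) (Submodule.mem_span_singleton_self v)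
  have m2 := Submodule.mem_sup_right (S := K ∙ v) (Submodule.mem_span_singleton_self w)
  obtain ⟨c, d⟩ := ψ.mem_perp_pair.1 u1
  replace c := ψ.B_symm_zero c
  replace d := ψ.B_symm_zero d
  rcases u2 with e | e
  · exact ⟨u + -w, by simp [ψ.Q_add, e, hw, d], n _ (neg_mem m2), by
      rw [show v + w + (u + -w) = u + v by abel]; simp [ψ.Q_add, e, hv, c]⟩
  · exact ⟨u + (v - (2 : K) • w), by simp [ψ.Q_add, ψ.Q_sub, e, hv, ψ.Q_smul_of_sing hw, c, d],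
      n _ (sub_mem m1 (Submodule.smul_mem _ _ m2)), by
      rw [show v + w + (u + (v - (2 : K) • w)) = u + ((2 : K) • v - w) by module]
      simp [ψ.Q_add, ψ.Q_sub, e, hw, ψ.Q_smul_of_sing hv, c, d, ψ.B_smul_left, map_ofNat]⟩

namespace FK
variable {φ : Form F V} {ψ : Form K V} {l : Dual F K} {M : Subgroup (V ≃ₗ[F] V)} (h : FK φ ψ l M)
  {A B : Submodule F V} {v w y t s f : V} (ha : H09.IsAltF φ)
  [φ.Nondeg] [ψ.Nondeg] [FiniteDimensional F V] [FiniteDimensional K V] [FiniteDimensional F K]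
include ha

omit [ψ.Nondeg] [FiniteDimensional K V] [FiniteDimensional F K] [IsScalarTower F K V] in
theorem sfull (H : ∀ c, ∃ D, Un M D ∧ ∀ z, D z = (c * φ.B s z) • s) : SFull (M.subgroupOf φ.Isom) s := fun c => by
  obtain ⟨D, ⟨x, hx, e⟩, e'⟩ := H c
  rwa [Subgroup.mem_subgroupOf, show (φ.quasi s c).1 = x from LinearEquiv.ext fun z => by rw [quasi_apply_alt ha, e, e']]

include h

omit [ψ.Nondeg] [FiniteDimensional K V] [FiniteDimensional F K] in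
theorem q3 {c : F} (c0 : c ≠ 0) (c1 : c ≠ 1) (hA : φ.TS A) (hs : s ∈ A) (hy : φ.B f y ≠ 0)
    (h1 : ∀ c : F, ∃ Y, Zs M A Y ∧ Y f = c • y) (h2 : ∀ c : F, ∃ x ∈ M, ∀ a ∈ A, x a = a + φ.B f a • c • s) :
    SFull (M.subgroupOf φ.Isom) s := sfull ha fun d => by
  obtain ⟨Y, a, b⟩ := h1 (-d / ((c * c - c) * φ.B f y))
  obtain ⟨Y', a', b'⟩ := h1 (c * (-d / ((c * c - c) * φ.B f y)))
  obtain ⟨x, hx, e⟩ := h2 c
  obtain ⟨x', hx', e'⟩ := h2 1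
  obtain ⟨D, i, j⟩ := h.dl hA le_rfl a hx e (A.smul_mem _ hs)
  obtain ⟨D', i', j'⟩ := h.dl hA le_rfl a' hx' e' (A.smul_mem _ hs)
  refine ⟨_, (h.Zsub hA i i').2, fun z => ?_⟩
  have : c * c - c ≠ 0 := by rw [← mul_sub_one]; exact mul_ne_zero c0 (sub_ne_zero.2 c1)
  simp only [LinearMap.sub_apply, j, j', b, b', map_smul, h.Bs, smul_eq_mul, B_swap_of_isAltF ha s z]
  match_scalars <;> field_simp <;> ring

variable (hb : H09.IsAltF ψ)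
include hb

omit ha [φ.Nondeg] [FiniteDimensional F V] [FiniteDimensional F K] in
theorem p1 (hA : A ∈ Fam M (StQ F ψ)) {a : V} (ha : a ∈ A) (hf : φ.B f a ≠ 0) (hy : y ∈ A) : ∃ Y, Zs M A Y ∧ Y f = y := by
  obtain ⟨g, hg, v, b, rfl, c⟩ := h.tv hA ha hf
  obtain ⟨k, hk⟩ := mem_pt.1 (mem_map_iff.1 hy)
  simpa [b, hk] using c (k / ψ.B v (g.symm f)) (by simp [hb.T_eq])

theorem t1 (hm : MP M (StQ F ψ) A B) (hp : ∀ a ∈ A, ∀ b ∈ B, φ.B a b = 0) : ∃ s, s ≠ 0 ∧ SFull (M.subgroupOf φ.Isom) s := by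
  obtain ⟨s, ⟨s1, s2⟩, s0⟩ := (Submodule.ne_bot_iff _).1 hm.nb
  obtain ⟨t, t1, t2⟩ := exists_not hm
  obtain ⟨a, a1, a2⟩ := exists_not hm.symm
  have hp' : ∀ a ∈ B, ∀ b ∈ A, φ.B a b = 0 := fun a i b j => φ.B_symm_zero (hp b j a i)
  have hC := (h.ts hm.l).sup (h.ts hm.r) fun b hb a ha => hp a ha b hb
  obtain ⟨f, f1, f2, f3⟩ := h.exists_f a2 fun _ => h.codim hm.symm hp' a1 a2
  obtain ⟨f', f1', f2', f3'⟩ := h.exists_f t2 fun _ => h.codim hm hp t1 t2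
  refine ⟨s, s0, sfull ha fun c => ?_⟩
  obtain ⟨x, hx, i, j⟩ := h.rad hm.r (fun y hy => hp' y hy a a1) a2 (B.smul_mem c t1)
  obtain ⟨x', hx', i', j'⟩ := h.rad hm.l (fun y hy => hp y hy t t1) t2 s1
  obtain ⟨Y, b, d⟩ := h.p1 hb hm.l a1 (f2 ▸ one_ne_zero) s1
  obtain ⟨Y', b', d'⟩ := h.p1 hb hm.r t1 (f2' ▸ one_ne_zero) (B.smul_mem c t1)
  obtain ⟨D, m, n⟩ := h.dl hC le_sup_left b hx (f3 x i _ j) (Submodule.mem_sup_right (B.smul_mem c t1))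
  obtain ⟨D', m', n'⟩ := h.dl hC le_sup_right b' hx' (f3' x' i' _ j') (Submodule.mem_sup_left s1)
  refine ⟨_, (h.Zsub hC m m').2, fun z => ?_⟩
  simp only [LinearMap.sub_apply, n, n', d, d', map_smul, h.Bs, smul_eq_mul, B_swap_of_isAltF ha s z,
    B_swap_of_isAltF ha t z, f1 s s2, f2']
  module

omit ha [φ.Nondeg] in
theorem codim2 (hk : finrank K V = 2) (hm : MP M (StQ F ψ) A B) (h1 : t ∈ B) (h2 : t ∉ A) :
    (∃ a ∈ A, φ.B t a ≠ 0) ∧ ∀ y ∈ B, ∃ c : F, y - c • t ∈ A := by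
  obtain ⟨g, hg, _, ⟨v, v0, hv, rfl⟩, rfl, hm'⟩ := hm.std
  have h0 : ∀ z, ψ.B v z = 0 → z ∈ pt F K v := fun z hz => ((TS.singleton hv).perp_eq (by
    rw [finrank_span_singleton v0, hk])).le (ψ.mem_perp_singleton.2 hz)
  have h3 : g.symm t ∉ pt F K v := fun h => h2 (mem_map_iff.2 h)
  have h4 := mt (h0 _) h3
  refine ⟨by_contra fun H => h4 (h.perp_iff.1 fun a ha => φ.B_symm_zero (by
    rw [h.Bm' hg]; exact by_contra fun e => H ⟨_, Submodule.mem_map_of_mem ha, e⟩)), fun y hy => ?_⟩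
  obtain ⟨u, hu, hu'⟩ := exists_not hm'.symm
  obtain ⟨c, hc⟩ := mem_bot_of_pres h.pr (S := (B.map (g.symm : V →ₗ[F] V)).comap
    ((LinearMap.toSpanSingleton K V v).restrictScalars F)) (e := ψ.B v (g.symm y) / ψ.B v (g.symm t))
    (fun h0 => hm'.nb (eq_bot_iff.2 fun z hz => by
      obtain ⟨k, rfl⟩ := mem_pt.1 hz.1
      simp [show k = 0 from h0.le hz.2]))
    (fun h0 => by
      obtain ⟨k, rfl⟩ := mem_pt.1 hu
      exact hu' (h0.ge (Submodule.mem_top (x := k)))) fun k b => by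
    obtain ⟨x, hx, e⟩ := h.sg (w := 0) (s := k / ψ.B v (g.symm t)) hv (by simp) (by simp [hb.T_eq])
    simp only [map_zero, LinearMap.zero_apply, zero_smul, smul_zero, add_zero, sub_zero, ε_eq_of_isAltF hb, neg_mul,
      one_mul, neg_smul, sub_neg_eq_add] at e
    have := hm'.stab hx (fun z hz hz' => by
      obtain ⟨k, rfl⟩ := mem_pt.1 hz
      simpa [e, ψ.B_self_eq_zero hv] using hz') (Submodule.mem_map_of_mem h1) h3
      (by rw [LinearEquiv.coe_coe, e, div_mul_cancel₀ _ h4]; exact add_mem (Submodule.mem_map_of_mem h1) b) _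
      (Submodule.mem_map_of_mem hy)
    rw [LinearEquiv.coe_coe, e] at this
    convert (add_mem_cancel_left (Submodule.mem_map_of_mem hy)).1 this using 1
    simp only [Submodule.mem_comap, LinearMap.restrictScalars_apply, LinearMap.toSpanSingleton_apply]
    congr! 2; ring
  refine ⟨c, mem_map_iff.2 (h0 _ ?_)⟩
  rw [div_eq_iff h4] at hc
  rw [map_sub, map_smul, map_sub, hc, LinearMap.map_smul_of_tower, Algebra.smul_def, sub_self]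

theorem t2 (hk : finrank K V = 2) (hex : 3 ≤ finrank F K ∨ ∃ c : F, c ≠ 0 ∧ c ≠ 1) (hm : MP M (StQ F ψ) A B) :
    ∃ s, s ≠ 0 ∧ SFull (M.subgroupOf φ.Isom) s := by
  obtain ⟨_, -, _, ⟨v, v0, hv, rfl⟩, -, hm'⟩ := hm.std
  obtain ⟨B, hm⟩ : ∃ B, MP M (StQ F ψ) (pt F K v) B := ⟨_, hm'⟩
  obtain ⟨s, ⟨s1, s2⟩, s0⟩ := (Submodule.ne_bot_iff _).1 hm.nb
  obtain ⟨a, a1, a2⟩ := exists_not hm.symm
  obtain ⟨⟨b, b1, b2⟩, h1⟩ := h.codim2 hb hk hm.symm a1 a2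
  obtain ⟨f, f1, f2, f3⟩ := h.exists_f a2 h1
  have hA := h.ts hm.l
  have H : ∀ s ∈ pt F K v, φ.B f s = 0 → ∃ x ∈ M, ∀ a ∈ pt F K v, x a = a + φ.B f a • s := fun s i j => by
    obtain ⟨c, hc⟩ := h1 s i
    have := f1 _ hc
    rw [map_sub, j, map_smul, f2, smul_eq_mul, mul_one, zero_sub, neg_eq_zero] at this
    rw [this, zero_smul, sub_zero] at hc
    obtain ⟨Y, m, n⟩ := h.p1 hb hm.r b1 b2 hc
    obtain ⟨x, hx, e⟩ := m.2
    exact ⟨x, hx, f3 x (fun y hy => by rw [e, h.Zker (h.ts hm.r) m ((h.ts hm.r).B y hy), add_zero]) _ (by rw [e, n])⟩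
  rcases hex with h3 | ⟨c, c0, c1⟩; swap
  · exact ⟨s, s0, h.q3 ha c0 c1 hA s1 (f2 ▸ one_ne_zero) (fun c => h.p1 hb hm.l a1 (f2 ▸ one_ne_zero) (Submodule.smul_mem _ _ a1))
      fun c => H _ (Submodule.smul_mem _ _ s1) (by simp [f1 s s2])⟩
  obtain ⟨g, hg, g1, -, g2⟩ := h.trans (fun e f _ s => ⟨0, by simp [hb.T_eq]⟩) (hb.Q_eq s) s0 (hb.Q_eq a)
    (by rintro rfl; exact a2 (zero_mem _))
  have g3 : (pt F K v).map (g : V →ₗ[F] V) = pt F K v := by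
    rw [← pt_eq s1 s0, map_pt g1, g2, pt_eq a1 (by rintro rfl; exact a2 (zero_mem _)), pt_eq s1 s0]
  obtain ⟨u, u1, u0⟩ := (Submodule.ne_bot_iff _).1 (LinearMap.ker_ne_bot_of_finrank_lt
    (f := ((φ.B f).prod (φ.B (g f))).domRestrict (pt F K v)) (by simp [finrank_pt v0]; omega))
  obtain ⟨u1, u2⟩ : φ.B f u = 0 ∧ φ.B (g f) u = 0 := by simpa using u1
  refine ⟨u, fun e => u0 (Subtype.ext e), sfull ha fun c => ?_⟩
  obtain ⟨x, hx, e⟩ := H u u.2 u1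
  obtain ⟨x', hx', e'⟩ := H (g.symm u) (mem_map_iff.1 (g3.ge u.2)) (by rw [← h.Bm hg, g.apply_symm_apply, u2])
  obtain ⟨Y, m, n⟩ := h.p1 hb hm.l a1 (f2 ▸ one_ne_zero) (Submodule.smul_mem _ c a1)
  obtain ⟨Y', m', n'⟩ := h.p1 hb (f := g f) hm.l (g3.le (Submodule.mem_map_of_mem a1))
    (by rw [LinearEquiv.coe_coe, h.Bm hg, f2]; exact one_ne_zero) (Submodule.smul_mem _ c a1)
  obtain ⟨D, i, j⟩ := h.dl hA le_rfl m hx e u.2
  obtain ⟨D', i', j'⟩ := h.dl hA le_rfl m' (M.mul_mem (M.mul_mem hg hx') (M.inv_mem hg)) (f := g f) (b := u) (fun z hz => by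
    simp [LinearEquiv.mul_apply, e' _ (mem_map_iff.1 (g3.ge hz)), ← h.Bm hg f]) u.2
  refine ⟨_, (h.Zsub hA i' i).2, fun z => ?_⟩
  simp only [LinearMap.sub_apply, j, j', n, n', map_smul, h.Bs, smul_eq_mul, B_swap_of_isAltF ha u z, f2,
    show φ.B (g f) a = 0 by rw [← g2, h.Bm hg, f1 s s2]]
  module

theorem sp_sp [Finite F] (hk : 4 ≤ finrank K V ∨ finrank K V = 2 ∧ (3 ≤ finrank F K ∨ ∃ c : F, c ≠ 0 ∧ c ≠ 1)) :
    M.subgroupOf φ.Isom = ⊤ ∨ ∀ g ∈ M, ∀ k : K, ∃ k' : K, ∀ y, g (k • y) = k' • g y := by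
  by_cases H : ∀ A ∈ Fam M (StQ F ψ), A ∈ StQ F ψ
  · refine Or.inr fun g hg k => ?_
    obtain ⟨k', e⟩ := scalar_of_pres (exists_not_mem_pt (by omega)) fun v => pres H hg k (hb.Q_eq v)
    exact ⟨k', fun y => by simpa using e (g y)⟩
  push Not at H
  obtain ⟨A, hA, hA'⟩ := H
  obtain ⟨v, hv, v0⟩ := (Submodule.ne_bot_iff A).1 fun e => h.pr.ne_zero (by rw [← rk hA, e, finrank_bot])
  obtain ⟨A, B, hm⟩ := Mx.exists_mp hA (mem_fam ⟨v, v0, hb.Q_eq v, rfl⟩) (fun e => hA' ⟨v, v0, hb.Q_eq v, e⟩)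
    ((Submodule.ne_bot_iff _).2 ⟨v, ⟨hv, self_mem_pt v⟩, v0⟩)
  obtain ⟨s, s0, hs⟩ : ∃ s, s ≠ 0 ∧ SFull (M.subgroupOf φ.Isom) s := hk.elim (fun hk =>
    (h.exists_t1 hk hm).elim fun _ => Exists.rec fun _ H => h.t1 ha hb H.1 H.2) fun hk => h.t2 ha hb hk.1 hk.2 hm
  refine Or.inl (eq_top_of_sFull ha fun v => ?_)
  by_cases v0 : v = 0
  · exact v0 ▸ sFull_zero ha
  obtain ⟨g, hg, -, -, rfl⟩ := h.trans (fun e f _ s => ⟨0, by simp [hb.T_eq]⟩) (hb.Q_eq s) s0 (hb.Q_eq v) v0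
  exact hs.map ha (g := ⟨g, h.le hg⟩) hg

omit hb in
theorem sp_u [Finite F] {q : ℕ} (hu : ψ.IsUnitary q) (hk : 4 ≤ finrank K V) (h2 : (2 : F) ≠ 0) (hl : ∀ a, l (ψ.σ a) = -l a) :
    M.subgroupOf φ.Isom = ⊤ ∨ ∀ g ∈ M, ∀ k : K, ∃ k' : K, ∀ y, g (k • y) = k' • g y := by
  by_cases H : ∀ A ∈ Fam M (StQ F ψ), A ∈ StQ F ψ
  · exact Or.inr (h.nrm (by omega) (hN_of fun v w _ _ _ W hW => (hu.exists_singular (by omega)).imp fun _ h =>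
      ⟨h.1, h.2.1, .inl h.2.2⟩) H)
  push Not at H
  obtain ⟨A, hA, hA'⟩ := H
  obtain ⟨A, B, hm⟩ := h.exists_mp hk hA hA'
  obtain ⟨A, B, hm, hp⟩ := h.exists_t1 hk hm
  obtain ⟨c₀, c1, c2⟩ : ∃ c, l c ≠ 0 ∧ ψ.σ c = -c := by
    obtain ⟨a, e⟩ := exists_one h.l0
    exact ⟨a - ψ.σ a, by rwa [map_sub, hl, e, sub_neg_eq_add, one_add_one_eq_two], by simp⟩
  obtain ⟨s, s0, s1, hs⟩ : ∃ s, s ≠ 0 ∧ ψ.Q s = 0 ∧ SFull (M.subgroupOf φ.Isom) s := by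
    obtain ⟨g, hg, _, ⟨v, v0, hv, rfl⟩, rfl, hm'⟩ := hm.std
    obtain ⟨B, hm, hp⟩ : ∃ B, MP M (StQ F ψ) (pt F K v) B ∧ ∀ a ∈ B, ∀ b ∈ pt F K v, φ.B a b = 0 :=
      ⟨_, hm', fun a i b j => φ.B_symm_zero (by
        rw [← h.Bm hg]; exact hp _ (Submodule.mem_map_of_mem j) _ (by simpa using mem_map_iff.1 i))⟩
    obtain ⟨s, ⟨s1, s2⟩, s0⟩ := (Submodule.ne_bot_iff _).1 hm.nb
    obtain ⟨a, a1, a2⟩ := exists_not hm.symm
    obtain ⟨f, f1, f2, f3⟩ := h.exists_f a2 fun _ => h.codim hm.symm hp a1 a2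
    obtain ⟨g, hg, w, b, -, d⟩ := h.tv hm.l a1 (f2 ▸ one_ne_zero)
    set m := ψ.B w (g.symm f) with em
    have b' : ψ.σ m ≠ 0 := by simpa
    refine ⟨s, s0, by obtain ⟨k, rfl⟩ := mem_pt.1 s1; exact ψ.Q_smul_of_sing hv k,
      h.q3 ha (neg_ne_zero.2 one_ne_zero) (fun e => h2 (by linear_combination -e)) (h.ts hm.l) s1
        (f := f) (y := g ((c₀ / ψ.σ m) • w)) ?_ (fun c => ?_) fun c => ?_⟩
    · rwa [← h.Bm' hg, h.B, map_smul, hu.herm.B_comm, ← em, smul_eq_mul, div_mul_cancel₀ _ b']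
    · convert d (c • (c₀ / (m * ψ.σ m))) (by simp [hu.herm.T_eq, Algebra.smul_def, h.σK, c2, mul_comm, neg_div]) using 4
      rw [← map_smul, ← smul_assoc, smul_mul_assoc]; congr 3; field_simp
    · obtain ⟨x, hx, i, j⟩ := h.rad hm.r (fun y hy => hp y hy a a1) a2 (B.smul_mem c s2)
      exact ⟨x, hx, f3 x i _ j⟩
  have H : ∀ v, ψ.Q v = 0 → SFull (M.subgroupOf φ.Isom) v := fun v hv => by
    by_cases v0 : v = 0
    · exact v0 ▸ sFull_zero ha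
    obtain ⟨g, hg, -, -, rfl⟩ := h.trans (hu.big (by omega)) s1 s0 hv v0
    exact hs.map ha (g := ⟨g, h.le hg⟩) hg
  refine Or.inl (eq_top_of_sFull ha fun x => ?_)
  by_cases x0 : x = 0
  · exact x0 ▸ sFull_zero ha
  obtain ⟨b, b1, b2⟩ : ∃ b, ψ.T b = ψ.Q x ∧ l b ≠ 0 := by
    obtain ⟨b, b1, -⟩ := ψ.half x
    by_cases e : l b = 0
    exacts [⟨b + c₀, by simp [b1, hu.herm.T_eq c₀, c2], by simpa [e]⟩, ⟨b, b1, e⟩]
  obtain ⟨e, hyp⟩ := ψ.exists_hyp s1 s0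
  obtain ⟨p, p1, p2⟩ := exists_sing_B_eq_one hyp x0
  have p3 := ψ.Q_smul_of_sing p1 (ψ.σ b)
  have p4 : ψ.B (ψ.σ b • p) x = b := by simp [ψ.B_smul_left, p2]
  simpa using (H _ p3).add_smul ha (H (x - ψ.σ b • p) (by rw [ψ.Q_sub, ψ.T_B_comm, p4, p3, b1]; simp))
    (by rwa [h.B, map_sub, p4, ψ.B_self_eq_zero p3, sub_zero]) 1

end FK
end H10.Mx
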