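import Mathlib
import Cfsg.Agent.H10.MxS

/-!
# Extension field subgroups of orthogonal groups
* `FK.om_u` : overgroups of `SU(K)`; `FK.om_om` : overgroups of `Ω(K)`
-/

namespace H10.Mx

open Module Form

variable {F K V : Type*} [Field F] [Field K] [Algebra F K] [AddCommGroup V] [Module F V] [Module K V]
  [IsScalarTower F K V]

theorem exists_pair {ψ : Form K V} [FiniteDimensional K V] {U : Submodule K V} (hU : ψ.NondegOn U) (h3 : 3 ≤ finrank K U)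
    (z z' : V) : ∃ w ∈ U, ∃ w' ∈ U, ψ.B z w = 0 ∧ ψ.B z' w' = 0 ∧ ψ.B w w' ≠ 0 := by
  by_contra! H
  have := hU.nondeg
  have h1 : ∀ z, finrank K U ≤ finrank K (LinearMap.ker ((ψ.B z).domRestrict U)) + 1 := fun z => by
    have := ((ψ.B z).domRestrict U).finrank_range_add_finrank_ker
    have := (LinearMap.range ((ψ.B z).domRestrict U)).finrank_le
    rw [finrank_self] at this; omega
  have := Submodule.finrank_mono (show LinearMap.ker ((ψ.B z').domRestrict U) ≤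
    (ψ.restrict U).perp (LinearMap.ker ((ψ.B z).domRestrict U)) from fun a ha b hb => H _ b.2 _ a.2 hb ha)
  have := (ψ.restrict U).finrank_perp (LinearMap.ker ((ψ.B z).domRestrict U))
  have := h1 z
  have := h1 z'
  omega

theorem delta {ψ : Form K V} [FiniteDimensional K V] {U : Submodule K V} (hU : ψ.NondegOn U) (h3 : 3 ≤ finrank K U)
    {W : Submodule F V} {z t : V} (hW : ∀ w ∈ U, ψ.B z w = 0 → ∀ s, ψ.T s = ψ.Q w →
      t + ψ.B w t • z - (ψ.ε * ψ.B z t) • w - (ψ.ε * s * ψ.B z t) • z ∈ W) (ht : t ∈ W) (h0 : ψ.B z t ≠ 0) :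
    ∀ w ∈ U, ψ.B z w = 0 → w ∈ W := fun w a b => by
  have e0 := ψ.ε_ne_zero
  have h1 : ∀ k : K, k • z ∈ W := fun k => by
    obtain ⟨x, a, y, b, c, d, e⟩ := exists_pair hU h3 z z
    set y' := (k / (ψ.ε * ψ.B x y * ψ.B z t)) • y with ey
    obtain ⟨s, hs, -⟩ := ψ.half x
    obtain ⟨s', hs', -⟩ := ψ.half y'
    have d' : ψ.B z y' = 0 := by simp [ey, d]
    convert sub_mem (sub_mem (add_mem (hW x a c s hs) (hW y' (U.smul_mem _ b) d' s' hs')) ht)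
      (hW _ (add_mem a (U.smul_mem _ b)) (by rw [map_add, c, d', add_zero]) _ (ψ.siegel_T_add hs hs')) using 1
    have : ψ.ε * ψ.B x y' * ψ.B z t = k := by simp only [ey, map_smul, smul_eq_mul]; field_simp
    rw [← ey]; clear_value y'; subst this
    simp only [map_add, LinearMap.add_apply]; module
  obtain ⟨s, hs, -⟩ := ψ.half ((ψ.ε * ψ.B z t)⁻¹ • w)
  convert sub_mem (add_mem ht (h1 (ψ.B ((ψ.ε * ψ.B z t)⁻¹ • w) t - ψ.ε * s * ψ.B z t)))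
    (hW _ (U.smul_mem _ a) (by simp [b]) s hs) using 1
  rw [smul_inv_smul₀ (mul_ne_zero e0 h0)]; module

section
variable {φ : Form F V} [φ.Nondeg] [FiniteDimensional F V] (hq : φ.IsQuad) (M : Subgroup (V ≃ₗ[F] V)) {v w : V}

/-- directions of the root groups with centre `v` in `M` -/
def Ws (hv : φ.Q v = 0) : Submodule F V := sgSub (M.subgroupOf φ.Isom) hv fun t ht => by
  rw [hq.T_eq] at ht; rw [ht, φ.siegel_zero hv]; exact one_mem _

variable {hq M} {hv : φ.Q v = 0}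

theorem Ws.map (hw : w ∈ Ws hq M hv) {g : V ≃ₗ[F] V} (hg : g ∈ M) (hg' : g ∈ φ.Isom) {u : V} (e : g v = u) (hu : φ.Q u = 0) :
    g w ∈ Ws hq M hu := by
  subst e
  refine ⟨(hg'.B v w).trans hw.1, fun c => (hw.2 c).imp fun s hs => ⟨by rw [hs.1, ← map_smul, hg'.Q], ?_⟩⟩
  have := φ.siegel_conj ⟨g, hg'⟩ hv (w := c • w) (by simp [hw.1]) hs.1
  rw [map_smul] at this
  exact this ▸ mul_mem (mul_mem hg hs.2) (inv_mem (show (⟨g, hg'⟩ : φ.Isom) ∈ M.subgroupOf φ.Isom from hg))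

theorem Ws.sg (hw : w ∈ Ws hq M hv) : ∃ x ∈ M, ∀ z, x z = z + φ.B w z • v - φ.B v z • w - (φ.Q w * φ.B v z) • v :=
  ⟨_, siegel_mem_of_mem_sgSub hw (hq.T_eq _), fun z => by simp [φ.siegel_apply hv hw.1 (hq.T_eq _), hq.ε_eq]⟩

theorem Ws.of (h1 : φ.B v w = 0) (h2 : φ.Q w = 0)
    (H : ∀ c : F, ∃ D, Un M D ∧ ∀ z, D z = φ.B (c • w) z • v - φ.B v z • c • w) : w ∈ Ws hq M hv :=
  ⟨h1, fun c => ⟨0, by simp [φ.Q_smul_of_sing h2], by
    obtain ⟨D, ⟨x, hx, e⟩, e'⟩ := H c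
    rwa [Subgroup.mem_subgroupOf, show (φ.siegel v (c • w) 0).1 = x from LinearEquiv.ext fun z => by
      rw [φ.siegel_apply hv (by simp [h1]) (by simp [φ.Q_smul_of_sing h2]), e, e', hq.ε_eq]; module]⟩⟩

end

namespace FK
variable {φ : Form F V} {ψ : Form K V} {l : Dual F K} {M : Subgroup (V ≃ₗ[F] V)} (h : FK φ ψ l M)
  {A B : Submodule F V} {v w y t s f : V} (hq : φ.IsQuad)
  [φ.Nondeg] [ψ.Nondeg] [FiniteDimensional F V] [FiniteDimensional K V] [FiniteDimensional F K] (hb : ψ.Big)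
include h hq hb

theorem fin (hk : 3 ≤ finrank K V) (hex : 3 ≤ finrank F K ∨ 5 ≤ finrank K V) (hv : ψ.Q v = 0) (v0 : v ≠ 0)
    (h1 : t ∈ Ws hq M (h.Q v hv)) (h2 : t ∉ K ∙ v) : φ.E ≤ M.subgroupOf φ.Isom := by
  have hl : finrank F (LinearMap.ker l) + 1 = finrank F K := Dual.finrank_ker_add_one_of_ne_zero h.l0
  have hr := h.pr.two_le
  have inv : ∀ {p} (hp : ψ.Q p = 0) {z w : V} {s : K}, ψ.Q z = 0 → ψ.B z w = 0 → ψ.T s = ψ.Q w → ψ.B w p = 0 →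
      (ψ.B z p = 0) → ∀ t ∈ Ws hq M (h.Q p hp),
      t + ψ.B w t • z - (ψ.ε * ψ.B z t) • w - (ψ.ε * s * ψ.B z t) • z ∈ Ws hq M (h.Q p hp) := fun hp z w s a b c d e t ht => by
    obtain ⟨x, hx, i⟩ := h.sg a b c
    exact i t ▸ Ws.map ht hx (h.le hx) (by simp [i, d, e]) _
  have mv : ∀ {p u d y} (hp : ψ.Q p = 0) (hu : ψ.Q u = 0), d ∈ Ws hq M (h.Q u hu) → y ∈ Ws hq M (h.Q p hp) → φ.B u p = 0 →
      φ.B d p = 0 → y + φ.B d y • u - φ.B u y • d - (φ.Q d * φ.B u y) • u ∈ Ws hq M (h.Q p hp) := fun hp hu a b c d => by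
    obtain ⟨x, hx, i⟩ := Ws.sg a
    exact i _ ▸ Ws.map b hx (h.le hx) (by simp [i, c, d]) _
  have s1 : ∀ u (hu : ψ.Q u = 0), u ≠ 0 → ∃ t ∈ Ws hq M (h.Q u hu), t ∉ K ∙ u := fun u hu u0 => by
    obtain ⟨g, hg, a, -, rfl⟩ := h.trans hb hv v0 hu u0
    exact ⟨_, Ws.map h1 hg (h.le hg) rfl _, fun e => h2 (by
      obtain ⟨k, e⟩ := Submodule.mem_span_singleton.1 e
      exact Submodule.mem_span_singleton.2 ⟨k, g.injective (by rw [a, e])⟩)⟩
  obtain ⟨u, hyp⟩ := ψ.exists_hyp hv v0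
  have hD := hyp.nondegOn.perp
  have hD' := hyp.finrank_perp
  set D := ψ.perp (Submodule.span K {v, u}) with eD
  have hu : ∀ k : K, ψ.Q (k • u) = 0 := ψ.Q_smul_of_sing hyp.Qf
  have hu' : ∀ k : K, φ.B (k • u) v = l k := fun k => by rw [hq.B_comm, h.B, map_smul, hyp.Bef, smul_eq_mul, mul_one]
  have cv : ∀ {k : K} {d y}, l k = 0 → d ∈ D → y ∈ D → ψ.B d y ≠ 0 → d ∈ Ws hq M (h.Q _ (hu k)) →
      (∀ c : K, c • y ∈ Ws hq M (h.Q v hv)) → k • u ∈ Ws hq M (h.Q v hv) := fun {k d y} a b c d' e i => by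
    obtain ⟨m, hm⟩ := exists_one h.l0
    have := mv hv (hu k) e (i (m / ψ.B d y)) ((hu' k).trans a) (by simp [h.B, ψ.B_symm_zero (ψ.mem_perp_pair.1 b).1])
    simpa [h.B, d', hm, ψ.B_smul_left, (ψ.mem_perp_pair.1 c).2, add_mem_cancel_left (i _)] using this
  have s2 : ∃ p, ∃ hp : ψ.Q p = 0, ∃ t ∈ Ws hq M (h.Q p hp), ψ.B p t ≠ 0 := by
    by_contra! H
    rcases hex with h3 | h5
    · have s3 : ∀ p (hp : ψ.Q p = 0), p ≠ 0 → ∀ k : K, k • p ∈ Ws hq M (h.Q p hp) := fun p hp p0 k => by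
        obtain ⟨t, a, b⟩ := s1 p hp p0
        obtain ⟨χ, c, d⟩ := exists_dual_val b k
        obtain ⟨w, rfl⟩ := ψ.exists_B_eq χ
        obtain ⟨s, hs, -⟩ := ψ.half w
        simpa [H p hp t a, d, add_mem_cancel_left a] using inv hp hp (ψ.B_symm_zero c) hs c (ψ.B_self_eq_zero hp) t a
      obtain ⟨a, a0, -⟩ := exists_ker (K := F) (V := LinearMap.ker l) (by omega) 0
      obtain ⟨b, hb⟩ := exists_not_mem_pt (K := F) (V := LinearMap.ker l) (by omega) a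
      obtain ⟨m, c, d⟩ := exists_dual_val (K := F) (v := a.1) (t := b.1) (fun e => hb (by
        obtain ⟨k, e⟩ := Submodule.mem_span_singleton.1 e; exact Submodule.mem_span_singleton.2 ⟨k, Subtype.ext e⟩)) 1
      obtain ⟨k, hk⟩ := exists_mul_eq h.l0 m
      have b0 : b.1 ≠ 0 := fun e => by simp [e] at d
      have e : ∀ x : K, φ.B (x • u) (ψ.σ k • v) = m x := fun x => by
        rw [hq.B_comm, h.B, hk, ψ.B_smul_left, map_smul, hyp.Bef]; simp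
      have := mv hv (hu b) (d := a.1 • u) (by simpa [smul_smul, b0] using s3 _ (hu b) (smul_ne_zero b0 hyp.f_ne_zero) (a / b))
        (s3 v hv v0 (ψ.σ k)) ((hu' _).trans b.2) ((hu' _).trans a.2)
      rw [e, e, c, d, h.Q _ (hu _), zero_smul, zero_mul, zero_smul, add_zero, sub_zero, one_smul] at this
      exact a0 (Subtype.ext (by simpa [hyp.Bef, hyp.Bee] using H v hv _ this))
    obtain ⟨k, k0, k1⟩ := exists_ker (K := F) (V := K) hr l
    have s3 : ∀ p (hp : ψ.Q p = 0), p ≠ 0 → (∀ d ∈ D, ψ.B d p = 0) → (∀ t ∈ ψ.perp D, ψ.B p t = 0 → t ∈ K ∙ p) →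
        ∃ z, ∀ w ∈ D, ψ.B z w = 0 → w ∈ Ws hq M (h.Q p hp) := fun p hp p0 a b => by
      obtain ⟨t, c, d⟩ := s1 p hp p0
      obtain ⟨z, z1, z2, z3⟩ := h.exists_sing hD (by omega) fun e => d (b t e (H p hp t c))
      exact ⟨z, delta hD (by omega) (fun w i j s hs => inv hp z2 j hs (a w i) (a z z1) t c) c z3⟩
    have s5 : ∀ t ∈ ψ.perp D, ∃ a b : K, a • v + b • u = t := fun t ht => by
      rwa [eD, perp_perp, Submodule.mem_span_pair] at ht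
    obtain ⟨z, hz⟩ := s3 v hv v0 (fun d a => ψ.B_symm_zero (ψ.mem_perp_pair.1 a).1) fun t a b => by
      obtain ⟨i, j, rfl⟩ := s5 t a
      exact Submodule.mem_span_singleton.2 ⟨i, by simp [show j = 0 by simpa [hyp.Bee, hyp.Bef] using b]⟩
    obtain ⟨z', hz'⟩ := s3 _ (hu k) (smul_ne_zero k0 hyp.f_ne_zero)
      (fun d a => by simp [ψ.B_symm_zero (ψ.mem_perp_pair.1 a).2]) fun t a b => by
      obtain ⟨i, j, rfl⟩ := s5 t a
      exact Submodule.mem_span_singleton.2 ⟨j / k, by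
        simp [smul_smul, k0, show i = 0 by simpa [ψ.B_smul_left, k0, hyp.Bff, hyp.Bfe, ψ.ε_ne_zero] using b]⟩
    obtain ⟨d, a, y, b, c, e, i⟩ := exists_pair hD (by omega) z' z
    exact k0 (by simpa [hyp.Bef] using H v hv _ (cv k1 a b i (hz' d a c) fun m => hz _ (D.smul_mem m b) (by simp [e])))
  obtain ⟨p, hp, t', a, b⟩ := s2
  have s3 : ∀ u (hu : ψ.Q u = 0), u ≠ 0 → ∀ w, ψ.B u w = 0 → w ∈ Ws hq M (h.Q u hu) := fun u hu u0 w c => by
    obtain ⟨g, hg, -, d, rfl⟩ := h.trans hb hp (by rintro rfl; simp at b) hu u0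
    simpa using Ws.map (delta (U := ⊤) (fun x _ e => ψ.eq_zero_of_B_left fun y => e y trivial) (by simpa)
      (fun w _ j s hs => inv hp hp j hs (ψ.B_symm_zero j) (ψ.B_self_eq_zero hp) t' a) a b (g.symm w) trivial
      (by rw [← d, g.apply_symm_apply, c])) hg (h.le hg) rfl (h.Q _ hu)
  have s4 : φ.Full (M.subgroupOf φ.Isom) v := full_of_le_sgSub (hp := h.Q v hv) fun x hx => by
    by_cases c : ψ.B v x = 0
    · exact s3 v hv v0 x c
    obtain ⟨d, d1, d0⟩ := (Submodule.ne_bot_iff D).1 fun e => by rw [e, finrank_bot] at hD'; omega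
    obtain ⟨y, y1, y2⟩ : ∃ y ∈ D, ψ.B d y ≠ 0 := by by_contra! H; exact d0 (hD d d1 H)
    have := add_mem (s3 v hv v0 (x - ψ.B v x • u) (by simp [hyp.Bef])) (cv (h.B v x ▸ φ.mem_perp_singleton.1 hx) d1 y1 y2
      (s3 _ (hu _) (smul_ne_zero c hyp.f_ne_zero) d (by simp [ψ.B_smul_left, (ψ.mem_perp_pair.1 d1).2]))
      fun c => s3 v hv v0 _ (by simp [(ψ.mem_perp_pair.1 y1).1]))
    rwa [sub_add_cancel] at this
  obtain ⟨m, hm⟩ := exists_one h.l0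
  obtain ⟨g, hg, -, -, e⟩ := h.trans hb hv v0 (hu m) (smul_ne_zero (by rintro rfl; simp at hm) hyp.f_ne_zero)
  exact E_le_of_full s4 (h.Q v hv) (s4.map (h.Q v hv) (g := ⟨g, h.le hg⟩) hg) ((h.le hg).Q v ▸ h.Q v hv)
    (by simp [e, hq.B_comm v, hu', hm])

omit hq hb [ψ.Nondeg] [φ.Nondeg] [FiniteDimensional F V] [FiniteDimensional K V] [FiniteDimensional F K] in
theorem std1 (hm : MP M (StQ F ψ) A B) (hp : ∀ a ∈ A, ∀ b ∈ B, φ.B a b = 0) : ∃ v B, v ≠ 0 ∧ ψ.Q v = 0 ∧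
    MP M (StQ F ψ) (pt F K v) B ∧ ∀ a ∈ B, ∀ b ∈ pt F K v, φ.B a b = 0 := by
  obtain ⟨g, hg, _, ⟨v, v0, hv, rfl⟩, rfl, hm'⟩ := hm.std
  exact ⟨v, _, v0, hv, hm', fun a i b j => φ.B_symm_zero (by
    rw [← h.Bm hg]; exact hp _ (Submodule.mem_map_of_mem j) _ (by simpa using mem_map_iff.1 i))⟩

theorem root (hv : ψ.Q v = 0) (v0 : v ≠ 0) (hm : MP M (StQ F ψ) (pt F K v) B) (hp : ∀ a ∈ B, ∀ b ∈ pt F K v, φ.B a b = 0)
    {Y : V →ₗ[F] V} (hY : Zs M (pt F K v) Y) (Y0 : Y ≠ 0) :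
    ∃ y, ∃ hy : ψ.Q y = 0, y ≠ 0 ∧ ∃ t ∈ Ws hq M (h.Q y hy), t ∉ K ∙ y := by
  obtain ⟨a, a1, a2⟩ := exists_not hm.symm
  obtain ⟨t, t1, t2⟩ := exists_not hm
  obtain ⟨f, -, f2, f3⟩ := h.exists_f a2 fun _ => h.codim hm.symm hp a1 a2
  have hA := h.ts hm.l
  have zk : ∀ z, ψ.B v z = 0 → Y z = 0 := fun z hz => h.Zker hA hY fun b hb => φ.B_symm_zero (h.perp_iff.2 hz b hb)
  obtain ⟨z, hz⟩ := DFunLike.ne_iff.1 Y0
  have f0 : ψ.B v f ≠ 0 := fun e => one_ne_zero (f2.symm.trans (φ.B_symm_zero (h.perp_iff.2 e a a1)))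
  have k0 : ψ.σ (ψ.B v z / ψ.B v f) ≠ 0 := by simpa [f0] using mt (zk z) hz
  obtain ⟨g, hg, g1, g2, g3⟩ := h.trans hb hv v0 (ψ.Q_smul_of_sing hv _) (smul_ne_zero k0 v0)
  have hY' := hY.cn hg
  rw [map_pt g1, g3, pt_eq (smul_mem_pt _ v) (smul_ne_zero k0 v0)] at hY'
  have y0 : cn g Y f ≠ 0 := fun e => hz (by
    have := zk (z - g.symm f) (by rw [map_sub, ← g2 v (g.symm f), g3, ψ.B_smul_left]; simp [f0])
    rwa [map_sub, show Y (g.symm f) = 0 by simpa using e, sub_zero] at this)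
  generalize cn g Y = Y at hY' y0
  have y1 := hY'.1 f
  have y2 : ψ.Q (Y f) = 0 := by obtain ⟨k, e⟩ := mem_pt.1 y1; exact e ▸ ψ.Q_smul_of_sing hv k
  have y3 : φ.B f (Y f) = 0 := by
    obtain ⟨x, hx, e⟩ := hY'.2
    simpa [e, hq.Q_add, hA.Q _ y1] using (h.le hx).Q f
  refine ⟨_, y2, y0, t, Ws.of (φ.B_symm_zero (hp t t1 _ y1)) ((h.ts hm.r).Q t t1) fun c => ?_, fun e => t2 ((pt_eq y1 y0).le e)⟩
  obtain ⟨x, hx, i, j⟩ := h.rad hm.r (fun y hy => hp y hy a a1) a2 (B.smul_mem c t1)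
  obtain ⟨D, m, n⟩ := h.dl (hA.sup (h.ts hm.r) fun b hb a ha => φ.B_symm_zero (hp b hb a ha)) le_sup_left hY' hx (f3 x i _ j)
    (Submodule.mem_sup_right (B.smul_mem c t1))
  exact ⟨D, m.2, fun z => by simp [n, y3, hq.B_comm z]⟩

omit hq hb [φ.Nondeg] [FiniteDimensional F K] in
theorem keyO (hψ : ψ.IsQuad) (h2 : (2 : K) ≠ 0) (hk : 3 ≤ finrank K V) (hv : ψ.Q v = 0) (v0 : v ≠ 0) {x : V ≃ₗ[F] V} (hx : x ∈ M)
    (s1 : s ∈ pt F K v) (s0 : s ≠ 0) (e : ∀ a ∈ pt F K v, x a = a + φ.B f a • s) (f1 : φ.B f s = 0) {a : V} (a1 : a ∈ pt F K v)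
    (f2 : φ.B f a ≠ 0) : ∃ Y, Zs M (pt F K v) Y ∧ Y ≠ 0 := by
  by_contra! H
  have e' : ∀ a ∈ pt F K v, x.symm a = a - φ.B f a • s := fun a ha => by
    rw [x.symm_apply_eq, e _ (sub_mem ha (Submodule.smul_mem _ _ s1))]; simp [f1]
  have p1 : ∀ z, ψ.B v z = 0 → ψ.B v (x.symm z) = 0 := fun z hz => h.perp_iff.1 fun b hb => by
    rw [← h.Bm hx, x.apply_symm_apply]; exact h.perp_iff.2 hz _ (e b hb ▸ add_mem hb (Submodule.smul_mem _ _ s1))
  have vA : ∀ b ∈ pt F K v, ∀ w, ψ.B v w = 0 → ψ.B w b = 0 := fun b hb w hw => by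
    obtain ⟨k, rfl⟩ := mem_pt.1 hb; simp [ψ.B_symm_zero hw]
  obtain ⟨u, hyp⟩ := ψ.exists_hyp hv v0
  have lin : ∀ w, ψ.B v w = 0 → ∃ d, ∀ z, ψ.B v z = 0 → x (ψ.B w (x.symm z) • v) = -ψ.B z d • v := fun w hw => by
    obtain ⟨r, hr, i⟩ := h.sg hv hw (hψ.T_eq _)
    have hX := M.mul_mem (M.mul_mem hx hr) (M.inv_mem hx)
    have j : ∀ z, ψ.B v z = 0 → (x * r * x⁻¹) z = z + x (ψ.B w (x.symm z) • v) := fun z hz => by
      simp [LinearEquiv.mul_apply, i, p1 z hz]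
    generalize x * r * x⁻¹ = X at hX j
    have j1 : ∀ b ∈ pt F K v, X b = b := fun b hb => by
      rw [j b (vA b hb v (ψ.B_self_eq_zero hv)), vA _ (e' b hb ▸ sub_mem hb (Submodule.smul_mem _ _ s1)) w hw]; simp
    have j2 : ∀ z, ψ.B v (X z) = ψ.B v z := fun z => sub_eq_zero.1 (by
      rw [← map_sub]; exact h.perp_iff.1 fun b hb => by rw [map_sub, ← h.Bm hX b z, j1 b hb, sub_self])
    refine ⟨X u - u, fun z hz => ?_⟩
    obtain ⟨r, hr, i⟩ := h.sg hv hz (hψ.T_eq _)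
    have m : ∀ y, X (r y) - r (X y) = -x (ψ.B w (x.symm (ψ.B v y • z)) • v) - ψ.B z (X y - y) • v := fun y => by
      simp only [i, map_sub, map_add, j1 _ (smul_mem_pt _ v), j (ψ.B v y • z) (by simp [hz]), hψ.ε_eq, one_mul, j2]; module
    have m' : ∀ y, X (r y) - r (X y) ∈ pt F K v := fun y => m y ▸ sub_mem (neg_mem (e _ (smul_mem_pt _ v) ▸
      add_mem (smul_mem_pt _ v) (Submodule.smul_mem _ _ s1))) (smul_mem_pt _ v)
    have := LinearMap.congr_fun (H ((X : V →ₗ[F] V) ∘ₗ r - (r : V →ₗ[F] V) ∘ₗ X) ⟨m', _,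
      M.mul_mem (M.inv_mem (M.mul_mem hr hX)) (M.mul_mem hX hr), fun y => ?_⟩) u
    · replace this := (m u).symm.trans this
      rw [hyp.Bef, one_smul, LinearMap.zero_apply] at this
      linear_combination (norm := module) -this
    obtain ⟨k, hk⟩ := mem_pt.1 (m' y)
    change (r * X).symm (X (r y)) = y + (X (r y) - r (X y))
    rw [LinearEquiv.symm_apply_eq, map_add, ← hk, LinearEquiv.mul_apply, LinearEquiv.mul_apply, j1 _ (smul_mem_pt _ v),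
      i (k • v), vA _ (smul_mem_pt _ v) z hz, vA _ (smul_mem_pt _ v) v (ψ.B_self_eq_zero hv)]
    simp [hk]
  obtain ⟨z, z1, z2⟩ : ∃ z ∈ ψ.perp (K ∙ v), z ∉ K ∙ v := by
    by_contra! H
    have := Submodule.finrank_mono (show _ ≤ _ from H)
    have := ψ.finrank_perp (K ∙ v)
    rw [finrank_span_singleton v0] at *; omega
  rw [ψ.mem_perp_singleton] at z1
  obtain ⟨σ, rfl⟩ := mem_pt.1 s1
  obtain ⟨α, rfl⟩ := mem_pt.1 a1
  have σ0 : σ ≠ 0 := by rintro rfl; simp at s0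
  obtain ⟨χ, c, d⟩ := exists_dual_val (v := v) (t := x.symm z) (fun i => z2 (show z ∈ pt F K v by
    simpa [← e _ i] using add_mem (show _ ∈ pt F K v from i) (Submodule.smul_mem _ (φ.B f (x.symm z)) s1))) (1 : K)
  obtain ⟨w, rfl⟩ := ψ.exists_B_eq χ
  have key : ∀ k : K, x ((k * ψ.B w (x.symm ((α / σ) • z))) • v) = (α / σ) • x (k • v) := fun k => by
    obtain ⟨d', i⟩ := lin (k • w) (by simp [ψ.B_symm_zero c])
    have := i z z1
    rw [hψ.B_smul_left, d, mul_one] at this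
    rw [← hψ.B_smul_left, i _ (by simp [z1]), this, hψ.B_smul_left, smul_smul, mul_neg]
  generalize ψ.B w (x.symm ((α / σ) • z)) = γ at key
  have k1 := key σ
  have k2 := key α
  simp only [e _ (smul_mem_pt _ v), f1, zero_smul, add_zero, smul_smul, div_mul_cancel₀ _ σ0] at k1 k2
  have k3 := congrArg (φ.B f) k1
  rw [map_add, map_smul _ _ (σ • v), f1, smul_zero, add_zero] at k3
  rw [k3] at k1
  generalize φ.B f ((α * γ) • v) = ν at k2
  set μ := φ.B f (α • v)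
  rw [← algebraMap_smul K μ] at k1 k2
  rw [← algebraMap_smul K ν] at k2
  simp only [smul_smul, ← add_smul] at k1 k2
  replace k1 := smul_left_injective K v0 k1
  replace k2 := smul_left_injective K v0 k2
  have m0 : algebraMap F K μ ≠ 0 := by simpa
  have : α = (ν / (2 * μ)) • σ := by
    rw [Algebra.smul_def, map_div₀, map_mul, map_ofNat]; field_simp at k2 ⊢
    exact mul_left_cancel₀ σ0 (by linear_combination α * k1 - k2)
  exact f2 (by simp only [μ]; rw [this, smul_assoc, map_smul, f1, smul_zero])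

omit hb in
theorem om_u [Finite F] {q : ℕ} (hu : ψ.IsUnitary q) (hk : 5 ≤ finrank K V) :
    φ.E ≤ M.subgroupOf φ.Isom ∨ ∀ g ∈ M, ∀ k : K, ∃ k' : K, ∀ y, g (k • y) = k' • g y := by
  by_cases H : ∀ A ∈ Fam M (StQ F ψ), A ∈ StQ F ψ
  · exact Or.inr (h.nrm (by omega) (hN_of fun v w _ _ _ W hW => (hu.exists_singular (by omega)).imp fun _ h =>
      ⟨h.1, h.2.1, .inl h.2.2⟩) H)
  push Not at H
  obtain ⟨A, hA, hA'⟩ := H
  obtain ⟨A, B, hm⟩ := h.exists_mp (by omega) hA hA'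
  obtain ⟨A, B, hm, hp⟩ := h.exists_t1 (by omega) hm
  obtain ⟨v, B, v0, hv, hm, hp⟩ := h.std1 hm hp
  obtain ⟨f, hf⟩ := φ.exists_B_ne_zero v0
  obtain ⟨g, -, w, b, i, d⟩ := h.tv hm.l (self_mem_pt v) (mt φ.B_symm_zero hf)
  obtain ⟨c, c0, c1⟩ := hu.exists_skew
  obtain ⟨Y, m, n⟩ := d c c1
  obtain ⟨y, a, b, t, d, e⟩ := h.root hq (hu.big (by omega)) hv v0 hm hp m fun e => by
    rw [e, LinearMap.zero_apply, eq_comm] at n
    simp [c0, b] at n; simp [n] at b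
  exact Or.inl (h.fin hq (hu.big (by omega)) (by omega) (.inr hk) a b d e)

omit hb in
theorem om_om [Finite F] (hψ : ψ.IsQuad) (h2 : (2 : K) ≠ 0) (hk : 4 ≤ finrank K V) (hex : 3 ≤ finrank F K ∨ 5 ≤ finrank K V) :
    φ.E ≤ M.subgroupOf φ.Isom ∨ ∀ g ∈ M, ∀ k : K, ∃ k' : K, ∀ y, g (k • y) = k' • g y := by
  have := Module.finite_of_finite F (M := K)
  have hb := hψ.big hk
  by_cases H : ∀ A ∈ Fam M (StQ F ψ), A ∈ StQ F ψ
  · refine Or.inr (h.nrm (by omega) (hN_of fun v w hv _ b W hW => ?_) H)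
    obtain ⟨u, c, d⟩ := hψ.exists_Q_eq (W := W) (hW.1 ▸ (ψ.nondegOn_pair (by
      simp [ψ.B_self_eq_zero hv, b, mt ψ.B_symm_zero b])).perp) (by omega) (2 * ψ.B v w)
    exact ⟨u, c, by rintro rfl; simp [h2, b] at d, .inr (by rw [d, hψ.T_eq])⟩
  push Not at H
  obtain ⟨A, hA, hA'⟩ := H
  obtain ⟨A, B, hm⟩ := h.exists_mp hk hA hA'
  obtain ⟨A, B, hm, hp⟩ := h.exists_t1 hk hm
  obtain ⟨v, B, v0, hv, hm, hp⟩ := h.std1 hm hp
  obtain ⟨s, ⟨s1, s2⟩, s0⟩ := (Submodule.ne_bot_iff _).1 hm.nb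
  obtain ⟨a, a1, a2⟩ := exists_not hm.symm
  obtain ⟨f, f1, f2, f3⟩ := h.exists_f a2 fun _ => h.codim hm.symm hp a1 a2
  obtain ⟨x, hx, i, j⟩ := h.rad hm.r (fun y hy => hp y hy a a1) a2 s2
  obtain ⟨Y, m, n⟩ := h.keyO hψ h2 (by omega) hv v0 hx s1 s0 (f3 x i _ j) (f1 s s2) a1 (f2 ▸ one_ne_zero)
  obtain ⟨y, a, b, t, d, e⟩ := h.root hq hb hv v0 hm hp m n
  exact Or.inl (h.fin hq hb (by omega) hex a b d e)

end FK
end H10.Mx
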