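import Mathlib
import Cfsg.Agent.H10.MxO
import Cfsg.Agent.H10.AsBigE

/-!
# Extension field subgroups of symplectic and orthogonal groups are maximal
`isMaximalIn_sp_sp`, `isMaximalIn_sp_u`, `isMaximalIn_om_u`, `isMaximalIn_om_om`
-/

namespace H10.Mx

open Module Form Matrix Cfsg Cfsg.Geo H10.As

section
variable {F K V : Type*} [Field F] [Field K] [Algebra F K] [AddCommGroup V] [Module F V] [Module K V]
  [IsScalarTower F K V] {φ : Form F V} [φ.Nondeg]

theorem exists_adj [Nontrivial V] (hσ : ∀ a, φ.σ a = a) (h : ∀ k : K, ∃ k' : K, ∀ u v, φ.B (k • u) v = φ.B u (k' • v)) :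
    ∃ τ : K →+* K, (∀ k u v, φ.B (k • u) v = φ.B u (τ k • v)) ∧ (∀ a, τ (τ a) = a) ∧
      ∀ c, τ (algebraMap F K c) = algebraMap F K c := by
  choose t ht using h
  obtain ⟨v, hv⟩ := exists_ne (0 : V)
  have H : ∀ {k a : K}, (∀ u, φ.B (k • u) v = φ.B u (a • v)) → t k = a := fun h =>
    smul_left_injective K hv (φ.ext_B_right fun u => (ht _ u v).symm.trans (h u))
  refine ⟨⟨⟨⟨t, H (by simp)⟩, fun a b => H fun u => ?_⟩, H (by simp), fun a b => H fun u => ?_⟩, ht, fun a => H fun u => ?_,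
    fun c => H fun u => by simp [φ.B_smul_left, hσ]⟩
  · rw [mul_comm, mul_smul, ht, ht, mul_smul]
  · simp [add_smul, ht]
  · change φ.B (t a • u) v = _
    rw [φ.symm v, ← ht, φ.symm (a • v)]

omit [φ.Nondeg] in
theorem exists_beta [FiniteDimensional F K] {τ : K →+* K} (h : ∀ k u v, φ.B (k • u) v = φ.B u (τ k • v))
    {l : Dual F K} (hl : l ≠ 0) : ∃ β : V →ₛₗ[τ] V →ₗ[K] K, ∀ x y, φ.B x y = l (β x y) := by
  choose b hb using fun x => exists_kdual (V := V) hl (φ.B x)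
  have H : ∀ {x y} {a : K}, (∀ k : K, φ.B x (k • y) = l (k * a)) → b x y = a := fun h => sub_eq_zero.1
    (eq_zero_of_mul hl fun k => by rw [mul_sub, map_sub, ← h, hb, map_smul, smul_eq_mul, sub_self])
  exact ⟨⟨⟨b, fun x y => LinearMap.ext fun z => H fun k => by rw [map_add, LinearMap.add_apply, hb, hb]; simp [mul_add]⟩,
    fun c x => LinearMap.ext fun z => H fun k => by rw [h, hb]; simp [mul_left_comm]⟩, hb⟩

omit [φ.Nondeg] in
theorem beta_symm (hσ : ∀ a, φ.σ a = a) {τ : K →+* K} (hτ : ∀ a, τ (τ a) = a) {l : Dual F K} (hl : l ≠ 0)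
    (hl' : ∀ a, l (τ a) = φ.ε * l a) {β : V →ₛₗ[τ] V →ₗ[K] K} (hb : ∀ x y, φ.B x y = l (β x y)) : β.IsSymm :=
  ⟨fun x y => sub_eq_zero.1 (eq_zero_of_mul hl fun k => by
    have := φ.symm (k • x) y
    rw [hσ, hb, hb, ← hl'] at this
    rw [mul_sub, map_sub, sub_eq_zero]; simpa [hτ] using this.symm)⟩

theorem exists_l {τ : K →+* K} (h0 : τ ≠ RingHom.id K) (hτ : ∀ a, τ (τ a) = a)
    (hF : ∀ c, τ (algebraMap F K c) = algebraMap F K c) {ε : F} (hε : ε = 1 ∨ ε = -1) :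
    ∃ l : Dual F K, l ≠ 0 ∧ ∀ a, l (τ a) = ε * l a := by
  obtain ⟨a, ha⟩ : ∃ a, a + ε • τ a ≠ 0 := by
    obtain ⟨θ, e⟩ := exists_theta h0 hτ
    rcases hε with rfl | rfl
    · exact ⟨θ, by simp [e]⟩
    by_contra! H; exact h0 (RingHom.ext fun a => by have := H a; rw [neg_one_smul, add_neg_eq_zero] at this; exact this.symm)
  obtain ⟨l, hl⟩ := not_forall.1 (mt (forall_dual_apply_eq_zero_iff F _).1 ha)
  refine ⟨l + ε • l ∘ₗ ⟨τ, fun c a => by simp [Algebra.smul_def, hF]⟩, fun e => hl (by simpa using LinearMap.congr_fun e a),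
    fun a => ?_⟩
  rcases hε with rfl | rfl <;> simp [hτ, add_comm]

theorem nondeg_of {ψ : Form K V} {l : Dual F K} (h : ∀ x y, φ.B x y = l (ψ.B x y)) : ψ.Nondeg :=
  ⟨fun x hx => φ.eq_zero_of_B_left fun y => by rw [h, hx, map_zero]⟩

omit [φ.Nondeg] in
theorem mem_of {ψ : Form K V} {l : Dual F K} (h : ∀ x y, φ.B x y = l (ψ.B x y)) (hQ : ∀ x y, ψ.Q x = ψ.Q y → φ.Q x = φ.Q y)
    (hE : φ.E = ⊤ ∨ ψ.E ≤ commutator ψ.Isom ∧ commutator φ.Isom ≤ φ.E) :
    ∀ g ∈ ψ.E, ∃ x ∈ φ.E.map φ.Isom.subtype, ∀ z, x z = g.1 z := fun g hg => by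
  let ρ : ψ.Isom →* φ.Isom := ⟨⟨fun g => ⟨g.1.restrictScalars F, fun x y => by simp [h], fun x => hQ _ _ (g.2.Q x)⟩, rfl⟩,
    fun _ _ => rfl⟩
  refine ⟨_, Subgroup.mem_map_of_mem _ (show ρ g ∈ φ.E from hE.elim (fun e => e ▸ trivial) fun e => e.2 ?_), fun _ => rfl⟩
  exact (Subgroup.map_commutator ⊤ ⊤ ρ).le.trans (Subgroup.commutator_mono le_top le_top) (Subgroup.mem_map_of_mem _ (e.1 hg))

theorem alt_cases [FiniteDimensional F V] [Nontrivial V] (h : H09.IsAltF φ) : 4 ≤ finrank F V ∨ finrank F V = 2 := by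
  obtain ⟨v, hv⟩ := exists_ne (0 : V)
  obtain ⟨f, hyp⟩ := φ.exists_hyp (h.Q_eq v) hv
  have := hyp.finrank_perp
  by_contra H
  have := hyp.nondegOn.perp.nondeg
  have h1 : finrank F (φ.perp (Submodule.span F {v, f})) = 1 := by omega
  obtain ⟨w, hw⟩ := finrank_pos_iff_exists_ne_zero.1 (h1 ▸ one_pos)
  exact hw ((φ.restrict _).aniso_of_finrank_one h1 w (h.Q_eq _))

end

universe u
variable {ι : Type} [Fintype ι] [DecidableEq ι] {F : Type u} [Field F] [Fintype F] {K : Subalgebra F (Matrix ι ι F)} {r : ℕ}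
  {φ : Form F (ι → F)} [φ.Nondeg]

section
variable {E : Type*} [Field E] [Algebra F E] [Module E (ι → F)] [IsScalarTower F E (ι → F)]
  (h1 : ∀ a, a ∈ K ↔ ∃ e : E, ∀ v : ι → F, a *ᵥ v = e • v) (h2 : ∀ e : E, ∃ a ∈ K, ∀ v : ι → F, a *ᵥ v = e • v)
include h1 h2

omit [φ.Nondeg] in
theorem max_of [Nonempty ι] (hb : As.Big (φ.E.map φ.toGL)) (hK : IsFieldSubalgebra r K) (hr : r ≠ 1) {ψ : Form E (ι → F)}
    {l : Dual F E} (h : FK φ ψ l (φ.E.map φ.Isom.subtype)) (H : ∀ M, FK φ ψ l M → φ.E ≤ M.subgroupOf φ.Isom ∨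
      ∀ g ∈ M, ∀ k : E, ∃ k' : E, ∀ y, g (k • y) = k' • g y) :
    IsMaximalIn (φ.E.map φ.toGL) (subalgebraNormalizer K ⊓ φ.E.map φ.toGL) := by
  refine isMaximalIn_map _ (fun e => hb.not_field hK hr (Subgroup.map_le_iff_le_comap.2 e)) fun M hM g hg _ hg' => ?_
  refine ((H (M.map φ.Isom.subtype) { h with le := Subgroup.map_subtype_le _, mem := fun g hg => ?_ }).resolve_right
    fun e => hg' ((mem_nrm_iff h1 h2).2 (by simpa [toGL_mulVec] using e _ (Subgroup.mem_map_of_mem _ hg)))).trans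
      (Subgroup.comap_map_eq_self_of_injective φ.Isom.subtype_injective M).le
  obtain ⟨_, ⟨x, a, rfl⟩, b⟩ := h.mem g hg
  exact ⟨_, Subgroup.mem_map_of_mem _ (hM ⟨a, (mem_nrm_iff h1 h2).2 fun k => ⟨k, fun y => by
    simp only [toGL_mulVec]; exact (b _).trans (by rw [map_smul, ← b]; rfl)⟩⟩), b⟩

omit [Fintype F] [φ.Nondeg] [IsScalarTower F E (ι → F)] [Algebra F E] h1 in
theorem sa_of {f} (hf : ∀ x y, f x y = φ.B x y) (h : IsSelfAdjointFor f K) (k : E) (u v) :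
    φ.B (k • u) v = φ.B u (RingHom.id E k • v) := by
  obtain ⟨a, ha, e⟩ := h2 k
  rw [RingHom.id_apply, ← e, ← e, ← hf, ← hf, h a ha]

theorem exists_herm [Nonempty ι] [FiniteDimensional F E] (hσ : ∀ a, φ.σ a = a) {f} (hf : ∀ x y, f x y = φ.B x y)
    (h : IsAdjointClosedFor f K) (h' : ¬ IsSelfAdjointFor f K) : ∃ (ψ : Form E (ι → F)) (q : ℕ) (l : Dual F E),
      ψ.IsUnitary q ∧ l ≠ 0 ∧ (∀ a, l (ψ.σ a) = φ.ε * l a) ∧ (∀ x y, φ.B x y = l (ψ.B x y)) ∧
      ∀ c, ψ.σ (algebraMap F E c) = algebraMap F E c := by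
  obtain ⟨τ, a, b, c⟩ := exists_adj (φ := φ) (K := E) hσ fun k => by
    obtain ⟨a, ha, e⟩ := h2 k
    obtain ⟨b, hb, i⟩ := h a ha
    obtain ⟨k', j⟩ := (h1 b).1 hb
    exact ⟨k', fun u v => by rw [← e, ← j, ← hf, ← hf, i]⟩
  have t : τ ≠ RingHom.id E := fun e => h' fun k hk u v => by
    obtain ⟨k', j⟩ := (h1 k).1 hk
    rw [hf, hf, j, j, a, e]; rfl
  obtain ⟨l, d, e⟩ := exists_l t b c φ.ε_cases
  obtain ⟨β, i⟩ := exists_beta a d
  have := Module.finite_of_finite F (M := E)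
  obtain ⟨q, j, m⟩ := exists_q_of_involutive t b
  exact ⟨ofHerm τ b (exists_theta t b) β (beta_symm hσ b d e i), q, l, ⟨isHerm_ofHerm .., j, m⟩, d, e, i, c⟩

end

theorem isMaximalIn_sp_sp {m : ℕ} {K : Subalgebra F (Matrix (Fin m ⊕ Fin m) _ F)} (hm : 2 ≤ m)
    (hex : ¬ (m = 2 ∧ Fintype.card F = 2)) (hr : r.Prime) (hK : IsFieldSubalgebra r K)
    (hsa : IsSelfAdjointFor (sympForm m F) K) (halt : ∀ k ∈ K, ∀ v, sympForm m F (k *ᵥ v) v = 0) :
    IsMaximalIn (spGL m F) (subalgebraNormalizer K ⊓ spGL m F) := by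
  have : Nonempty (Fin m) := ⟨⟨0, by omega⟩⟩
  have ha := H09.isAltF_spForm (l := Fin m) (F := F)
  have hb := big_sp hm hex
  rw [spGL_eq_E] at hb ⊢
  refine fld_bridge hK fun E _ _ _ _ _ hE h1 h2 => ?_
  have := Module.Finite.of_restrictScalars_finite F E (Fin m ⊕ Fin m → F)
  obtain ⟨l, hl⟩ := exists_tau (F := F) (K := E)
  have l0 : l ≠ 0 := fun e => by simpa [e] using hl 1
  obtain ⟨β, i⟩ := exists_beta (φ := H09.spForm (Fin m) F) (sa_of h2 (H09.sympForm_eq _ · ·) hsa) l0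
  have hA : LinearMap.IsAlt β := fun v => eq_zero_of_mul l0 fun k => by
    obtain ⟨a, b, e⟩ := h2 k
    simpa [e, H09.sympForm_eq, ← H09.spForm_B, i] using halt a b v
  have hψ := H09.isAltF_ofAlt β hA
  have := nondeg_of (ψ := ofAlt β hA) i
  refine max_of h1 h2 hb hK hr.ne_one (ψ := ofAlt β hA) ⟨ha.σ_eq, fun _ => rfl, l0, i, fun _ _ => rfl, fun _ _ _ => rfl,
    Subgroup.map_subtype_le _, mem_of i (fun _ _ _ => rfl) (.inl (E_eq_top_of_isAltF ha)), hE ▸ hr, fun W hW => ?_⟩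
    fun M h => (h.sp_sp ha hψ ((alt_cases hψ).imp_right fun e => ⟨e, by_contra fun H => hex ?_⟩)).imp_left (le_top.trans ·.ge)
  · exact ((Submodule.ne_bot_iff W).1 (by rintro rfl; simp at hW)).imp fun v h => ⟨h.1, h.2, rfl⟩
  have := finrank_mul_finrank F E (Fin m ⊕ Fin m → F)
  have := hr.two_le
  push Not at H
  simp only [e, hE, finrank_fintype_fun_eq_card, Fintype.card_sum, Fintype.card_fin] at *
  refine ⟨by omega, le_antisymm ?_ Fintype.one_lt_card⟩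
  classical
  simpa using Finset.card_le_two.trans' (Finset.card_le_card (show Finset.univ ⊆ {(0 : F), 1} from fun c _ => by
    by_cases h : c = 0 <;> simp [h, H.2]))

theorem isMaximalIn_sp_u {m : ℕ} {K : Subalgebra F (Matrix (Fin m ⊕ Fin m) _ F)} (hm : 4 ≤ m) (hodd : Odd (Fintype.card F))
    (hK : IsFieldSubalgebra 2 K) (hac : IsAdjointClosedFor (sympForm m F) K) (hsa : ¬ IsSelfAdjointFor (sympForm m F) K) :
    IsMaximalIn (spGL m F) (subalgebraNormalizer K ⊓ spGL m F) := by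
  have : Nonempty (Fin m) := ⟨⟨0, by omega⟩⟩
  have ha := H09.isAltF_spForm (l := Fin m) (F := F)
  have hb := big_sp (F := F) (m := m) (by omega) (by omega)
  rw [spGL_eq_E] at hb ⊢
  refine fld_bridge hK fun E _ _ _ _ _ hE h1 h2 => ?_
  have := Module.Finite.of_restrictScalars_finite F E (Fin m ⊕ Fin m → F)
  obtain ⟨ψ, q, l, hu, l0, a, i, b⟩ := exists_herm h1 h2 ha.σ_eq (H09.sympForm_eq _ · ·) hac hsa
  have := nondeg_of i
  have := finrank_mul_finrank F E (Fin m ⊕ Fin m → F)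
  simp only [hE, finrank_fintype_fun_eq_card, Fintype.card_sum, Fintype.card_fin] at this
  exact max_of h1 h2 hb hK (by omega) ⟨ha.σ_eq, b, l0, i, fun _ _ => rfl, fun _ _ e => by rwa [hu.herm.Q_eq, hu.herm.Q_eq],
    Subgroup.map_subtype_le _, mem_of i (fun _ _ _ => rfl) (.inl (E_eq_top_of_isAltF ha)), hE ▸ Nat.prime_two,
    fun W hW => hu.exists_singular (by omega)⟩ fun M h => (h.sp_u ha hu (by omega) (two_ne_zero_of_odd_card hodd)
      (by simpa [ε_eq_of_isAltF ha] using a)).imp_left (le_top.trans ·.ge)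

theorem isMaximalIn_om_u {Q : (ι → F) → F} (hQ : IsNondegenerateQuadraticForm Q) (hn : 9 ≤ Fintype.card ι)
    (hK : IsFieldSubalgebra 2 K) (hac : IsAdjointClosedFor (QuadraticMap.polar Q) K)
    (hsa : ¬ IsSelfAdjointFor (QuadraticMap.polar Q) K) (hsc : ∀ k ∈ K, ∃ c : F, ∀ v, Q (k *ᵥ v) = c * Q v) :
    IsMaximalIn (omegaGL Q) (subalgebraNormalizer K ⊓ omegaGL Q) := by
  have : Nonempty ι := Fintype.card_pos_iff.1 (by omega)
  have hb := big_om hQ (by omega)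
  obtain ⟨Q, rfl, _⟩ := exists_ofQuad hQ
  have hq := isQuad_ofQuad Q
  rw [omegaGL_eq_E Q (by omega)] at hb ⊢
  refine fld_bridge hK fun E _ _ _ _ _ hE h1 h2 => ?_
  have := Module.Finite.of_restrictScalars_finite F E (ι → F)
  obtain ⟨ψ, q, l, hu, l0, a, i, b⟩ := exists_herm (φ := ofQuad Q) h1 h2 (fun _ => rfl) (fun _ _ => rfl) hac hsa
  have := nondeg_of i
  have := finrank_mul_finrank F E (ι → F)
  simp only [hE, finrank_fintype_fun_eq_card] at this
  have hc : ∀ k : E, ∃ c : F, (∀ v, Q (k • v) = c * Q v) ∧ algebraMap F E c = ψ.σ k * k := fun k => by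
    obtain ⟨a, ha, e⟩ := h2 k
    obtain ⟨c, hc⟩ := hsc a ha
    simp only [e] at hc
    refine ⟨c, hc, sub_eq_zero.1 (eq_zero_of_mul l0 fun t => ?_)⟩
    obtain ⟨v, hv⟩ := exists_ne (0 : ι → F)
    obtain ⟨w, hw⟩ := ψ.exists_B_eq_one hv
    have : (ofQuad Q).B (k • v) (k • t • w) = c * (ofQuad Q).B v (t • w) := by
      simp only [ofQuad_B, QuadraticMap.polar, ← smul_add k, hc]; ring
    rw [i, i, ψ.B_smul_left, ← smul_eq_mul c, ← map_smul] at this
    rw [mul_sub, map_sub, sub_eq_zero]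
    simpa [hw, Algebra.smul_def, mul_comm, mul_left_comm, mul_assoc] using this.symm
  have hQ : ∀ x y, ψ.Q x = ψ.Q y → Q x = Q y := fun x y e => by
    obtain ⟨θ, e1⟩ := hu.exists_T_eq (c := 1) (map_one _)
    obtain ⟨c, c1, c2⟩ := hc θ
    obtain ⟨d, d1, d2⟩ := hc (1 + θ)
    rw [hu.herm.T_eq] at e1
    have : ∀ x, Q x = l (θ * ψ.Q x) := fun x => by
      have := hq.Q_add x (θ • x)
      rw [i, map_smul, ← hu.herm.Q_eq, show x + θ • x = (1 + θ) • x by module] at this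
      rw [show d = 2 + c from (algebraMap F E).injective (by
        rw [map_add, map_ofNat, c2, d2, map_add, map_one]; linear_combination e1)] at d1
      simp only [ofQuad_Q, c1, d1, smul_eq_mul] at this
      linear_combination this
    rw [this, this, e]
  exact max_of h1 h2 hb hK (by omega) ⟨fun _ => rfl, b, l0, i, fun x e => (hQ x 0 (e.trans ψ.Q_zero.symm)).trans Q.map_zero,
    fun _ _ e => by rwa [hu.herm.Q_eq, hu.herm.Q_eq], Subgroup.map_subtype_le _, mem_of i hQ (.inr ⟨fun g hg =>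
      (Subgroup.map_commutator ⊤ ⊤ ψ.E.subtype).le.trans (Subgroup.commutator_mono le_top le_top) ⟨⟨g, hg⟩,
      (hu.commutator_E (by omega) (by omega)).ge trivial, rfl⟩, (hq.E_eq_commutator (hq.good_of_finrank (by simp; omega)) (by simp; omega)).ge⟩), hE ▸ Nat.prime_two,
    fun W hW => hu.exists_singular (by omega)⟩ fun M h => h.om_u hq hu (by omega)

theorem isMaximalIn_om_om {Q : (ι → F) → F} (hQ : IsNondegenerateQuadraticForm Q) (hodd : Odd (Fintype.card F))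
    (hr : r.Prime) (hK : IsFieldSubalgebra r K) (hn : 3 * r < Fintype.card ι) (hex : 3 ≤ r ∨ 4 * r < Fintype.card ι)
    (hsa : IsSelfAdjointFor (QuadraticMap.polar Q) K) : IsMaximalIn (omegaGL Q) (subalgebraNormalizer K ⊓ omegaGL Q) := by
  have := hr.two_le
  have : Nonempty ι := Fintype.card_pos_iff.1 (by omega)
  have hb := big_om hQ (by omega)
  obtain ⟨Q, rfl, _⟩ := exists_ofQuad hQ
  have hq := isQuad_ofQuad Q
  rw [omegaGL_eq_E Q (by omega)] at hb ⊢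
  refine fld_bridge hK fun E _ _ _ _ _ hE h1 h2 => ?_
  have := Module.Finite.of_restrictScalars_finite F E (ι → F)
  have := Module.finite_of_finite F (M := E)
  have t := two_ne_zero_of_odd_card hodd
  have t' : (2 : E) ≠ 0 := by rwa [← map_ofNat (algebraMap F E), map_ne_zero]
  obtain ⟨l, hl⟩ := exists_tau (F := F) (K := E)
  have l0 : l ≠ 0 := fun e => by simpa [e] using hl 1
  obtain ⟨β, i⟩ := exists_beta (φ := ofQuad Q) (sa_of h2 (fun _ _ => rfl) hsa) l0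
  have hs := beta_symm (φ := ofQuad Q) (fun _ => rfl) (fun _ => rfl) l0 (by simp) i
  let ψ := ofQuad ((2 : E)⁻¹ • LinearMap.BilinMap.toQuadraticMap β)
  have hψ : ψ.IsQuad := isQuad_ofQuad _
  replace i : ∀ x y, (ofQuad Q).B x y = l (ψ.B x y) := fun x y => by
    rw [i]; congr 1; simp [ψ, QuadraticMap.polar, ← hs.eq x y]; field_simp; ring
  have := nondeg_of i
  have h3 := finrank_mul_finrank F E (ι → F)
  simp only [hE, finrank_fintype_fun_eq_card] at h3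
  have h4 : ∀ c, c * r < Fintype.card ι → c < finrank E (ι → F) := fun c h =>
    lt_of_mul_lt_mul_left (a := r) (by rwa [h3, mul_comm]) r.zero_le
  have hQ : ∀ x y, ψ.Q x = ψ.Q y → Q x = Q y := fun x y e => mul_left_cancel₀ t (by
    rw [← ofQuad_Q, ← ofQuad_Q, ← hq.B_self, ← hq.B_self, i, i, hψ.B_self, hψ.B_self, e])
  exact max_of h1 h2 hb hK hr.ne_one ⟨fun _ => rfl, fun _ => rfl, l0, i,
    fun x e => (hQ x 0 (e.trans ψ.Q_zero.symm)).trans Q.map_zero,
    fun _ _ e => mul_left_cancel₀ t' (by rwa [← hψ.B_self, ← hψ.B_self]), Subgroup.map_subtype_le _, mem_of i hQ (.inr ⟨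
      hψ.E_le_commutator (hψ.good_of_two_ne_zero t'), (hq.E_eq_commutator (hq.good_of_two_ne_zero t) (by simp; omega)).ge⟩),
    hE ▸ hr, fun W hW => hψ.exists_singular hW⟩ fun M h => h.om_om hq hψ t' (h4 3 hn) (hex.imp (hE ▸ ·) (h4 4))

end H10.Mx
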