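import Mathlib
import Cfsg.Agent.H10.MxB

/-!
# Overgroups of tensor product subgroups of classical groups (`σ = id`), model `V = Hom(W, U)`
* `rad_mem` : unipotent radicals of parabolics are generated by Siegel elements
* `TK φ β γ M`; `Th`, `LL`, `JJ` : coordinates of `M ∩ R(U ⊗ e)`
* `TK.st_of_stab` : if `M ∩ R(U ⊗ e)` is standard then `N_M(U ⊗ e)` preserves the tensor structure
-/

namespace H10.Mx

open Module LinearMap Form

variable {F U W : Type*} [Field F] [AddCommGroup U] [Module F U] [AddCommGroup W] [Module F W]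

theorem rad_mem {φ : Form F U} [φ.Nondeg] [FiniteDimensional F U] {K : Subgroup φ.Isom} {A C : Submodule F U}
    (hA : φ.TS A) (h1 : A ≤ C) (h2 : C ≤ φ.perp A)
    (hK : ∀ p ∈ A, ∀ w ∈ C, ∀ s, φ.T s = φ.Q w → φ.siegel p w s ∈ K) {r : φ.Isom} (r1 : ∀ a ∈ A, r.1 a = a)
    (r2 : ∀ x, r.1 x - x ∈ C) (r3 : ∀ x ∈ φ.perp A, r.1 x - x ∈ A) : r ∈ K := by
  induction e : finrank F A using Nat.strong_induction_on generalizing A r with
  | _ n ih =>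
  by_cases h0 : A = ⊥
  · subst h0
    rw [show r = 1 from Isom.ext fun x => by simpa [sub_eq_zero] using r3 x (by simp)]; exact K.one_mem
  obtain ⟨p, hp, p0⟩ := (Submodule.ne_bot_iff _).1 h0
  have pQ := hA.Q p hp
  obtain ⟨f, hyp⟩ := φ.exists_hyp pQ p0
  have e1 : φ.B p (r.1 f) = φ.B p f := by rw [← r1 p hp, Isom.B_map, r1 p hp]
  obtain ⟨s, a, b, c⟩ := exists_siegel_map pQ (Isom.Q_map r f) e1 (by simp [e1, hyp.Bef])
  set w := (φ.ε / φ.B p (r.1 f)) • (r.1 f - f)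
  have hw : w ∈ C := C.smul_mem _ (r2 f)
  have d : ∀ x, ((φ.siegel p w s * r).1 x) - x = r.1 x - x + φ.B w (r.1 x) • p - (φ.ε * φ.B p (r.1 x)) • w -
      (φ.ε * s * φ.B p (r.1 x)) • p := fun x => by rw [Isom.mul_apply, φ.siegel_apply pQ a b]; abel
  have d1 : ∀ y ∈ A, (φ.siegel p w s * r).1 y = y := fun y hy => by
    rw [Isom.mul_apply, r1 y hy, siegel_apply_of_orth pQ a b (hA.B p hp y hy) (φ.mem_perp'.1 (h2 hw) y hy)]
  have hf : (φ.siegel p w s * r).1 f = f := c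
  refine (K.mul_mem_cancel_left (hK p hp w hw s b)).1 (ih _ (e ▸ Submodule.finrank_lt_finrank_of_lt
    (lt_of_le_of_ne (inf_le_left : A ⊓ φ.perp (F ∙ f) ≤ A) fun h => by
      simpa [hyp.Bfe, φ.ε_ne_zero] using φ.mem_perp_singleton.1 (h.ge hp).2)) (hA.mono inf_le_left) (inf_le_left.trans h1)
    (h2.trans (φ.perp_anti inf_le_left)) (fun p hp => hK p hp.1) (fun y hy => d1 y hy.1) (fun x => ?_) (fun x hx => ?_) rfl)
  · rw [d]; exact C.sub_mem (C.sub_mem (C.add_mem (r2 x) (C.smul_mem _ (h1 hp))) (C.smul_mem _ hw)) (C.smul_mem _ (h1 hp))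
  have i : x - φ.B p x • f ∈ φ.perp A := φ.mem_perp.2 fun y hy => by
    have := φ.mem_perp.1 hx (y - (φ.ε * φ.B f y) • p) ⟨A.sub_mem hy (A.smul_mem _ hp), φ.mem_perp_singleton.2 (by simp [hyp.Bfe, mul_right_comm])⟩
    simp only [map_sub, map_smul, LinearMap.sub_apply, φ.B_smul_left, smul_eq_mul, map_mul, σ_ε, φ.σ_B] at this ⊢
    linear_combination this + φ.B p x * φ.B y f * φ.ε_mul_ε
  have j : (φ.siegel p w s * r).1 x - x = (φ.siegel p w s * r).1 (x - φ.B p x • f) - (x - φ.B p x • f) := by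
    rw [map_sub, map_smul, hf]; abel
  refine ⟨?_, φ.mem_perp_singleton.2 (by rw [map_sub, ← hf, Isom.B_map, hf, sub_self])⟩
  have k : φ.B p (r.1 (x - φ.B p x • f)) = 0 := by rw [← r1 p hp, Isom.B_map, r1 p hp]; exact φ.mem_perp.1 i p hp
  rw [j, d, k]
  simpa using A.add_mem (r3 _ i) (A.smul_mem _ hp)

/-- the pure tensor `u ⊗ w` -/
def tp (γ : Form F W) (u : U) (w : W) : W →ₗ[F] U := (γ.B w).smulRight u
/-- `g` preserves the tensor structure -/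
def St (g : (W →ₗ[F] U) ≃ₗ[F] W →ₗ[F] U) : Prop :=
  ∃ (a : U ≃ₗ[F] U) (b : W ≃ₗ[F] W), ∀ x y, g x y = a (x (b y))

variable {β : Form F U} {γ : Form F W} {φ : Form F (W →ₗ[F] U)} {M : Subgroup ((W →ₗ[F] U) ≃ₗ[F] W →ₗ[F] U)}
  {g r : (W →ₗ[F] U) ≃ₗ[F] W →ₗ[F] U} {e f w : W} {u : U} {θ θ' : (W →ₗ[F] U) →ₗ[F] U} {ψ ζ : U →ₗ[F] U}

@[simp] theorem tp_apply (u : U) (w y : W) : tp γ u w y = γ.B w y • u := rfl
theorem tp_add (u v : U) (w : W) : tp γ (u + v) w = tp γ u w + tp γ v w := by ext; simp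
theorem tp_smul (c : F) (u : U) (w : W) : tp γ (c • u) w = c • tp γ u w := by ext; simp [smul_comm c]
@[simp] theorem tp_zero (w : W) : tp γ (0 : U) w = 0 := by ext; simp
theorem tp_mem (u : U) (w : W) : tp γ u w ∈ pu U (γ.B w) := ⟨u, rfl⟩
theorem mem_tp {x : W →ₗ[F] U} : x ∈ pu U (γ.B w) ↔ ∃ u, tp γ u w = x := mem_pu

theorem St.mul (h : St g) (h' : St r) : St (g * r) := by
  obtain ⟨a, b, h⟩ := h; obtain ⟨a', b', h'⟩ := h'
  exact ⟨a * a', b' * b, fun x y => by simp [LinearEquiv.mul_apply, h, h']⟩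
theorem St.inv (h : St g) : St g⁻¹ := by
  obtain ⟨a, b, h⟩ := h
  exact ⟨a.symm, b.symm, fun x y => a.injective (by
    have := h (g.symm x) (b.symm y); simp at this; simp [this])⟩

variable (γ M) in
def Th (e : W) (θ : (W →ₗ[F] U) →ₗ[F] U) : Prop :=
  ∃ r ∈ M, (∀ u, r (tp γ u e) = tp γ u e) ∧ ∀ x, x e = 0 → r x = x + tp γ (θ x) e
variable (γ M) in
def LL (e : W) (ψ : U →ₗ[F] U) : Prop := ∀ w, γ.B e w = 0 → Th γ M e (ψ ∘ₗ applyₗ w)
variable (γ M) in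
def JJ (e : W) (ζ : U →ₗ[F] U) : Prop := ∃ r ∈ M, ∀ x, r x = x + tp γ (ζ (x e)) e

structure TK (φ : Form F (W →ₗ[F] U)) (β : Form F U) (γ : Form F W) (M : Subgroup ((W →ₗ[F] U) ≃ₗ[F] W →ₗ[F] U)) :
    Prop where
  σ : ∀ a, φ.σ a = a
  σβ : ∀ a, β.σ a = a
  σγ : ∀ a, γ.σ a = a
  ε : φ.ε = β.ε * γ.ε
  B : ∀ u w x, φ.B (tp γ u w) x = β.B u (x w)
  Q : ∀ u w, γ.Q w = 0 → φ.Q (tp γ u w) = 0
  iso : ∀ g, St g → (∀ x y, φ.B (g x) (g y) = φ.B x y) → g ∈ φ.Isom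
  le : ∀ g ∈ M, ∃ h : g ∈ φ.Isom, ⟨g, h⟩ ∈ φ.E
  mem : ∀ k ∈ φ.E, St k.1 → k.1 ∈ M
  l : ∀ a : β.Isom, ∃ g ∈ M, ∀ x y, g x y = a.1 (x y)
  r : ∀ b : γ.Isom, ∃ g ∈ M, ∀ x y, g x y = x (b.1 y)
  T : ∀ s, φ.T s = 0 → ∃ c, s = c - φ.ε * c
  U2 : 2 ≤ finrank F U
  W4 : 4 ≤ finrank F W
  kind : H09.IsAltF γ ∨ γ.IsQuad ∧ (2 : F) ≠ 0 ∧ 5 ≤ finrank F W

theorem Th.congr (h : Th γ M e θ) (h' : ∀ x, x e = 0 → θ' x = θ x) : Th γ M e θ' := by
  obtain ⟨r, a, b, c⟩ := h; exact ⟨r, a, b, fun x hx => by rw [c x hx, h' x hx]⟩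
theorem Th.add (h : Th γ M e θ) (h' : Th γ M e θ') : Th γ M e (θ + θ') := by
  obtain ⟨r, a, b, c⟩ := h; obtain ⟨r', a', b', c'⟩ := h'
  exact ⟨r * r', M.mul_mem a a', fun u => by simp [LinearEquiv.mul_apply, b, b'], fun x hx => by
    rw [LinearEquiv.mul_apply, c' x hx, map_add, b, c x hx, LinearMap.add_apply, tp_add, add_assoc]⟩
theorem th_zero : Th γ M e 0 := ⟨1, M.one_mem, fun _ => rfl, by simp⟩

namespace TK
variable (h : TK φ β γ M)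
include h

theorem Bm (hg : g ∈ M) (x y) : φ.B (g x) (g y) = φ.B x y := (h.le g hg).1.B x y
theorem γs (c : F) (x y : W) : γ.B (c • x) y = c * γ.B x y := by rw [γ.B_smul_left, h.σγ]
theorem βs (c : F) (x y : U) : β.B (c • x) y = c * β.B x y := by rw [β.B_smul_left, h.σβ]
theorem γc (x y : W) : γ.B y x = γ.ε * γ.B x y := by rw [γ.symm, h.σγ]
theorem βc (x y : U) : β.B y x = β.ε * β.B x y := by rw [β.symm, h.σβ]
theorem φc (x y) : φ.B y x = φ.ε * φ.B x y := by rw [φ.symm, h.σ]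
theorem sq (hw : γ.B w w = 0) : γ.Q w = 0 := by
  rcases h.kind with a | ⟨a, b, -⟩
  exacts [a.Q_eq w, by simpa [hw, b] using (a.B_self w).symm]
theorem ts (he : γ.Q e = 0) : φ.TS (pu U (γ.B e)) :=
  ⟨by rintro _ ⟨u, rfl⟩; exact h.Q u e he, by
    rintro _ ⟨u, rfl⟩ _ ⟨v, rfl⟩; exact (h.B u e (tp γ v e)).trans (by simp [γ.B_self_eq_zero he])⟩

variable [β.Nondeg] [γ.Nondeg] [φ.Nondeg] [FiniteDimensional F U] [FiniteDimensional F W] [Finite F]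

omit [γ.Nondeg] [φ.Nondeg] [FiniteDimensional F U] [FiniteDimensional F W] [Finite F] in
theorem mem_perp {x} : x ∈ φ.perp (pu U (γ.B e)) ↔ x e = 0 :=
  ⟨fun H => β.eq_zero_of_B_right fun u => (h.B u e x).symm.trans (H _ (tp_mem u e)),
    fun H _ ⟨u, a⟩ => a ▸ (h.B u e x).trans (by simp [H])⟩

omit [γ.Nondeg] [φ.Nondeg] [FiniteDimensional F U] [FiniteDimensional F W] [Finite F] in
theorem fix_perp (hg : g ∈ M) (h1 : ∀ u, ∃ v, g (tp γ v e) = tp γ u e) {x} (hx : x e = 0) : g x e = 0 :=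
  β.eq_zero_of_B_right fun u => by obtain ⟨v, a⟩ := h1 u; rw [← h.B, ← a, h.Bm hg, h.B, hx, map_zero]

omit [β.Nondeg] [φ.Nondeg] [FiniteDimensional F U] in
theorem std : γ.Std := h.kind.elim std_of_isAltF fun a => a.1.std a.2.2

omit [β.Nondeg] [φ.Nondeg] [FiniteDimensional F U] [Finite F] in
theorem sg {s : F} (he : γ.Q e = 0) (hw : γ.B e w = 0) (hs : γ.T s = γ.Q w) : ∃ g ∈ M, ∀ x,
    g x = x + tp γ (x e) w - γ.ε • tp γ (x w) e - (γ.ε * s) • tp γ (x e) e :=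
  (h.r (γ.siegel e w s)).imp fun _ a => ⟨a.1, fun x => LinearMap.ext fun y => by
    simp [a.2, γ.siegel_apply he hw hs, smul_smul]⟩

omit [β.Nondeg] [φ.Nondeg] [FiniteDimensional F U] [Finite F] in
theorem ll_one (he : γ.Q e = 0) : LL γ M e .id := fun w hw => by
  obtain ⟨s, hs, -⟩ := γ.half (-γ.ε • w)
  obtain ⟨g, a, b⟩ := h.sg he (w := -γ.ε • w) (by simp [hw]) hs
  exact ⟨g, a, fun u => by simp [b, hw, γ.B_self_eq_zero he], fun x hx => by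
    simp [b, hx, tp_smul, smul_smul]; ext; simp [smul_smul, mul_left_comm γ.ε]⟩

omit [γ.Nondeg] [φ.Nondeg] [FiniteDimensional F U] [FiniteDimensional F W] [Finite F] in
theorem cj (H : Th γ M e θ) (hg : g ∈ M) (a : U ≃ₗ[F] U) (h1 : ∀ u, g (tp γ u e) = tp γ (a u) e) :
    Th γ M e ((a : U →ₗ[F] U) ∘ₗ θ ∘ₗ (g.symm : _ →ₗ[F] _)) := by
  obtain ⟨r, b, c, d⟩ := H
  have h2 : ∀ u, g.symm (tp γ u e) = tp γ (a.symm u) e := fun u => by rw [g.symm_apply_eq, h1]; simp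
  exact ⟨g * r * g⁻¹, M.mul_mem (M.mul_mem hg b) (M.inv_mem hg), fun u => by simp [LinearEquiv.mul_apply, h1, h2, c],
    fun x hx => by simp [LinearEquiv.mul_apply, h1, d _ (h.fix_perp (symm_mem hg) (fun u => ⟨a u, by simp [h2]⟩) hx)]⟩

omit [β.Nondeg] [γ.Nondeg] [φ.Nondeg] [FiniteDimensional F U] [FiniteDimensional F W] [Finite F] in
theorem r' (b : γ.Isom) : ∃ g ∈ M, (∀ x y, g x y = x (b.1.symm y)) ∧ (∀ x y, g.symm x y = x (b.1 y)) ∧
    ∀ u w, g (tp γ u w) = tp γ u (b.1 w) := by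
  obtain ⟨g, hg, d⟩ := h.r b⁻¹
  exact ⟨g, hg, d, fun x y => by simpa [Isom.inv_apply] using (d (g.symm x) (b.1 y)).symm, fun u w => by
    ext y; rw [d, tp_apply, tp_apply, Isom.inv_apply, Isom.B_symm_right]⟩

omit [β.Nondeg] [γ.Nondeg] [φ.Nondeg] [FiniteDimensional F U] [FiniteDimensional F W] [Finite F] in
theorem cjr (H : Th γ M e θ) (b : γ.Isom) : Th γ M (b.1 e) (θ ∘ₗ lcomp F U (b.1 : W →ₗ[F] W)) := by
  obtain ⟨r, i, j, k⟩ := H
  obtain ⟨g, hg, d, d', d''⟩ := h.r' b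
  have h2 : ∀ u, g.symm (tp γ u (b.1 e)) = tp γ u e := fun u => by rw [g.symm_apply_eq, d'']
  refine ⟨g * r * g⁻¹, M.mul_mem (M.mul_mem hg i) (M.inv_mem hg), fun u => by simp [LinearEquiv.mul_apply, h2, j, d''],
    fun x hx => ?_⟩
  simp only [LinearEquiv.mul_apply, LinearEquiv.coe_inv, k _ ((d' x e).trans hx), map_add, d'', g.apply_symm_apply]
  rw [show g.symm x = lcomp F U (b.1 : W →ₗ[F] W) x from LinearMap.ext (d' x)]; rfl

omit h [β.Nondeg] [φ.Nondeg] [FiniteDimensional F U] [FiniteDimensional F W] [Finite F] in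
theorem tp_inj (he : e ≠ 0) {u v : U} (H : tp γ u e = tp γ v e) : u = v := by
  obtain ⟨y, hy⟩ := γ.exists_B_eq_one he
  simpa [hy] using LinearMap.congr_fun H y

omit h [β.Nondeg] [φ.Nondeg] [FiniteDimensional F U] [FiniteDimensional F W] [Finite F] in
theorem th0 (H : Th γ M e θ) (hyp : γ.IsHyp e f) (u : U) : θ (tp γ u e) = 0 := by
  obtain ⟨r, -, j, k⟩ := H
  exact tp_inj (γ := γ) hyp.e_ne_zero (by simpa [j] using (k (tp γ u e) (by simp [hyp.Bee])).symm)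

omit [φ.Nondeg] [FiniteDimensional F U] [Finite F] in
theorem th_smul (H : Th γ M e θ) (hyp : γ.IsHyp e f) (c : F) : Th γ M e (c • θ) := by
  by_cases c0 : c = 0
  · simpa [c0] using th_zero
  obtain ⟨g, hg, -, d, d'⟩ := h.r' (γ.rot e f c)
  refine (h.cj H hg (.smulOfNeZero F U c c0) fun u => by rw [d', γ.rot_apply_e hyp c0]; ext; simp [h.σγ, smul_smul, mul_comm]).congr
    fun x hx => ?_
  have : g.symm x = x + tp γ (((γ.σ c)⁻¹ - 1) • x f) e := by ext y; simp [d, γ.rot_apply hyp c0, hx, smul_smul, mul_comm]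
  simp [this, th0 H hyp]

omit [φ.Nondeg] [FiniteDimensional F U] [Finite F] in
/-- `L` as a subspace -/
def LS (hyp : γ.IsHyp e f) : Submodule F (U →ₗ[F] U) where
  carrier := {ψ | LL γ M e ψ}
  zero_mem' _ _ := by simpa using th_zero
  add_mem' a b w hw := by simpa [add_comp] using (a w hw).add (b w hw)
  smul_mem' c _ a w hw := by simpa [smul_comp] using h.th_smul (a w hw) hyp c

omit [β.Nondeg] [φ.Nondeg] [FiniteDimensional F U] [Finite F] [γ.Nondeg] [FiniteDimensional F W] in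
theorem ll_map (H : LL γ M e ψ) (b : γ.Isom) : LL γ M (b.1 e) ψ := fun w hw =>
  (h.cjr (H (b.1.symm w) (by rwa [Isom.B_symm_right])) b).congr fun x _ => by simp

omit [φ.Nondeg] [Finite F] [γ.Nondeg] [FiniteDimensional F U] [FiniteDimensional F W] in
theorem ll_cj (H : LL γ M e ψ) (a : β.Isom) : LL γ M e ((a.1 : U →ₗ[F] U) ∘ₗ ψ ∘ₗ (a.1.symm : U →ₗ[F] U)) := fun w hw => by
  obtain ⟨g, hg, d⟩ := h.l a
  refine (h.cj (H w hw) hg a.1 fun u => by ext; simp [d]).congr fun x _ => ?_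
  have := d (g.symm x) w
  simp only [LinearEquiv.apply_symm_apply] at this
  simp [this]

omit [φ.Nondeg] [FiniteDimensional F U] in
theorem spread (hyp : γ.IsHyp e f) (h1 : γ.B e w = 0) (h2 : γ.B f w = 0) (w0 : w ≠ 0) (H : Th γ M e (ψ ∘ₗ applyₗ w)) :
    LL γ M e ψ := by
  let S : Submodule F W :=
    { carrier := {w | Th γ M e (ψ ∘ₗ applyₗ w)}
      zero_mem' := th_zero.congr (by simp)
      add_mem' := fun a b => (Th.add a b).congr (by simp)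
      smul_mem' := fun c _ a => (h.th_smul a hyp c).congr (by simp) }
  have hc : γ.WittClosed S (γ.perp (Submodule.span F {e, f})) := fun x hx a x0 y hy y0 hQ => by
    obtain ⟨b, i, j⟩ := hyp.nondegOn.perp.exists_fix_map hx hy x0 y0 hQ.symm
    have k := i e (γ.le_perp_perp _ (Submodule.subset_span (by simp)))
    have := (h.cjr a b).congr (θ' := ψ ∘ₗ applyₗ y) (by simp [j])
    rwa [k] at this
  have := hyp.finrank_perp
  have hS : _ ≤ S := h.kind.elim (fun a => hc.le_of_sing hyp.nondegOn.perp (γ.mem_perp_pair.2 ⟨h1, h2⟩) H w0 (a.Q_eq _))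
    fun a => h.std.wc _ _ hc hyp.nondegOn.perp (by omega) _ (γ.mem_perp_pair.2 ⟨h1, h2⟩) H w0
  exact fun y hy => Th.congr (hS (hyp.proj_mem y)) fun x hx => by simp [hx, hy]

omit [φ.Nondeg] [FiniteDimensional F U] in
theorem ll_of_quasi (hyp : γ.IsHyp e f) (H : Th γ M e θ) (h1 : γ.B e w = 0) (h2 : γ.B f w = 0) {k : F} (k0 : k ≠ 0)
    (hk : γ.T (γ.ε * k) + γ.σ k * k * γ.Q w = 0) (w0 : w ≠ 0) (h3 : ∀ u, ψ u = θ (tp γ u w)) : LL γ M e ψ := by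
  have := h.cjr H (γ.quasi w k)
  rw [γ.quasi_apply hk, γ.B_symm_zero h1, mul_zero, zero_smul, add_zero] at this
  refine h.spread hyp h1 h2 w0 ((h.th_smul (this.add (h.th_smul H hyp (-1))) hyp k⁻¹).congr fun x _ => ?_)
  have : lcomp F U ((γ.quasi w k).1 : W →ₗ[F] W) x = x + k • tp γ (x w) w := by ext; simp [γ.quasi_apply hk, smul_smul]
  simp [this, h3, k0]

omit [β.Nondeg] [φ.Nondeg] [FiniteDimensional F U] in
theorem exists_e2 (hyp : γ.IsHyp e f) : ∃ e₂ f₂, γ.IsHyp e₂ f₂ ∧ γ.B e e₂ = 0 ∧ γ.B f e₂ = 0 ∧ γ.B e f₂ = 0 ∧ γ.B f f₂ = 0 ∧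
    ∃ b : γ.Isom, b.1 e = e₂ := by
  have h2 := hyp.finrank_perp
  have := h.W4
  obtain ⟨e₂, a, b, c⟩ : ∃ v ∈ γ.perp (Submodule.span F {e, f}), v ≠ 0 ∧ γ.Q v = 0 := h.kind.elim (fun a =>
    ((Submodule.ne_bot_iff _).1 fun a => by rw [a, finrank_bot] at h2; omega).imp fun v h => ⟨h.1, h.2, a.Q_eq v⟩)
    fun a => h.std.sing _ (by omega)
  obtain ⟨f₂, d, i⟩ := exists_hyp_mem hyp.nondegOn.perp a b c
  rw [γ.mem_perp_pair] at a d
  exact ⟨e₂, f₂, i, a.1, a.2, d.1, d.2, γ.witt_vec hyp.e_ne_zero b (hyp.Qe.trans c.symm)⟩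

omit [φ.Nondeg] [FiniteDimensional F U] in
theorem lj (hyp : γ.IsHyp e f) (H : LL γ M e ψ) (H' : JJ γ M e ζ) : LL γ M e (ψ ∘ₗ ζ) := by
  obtain ⟨e₂, f₂, i, a1, a2, a3, a4, b, rfl⟩ := h.exists_e2 hyp
  obtain ⟨r, j, k⟩ := H'
  obtain ⟨g, hg, d, d', d''⟩ := h.r' b
  have m : ∀ x, (g * r * g⁻¹) x = x + tp γ (ζ (x (b.1 e))) (b.1 e) := fun x => by simp [LinearEquiv.mul_apply, k, d', d'']
  have := h.cj (H f₂ a3) (M.inv_mem (M.mul_mem (M.mul_mem hg j) (M.inv_mem hg))) (.refl F U) fun u => by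
    rw [LinearEquiv.coe_inv, LinearEquiv.symm_apply_eq, m]; simp [a1]
  refine h.spread hyp a1 a2 i.e_ne_zero ((this.add (h.th_smul (H f₂ a3) hyp (-1))).congr fun x _ => ?_)
  have : (g * r * g⁻¹)⁻¹.symm x = (g * r * g⁻¹) x := rfl
  simp only [LinearMap.add_apply, comp_apply, LinearEquiv.coe_coe, this, m]
  simp [i.Bef]

omit [γ.Nondeg] [φ.Nondeg] [FiniteDimensional F U] [FiniteDimensional F W] [Finite F] in
theorem adj {ψ' : U →ₗ[F] U} (hψ : ∀ u v, β.B (ψ u) v = β.B u (ψ' v)) (hr : r ∈ M) (r1 : ∀ u, r (tp γ u e) = tp γ u e)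
    (r2 : ∀ x, x e = 0 → r x = x + tp γ (ψ (x w)) e) (y) : (r y - y) e = 0 ∧
      ∀ z, γ.B z e = 0 → (r y - y) z = -γ.B z w • ψ' (y e) := by
  have a : r y e = y e := β.ext_B_right fun u => by rw [← h.B, ← r1, h.Bm hr, h.B]
  refine ⟨by simp [a], fun z hz => β.ext_B_right fun u => ?_⟩
  have := h.Bm hr (tp γ u z) y
  rw [r2 _ (by simp [hz]), map_add, LinearMap.add_apply, h.B, h.B, h.B, a] at this
  simp only [tp_apply, map_smul, h.βs, hψ, LinearMap.sub_apply, map_sub, smul_eq_mul] at this ⊢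
  linear_combination this

omit [φ.Nondeg] [FiniteDimensional F U] in
theorem cm (hyp : γ.IsHyp e f) {ψ' χ χ' : U →ₗ[F] U} (hψ : ∀ u v, β.B (ψ u) v = β.B u (ψ' v))
    (hχ : ∀ u v, β.B (χ u) v = β.B u (χ' v)) (H : LL γ M e ψ) (H' : LL γ M e χ) :
    JJ γ M e (χ ∘ₗ ψ' - γ.ε • ψ ∘ₗ χ') := by
  obtain ⟨e₂, f₂, i, a1, -, a3, -⟩ := h.exists_e2 hyp
  obtain ⟨r, j, k, l⟩ := H f₂ a3
  obtain ⟨s, j', k', l'⟩ := H' e₂ a1
  refine ⟨(s * r)⁻¹ * (r * s), M.mul_mem (M.inv_mem (M.mul_mem j' j)) (M.mul_mem j j'), fun y => ?_⟩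
  obtain ⟨m, n⟩ := h.adj hψ j k l y
  obtain ⟨m', n'⟩ := h.adj hχ j' k' l' y
  have p := l _ m'
  have q := l' _ m
  simp only [comp_apply, applyₗ_apply_apply, n' _ (γ.B_symm_zero a3), n _ (γ.B_symm_zero a1), i.Bef, i.Bfe] at p q
  rw [LinearEquiv.mul_apply, LinearEquiv.coe_inv, LinearEquiv.symm_apply_eq, map_add, LinearEquiv.mul_apply,
    LinearEquiv.mul_apply, LinearEquiv.mul_apply, k, k']
  rw [map_sub] at p q
  rw [sub_eq_iff_eq_add'.1 p, sub_eq_iff_eq_add'.1 q]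
  ext z; simp; module

omit [γ.Nondeg] [FiniteDimensional F U] [Finite F] [β.Nondeg] [φ.Nondeg] h in
theorem ext_tp [γ.Nondeg] {Z : Type*} [AddCommGroup Z] [Module F Z] {X Y : (W →ₗ[F] U) →ₗ[F] Z}
    (H : ∀ u w, X (tp γ u w) = Y (tp γ u w)) : X = Y :=
  hom_ext fun f u => by obtain ⟨w, rfl⟩ := γ.exists_B_eq f; exact H u w

omit [Finite F] in
theorem jj_of (hyp : γ.IsHyp e f) (hr : r ∈ M) (H : ∀ x, x e = 0 → r x = x) : ∃ ζ : U →ₗ[F] U, ∀ x, r x = x + tp γ (ζ (x e)) e := by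
  have a : ∀ x, ∃ u, tp γ u e = r x - x := fun x => mem_tp.1 ((φ.perp_perp _).le (φ.mem_perp.2 fun y hy => by
    rw [map_sub, ← H y (h.mem_perp.1 hy), h.Bm hr, H y (h.mem_perp.1 hy), sub_self]))
  refine ⟨applyₗ f ∘ₗ ((r : _ →ₗ[F] _) - .id) ∘ₗ smulRightₗ (γ.B (γ.ε • f)), fun x => ?_⟩
  obtain ⟨u, b⟩ := a (tp γ (x e) (γ.ε • f))
  have c := H (x - tp γ (x e) (γ.ε • f)) (by simp [h.γs, hyp.Bfe])
  have d : (applyₗ f ∘ₗ ((r : _ →ₗ[F] _) - .id) ∘ₗ smulRightₗ (γ.B (γ.ε • f))) (x e) = u := by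
    have := LinearMap.congr_fun b f
    rw [tp_apply, hyp.Bef, one_smul] at this; exact this.symm
  rw [d, b, map_sub, sub_eq_iff_eq_add] at *; rw [c]; abel

variable (hs : ∀ θ : (W →ₗ[F] U) →ₗ[F] U, Th γ M e θ → ∃ w, γ.B e w = 0 ∧ ∀ x, x e = 0 → θ x = x w) (hyp : γ.IsHyp e f)
include hs hyp

omit [β.Nondeg] [φ.Nondeg] [FiniteDimensional F U] in
theorem scalar (H : LL γ M e ψ) : ∃ c : F, ∀ u, ψ u = c • u := by
  obtain ⟨e₂, f₂, i, a1, -, a3, -⟩ := h.exists_e2 hyp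
  obtain ⟨w, -, b⟩ := hs _ (H f₂ a3)
  exact ⟨_, fun u => by simpa [i.Bef] using b (tp γ u e₂) (by simp [γ.B_symm_zero a1])⟩

theorem st_of_rad (hr : r ∈ M) (r1 : ∀ u, r (tp γ u e) = tp γ u e) (r2 : ∀ x, x e = 0 → ∃ u, r x = x + tp γ u e) :
    St r := by
  obtain ⟨w, a, b⟩ := hs (applyₗ f ∘ₗ ((r : _ →ₗ[F] _) - .id)) ⟨r, hr, r1, fun x hx => by
    obtain ⟨u, c⟩ := r2 x hx; simp [c, hyp.Bef]⟩
  obtain ⟨s, c, -⟩ := γ.half (-γ.ε • w)
  have c' : γ.B e (-γ.ε • w) = 0 := by simp [a]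
  obtain ⟨g, hg, d⟩ := h.r (γ.siegel e (-γ.ε • w) s)
  obtain ⟨ζ, i⟩ := h.jj_of hyp (M.mul_mem (M.inv_mem hg) hr) fun x hx => by
    obtain ⟨u, j⟩ := r2 x hx
    obtain rfl : u = x w := by simpa [j, hyp.Bef] using b x hx
    rw [LinearEquiv.mul_apply, LinearEquiv.coe_inv, LinearEquiv.symm_apply_eq, j]
    ext y; rw [d, γ.siegel_apply hyp.Qe c' c]; simp [hx, smul_smul, mul_right_comm γ.ε]
  obtain ⟨k, j⟩ := h.scalar hs hyp (h.lj hyp (h.ll_one hyp.Qe) ⟨_, M.mul_mem (M.inv_mem hg) hr, i⟩)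
  rw [← mul_inv_cancel_left g r]
  refine St.mul ⟨.refl F U, _, d⟩ ⟨.refl F U, .ofLinear (.id + (k • γ.B e).smulRight e) (.id - (k • γ.B e).smulRight e)
    (by ext; simp [hyp.Bee]) (by ext; simp [hyp.Bee]), fun x y => ?_⟩
  simp only [comp_apply, id_apply] at j
  simp [i, j, smul_smul, mul_comm]

theorem st_of_stab (hg : g ∈ M) (H : ∀ u, g (tp γ u e) ∈ pu U (γ.B e)) : St g := by
  let α₀ : U →ₗ[F] U := applyₗ f ∘ₗ (g : _ →ₗ[F] _) ∘ₗ smulRightₗ (γ.B e)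
  have a0 : ∀ u, g (tp γ u e) = tp γ (α₀ u) e := fun u => by
    obtain ⟨v, a⟩ := mem_tp.1 (H u)
    rw [show α₀ u = v from (LinearMap.congr_fun a f).symm.trans (by simp [hyp.Bef]), a]
  let α : U ≃ₗ[F] U := .ofInjectiveEndo α₀ ((injective_iff_map_eq_zero _).2 fun u a => tp_inj (γ := γ) hyp.e_ne_zero
    (g.injective (by simp [a0, a])))
  have a1 : ∀ u, g (tp γ u e) = tp γ (α u) e := a0
  clear_value α; clear a0 α₀
  let π : W →ₗ[F] W := .id - (γ.ε • γ.B f).smulRight e - (γ.B e).smulRight f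
  have p0 : ∀ y, π y = y - (γ.ε * γ.B f y) • e - γ.B e y • f := fun _ => rfl
  have p1 : ∀ y, γ.B e (π y) = 0 ∧ γ.B f (π y) = 0 := fun y => γ.mem_perp_pair.1 (hyp.proj_mem y)
  have p2 : ∀ y, γ.B e y = 0 → γ.B f y = 0 → π y = y := fun y a b => by simp [p0, a, b]
  obtain ⟨u₀, u0⟩ := exists_not_mem_pt h.U2 (0 : U)
  replace u0 : u₀ ≠ 0 := by simpa using u0
  have uq : ∀ y, γ.B e y = 0 → γ.B f y = 0 → (∀ z, γ.B e z = 0 → γ.B f z = 0 → γ.B z y = 0) → y = 0 := fun y a b c =>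
    hyp.nondegOn.perp y (γ.mem_perp_pair.2 ⟨a, b⟩) fun z hz => γ.B_symm_zero (c z (γ.mem_perp_pair.1 hz).1 (γ.mem_perp_pair.1 hz).2)
  have b0 : ∀ y, ∃ z, γ.B e z = 0 ∧ γ.B f z = 0 ∧ ∀ x, x e = 0 → g x (π y) = α (x z) := fun y => by
    obtain ⟨z, a, b⟩ := hs _ (h.cj (h.ll_one hyp.Qe _ (p1 y).1) (M.inv_mem hg) α.symm fun u => by
      rw [LinearEquiv.coe_inv, LinearEquiv.symm_apply_eq, a1]; simp)
    refine ⟨π z, (p1 z).1, (p1 z).2, fun x hx => ?_⟩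
    have : α.symm (g x (π y)) = x z := b x hx
    simp [p0, ← this, hx, a]
  choose b b1 b2 b3 using b0
  have b4 : ∀ y z, γ.B e z = 0 → γ.B f z = 0 → (∀ x, x e = 0 → g x (π y) = α (x z)) → b y = z := fun y z i j k =>
    sub_eq_zero.1 (uq _ (by simp [b1, i]) (by simp [b2, j]) fun t l _ => by
      have := α.injective ((b3 y (tp γ u₀ t) (by simp [γ.B_symm_zero l])).symm.trans (k _ (by simp [γ.B_symm_zero l])))
      rw [map_sub, sub_eq_zero]; exact smul_left_injective F u0 this)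
  let b' : W →ₗ[F] W := ⟨⟨b, fun y z => b4 _ _ (by simp [b1]) (by simp [b2]) fun x hx => by simp [b3 _ x hx]⟩,
    fun c y => b4 _ _ (by simp [b1]) (by simp [b2]) fun x hx => by simp [b3 _ x hx]⟩
  have g0 : ∀ x, x e = 0 → g x e = 0 := fun x => h.fix_perp hg fun u => ⟨α.symm u, by simp [a1]⟩
  have be : b e = 0 := b4 e 0 (by simp) (by simp) (by simp [p0, hyp.Bee, hyp.Bfe])
  have bf : b f = 0 := b4 f 0 (by simp) (by simp) (by simp [p0, hyp.Bef, hyp.Bff])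
  have c0 : ∀ w, γ.B e w = 0 → ∃ v, γ.B e v = 0 ∧ γ.B f v = 0 ∧ (∀ y, γ.B v y = γ.B w (b y)) ∧
      ∀ u u' z, γ.B e z = 0 → γ.B z (b v) * β.B (α u) (α u') = γ.B z w * β.B u u' := fun w i => by
    obtain ⟨v, j⟩ := γ.exists_B_eq (γ.B w ∘ₗ b')
    replace j : ∀ y, γ.B v y = γ.B w (b y) := LinearMap.congr_fun j
    have k : γ.B e v = 0 := γ.B_symm_zero (by rw [j, be, map_zero])
    have l : γ.B f v = 0 := γ.B_symm_zero (by rw [j, bf, map_zero])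
    refine ⟨v, k, l, j, fun u u' z m => ?_⟩
    have n : (tp γ u w) e = 0 := by simp [γ.B_symm_zero i]
    have n' : (tp γ u' z) e = 0 := by simp [γ.B_symm_zero m]
    have o : g (tp γ u w) = tp γ (α u) v + tp γ (g (tp γ u w) f) e := by
      ext y
      have := b3 y _ n
      simp only [p0, map_sub, map_smul, g0 _ n, smul_zero, sub_zero, tp_apply] at this
      simp [j, ← this]
    have := h.Bm hg (tp γ u w) (tp γ u' z)
    rw [o, map_add, LinearMap.add_apply, h.B, h.B, h.B, g0 _ n', ← p2 v k l, b3 _ _ n'] at this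
    simpa using this
  obtain ⟨e₂, f₂, i, d1, d2, d3, d4, -⟩ := h.exists_e2 hyp
  obtain ⟨v₀, -, -, -, c1⟩ := c0 f₂ d3
  replace c1 := fun u u' => c1 u u' e₂ d1
  simp only [i.Bef, one_mul] at c1
  generalize γ.B e₂ (b v₀) = ν at c1
  obtain ⟨u₁, u1⟩ := β.exists_B_eq_one u0
  have c2 : β.B (α u₀) (α u₁) ≠ 0 := fun a => by simpa [a, u1] using c1 u₀ u₁
  have ν0 : ν ≠ 0 := fun a => by simpa [a, u1] using c1 u₀ u₁
  replace c0 : ∀ w, γ.B e w = 0 → γ.B f w = 0 → ∃ v, γ.B e v = 0 ∧ γ.B f v = 0 ∧ (∀ y, γ.B v y = γ.B w (b y)) ∧ b v = ν • w :=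
    fun w a a' => (c0 w a).imp fun v ⟨j, k, l, m⟩ => ⟨j, k, l, sub_eq_zero.1 (uq _ (by simp [b1, a]) (by simp [b2, a'])
      fun t a _ => mul_right_cancel₀ c2 (by
        simp only [map_sub, map_smul, smul_eq_mul, sub_mul, m u₀ u₁ t a, ← c1 u₀ u₁]; ring))⟩
  let b₁ : W →ₗ[F] W := b' + ((ν * γ.ε) • γ.B f).smulRight e + (γ.B e).smulRight f
  have q0 : ∀ y, b₁ y = b y + (ν * γ.ε * γ.B f y) • e + γ.B e y • f := fun _ => rfl
  have q1 : Function.Injective b₁ := injective_iff_surjective.2 fun t => by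
    obtain ⟨v, j, k, -, l⟩ := c0 (ν⁻¹ • π t) (by simp [p1]) (by simp [p1])
    refine ⟨v + (ν⁻¹ * γ.ε * γ.B f t) • e + γ.B e t • f, ?_⟩
    rw [map_add, map_add, map_smul, map_smul]
    simp only [q0, j, k, l, be, bf, hyp.Bee, hyp.Bef, hyp.Bfe, hyp.Bff, p0, mul_assoc, ε_mul_ε]
    match_scalars <;> field_simp <;> ring
  have q2 : ∀ y z, γ.B (b₁ y) (b₁ z) = ν * γ.B y z := fun y z => by
    obtain ⟨v, j, k, l, m⟩ := c0 (ν⁻¹ • b y) (by simp [b1]) (by simp [b2])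
    have n : b (π y) = b y := b4 _ _ (b1 y) (b2 y) (by rw [p2 _ (p1 y).1 (p1 y).2]; exact b3 y)
    obtain rfl : v = π y := q1 (by simp [q0, j, k, m, p1, n, ν0])
    have := l z
    simp only [q0, p0, map_add, map_sub, map_smul, h.γs, LinearMap.add_apply, LinearMap.sub_apply, smul_eq_mul, b1, b2, hyp.Bee,
      hyp.Bef, hyp.Bfe, hyp.Bff, γ.B_symm_zero (b1 y), γ.B_symm_zero (b2 y)] at this ⊢
    field_simp at this
    linear_combination -this + ν * γ.B e y * γ.B f z * γ.ε_mul_ε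
  let b₂ : W ≃ₗ[F] W := .ofInjectiveEndo b₁ q1
  let k : (W →ₗ[F] U) ≃ₗ[F] W →ₗ[F] U := b₂.symm.arrowCongr α
  have k0 : ∀ x y, k x y = α (x (b₁ y)) := fun _ _ => rfl
  have k1 : ∀ u w, k (tp γ u w) = tp γ (α u) (ν • b₂.symm w) := fun u w => by
    ext y; rw [k0, tp_apply, tp_apply, map_smul, h.γs, ← q2]; congr 3; exact (b₂.apply_symm_apply w).symm
  have k2 : St k := ⟨α, b₂, k0⟩
  have k3 := h.iso k k2 fun x y => (h.φc _ _).trans (Eq.trans (congrArg _ (LinearMap.congr_fun (ext_tp (γ := γ)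
    (Z := F) (X := φ.B (k y) ∘ₗ k.toLinearMap) (Y := φ.B y) fun u w => by
      rw [comp_apply, LinearEquiv.coe_coe, h.φc, h.φc (tp ..), k1, h.B, h.B, k0, map_smul,
        show b₁ (b₂.symm w) = w from b₂.apply_symm_apply w, ← c1 u]; simp) x)) (h.φc _ _).symm)
  obtain ⟨g1, g2⟩ := h.le g hg
  have k4 : ∀ u, k (tp γ u e) = g (tp γ u e) := fun u => by
    rw [a1]; ext y; simp [k0, q0, b1, hyp.Bee, hyp.Bef]
  have k5 : ∀ x, x e = 0 → ∃ u, k.symm (g x) = x + tp γ u e := fun x hx => ⟨α.symm (g x f) - x f, by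
    rw [k.symm_apply_eq, map_add, k4, a1]; ext y
    have := b3 y x hx
    simp only [p0, map_sub, map_smul, g0 _ hx, smul_zero, sub_zero] at this
    simp [k0, q0, hx, ← this, smul_sub]⟩
  have k6 : ∀ u, k.symm (g (tp γ u e)) = tp γ u e := fun u => by rw [← k4, k.symm_apply_apply]
  have k7 : (⟨k, k3⟩⁻¹ * ⟨g, g1⟩ : φ.Isom) ∈ φ.E := rad_mem (h.ts hyp.Qe) (h.ts hyp.Qe).le_perp le_rfl
    (fun p a w b s => φ.siegel_mem_E ((h.ts hyp.Qe).Q p a) (b p a)) (by rintro _ ⟨u, rfl⟩; exact k6 u)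
    (fun x => φ.mem_perp.2 (by
      rintro _ ⟨u, rfl⟩
      change φ.B (tp γ u e) (k.symm (g x) - x) = 0
      rw [map_sub, ← k6, ← k3.B, k.apply_symm_apply, k.apply_symm_apply, g1.B, k6, sub_self]))
    fun x hx => by
      obtain ⟨u, a⟩ := k5 x (h.mem_perp.1 hx)
      exact mem_tp.2 ⟨u, by rw [eq_sub_iff_add_eq', ← a]; rfl⟩
  have k8 : k ∈ M := h.mem ⟨k, k3⟩ (by simpa using φ.E.mul_mem g2 (φ.E.inv_mem k7)) k2
  rw [← mul_inv_cancel_left k g]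
  exact k2.mul (h.st_of_rad hs hyp (M.mul_mem (M.inv_mem k8) hg) k6 k5)

end TK
end H10.Mx
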