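import Mathlib
import Cfsg.Agent.H10.MxU

/-!
# Overgroups of tensor product subgroups of classical groups, II
* `TK.all_st` : if `N_M(U ⊗ e)` preserves the tensor structure then so does `M` (for `dim W` large)
-/

namespace H10.Mx

open Module LinearMap Form

variable {F U W : Type*} [Field F] [AddCommGroup U] [Module F U] [AddCommGroup W] [Module F W]
  {β : Form F U} {γ : Form F W} {φ : Form F (W →ₗ[F] U)} {M : Subgroup ((W →ₗ[F] U) ≃ₗ[F] W →ₗ[F] U)}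
  {g x : (W →ₗ[F] U) ≃ₗ[F] W →ₗ[F] U} {e e' f w : W} {s : F} {A B : Submodule F (W →ₗ[F] U)}

variable (U γ) in
def StS : Set (Submodule F (W →ₗ[F] U)) := {P | ∃ e, e ≠ 0 ∧ γ.Q e = 0 ∧ P = pu U (γ.B e)}

theorem St.le [γ.Nondeg] (hg : St g) (e0 : e ≠ 0) (H : pu U (γ.B e) ⊓ (pu U (γ.B e')).map (g : _ →ₗ[F] _) ≠ ⊥) :
    (pu U (γ.B e')).map (g : _ →ₗ[F] _) ≤ pu U (γ.B e) := by
  obtain ⟨a, b, d⟩ := hg
  obtain ⟨_, ⟨⟨u, rfl⟩, _, ⟨v, rfl⟩, i⟩, j⟩ := (Submodule.ne_bot_iff _).1 H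
  rintro _ ⟨_, ⟨v', rfl⟩, rfl⟩
  refine mem_pu_of (fun k => e0 (γ.eq_zero_of_B_left fun y => by simp [k])) fun y k => ?_
  have l := (d (tp γ v e') y).symm.trans (LinearMap.congr_fun i y)
  have m : v ≠ 0 := by rintro rfl; exact j (by simp [← i])
  simp [smulRightₗ, k, m] at l
  exact (d (tp γ v' e') y).trans (by simp [l])

namespace TK
variable (h : TK φ β γ M) [β.Nondeg] [γ.Nondeg] [φ.Nondeg] [FiniteDimensional F U] [FiniteDimensional F W] [Finite F]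
include h

omit [β.Nondeg] [φ.Nondeg] [FiniteDimensional F U] [Finite F] in
theorem ns (a : ¬ H09.IsAltF γ) {S : Submodule F W} (hS : finrank F W < 2 * finrank F S) : ∃ w ∈ S, γ.B w w ≠ 0 := by
  by_contra! H
  exact hS.not_ge ((h.kind.resolve_left a).1.ts fun w hw => h.sq (H w hw)).finrank_le

omit [β.Nondeg] [φ.Nondeg] [FiniteDimensional F U] [FiniteDimensional F W] [Finite F] in
theorem ex1 (e0 : e ≠ 0) : ∃ y, γ.B y e = 1 :=
  (γ.exists_B_eq_one e0).elim fun y a => ⟨γ.ε • y, by simp [h.γs, h.γc e, a]⟩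

omit [β.Nondeg] [γ.Nondeg] [φ.Nondeg] [FiniteDimensional F U] [FiniteDimensional F W] [Finite F] in
theorem orth (hB : B ∈ Fam M (StS U γ)) {y z} (hy : y ∈ B) (hz : z ∈ B) : φ.B y z = 0 := by
  obtain ⟨g, hg, _, ⟨e, -, he, rfl⟩, rfl⟩ := hB
  obtain ⟨y, hy, rfl⟩ := hy; obtain ⟨z, hz, rfl⟩ := hz
  exact (h.Bm hg y z).trans ((h.ts he).B y hy z hz)

omit [β.Nondeg] [γ.Nondeg] [φ.Nondeg] [FiniteDimensional F U] [FiniteDimensional F W] [Finite F] in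
/-- `γ.B` as a bilinear map -/
def Bl : W →ₗ[F] W →ₗ[F] F := ⟨⟨γ.B, map_add _⟩, fun c x => LinearMap.ext (h.γs c x)⟩

variable (hN : ∀ g ∈ M, ∀ e, e ≠ 0 → γ.Q e = 0 → (∀ u, g (tp γ u e) ∈ pu U (γ.B e)) → St g)
include hN

omit [β.Nondeg] [φ.Nondeg] [FiniteDimensional F U] [Finite F] in
theorem st_of_std (hg : g ∈ M) (e0 : e ≠ 0) (he : γ.Q e = 0) (e0' : e' ≠ 0) (he' : γ.Q e' = 0)
    (H : ∀ u, g (tp γ u e') ∈ pu U (γ.B e)) : St g := by
  obtain ⟨b, hb⟩ := γ.witt_vec e0 e0' (he.trans he'.symm)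
  obtain ⟨k, hk, d, -, d'⟩ := h.r' b
  rw [← inv_mul_cancel_left k g]
  exact (St.inv ⟨.refl F U, b.1.symm, d⟩).mul (hN _ (M.mul_mem hk hg) e' e0' he' fun u => by
    obtain ⟨v, a⟩ := mem_tp.1 (H u); rw [LinearEquiv.mul_apply, ← a, d', hb]; exact tp_mem _ _)

variable (far : finrank F U < finrank F W ∧ (H09.IsAltF γ ∨ 2 * finrank F U < finrank F W))
include far

omit [φ.Nondeg] [Finite F] in
theorem rk (e0 : e ≠ 0) (he : γ.Q e = 0) (hw : γ.B e w = 0) (H : H09.IsAltF γ ∧ w = 0 ∧ s ≠ 0 ∨ γ.B w w ≠ 0) (hx : x ∈ M)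
    (hf : ∀ y, x y = y + tp γ (y e) w - γ.ε • tp γ (y w) e - (γ.ε * s) • tp γ (y e) e) (hg : g ∈ M) (e0' : e' ≠ 0)
    (he' : γ.Q e' = 0) (H' : ∀ y ∈ (pu U (γ.B e')).map (g : _ →ₗ[F] _), x y ∈ (pu U (γ.B e')).map (g : _ →ₗ[F] _)) : St g := by
  obtain ⟨Z, z1, z2⟩ : ∃ Z : Submodule F (W →ₗ[F] U), (∀ y, x y - y ∈ Z) ∧ finrank F Z < finrank F W := by
    have a := fun w => finrank_range_le (smulRightₗ (γ.B w) : U →ₗ[F] W →ₗ[F] U)
    have b : ∀ y, x y - y = tp γ (y e) w + tp γ (-γ.ε • y w - (γ.ε * s) • y e) e := fun y => by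
      ext; simp [hf]; module
    rcases H with ⟨-, rfl, -⟩ | H
    · exact ⟨_, fun y => mem_tp.2 ⟨-(γ.ε * s) • y e, by ext; simp [b, smul_comm (γ.ε * s)]⟩, (a e).trans_lt far.1⟩
    refine ⟨pu U (γ.B w) ⊔ pu U (γ.B e), fun y => b y ▸ Submodule.add_mem_sup (tp_mem ..) (tp_mem ..),
      (Submodule.finrank_add_le_finrank_add_finrank _ _).trans_lt ((add_le_add (a w) (a e)).trans_lt ?_)⟩
    rw [← two_mul]; exact far.2.resolve_left fun a => H (B_self_of_isAltF a w)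
  obtain ⟨a, b, d⟩ := hN (g⁻¹ * x * g) (M.mul_mem (M.mul_mem (M.inv_mem hg) hx) hg) e' e0' he' fun u =>
    mem_map_iff.1 (H' _ (Submodule.mem_map_of_mem (tp_mem u e')))
  replace d : ∀ y z, g.symm (x (g y)) z = a (y (b z)) := d
  obtain ⟨l, hl⟩ := scalar_of_pres (K := F) (exists_not_mem_pt h.U2) (θ := (a : U →ₗ[F] U)) fun u => by_contra fun hu =>
    z2.not_ge (Subspace.dual_finrank_eq.ge.trans (finrank_le_finrank_of_injective (f := codRestrict Z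
      ((x.toLinearMap - .id) ∘ₗ g.toLinearMap ∘ₗ LinearMap.flip smulRightₗ u) fun _ => z1 _)
      ((injective_iff_map_eq_zero _).2 fun μ i => LinearMap.ext fun z => by_contra fun j => hu (by
    have k := d (μ.smulRight u) (b.symm z)
    rw [show x (g (μ.smulRight u)) = g (μ.smulRight u) from sub_eq_zero.1 (congrArg Subtype.val i)] at k
    refine Submodule.mem_span_singleton.2 ⟨(μ z)⁻¹ * μ (b.symm z), ?_⟩
    simp at k j; simp [mul_smul, k, j]))))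
  have d1 : ∀ y : W →ₗ[F] U, g (y ∘ₗ (l • (b : W →ₗ[F] W) - .id)) = x (g y) - g y := fun y => by
    rw [eq_sub_iff_add_eq, ← map_add, eq_comm, ← g.symm_apply_eq]; ext z; simpa [d] using hl _
  obtain ⟨D, c, c0, d2⟩ : ∃ (D : W →ₗ[F] W) (c : F), c ≠ 0 ∧ ∀ y : W →ₗ[F] U, g (y ∘ₗ D) = c • tp γ (g y e) e := by
    rcases H with ⟨-, rfl, i⟩ | H
    · exact ⟨_, -(γ.ε * s), by simp [i, γ.ε_ne_zero], fun y => by rw [d1]; ext; simp [hf]⟩
    refine ⟨(l • (b : W →ₗ[F] W) - .id) ∘ₗ (l • (b : W →ₗ[F] W) - .id), -(γ.ε * γ.B w w), by simp [H, γ.ε_ne_zero], fun y => ?_⟩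
    rw [← comp_assoc, d1, d1]; ext; simp [hf, hw, γ.B_symm_zero hw, γ.B_self_eq_zero he]; module
  obtain ⟨u, u0, -⟩ := exists_ker h.U2 (0 : Dual F U)
  obtain ⟨z, hz⟩ : ∃ z, D z ≠ 0 := by
    by_contra! i
    obtain ⟨y, j⟩ := γ.exists_B_eq_one e0
    obtain ⟨y', j'⟩ := h.ex1 e0
    simpa [show D = 0 from LinearMap.ext i, j, j', c0, u0] using (LinearMap.congr_fun (d2 (g.symm (tp γ u y'))) y).symm
  obtain ⟨y, j⟩ := h.ex1 hz
  obtain ⟨e₁, k⟩ := γ.exists_B_eq (γ.B y ∘ₗ D)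
  have m : ∀ u, g (tp γ u e₁) ∈ pu U (γ.B e) := fun u => by
    rw [show tp γ u e₁ = tp γ u y ∘ₗ D by ext; simp [k], d2]; exact Submodule.smul_mem _ _ (tp_mem ..)
  obtain ⟨v, n⟩ := β.exists_B_eq_one u0
  exact h.st_of_std hN hg e0 he (by rintro rfl; simpa [j] using LinearMap.congr_fun k z) (h.sq (by
    simpa [h.Bm hg, h.B, n] using (h.ts he).B _ (m u) _ (m v))) m

omit [Finite F] in
theorem c1 (hm : MP M (StS U γ) A B) {t} (h1 : t ∈ B) (h2 : ∀ a ∈ A, φ.B a t = 0) : t ∈ A := by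
  by_contra h3
  obtain ⟨k, hk, _, ⟨e, e0, he, rfl⟩, rfl, hm'⟩ := hm.std
  replace h1 : k.symm t ∈ B.map k.symm.toLinearMap := Submodule.mem_map_of_mem h1
  rw [mem_map_iff] at h3
  replace h2 : k.symm t e = 0 := h.mem_perp.1 fun a ha => by
    rw [← h.Bm hk, k.apply_symm_apply]; exact h2 _ (Submodule.mem_map_of_mem ha)
  generalize k.symm t = t at *
  generalize B.map k.symm.toLinearMap = B at *
  obtain ⟨g, hg, _, ⟨e', e0', he', rfl⟩, rfl⟩ := hm'.r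
  obtain ⟨w, s, a, b, c, d⟩ : ∃ w s, γ.B e w = 0 ∧ γ.T s = γ.Q w ∧ (H09.IsAltF γ ∧ w = 0 ∧ s ≠ 0 ∨ γ.B w w ≠ 0) ∧
      tp γ (t w) e ∈ (pu U (γ.B e')).map (g : _ →ₗ[F] _) := by
    by_cases a : H09.IsAltF γ
    · exact ⟨0, 1, by simp, by simp [a.T_eq], .inl ⟨a, rfl, one_ne_zero⟩, by simp⟩
    let S := ((pu U (γ.B e')).map (g : _ →ₗ[F] _)).comap (smulRightₗ (γ.B e) : U →ₗ[F] _)
    have i := S.finrank_quotient_add_finrank
    have j : finrank F S ≠ 0 := fun j => hm'.nb (eq_bot_iff.2 (by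
      rintro _ ⟨⟨u, rfl⟩, hu⟩; simp [show u = 0 from (Submodule.finrank_eq_zero.1 j).le hu]))
    have l := ((γ.B e).prod (S.mkQ ∘ₗ t)).finrank_range_add_finrank_ker
    have m := Submodule.finrank_le (range ((γ.B e).prod (S.mkQ ∘ₗ t)))
    have := far.2.resolve_left a
    rw [finrank_prod, finrank_self] at m
    obtain ⟨w, n, o⟩ := h.ns a (S := ker ((γ.B e).prod (S.mkQ ∘ₗ t))) (by omega)
    obtain ⟨s, p, -⟩ := γ.half w
    exact ⟨w, s, congrArg Prod.fst n, p, .inr o, (Submodule.Quotient.mk_eq_zero S).1 (congrArg Prod.snd n)⟩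
  obtain ⟨x, hx, i⟩ := h.sg he a b
  exact h3 ((h.rk hN far e0 he a c hx i hg e0' he' (hm'.stab hx (by
    rintro _ ⟨u, rfl⟩ j; rwa [show x _ = tp γ u e by simp [i, smulRightₗ, a, γ.B_self_eq_zero he]; rfl]) h1 h3 (by
      simpa [i, h2] using sub_mem h1 (Submodule.smul_mem _ _ d)))).le e0 hm'.nb h1)

theorem c2 (hm : MP M (StS U γ) A B) : False := by
  obtain ⟨e, e0, he, B, hm'⟩ : ∃ e, e ≠ 0 ∧ γ.Q e = 0 ∧ ∃ B, MP M (StS U γ) (pu U (γ.B e)) B := by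
    obtain ⟨_, -, _, ⟨e, e0, he, rfl⟩, -, hm'⟩ := hm.std; exact ⟨e, e0, he, _, hm'⟩
  have fr : ∀ P ∈ StS U γ, finrank F P = finrank F U := by
    rintro _ ⟨v, a, -, rfl⟩; exact finrank_pu fun k => a (γ.eq_zero_of_B_left fun y => by simp [k])
  obtain ⟨t, h1, h2⟩ := hm'.exists_not fr
  have h3 : t e ≠ 0 := fun a => h2 (h.c1 hN far hm' h1 (h.mem_perp.2 a))
  obtain ⟨f, hyp⟩ := γ.exists_hyp he e0
  obtain ⟨p, ⟨p1, p2⟩, p0⟩ := (Submodule.ne_bot_iff _).1 hm'.nb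
  obtain ⟨p', p3⟩ := φ.exists_B_eq_one p0
  let Z := φ.perp (B ⊓ φ.perp (F ∙ p'))
  have z1 : finrank F ((W →ₗ[F] U) ⧸ Z) < finrank F U := by
    have := Z.finrank_quotient_add_finrank
    have : _ + finrank F Z = _ := φ.finrank_perp (B ⊓ φ.perp (F ∙ p'))
    have := Submodule.finrank_lt_finrank_of_lt (lt_of_le_of_ne (inf_le_left : B ⊓ φ.perp (F ∙ p') ≤ B) fun a => by
      simpa [p3] using φ.mem_perp'.1 (a.ge p2).2 p' (Submodule.mem_span_singleton_self _))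
    obtain ⟨g, -, P, hP, rfl⟩ := hm'.r
    rw [LinearEquiv.finrank_map_eq, fr P hP] at this; omega
  have z2 := hyp.finrank_perp
  let L := Z.mkQ ∘ₗ (LinearMap.flip smulRightₗ (t e) ∘ₗ h.Bl - γ.ε • smulRightₗ (γ.B e) ∘ₗ t) ∘ₗ
    (γ.perp (Submodule.span F {e, f})).subtype
  obtain ⟨w, s, a, b, d⟩ : ∃ (w : γ.perp (Submodule.span F {e, f})) (s : F), γ.T s = γ.Q w ∧
      (w ≠ 0 ∨ H09.IsAltF γ ∧ s ≠ 0) ∧ L w + s • Z.mkQ (-γ.ε • tp γ (t e) e) = 0 := by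
    by_cases a : H09.IsAltF γ
    · obtain ⟨⟨w, s⟩, b, c⟩ := (Submodule.ne_bot_iff _).1 (ker_ne_bot_of_finrank_lt (f := L.coprod
        (toSpanSingleton F _ (Z.mkQ (-γ.ε • tp γ (t e) e)))) (by have := far.1; rw [finrank_prod, finrank_self]; omega))
      exact ⟨w, s, by simp [a.T_eq, a.Q_eq], by by_contra! d; exact c (by simp [d.1, d.2 a]), b⟩
    obtain ⟨q, two, -⟩ := h.kind.resolve_left a
    obtain ⟨w, b, c⟩ := cw ((h.Bl.compl₁₂ (Submodule.subtype _) (Submodule.subtype _)).compr₂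
      (toSpanSingleton F _ ((2 : F)⁻¹ • Z.mkQ (-γ.ε • tp γ (t e) e)))) L (by have := far.2.resolve_left a; omega)
    refine ⟨w, γ.Q w, q.T_eq _, .inl b, ?_⟩
    rw [← c, add_comm]; congr 1
    change _ = γ.B w w • (2 : F)⁻¹ • Z.mkQ _; rw [q.B_self, smul_smul, mul_right_comm, mul_inv_cancel₀ two, one_mul]
  obtain ⟨w1, w2⟩ := γ.mem_perp_pair.1 w.2
  obtain ⟨x, hx, i⟩ := h.sg he w1 a
  have j : ∀ y ∈ pu U (γ.B e), x y = y := by
    rintro _ ⟨u, rfl⟩; simp [i, smulRightₗ, w1, γ.B_self_eq_zero he]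
  have k : ∀ y ∈ pu U (γ.B e), φ.B y (x t - t) = 0 := fun y hy => by rw [map_sub, ← j y hy, h.Bm hx, j y hy, sub_self]
  have l : x t - t ∈ Z := (Submodule.Quotient.mk_eq_zero Z).1 (Eq.trans (by
    simp only [L, comp_apply, ← map_smul, ← map_add]; congr 1; ext; simp [i, smulRightₗ, Bl]; module) d)
  have m : ∀ y ∈ B, φ.B y (x t) = 0 := fun y hy => by
    have := l (y - φ.B y p' • p) ⟨sub_mem hy (B.smul_mem _ p2), φ.mem_perp'.2 fun z hz => by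
      obtain ⟨c, rfl⟩ := Submodule.mem_span_singleton.1 hz; simp [φ.B_smul_left, h.σ, p3]⟩
    rw [map_sub φ.B, LinearMap.sub_apply, φ.B_smul_left, k p p1, map_sub, h.orth hm'.r hy h1] at this
    simpa using this
  have n : x t ∈ B := by
    by_cases n : B = B.map (x : _ →ₗ[F] _)
    · exact n.ge (Submodule.mem_map_of_mem h1)
    have o : pu U (γ.B e) ⊓ B ≤ B ⊓ B.map (x : _ →ₗ[F] _) := fun y hy => ⟨hy.2, y, hy.2, j y hy.1⟩
    exact h.c1 hN far ⟨hm'.r, fam_map hm'.r hx, n, fun a => hm'.nb (eq_bot_iff.2 (a ▸ o)), fun X a Y b c =>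
      (hm'.mx X a Y b c).trans (Submodule.finrank_mono o)⟩ (Submodule.mem_map_of_mem h1) m
  obtain ⟨v, o⟩ := mem_tp.1 (h.c1 hN far hm' (sub_mem n h1) k)
  have q : w.1 = 0 := γ.eq_zero_of_B_left fun y => by
    have := LinearMap.congr_fun o (y - γ.B e y • f)
    simpa [i, hyp.Bef, γ.B_symm_zero w2, h3] using this.symm
  obtain ⟨g, hg, _, ⟨e', e0', he', rfl⟩, rfl⟩ := hm'.r
  exact h2 ((h.rk hN far e0 he w1 (.inl ((b.resolve_left fun b => b (Subtype.ext q)).imp_right fun b => ⟨q, b⟩)) hx i hg e0' he'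
    (hm'.stab hx (fun y a b => by rwa [j y a]) h1 h2 n)).le e0 hm'.nb h1)

theorem all_st (hg : g ∈ M) : St g := by
  have := h.W4
  obtain ⟨e', -, e0', he'⟩ := h.std.sing ⊤ (by simp; omega)
  obtain ⟨u, u0, -⟩ := exists_ker h.U2 (0 : Dual F U)
  have a := (g (tp γ u e')).finrank_range_add_finrank_ker
  have b := Submodule.finrank_le (range (g (tp γ u e')))
  obtain ⟨e, w, s, e0, he, c, d, i, j, k⟩ : ∃ e w s, e ≠ 0 ∧ γ.Q e = 0 ∧ γ.B e w = 0 ∧ γ.T s = γ.Q w ∧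
      (H09.IsAltF γ ∧ w = 0 ∧ s ≠ 0 ∨ γ.B w w ≠ 0) ∧ e ∈ ker (g (tp γ u e')) ∧ w ∈ ker (g (tp γ u e')) := by
    generalize ker (g (tp γ u e')) = K at *
    by_cases c : H09.IsAltF γ
    · obtain ⟨e, i, j⟩ := K.ne_bot_iff.1 (by rintro rfl; have := far.1; simp at a; omega)
      exact ⟨e, 0, 1, j, c.Q_eq e, by simp, by simp [c.T_eq], .inl ⟨c, rfl, one_ne_zero⟩, i, by simp⟩
    have := far.2.resolve_left c
    have := (h.kind.resolve_left c).2.2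
    obtain ⟨w₀, i, j⟩ := h.ns c (S := K) (by omega)
    obtain ⟨e, k, l, m⟩ := h.std.sing K (by omega)
    suffices ∃ e w, e ≠ 0 ∧ γ.Q e = 0 ∧ γ.B e w = 0 ∧ γ.B w w ≠ 0 ∧ e ∈ K ∧ w ∈ K from
      let ⟨e, w, a, b, c, d, i⟩ := this; (γ.half w).elim fun s j => ⟨e, w, s, a, b, c, j.1, .inr d, i⟩
    by_contra! n
    obtain ⟨y, o, p⟩ := (Submodule.ne_bot_iff _).1 (ker_ne_bot_of_finrank_lt (f := ((γ.B e).prod (γ.B w₀)).domRestrict K)
      (by simp; omega))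
    exact n y w₀ (fun a => p (Subtype.ext a)) (h.sq (by_contra fun a => n e y l m (congrArg Prod.fst o) a k y.2))
      (γ.B_symm_zero (congrArg Prod.snd o)) j y.2 i
  obtain ⟨x, hx, l⟩ := h.sg he c d
  refine h.rk hN far e0 he c i hx l hg e0' he' fun y hy => by_contra fun m => ?_
  have n := fam_map (mem_fam (M := M) (St := StS U γ) ⟨e', e0', he', rfl⟩) hg
  obtain ⟨A, B, hm⟩ := exists_mp n (fam_map n hx) (fun a => m (a.ge (Submodule.mem_map_of_mem hy)))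
    ((Submodule.ne_bot_iff _).2 ⟨_, ⟨Submodule.mem_map_of_mem (tp_mem u e'), _, Submodule.mem_map_of_mem (tp_mem u e'), by
      simp [l, mem_ker.1 j, mem_ker.1 k]⟩, fun a => u0 (tp_inj (γ := γ) e0' (g.injective (by simpa using a)))⟩)
  exact h.c2 hN far hm

end TK
end H10.Mx
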