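import Mathlib
import Cfsg.Agent.H10.MxV

/-!
# Overgroups of tensor product subgroups of classical groups, III
* `top_of_sing`, `alt_sing`, `o3_sing` : invariant subspaces of `End U`
* `TK.dichotomy` : `M` preserves the tensor structure or contains `E`
-/

namespace H10.Mx

open Module LinearMap Form

variable {F U W : Type*} [Field F] [AddCommGroup U] [Module F U] [AddCommGroup W] [Module F W]
  {β : Form F U} {γ : Form F W} {φ : Form F (W →ₗ[F] U)} {M : Subgroup ((W →ₗ[F] U) ≃ₗ[F] W →ₗ[F] U)}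
  {e f w : W} {ψ χ : U →ₗ[F] U} {L : Submodule F (U →ₗ[F] U)}

section
variable [β.Nondeg] [FiniteDimensional F U]

omit [FiniteDimensional F U] in
theorem top_of_hyp {S : Submodule F U} {z : U} (z0 : z ≠ 0) (hz : β.Q z = 0) (h1 : z ∈ S)
    (h2 : ∀ y, β.Q y = 0 → β.B z y = 1 → y ∈ S) : ∀ y, y ∈ S := by
  have H : ∀ y, β.B z y = 1 → y ∈ S := fun y a => by
    obtain ⟨c, b⟩ := β.isHyp_of_B hz a
    exact (S.add_mem_iff_left (S.smul_mem c h1)).1 (h2 _ b.Qf b.Bef)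
  obtain ⟨v, a⟩ := β.exists_B_eq_one z0
  exact fun y => (S.add_mem_iff_left (S.smul_mem (1 - β.B z y) (H v a))).1 (H _ (by simp [a]))

theorem top_of_sing (hσ : ∀ a, β.σ a = a) (cj : ∀ ψ ∈ L, ∀ a : β.Isom, a.1.toLinearMap ∘ₗ ψ ∘ₗ a.1.symm.toLinearMap ∈ L)
    (ml : ∀ z, tp β z z ∈ L → ∀ ψ ∈ L, ψ ∘ₗ tp β z z ∈ L) {z : U} (z0 : z ≠ 0) (hz : β.Q z = 0) (H : tp β z z ∈ L) (ψ) :
    ψ ∈ L := by
  have a : ∀ y, β.Q y = 0 → tp β y y ∈ L := fun y hy => by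
    by_cases y0 : y = 0
    · simp [y0]
    obtain ⟨a, rfl⟩ := β.witt_vec z0 y0 (hz.trans hy.symm)
    convert cj _ H a using 1; ext; simp [Isom.B_symm_right]
  have b : ∀ y, β.Q y = 0 → ∀ u, tp β u y ∈ L := fun y hy => by
    by_cases y0 : y = 0
    · exact fun u => by rw [y0, show tp β u 0 = 0 by ext; simp]; exact zero_mem _
    exact top_of_hyp (S := L.comap (smulRightₗ (β.B y))) y0 hy (a y hy) fun u i j => by
      rw [Submodule.mem_comap]; convert L.smul_mem β.ε (ml y (a y hy) _ (a u i)) using 1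
      ext; simp [smulRightₗ, β.symm y u, j, hσ, smul_smul, mul_left_comm β.ε]
  rw [hom_sum ψ]
  refine L.sum_mem fun i _ => ?_
  obtain ⟨y, c⟩ := β.exists_B_eq ((finBasis F U).coord i)
  rw [← c]
  exact top_of_hyp (S := L.comap (LinearMap.flip smulRightₗ (ψ (finBasis F U i)) ∘ₗ
    ⟨⟨β.B, map_add _⟩, fun c x => LinearMap.ext fun y => by simp [hσ]⟩)) z0 hz (b z hz _) (fun y i _ => b y i _) y

theorem exists_sep {u z : U} (h : u ∉ F ∙ z) : ∃ y, β.B z y = 0 ∧ β.B u y = 1 :=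
  (β.exists_sep' h).imp fun _ a => ⟨a.1 z (Submodule.mem_span_singleton_self z), a.2⟩

theorem alt_sing (hA : H09.IsAltF β) (cj : ∀ ψ ∈ L, ∀ a : β.Isom, a.1.toLinearMap ∘ₗ ψ ∘ₗ a.1.symm.toLinearMap ∈ L)
    (ml : ∀ ψ ∈ L, ∀ χ ∈ L, ψ ∘ₗ χ ∈ L) (hψ : ψ ∈ L) {u : U} (hu : ψ u ∉ F ∙ u)
    (hex : 3 ≤ finrank F U ∨ finrank F U = 2 ∧ ∃ c : F, c ≠ 0 ∧ c ≠ 1) : ∃ z, z ≠ 0 ∧ tp β z z ∈ L := by
  have s := B_self_of_isAltF hA
  have s' : ∀ x y, β.B y x = -β.B x y := fun x y => by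
    have := s (x + y); simp only [map_add, LinearMap.add_apply, s] at this; linear_combination this
  have H : ∀ ψ ∈ L, ∀ u (k : F), k • ((β.B u ∘ₗ ψ).smulRight u - tp β (ψ u) u) - (k * k * β.B u (ψ u)) • tp β u u ∈ L :=
    fun ψ a u k => by
    have q := β.quasi_apply (p := u) (k := k) (by simp [hA.T_eq, hA.Q_eq])
    convert sub_mem (cj ψ a (β.quasi u k)) a using 1
    ext y
    have : (β.quasi u k).1.symm y = y - (k * β.B u y) • u := by rw [LinearEquiv.symm_apply_eq, q]; simp [s]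
    simp [this, q]; module
  have u0 : u ≠ 0 := by rintro rfl; simp at hu
  rcases hex with h3 | ⟨h2, c, c0, c1⟩
  · obtain ⟨z, a, b, c⟩ : ∃ z, β.B u z = 0 ∧ β.B z (ψ u + β.B u (ψ u) • u) ≠ 0 ∧ z ∉ F ∙ u := by
      obtain ⟨z, a, b⟩ := exists_sep (β := β) hu
      have b' : β.B z (ψ u + β.B u (ψ u) • u) ≠ 0 := by simp [s' _ z, a, b]
      obtain ⟨y, d, c⟩ := SetLike.not_le_iff_exists.1 fun c : β.perp (F ∙ u) ≤ F ∙ u => by
        have := Submodule.finrank_mono c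
        have := β.finrank_perp_singleton u0
        rw [finrank_span_singleton u0] at *; omega
      rw [β.mem_perp_singleton] at d
      by_cases i : z ∈ F ∙ u
      · by_cases j : β.B y (ψ u + β.B u (ψ u) • u) = 0
        · exact ⟨y + z, by simp [a, d], by simpa [j] using b', fun k => c ((add_mem_cancel_right i).1 k)⟩
        exact ⟨y, d, j, c⟩
      exact ⟨z, a, b', i⟩
    have z0 : z ≠ 0 := by rintro rfl; simp at c
    obtain ⟨δ, α, δ0, d⟩ : ∃ δ α : F, δ ≠ 0 ∧ δ • tp β z u + α • tp β u z ∈ L := ⟨_, β.B u (ψ z), b, by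
      convert neg_mem (H _ (H ψ hψ u 1) z 1) using 1; ext; simp [s' u z, a]; module⟩
    obtain ⟨y, i, j⟩ := exists_sep (β := β) (not_mem_span_singleton_symm u0 c)
    obtain ⟨g, k, l⟩ := β.witt_pair (u := u) (u' := z) (v := z) (v' := y)
      ((LinearIndependent.pair_iff' u0).2 fun t m => c (Submodule.mem_span_singleton.2 ⟨t, m⟩))
      ((LinearIndependent.pair_iff' z0).2 fun t m => by simp [← m, a] at j) (by simp [hA.Q_eq]) (by simp [hA.Q_eq]) (a.trans i.symm)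
    refine ⟨z, z0, ?_⟩
    convert L.smul_mem (δ * δ)⁻¹ (ml _ d _ (cj _ d g)) using 1
    ext; simp [Isom.B_symm_right, k, l, a, i, j, s, smul_smul]; congr 1; field_simp
  · have a : β.B u (ψ u) ≠ 0 := fun a => hu ((Submodule.eq_of_le_of_finrank_eq (hA.ts (by
      simp [Submodule.mem_span_singleton, s])).le_perp (by
        have := β.finrank_perp_singleton u0; rw [finrank_span_singleton u0]; omega)).ge (β.mem_perp_singleton.2 a))
    refine ⟨u, u0, ?_⟩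
    convert L.smul_mem (c * (1 - c) * β.B u (ψ u))⁻¹ (sub_mem (H ψ hψ u c) (L.smul_mem c (H ψ hψ u 1))) using 1
    have := sub_ne_zero.2 c1.symm
    ext; simp; match_scalars <;> field_simp <;> ring

theorem exists_adj' (hσ : ∀ a, β.σ a = a) (ψ : U →ₗ[F] U) : ∃ ψ' : U →ₗ[F] U, ∀ u v, β.B (ψ u) v = β.B u (ψ' v) := by
  choose a ha using fun v => β.exists_B_eq (β.B v ∘ₗ ψ)
  exact ⟨⟨⟨a, fun x y => β.ext_B_left fun z => by simp [ha]⟩, fun c x => β.ext_B_left fun z => by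
    simp [ha, hσ]⟩, fun u v => by rw [β.symm v, β.symm (_ : U) u]; simp [ha]⟩

theorem o3_sing [Finite F] (hQ : β.IsQuad) (two : (2 : F) ≠ 0) (h3 : finrank F U = 3) {c : F} (c0 : c ≠ 0) (c1 : c * c ≠ 1)
    (cj : ∀ ψ ∈ L, ∀ a : β.Isom, a.1.toLinearMap ∘ₗ ψ ∘ₗ a.1.symm.toLinearMap ∈ L)
    (ml : ∀ ψ ∈ L, ∀ ψ', (∀ u v, β.B (ψ u) v = β.B u (ψ' v)) → ψ ∘ₗ ψ' ∈ L) (hψ : ψ ∈ L) (hu : ¬ ∃ c : F, ∀ u, ψ u = c • u) :
    ∃ z, z ≠ 0 ∧ β.Q z = 0 ∧ tp β z z ∈ L := by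
  have T : ∀ z y, z ≠ 0 → β.Q z = 0 → β.B z y = 0 → β.B y y = 0 → y ∈ F ∙ z := fun z y a b c d => by_contra fun i => by
    have := ((TS.singleton b).sup (TS.singleton (u := y) (by simpa [hQ.B_self, two] using d))
      ((Submodule.span_singleton_le_iff_mem _ _).2 (β.mem_perp_singleton.2 c))).finrank_le
    rw [Submodule.finrank_sup_span_singleton i, finrank_span_singleton a] at this; omega
  have N : ∀ z f, β.IsHyp z f → ∃ w, β.B z w = 0 ∧ β.B f w = 0 ∧ β.Q w ≠ 0 := fun z f hyp => by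
    have := hyp.finrank_perp
    obtain ⟨w, a, b⟩ := (β.perp (Submodule.span F {z, f})).ne_bot_iff.1 (fun a => by rw [a, finrank_bot] at this; omega)
    rw [β.mem_perp_pair] at a
    refine ⟨w, a.1, a.2, fun i => ?_⟩
    obtain ⟨k, rfl⟩ := Submodule.mem_span_singleton.1 (T z w hyp.e_ne_zero hyp.Qe a.1 (β.B_self_eq_zero i))
    simp_all [hyp.Bfe, hQ.ε_eq]
  by_contra! H
  have H' : ∀ ψ ∈ L, ∀ z, β.Q z = 0 → β.B z (ψ z) = 0 := fun ψ a z hz => by_contra fun b => by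
    have z0 : z ≠ 0 := by rintro rfl; simp at b
    obtain ⟨f, hyp⟩ := β.exists_hyp hz z0
    obtain ⟨w, i, -, j⟩ := N z f hyp
    have q : ∀ (t : F) y, (β.siegel z (t • w) (t * t * β.Q w)).1 y = y + (t * β.B w y) • z - (t * β.B z y) • w -
        (t * t * β.Q w * β.B z y) • z := fun t y => by
      rw [β.siegel_apply hz (by simp [i]) (by rw [hQ.T_eq, hQ.Q_smul])]; simp [hQ.ε_eq, hQ.σ_eq, smul_smul, mul_comm]
    have q' : ∀ (t : F) y, (β.siegel z (t • w) (t * t * β.Q w)).1.symm y = y - (t * β.B w y) • z + (t * β.B z y) • w -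
        (t * t * β.Q w * β.B z y) • z := fun t y => by
      rw [LinearEquiv.symm_apply_eq, q]; simp [i, hQ.B_comm w z, hyp.Bee, hQ.B_self w]; module
    have r := fun t : F => sub_mem (cj ψ a (β.siegel z (t • w) (t * t * β.Q w))) a
    refine H z z0 hz ?_
    convert L.smul_mem (2 * (c * c * (1 - c * c)) * β.Q w ^ 2 * β.B z (ψ z))⁻¹ (sub_mem (L.smul_mem (c * c) (add_mem (r 1) (r (-1))))
      (add_mem (r c) (r (-c)))) using 1
    have : 1 - c ^ 2 ≠ 0 := sub_ne_zero.2 (sq c ▸ c1.symm)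
    ext y; simp only [q, q', LinearMap.smul_apply, LinearMap.sub_apply, LinearMap.add_apply, comp_apply, LinearEquiv.coe_coe, map_add,
      map_sub, map_smul, tp_apply]
    match_scalars <;> field_simp <;> ring
  obtain ⟨ψ', a⟩ := exists_adj' hQ.σ_eq ψ
  have b : ∀ z, z ≠ 0 → β.Q z = 0 → ∃ k : F, k • z = ψ' z := fun z z0 hz => Submodule.mem_span_singleton.1
    (T z _ z0 hz (by rw [← a, hQ.B_comm, H' ψ hψ z hz]) (by rw [← a, hQ.B_comm]; exact H' _ (ml ψ hψ ψ' a) z hz))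
  obtain ⟨z, f, hyp⟩ := hQ.exists_hyp_of_three_le h3.ge
  obtain ⟨k, i⟩ := b z hyp.e_ne_zero hyp.Qe
  obtain ⟨l, j⟩ := b f hyp.f_ne_zero hyp.Qf
  have d : ∀ w, β.B z w = 0 → β.B f w = 0 → β.Q w ≠ 0 → k = l ∧ ψ' w = k • w := fun w m n o => by
    have p : ∀ t : F, t * t = 1 → ∃ s : F, s • (f + t • w - β.Q w • z) = l • f + t • ψ' w - (β.Q w * k) • z := fun t ht =>
      (b (f + t • w - β.Q w • z) (fun p => by simpa [m, hyp.Bee, hyp.Bef] using congrArg (β.B z) p) (by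
        simp [hQ.Q_sub, hQ.Q_add, hQ.Q_smul, hyp.Qe, hyp.Qf, n, ht, hQ.B_comm w z, m, hyp.Bfe, hQ.ε_eq])).imp
        fun s p => by rw [p, map_sub, map_add, map_smul, map_smul, ← i, ← j, smul_smul]
    obtain ⟨s, p1⟩ := p 1 (by simp)
    obtain ⟨s', p2⟩ := p (-1) (by simp)
    have p3 : (s + s' - 2 * l) • f + (s - s') • w - (β.Q w * (s + s' - 2 * k)) • z = 0 := by linear_combination (norm := module) p1 + p2
    have q1 := congrArg (β.B z) p3
    have q2 := congrArg (β.B f) p3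
    have q3 := congrArg (β.B w) p3
    simp [m, n, o, hyp.Bee, hyp.Bef, hyp.Bfe, hyp.Bff, hQ.ε_eq, hQ.B_comm w z, hQ.B_comm w f, hQ.B_self w, two] at q1 q2 q3
    obtain rfl : k = l := mul_left_cancel₀ two (by linear_combination q1 - q2)
    obtain rfl : s = k := mul_left_cancel₀ two (by linear_combination q2 + q3)
    exact ⟨rfl, by linear_combination (norm := module) -p1⟩
  obtain ⟨w, m, n, o⟩ := N z f hyp
  obtain rfl := (d w m n o).1
  refine hu ⟨k, fun u => β.ext_B_left fun y => ?_⟩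
  have p := β.mem_perp_pair.1 (hyp.proj_mem y)
  have q : ψ' (y - (β.ε * β.B f y) • z - β.B z y • f) = k • (y - (β.ε * β.B f y) • z - β.B z y • f) := by
    by_cases q : β.Q (y - (β.ε * β.B f y) • z - β.B z y • f) = 0
    · obtain ⟨t, q⟩ := Submodule.mem_span_singleton.1 (T z _ hyp.e_ne_zero hyp.Qe p.1 (β.B_self_eq_zero q))
      rw [← q, map_smul, ← i, smul_comm]
    exact (d _ p.1 p.2 q).2
  rw [map_sub, map_sub, map_smul, map_smul, ← i, ← j] at q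
  rw [a, hQ.B_smul_left, show ψ' y = k • y by linear_combination (norm := module) q, map_smul, smul_eq_mul]
end

namespace TK
variable (h : TK φ β γ M) [β.Nondeg] [γ.Nondeg] [φ.Nondeg] [FiniteDimensional F U] [FiniteDimensional F W] [Finite F]
  (hyp : γ.IsHyp e f)
include h hyp

omit [φ.Nondeg] [FiniteDimensional F U] in
theorem ll_good {θ} (H : Th γ M e θ) (h1 : γ.B e w = 0) (h2 : γ.B f w = 0) (w0 : w ≠ 0) (h0 : H09.IsAltF γ ∨ γ.B w w ≠ 0)
    (h3 : ∀ u, ψ u = θ (tp γ u w)) : LL γ M e ψ := by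
  by_cases a : H09.IsAltF γ
  · exact h.ll_of_quasi hyp H h1 h2 one_ne_zero (by simp [a.T_eq, a.Q_eq]) w0 h3
  exact h.ll_of_quasi hyp H h1 h2 (neg_ne_zero.2 (inv_ne_zero fun b => h0.resolve_left a (γ.B_self_eq_zero b)))
    ((h.kind.resolve_left a).1.refl_cond w) w0 h3

omit [φ.Nondeg] in
theorem nonscalar {θ} (H : Th γ M e θ) (H' : ¬ ∃ w, γ.B e w = 0 ∧ ∀ x, x e = 0 → θ x = x w) :
    ∃ ψ, LL γ M e ψ ∧ ¬ ∃ c : F, ∀ u, ψ u = c • u := by
  by_contra! hc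
  have a : ∀ w, γ.B e w = 0 → γ.B f w = 0 → H09.IsAltF γ ∨ γ.B w w ≠ 0 → ∃ c : F, ∀ u, θ (tp γ u w) = c • u := fun w i j k => by
    by_cases w0 : w = 0
    · exact ⟨0, fun u => by rw [w0, show tp γ u 0 = 0 by ext; simp]; simp⟩
    exact hc (θ ∘ₗ smulRightₗ (γ.B w)) (h.ll_good hyp H i j w0 k fun _ => rfl)
  have b : ∀ w, γ.B e w = 0 → γ.B f w = 0 → ∃ c : F, ∀ u, θ (tp γ u w) = c • u := fun w i j => by
    by_contra k
    have l := not_or.1 fun l => k (a w i j l)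
    rw [not_not] at l
    obtain ⟨q, two, -⟩ := h.kind.resolve_left l.1
    obtain ⟨v, m, n⟩ := h.ns l.1 (S := γ.perp (Submodule.span F {e, f})) (by
      have := hyp.finrank_perp; have := (h.kind.resolve_left l.1).2.2; omega)
    rw [γ.mem_perp_pair] at m
    obtain ⟨c, o⟩ := a v m.1 m.2 (.inr n)
    obtain ⟨t, p⟩ : ∃ t : F, γ.B (w + t • v) (w + t • v) ≠ 0 := by
      by_contra! p
      have p1 := p 1; have p2 := p (-1)
      simp [l.2] at p1 p2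
      exact mul_ne_zero two n (by linear_combination p1 + p2)
    obtain ⟨d, r⟩ := a (w + t • v) (by simp [i, m]) (by simp [j, m]) (.inr p)
    exact k ⟨d - t * c, fun u => by
      rw [sub_smul, ← r, mul_smul, ← o, ← map_smul, ← map_sub]; congr 1; ext; simp [h.σγ, add_smul, mul_smul]⟩
  obtain ⟨u₀, u0, -⟩ := exists_ker h.U2 (0 : Dual F U)
  obtain ⟨l, -, i⟩ := exists_dual_val (K := F) (v := 0) (t := u₀) (by simpa using u0) 1
  let π : W →ₗ[F] W := .id - (γ.ε • γ.B f).smulRight e - (γ.B e).smulRight f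
  have p0 : ∀ y, π y = y - (γ.ε * γ.B f y) • e - γ.B e y • f := fun _ => rfl
  obtain ⟨v, j⟩ := γ.exists_B_eq (l ∘ₗ θ ∘ₗ LinearMap.flip smulRightₗ u₀ ∘ₗ h.Bl ∘ₗ π)
  replace j : ∀ y, γ.B y (γ.ε • v) = l (θ (tp γ u₀ (π y))) := fun y => by
    rw [map_smul, smul_eq_mul, ← h.γc]; exact LinearMap.congr_fun j y
  refine H' ⟨γ.ε • v, by rw [j, show tp γ u₀ (π e) = 0 by ext; simp [p0, hyp.Bee, hyp.Bfe]]; simp, fun x hx => ?_⟩
  have k := LinearMap.congr_fun (ext_tp (γ := γ) (X := θ ∘ₗ lcomp F U π) (Y := applyₗ (γ.ε • v)) fun u w => by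
    obtain ⟨c, m⟩ := b _ (γ.mem_perp_pair.1 (hyp.proj_mem w)).1 (γ.mem_perp_pair.1 (hyp.proj_mem w)).2
    rw [applyₗ_apply_apply, tp_apply, j, p0, m, map_smul, i, smul_eq_mul, mul_one, ← m, comp_apply]; congr 1
    ext y; simp [p0, h.σγ, h.γc e w, h.γc f w]; congr 1; linear_combination (-γ.B e w * γ.B f y) * γ.ε_mul_ε) x
  rw [comp_apply, show lcomp F U π x = x - tp γ (x f) e by ext; simp [p0, hx], map_sub, th0 H hyp, sub_zero] at k
  exact k

omit [φ.Nondeg] [FiniteDimensional F U] in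
theorem mul (h5 : 5 ≤ finrank F W) (H : LL γ M e ψ) (H' : LL γ M e χ) : LL γ M e (ψ ∘ₗ χ) := by
  classical
  obtain ⟨e₂, f₂, i, a1, -, a3, -, b, rfl⟩ := h.exists_e2 hyp
  have d1 := finrank_span_le_card (R := F) ({e, b.1 e} : Set W)
  have d2 := γ.finrank_perp (Submodule.span F {e, b.1 e})
  obtain ⟨v, j, k, l⟩ : ∃ v ∈ γ.perp (Submodule.span F {e, b.1 e}), v ∉ Submodule.span F {e, b.1 e} ∧
      (H09.IsAltF γ ∨ γ.B v v ≠ 0) := by
    have : ({e, b.1 e} : Set W).toFinset.card ≤ 2 := by simpa using Finset.card_le_two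
    by_cases a : H09.IsAltF γ
    · obtain ⟨v, j, k⟩ := SetLike.not_le_iff_exists.1 fun c : γ.perp (Submodule.span F {e, b.1 e}) ≤ _ =>
        (Submodule.finrank_mono c).not_gt (show finrank F (Submodule.span F {e, b.1 e}) < _ by omega)
      exact ⟨v, j, k, .inl a⟩
    obtain ⟨v, j, k⟩ := h.ns a (S := γ.perp (Submodule.span F {e, b.1 e})) (by omega)
    exact ⟨v, j, fun l => k (j v l), .inr k⟩
  rw [γ.mem_perp_pair] at j
  have k' : v - (γ.ε * γ.B f v) • e ∉ Submodule.span F {e, b.1 e} := fun m =>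
    k ((Submodule.sub_mem_iff_left _ (Submodule.smul_mem _ _ (Submodule.subset_span (by simp)))).1 m)
  obtain ⟨w', m, n⟩ := γ.exists_sep' k'
  have m1 := m e (Submodule.subset_span (by simp))
  obtain ⟨r, o, p, q⟩ := h.ll_map H' b w' (m _ (Submodule.subset_span (by simp)))
  have := h.cj (H f₂ a3) (M.inv_mem o) (.refl F U) fun u => by
    rw [LinearEquiv.coe_inv, LinearEquiv.symm_apply_eq, q _ (by simp [a1])]; simp [m1]
  have := h.ll_good hyp this (w := v - (γ.ε * γ.B f v) • e) (ψ := γ.B (v - (γ.ε * γ.B f v) • e) f₂ • ψ + ψ ∘ₗ χ)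
    (by simp [j, hyp.Bee]) (by simp [hyp.Bfe, mul_right_comm]) (fun a => k' (a ▸ zero_mem _))
    (l.imp_right (by simp [j, γ.B_symm_zero j.1, hyp.Bee])) fun u => by
      change _ = ψ (r _ f₂)
      rw [q _ (by simp [γ.B_symm_zero j.2, a1])]; simp only [comp_apply, applyₗ_apply_apply, n, tp_apply, i.Bef, LinearMap.add_apply, map_add, one_smul]; simp
  exact ((h.LS hyp).add_mem_iff_right ((h.LS hyp).smul_mem _ H)).1 this

variable (hL : ∀ ψ, LL γ M e ψ)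
include hL

omit [β.Nondeg] [γ.Nondeg] [φ.Nondeg] [FiniteDimensional F U] [Finite F] h in
theorem th_all {θ : (W →ₗ[F] U) →ₗ[F] U} (H : ∀ u, θ (tp γ u e) = 0) : Th γ M e θ := by
  let b := finBasis F W
  have t : ∀ s : Finset (Fin (finrank F W)), Th γ M e
      (∑ i ∈ s, (θ ∘ₗ smulRightₗ (b.coord i)) ∘ₗ applyₗ (b i - γ.B e (b i) • f)) := fun s => by
    induction s using Finset.induction_on with
    | empty => exact th_zero
    | insert i s hi ih => rw [Finset.sum_insert hi]; exact (hL _ _ (by simp [hyp.Bef])).add ih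
  refine (t Finset.univ).congr fun x _ => ?_
  have := hom_sum (x - tp γ (x f) e)
  rw [sub_eq_iff_eq_add'] at this
  conv_lhs => rw [this]
  simp [b, smulRightₗ, H]

theorem rad {p w s} (hp : p ∈ pu U (γ.B e)) (hw : w e = 0) (hs : φ.T s = φ.Q w) : φ.siegel p w s ∈ M.subgroupOf φ.Isom := by
  have A := h.ts hyp.Qe
  obtain ⟨a, a0, -⟩ := exists_ker h.U2 (0 : Dual F U)
  obtain ⟨b, ab⟩ := β.exists_B_eq_one a0
  have Z : ∀ p ∈ pu U (γ.B e), ∀ w ∈ pu U (γ.B e), ∀ s, φ.T s = φ.Q w → φ.siegel p w s ∈ M.subgroupOf φ.Isom := by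
    intro p i w j s k
    have l := φ.siegel_apply (A.Q p i) (A.B p i w j) k
    obtain ⟨c, rfl⟩ := h.T s (k.trans (A.Q w j))
    obtain ⟨u, rfl⟩ := mem_tp.1 i; obtain ⟨v, rfl⟩ := mem_tp.1 j
    obtain ⟨r, m, n⟩ := h.cm hyp (ψ := tp β (v + c • u) a) (ψ' := β.ε • tp β a (v + c • u)) (χ := tp β u b) (χ' := β.ε • tp β b u)
      (fun x y => by simp [h.σβ, h.βc x a]; ring) (fun x y => by simp [h.σβ, h.βc x b]; ring) (hL _) (hL _)
    rw [Subgroup.mem_subgroupOf, show (φ.siegel _ _ _).1 = r from LinearEquiv.ext fun x => by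
      rw [l, n, h.B, h.B]; ext y; simp [h.σβ, h.ε, h.βc a b, ab, smul_smul]; match_scalars
      exacts [rfl, by linear_combination -β.B v (x e) * γ.B e y * β.ε_mul_ε + γ.B e y * β.ε ^ 2 * c * β.B u (x e) * γ.ε_mul_ε,
        by ring]]
    exact m
  obtain ⟨u, rfl⟩ := mem_tp.1 hp
  have i := h.mem_perp.2 hw _ hp
  have l := φ.siegel_apply (A.Q _ hp) i hs
  obtain ⟨r, m, n, o⟩ := th_all hyp hL (θ := (φ.B w).smulRight u) fun v => by
    simp [φ.B_symm_zero (h.mem_perp.2 hw _ (tp_mem v e))]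
  have q : ∀ x, x e = 0 → (φ.siegel (tp γ u e) w s).1 x = r x := fun x hx => by rw [l, o x hx, h.B]; simp [hx, tp_smul]
  have q' : ∀ x ∈ φ.perp (pu U (γ.B e)), ((⟨r, (h.le r m).1⟩ : φ.Isom)⁻¹ * φ.siegel (tp γ u e) w s).1 x = x := fun x hx =>
    r.symm_apply_eq.2 (q x (h.mem_perp.1 hx))
  rw [← (M.subgroupOf φ.Isom).mul_mem_cancel_left (inv_mem (show ⟨r, (h.le r m).1⟩ ∈ M.subgroupOf φ.Isom from m))]
  exact rad_mem A le_rfl A.le_perp Z (fun x hx => q' x (A.le_perp hx)) (fun x => (φ.perp_perp _).le (φ.mem_perp.2 fun y hy => by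
    rw [map_sub, ← q' y hy, Isom.B_map, q' y hy, sub_self])) fun x hx => by rw [q' x hx, sub_self]; exact zero_mem _

omit hyp hL in
theorem full (hL : ∀ e f, γ.IsHyp e f → ∀ ψ, LL γ M e ψ) (hyp : γ.IsHyp e f) (u : U) : φ.Full (M.subgroupOf φ.Isom) (tp γ u e) := by
  have hp := h.Q u e hyp.Qe
  have hX : ∀ t, φ.T t = 0 → φ.siegel (tp γ u e) 0 t ∈ M.subgroupOf φ.Isom := fun t a =>
    h.rad hyp (hL e f hyp) (tp_mem u e) rfl (by simpa using a)
  have a : ∀ x, x e = 0 → x ∈ sgSub _ hp hX := fun x hx => mem_sgSub_of (by simp [h.B, hx]) fun c s =>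
    h.rad hyp (hL e f hyp) (tp_mem u e) (by simp [hx])
  refine full_of_le_sgSub (hp := hp) (hX := hX) fun x hx => ?_
  rw [φ.mem_perp_singleton, h.B] at hx
  obtain ⟨e₂, f₂, i, a1, a2, a3, a4, -⟩ := h.exists_e2 hyp
  obtain ⟨v, v0, -⟩ := exists_ker h.U2 (0 : Dual F U)
  obtain ⟨v', b⟩ := β.exists_B_eq_one v0
  have c := h.Q v e₂ i.Qe
  have d : tp γ v e₂ f = 0 := by simp [γ.B_symm_zero a2]
  have j := φ.siegel_apply (h.Q (x e) f hyp.Qf) (by simp [h.B, d]) ((map_zero _).trans c.symm)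
  have k := map_mem_sgSub (hp := hp) (hX := hX) (h.rad hyp.symm (hL _ _ hyp.symm) (tp_mem (x e) f) d ((map_zero _).trans c.symm))
    (by simp [j, h.B, β.B_symm_zero hx, a1]) (a (tp γ v' f₂) (by simp [γ.B_symm_zero a3]))
  have l := a (x - tp γ (γ.ε • x e) f + tp γ v' f₂) (by simp [γ.B_symm_zero a3, hyp.Bfe, smul_smul])
  convert sub_mem (add_mem k l) (Submodule.smul_mem _ 2 (a (tp γ v' f₂) (by simp [γ.B_symm_zero a3]))) using 1
  rw [j]; ext; simp [h.B, i.Bfe, a4, γ.B_symm_zero a4, b, h.βc v, h.γc f₂]; module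

omit hyp hL in
theorem dichotomy (far : finrank F U < finrank F W ∧ (H09.IsAltF γ ∨ 2 * finrank F U < finrank F W))
    (hU : H09.IsAltF β ∧ 5 ≤ finrank F W ∧ (3 ≤ finrank F U ∨ finrank F U = 2 ∧ ∃ c : F, c ≠ 0 ∧ c ≠ 1) ∨
      β.IsQuad ∧ (2 : F) ≠ 0 ∧ finrank F U = 3 ∧ γ.ε = -1 ∧ ∃ c : F, c ≠ 0 ∧ c * c ≠ 1) :
    φ.E ≤ M.subgroupOf φ.Isom ∨ ∀ g ∈ M, St g := by
  refine or_iff_not_imp_right.2 fun H => ?_
  obtain ⟨e, f, hyp, θ, H, H'⟩ : ∃ e f, γ.IsHyp e f ∧ ∃ θ, Th γ M e θ ∧ ¬ ∃ w, γ.B e w = 0 ∧ ∀ x, x e = 0 → θ x = x w := by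
    by_contra! a
    exact H fun g => h.all_st (fun g hg e e0 he => (γ.exists_hyp he e0).elim fun f i => h.st_of_stab (a e f i) i hg) far
  obtain ⟨ψ, a, b⟩ := h.nonscalar hyp H H'
  have cj := fun ψ (a : ψ ∈ h.LS hyp) => h.ll_cj a
  have hL : ∀ ψ, LL γ M e ψ := by
    rcases hU with ⟨i, j, k⟩ | ⟨i, j, k, l, c, m, n⟩
    · obtain ⟨u, c⟩ : ∃ u, ψ u ∉ F ∙ u := by by_contra! c; exact b (scalar_of_pres (K := F) (exists_not_mem_pt h.U2) c)
      obtain ⟨z, d, l⟩ := alt_sing (L := h.LS hyp) i cj (fun _ a _ => h.mul hyp j a) a c k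
      exact top_of_sing (L := h.LS hyp) h.σβ cj (fun _ a _ b => h.mul hyp j b a) d (i.Q_eq z) l
    have ml : ∀ χ ∈ h.LS hyp, ∀ ψ ∈ h.LS hyp, ∀ ψ' χ', (∀ u v, β.B (ψ u) v = β.B u (ψ' v)) → ∀ ρ ∈ h.LS hyp,
        (∀ u v, β.B (ρ u) v = β.B u (χ' v)) → ρ ∘ₗ ψ' = ψ ∘ₗ χ' → χ ∘ₗ ψ ∘ₗ χ' ∈ h.LS hyp := fun χ a ψ b ψ' χ' c ρ d o p => by
      convert (h.LS hyp).smul_mem 2⁻¹ (h.lj hyp a (h.cm hyp c o b d)) using 1
      ext; simp [l, p, ← two_smul F, j]
    obtain ⟨z, d, o, p⟩ := o3_sing (L := h.LS hyp) i j k m n cj (fun ψ a ψ' b => ml _ (h.ll_one hyp.Qe) ψ a ψ' ψ' b ψ a b rfl) a b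
    exact top_of_sing (L := h.LS hyp) h.σβ cj (fun z a χ b => ml χ b _ a (tp β z z) .id (fun x y => by
      simp [h.σβ, i.B_comm x z, mul_comm]) _ (h.ll_one hyp.Qe) (fun _ _ => rfl) rfl) d o p
  replace hL : ∀ e f, γ.IsHyp e f → ∀ ψ, LL γ M e ψ := fun e' f' i ψ => by
    obtain ⟨b, rfl⟩ := γ.witt_vec hyp.e_ne_zero i.e_ne_zero (hyp.Qe.trans i.Qe.symm); exact h.ll_map (hL ψ) b
  obtain ⟨v, v0, -⟩ := exists_ker h.U2 (0 : Dual F U)
  obtain ⟨v', b⟩ := β.exists_B_eq_one v0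
  exact E_le_of_full (h.full hL hyp v) (h.Q _ _ hyp.Qe) (h.full hL hyp.symm v') (h.Q _ _ hyp.Qf) (by
    simp [h.B, hyp.Bfe, b, γ.ε_ne_zero])

end TK
end H10.Mx
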