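import Mathlib
import Cfsg.Agent.H10.MxW

/-!
# Maximality of tensor product subgroups of symplectic and orthogonal groups
* `isMaximalIn_tens_om` (`Sp ⊗ Sp`), `isMaximalIn_tens_sp` (`Sp_m ⊗ O_k`, `2m < k`), `isMaximalIn_tens_sp43`
-/

namespace H10.Mx

open Module LinearMap Form

section
variable {F U W : Type*} [Field F] [AddCommGroup U] [Module F U] [AddCommGroup W] [Module F W]

/-- pull-back of a form -/
def cmp (φ : Form F U) (T : W →ₗ[F] U) : Form F W :=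
  { φ with
    B := (φ.B.comp T).compl₂ T
    Q := fun x => φ.Q (T x)
    symm := fun x y => φ.symm (T x) (T y)
    Q_add := fun x y => by rw [map_add]; exact φ.Q_add _ _
    Q_smul := fun a x => by rw [map_smul]; exact φ.Q_smul _ _
    half := fun w => φ.half (T w) }

theorem isEquiv_cmp (φ : Form F U) (T : U ≃ₗ[F] W) : IsEquiv φ (cmp φ T.symm) T :=
  ⟨fun x y => show φ.B (T.symm _) (T.symm _) = _ by simp, fun x => by simp [cmp]⟩

theorem map_E {φ : Form F U} {ψ : Form F W} [φ.Nondeg] [ψ.Nondeg] [FiniteDimensional F U] [FiniteDimensional F W] {T : U ≃ₗ[F] W}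
    (h : IsEquiv φ ψ T) (h1 : ψ.ε = φ.ε) (h2 : ψ.T = φ.T) {g : φ.Isom} (hg : g ∈ φ.E) : h.isomEquiv g ∈ ψ.E :=
  (E_le_iff (M := ψ.E.comap h.isomEquiv.toMonoidHom)).2 (fun p a w s b c => by
    have a' := (h.Q p).trans a
    have b' := (h.B p w).trans b
    have c' : ψ.T s = ψ.Q (T w) := by rw [h2, h.Q, c]
    refine Subgroup.mem_comap.2 (Eq.subst (motive := (· ∈ ψ.E)) (Isom.ext fun x => ?_) (ψ.siegel_mem_E a' b' c'))
    obtain ⟨x, rfl⟩ := T.surjective x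
    simp [φ.siegel_apply a b c, ψ.siegel_apply a' b' c', h.B, h1]) hg

variable {β : Form F U} {γ : Form F W} {φ : Form F (W →ₗ[F] U)} {M : Subgroup ((W →ₗ[F] U) ≃ₗ[F] W →ₗ[F] U)}
  [β.Nondeg] [γ.Nondeg] [φ.Nondeg] [FiniteDimensional F U] [FiniteDimensional F W]

theorem TK.mk' (σ : ∀ a, φ.σ a = a) (σβ : ∀ a, β.σ a = a) (σγ : ∀ a, γ.σ a = a) (ε : φ.ε = β.ε * γ.ε)
    (B : ∀ u w u' w', φ.B (tp γ u w) (tp γ u' w') = β.B u u' * γ.B w' w) (le : ∀ g ∈ M, ∃ h : g ∈ φ.Isom, ⟨g, h⟩ ∈ φ.E)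
    (mem : ∀ k ∈ φ.E, St k.1 → k.1 ∈ M) (U2 : 2 ≤ finrank F U) (W4 : 4 ≤ finrank F W)
    (kind : H09.IsAltF γ ∨ γ.IsQuad ∧ (2 : F) ≠ 0 ∧ 5 ≤ finrank F W)
    (hφ : H09.IsAltF φ ∧ φ.ε = -1 ∧ (2 : F) ≠ 0 ∨ φ.IsQuad ∧ H09.IsAltF β ∧ H09.IsAltF γ ∧ ∀ u w, φ.Q (tp γ u w) = 0) :
    TK φ β γ M := by
  replace B : ∀ u w x, φ.B (tp γ u w) x = β.B u (x w) := fun u w => LinearMap.congr_fun (TK.ext_tp (γ := γ)
    (Y := β.B u ∘ₗ applyₗ w) fun u' w' => by simp [B, mul_comm])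
  have Q : ∀ u w, φ.Q (tp γ u w) = 0 := fun u w => hφ.elim (fun a => a.1.Q_eq _) fun a => a.2.2.2 u w
  have ind : ∀ P : (W →ₗ[F] U) → Prop, P 0 → (∀ x u w, P x → P (tp γ u w + x)) → ∀ x, P x := fun P a b x => by
    rw [hom_sum x]
    induction (Finset.univ : Finset (Fin (finrank F W))) using Finset.induction_on with
    | empty => exact a
    | insert i s hi ih =>
      obtain ⟨w, c⟩ := γ.exists_B_eq ((finBasis F W).coord i)
      rw [Finset.sum_insert hi, ← c]; exact b _ _ w ih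
  have iso : ∀ g, St g → (∀ x y, φ.B (g x) (g y) = φ.B x y) → g ∈ φ.Isom := fun g ⟨a, b, c⟩ d => ⟨d, by
    rcases hφ with i | i
    · simp [i.1.Q_eq]
    refine ind _ (by simp) fun x u w j => ?_
    obtain ⟨w', k⟩ := γ.exists_B_eq (γ.B w ∘ₗ b.toLinearMap)
    rw [map_add, i.1.Q_add, i.1.Q_add, d, j, Q, show g (tp γ u w) = tp γ (a u) w' by ext; simp [c, k], Q]⟩
  have H : ∀ (a : β.Isom) (b : γ.Isom), ∃ g : φ.Isom, ∀ x y, g.1 x y = a.1 (x (b.1.symm y)) := fun a b =>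
    ⟨⟨b.1.arrowCongr a.1, iso _ ⟨a.1, b.1.symm, fun _ _ => rfl⟩ fun x y => ind (fun x => φ.B (b.1.arrowCongr a.1 x)
      (b.1.arrowCongr a.1 y) = φ.B x y) (by simp) (fun x u w i => by
        rw [map_add, map_add, map_add, LinearMap.add_apply, LinearMap.add_apply, i, show b.1.arrowCongr a.1 (tp γ u w) =
          tp γ (a.1 u) (b.1 w) by ext; simp [Isom.B_symm_right], B, B]; simp) x⟩, fun _ _ => rfl⟩
  have H' : ∀ (a : β.Isom) (b : γ.Isom), ∃ g ∈ φ.E, ∀ x y, g.1 x y = a.1 (x (b.1.symm y)) := by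
    rcases hφ with i | ⟨i, j, k, -⟩
    · simpa [E_eq_top_of_isAltF i.1] using H
    let S : Subgroup (β.Isom × γ.Isom) :=
      { carrier := {z | ∃ g ∈ φ.E, ∀ x y, g.1 x y = z.1.1 (x (z.2.1.symm y))}
        one_mem' := ⟨1, one_mem _, fun _ _ => rfl⟩
        mul_mem' := fun ⟨g, a, b⟩ ⟨g', a', b'⟩ => ⟨g * g', mul_mem a a', fun x y => by rw [Isom.mul_apply, b, b']; rfl⟩
        inv_mem' := fun {z} ⟨g, a, b⟩ => ⟨g⁻¹, inv_mem a, fun x y => by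
          have := b (g.1.symm x) (z.2.1 y); simp at this; exact (z.1.1.eq_symm_apply.2 this.symm :)⟩ }
    have a : β.E ≤ S.comap (.inl _ _) := E_le_iff.2 fun p a w s b c => by
      obtain ⟨g, d⟩ := H (β.siegel p w s) 1
      replace d : ∀ x y, g.1 x y = _ := fun x y => (d x y).trans (β.siegel_apply a b c (x y))
      let A : Submodule F (W →ₗ[F] U) := range (LinearMap.flip smulRightₗ p)
      have m : ∀ x ∈ A, ∃ w, tp γ p w = x := by rintro _ ⟨μ, rfl⟩; obtain ⟨w, rfl⟩ := γ.exists_B_eq μ; exact ⟨w, rfl⟩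
      have n : ∀ x, x ∈ φ.perp A ↔ ∀ y, β.B p (x y) = 0 := fun x => ⟨fun o y => (B p y x).symm.trans (o _ ⟨γ.B y, rfl⟩),
        fun o z q => by obtain ⟨w, rfl⟩ := m z q; rw [B, o]⟩
      have A0 : φ.TS A := i.ts fun x o => by obtain ⟨w, rfl⟩ := m x o; exact Q _ _
      refine ⟨g, rad_mem A0 A0.le_perp le_rfl (fun p o w q _ => φ.siegel_mem_E (A0.Q p o) (q p o)) (fun x o => ?_)
        (fun x => (n _).2 fun y => by simp [d, b, β.B_self_eq_zero a]) fun x o => ⟨β.B w ∘ₗ x, ?_⟩, fun x y => by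
          rw [d]; exact (β.siegel_apply a b c (x y)).symm⟩
      · obtain ⟨w, rfl⟩ := m x o; ext; simp [d, β.B_symm_zero b, β.B_self_eq_zero a]
      ext; simp [d, (n x).1 o, smulRightₗ]
    have b : γ.E ≤ S.comap (.inr _ _) := E_le_iff.2 fun p a w s b c => by
      obtain ⟨g, d⟩ := H 1 (γ.siegel p w s)⁻¹
      replace d : ∀ x y, g.1 x y = _ := fun x y => (d x y).trans (congrArg x (γ.siegel_apply a b c y))
      have n : ∀ x, x ∈ φ.perp (pu U (γ.B p)) ↔ x p = 0 := fun x => ⟨fun H => β.eq_zero_of_B_right fun u =>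
        (B u p x).symm.trans (H _ (tp_mem u p)), fun H _ ⟨u, a⟩ => a ▸ (B u p x).trans (by simp [H])⟩
      have A0 : φ.TS (pu U (γ.B p)) := i.ts (by rintro _ ⟨u, rfl⟩; exact Q u p)
      refine (Subgroup.inv_mem_iff _).1 ⟨g, rad_mem A0 A0.le_perp le_rfl (fun p o w q _ => φ.siegel_mem_E (A0.Q p o) (q p o)) ?_
        (fun x => (n _).2 (by simp [d, γ.B_symm_zero b, γ.B_self_eq_zero a])) fun x o => mem_tp.2 ⟨-γ.ε • x w, ?_⟩, fun x y => by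
          rw [d]; exact (congrArg x (γ.siegel_apply a b c y)).symm⟩
      · rintro _ ⟨u, rfl⟩; ext; simp [d, b, γ.B_self_eq_zero a, smulRightₗ]
      ext; simp [d, (n x).1 o, smul_smul, mul_comm]
    rw [E_eq_top_of_isAltF ‹_›] at a b
    exact fun x y => show (x, y) ∈ S by simpa using S.mul_mem (a (Subgroup.mem_top x)) (b (Subgroup.mem_top y))
  exact ⟨σ, σβ, σγ, ε, B, fun u w _ => Q u w, iso, le, mem, fun a => (H' a 1).elim fun g b => ⟨g, mem g b.1 ⟨a, .refl .., b.2⟩, b.2⟩,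
    fun a => (H' 1 a⁻¹).elim fun g b => ⟨g, mem g b.1 ⟨.refl .., a, b.2⟩, b.2⟩, fun s a => hφ.elim (fun b => ⟨s / 2, by
      rw [b.2.1]; have := b.2.2; field_simp; ring⟩) fun b => ⟨0, by simpa [b.1.T_eq] using a⟩, U2, W4, kind⟩
end

open Matrix Cfsg Cfsg.Geo H10.As
open scoped Kronecker
variable {F : Type*} [Field F] {ι κ μ : Type} [Fintype ι] [DecidableEq ι] [Fintype κ] [DecidableEq κ] [Fintype μ] [DecidableEq μ]
  {e : ι ≃ κ × μ} {P : GL ι F}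

theorem exists_T (γ : Form F (μ → F)) [γ.Nondeg] (hσ : ∀ a, γ.σ a = a) : ∃ T : (ι → F) ≃ₗ[F] (μ → F) →ₗ[F] κ → F,
    (∀ u w, T (lq e P fun a => u a.1 * w a.2) = tp γ u w) ∧ ∀ g : GL ι F, (∃ u v, pl e P g = kU u v) ↔ St (cM T (glEquiv g)) := by
  let D₀ : (μ → F) →ₗ[F] μ → F := LinearMap.pi fun j => γ.B (Pi.single j 1)
  have d : ∀ w y, w ⬝ᵥ D₀ y = γ.B w y := fun w y => by
    conv_rhs => rw [pi_eq_sum_univ' w]
    simp [D₀, dotProduct, hσ]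
  let D : (μ → F) ≃ₗ[F] μ → F := .ofInjectiveEndo D₀ ((injective_iff_map_eq_zero _).2 fun y a =>
    γ.eq_zero_of_B_right fun w => by rw [← d, a, dotProduct_zero])
  refine ⟨tq e P ≪≫ₗ D.symm.arrowCongr (.refl F _), fun u w => LinearMap.ext fun y => funext fun i => ?_, fun g =>
    ⟨fun ⟨u, v, h⟩ => ⟨glEquiv u, D ≪≫ₗ glEquiv ⟨v.1ᵀ, (v⁻¹).1ᵀ, by rw [← transpose_mul]; simp, by rw [← transpose_mul]; simp⟩
      ≪≫ₗ D.symm, fun x y => ?_⟩, fun ⟨a, b, h⟩ => ?_⟩⟩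
  · rw [tp_apply, ← d]; simp [tq, D, mulVec, dotProduct, Finset.mul_sum, Finset.sum_mul, mul_assoc, mul_comm]
  · simp [glEquiv_apply, tq_mulVec e P ((pl_val e P g).symm.trans (h ▸ kU_val u v))]
  let v := glEquiv.symm (D.symm ≪≫ₗ b ≪≫ₗ D)
  refine ⟨glEquiv.symm a, ⟨v.1ᵀ, (v⁻¹).1ᵀ, by rw [← transpose_mul]; simp, by rw [← transpose_mul]; simp⟩, Units.ext ?_⟩
  rw [pl_val, kU_val, ← AlgEquiv.eq_symm_apply]
  refine matrix_eq_iff_mulVec.2 fun x => (tq e P).injective (LinearMap.ext fun y => ?_)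
  have := h ((tq e P ≪≫ₗ D.symm.arrowCongr (.refl F _)) x) (D.symm y)
  rw [tq_mulVec e P ((pm e P).apply_symm_apply _)]
  simpa [glEquiv_apply, glEquiv_symm_mulVec, v] using this

theorem max_tens [Finite F] {φ : Form F (ι → F)} {β : Form F (κ → F)} {γ : Form F (μ → F)} [φ.Nondeg] [β.Nondeg] [γ.Nondeg]
    (hb : As.Big (φ.E.map φ.toGL)) {S : Subgroup (GL ι F)} (hS : ∀ H, TL H e P ↔ H ≤ S)
    (σ : ∀ a, φ.σ a = a) (σβ : ∀ a, β.σ a = a) (σγ : ∀ a, γ.σ a = a) (ε : φ.ε = β.ε * γ.ε)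
    (B : ∀ u w u' w', φ.B (lq e P fun a => u a.1 * w a.2) (lq e P fun a => u' a.1 * w' a.2) = β.B u u' * γ.B w' w)
    (U2 : 2 ≤ Fintype.card κ) (W4 : 4 ≤ Fintype.card μ) (kind : H09.IsAltF γ ∨ γ.IsQuad ∧ (2 : F) ≠ 0 ∧ 5 ≤ Fintype.card μ)
    (hφ : H09.IsAltF φ ∧ φ.ε = -1 ∧ (2 : F) ≠ 0 ∨ φ.IsQuad ∧ H09.IsAltF β ∧ H09.IsAltF γ ∧
      ∀ (u : κ → F) (w : μ → F), φ.Q (lq e P fun a => u a.1 * w a.2) = 0)
    (far : Fintype.card κ < Fintype.card μ ∧ (H09.IsAltF γ ∨ 2 * Fintype.card κ < Fintype.card μ))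
    (hU : H09.IsAltF β ∧ 5 ≤ Fintype.card μ ∧ (3 ≤ Fintype.card κ ∨ Fintype.card κ = 2 ∧ ∃ c : F, c ≠ 0 ∧ c ≠ 1) ∨
      β.IsQuad ∧ (2 : F) ≠ 0 ∧ Fintype.card κ = 3 ∧ γ.ε = -1 ∧ ∃ c : F, c ≠ 0 ∧ c * c ≠ 1) :
    IsMaximalIn (φ.E.map φ.toGL) (S ⊓ φ.E.map φ.toGL) := by
  obtain ⟨T, t1, t2⟩ := exists_T (e := e) (P := P) γ σγ
  have hT := isEquiv_cmp φ T
  have := hT.nondeg
  have t3 : ∀ g : φ.Isom, φ.toGL g ∈ S ↔ St (hT.isomEquiv g).1 := fun g => by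
    rw [show (hT.isomEquiv g).1 = cM T (glEquiv (φ.toGL g)) from LinearEquiv.ext fun x => by
      simp [glEquiv_apply, toGL_mulVec], ← t2]
    exact ⟨(hS S).2 le_rfl _, fun h => (hS ⟨⟨⟨{g | ∃ u v, pl e P g = kU u v}, fun ⟨_, _, a⟩ ⟨_, _, b⟩ => ⟨_, _, by
      rw [map_mul, a, b, kU_mul]⟩⟩, 1, 1, by rw [map_one, kU_one]⟩, fun ⟨_, _, a⟩ => ⟨_, _, by rw [map_inv, a, kU_inv]⟩⟩).1
      (fun _ h => h) h⟩
  refine isMaximalIn_map _ (fun h => hb.not_TL U2 (by omega) ((hS _).2 (Subgroup.map_le_iff_le_comap.2 h))) fun M hM g hg hg' hg'' => ?_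
  have h : TK (cmp φ T.symm) β γ (((M ⊓ φ.E).map hT.isomEquiv.toMonoidHom).map (Subgroup.subtype _)) :=
    .mk' σ σβ σγ ε (fun u w u' w' => by rw [← t1, ← t1, hT.B, B]) (by
      rintro _ ⟨_, ⟨k, hk, rfl⟩, rfl⟩; exact ⟨_, map_E hT rfl rfl hk.2⟩) (fun k hk hk' => by
        obtain ⟨k, rfl⟩ := hT.isomEquiv.surjective k
        have := map_E hT.symm rfl rfl hk
        rw [show hT.symm.isomEquiv (hT.isomEquiv k) = k from Isom.ext fun x => by simp] at this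
        exact ⟨_, ⟨k, ⟨hM ⟨this, (t3 k).2 hk'⟩, this⟩, rfl⟩, rfl⟩) (by simpa) (by simpa) (by simpa)
      (hφ.imp (fun a => ⟨⟨σ, fun _ => a.1.Q_eq _, a.1.T_eq⟩, a.2⟩) fun a => ⟨⟨σ, a.1.ε_eq, a.1.T_eq⟩, a.2.1, a.2.2.1,
        fun u w => by rw [← t1, hT.Q, a.2.2.2]⟩)
  intro k hk
  obtain ⟨_, ⟨k', a, rfl⟩, b⟩ := (h.dichotomy (by simpa) (by simpa)).resolve_right (fun H => hg'' ((t3 g).2
    (H _ ⟨_, ⟨g, ⟨hg, hg'⟩, rfl⟩, rfl⟩))) (map_E hT rfl rfl hk)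
  exact hT.isomEquiv.injective (Subtype.ext b) ▸ a.1

theorem exists_altF {f : (ι → F) → (ι → F) → F} (hf : IsSymplecticForm f) {c : F} (hc : c ≠ 0) :
    ∃ φ : Form F (ι → F), φ.Nondeg ∧ H09.IsAltF φ ∧ φ.ε = -1 ∧ ∀ x y, φ.B x y = c * f x y :=
  ⟨ofAlt (c • LinearMap.mk₂ F f hf.1.add_left hf.1.smul_left hf.1.add_right hf.1.smul_right) fun x => by simp [hf.3],
    ⟨fun x hx => As.nondeg_of hf.4 x fun y => by rw [hf.skew, neg_eq_zero]; exact (mul_eq_zero.1 (hx y)).resolve_left hc⟩, H09.isAltF_ofAlt .., rfl, fun _ _ => rfl⟩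

theorem exists_symF (h2 : (2 : F) ≠ 0) {f : (ι → F) → (ι → F) → F} (hf : IsSymmetricForm f) {c : F} (hc : c ≠ 0) :
    ∃ φ : Form F (ι → F), φ.Nondeg ∧ φ.IsQuad ∧ ∀ x y, φ.B x y = c * f x y := by
  let B := (c / 2) • LinearMap.mk₂ F f hf.1.add_left hf.1.smul_left hf.1.add_right hf.1.smul_right
  have : ∀ x y, (ofQuad (BilinMap.toQuadraticMap B)).B x y = c * f x y := fun x y => by
    rw [ofQuad_B, BilinMap.polar_toQuadraticMap]; simp [B, hf.symm y x]; field_simp; ring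
  exact ⟨_, ⟨fun x hx => As.nondeg_of hf.3 x fun y => by rw [hf.symm]; simpa [this, hc] using hx y⟩, isQuad_ofQuad _, this⟩

theorem TF_pure {f f₁ f₂} {ε₁ ε₂ : F} (h₁ : SF (.id F) ε₁ f₁) (h₂ : SF (.id F) ε₂ f₂)
    (h : TF (.id F) f e P (gramMatrix f₁ ⊗ₖ gramMatrix f₂)) : ∃ c, c ≠ 0 ∧ ∀ u w u' w',
      f (lq e P fun a => u a.1 * w a.2) (lq e P fun a => u' a.1 * w' a.2) = c * f₁ u u' * (1 * f₂ w' w) :=
  h.elim fun c h => ⟨c * ε₂, mul_ne_zero h.1 (by rcases h₂.eps with a | a <;> simp [a]), fun u w u' w' => by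
    rw [← pf_eq e P (f := f), h.2, formOfGram_kron, ← h₁.eq_gram, ← h₂.eq_gram, h₂.symm w]; simp; ring⟩

variable [Fintype F]

omit [DecidableEq ι] [Fintype ι] in
theorem exists_ne01 (h : Fintype.card F ≠ 2) : ∃ c : F, c ≠ 0 ∧ c ≠ 1 := by
  classical
  by_contra! H
  exact h (Finset.card_eq_two.2 ⟨0, 1, zero_ne_one, Finset.ext fun c => by simpa [or_iff_not_imp_left] using H c⟩)

theorem isMaximalIn_tens_om {Q : (ι → F) → F} (hQ : IsNondegenerateQuadraticForm Q) {m k : ℕ} (h : m < k) (h5 : 5 ≤ k)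
    (hex : ¬ (Fintype.card F = 2 ∧ m = 2)) {e : ι ≃ Fin m × Fin k} {f₁ f₂} (h₁ : IsSymplecticForm f₁) (h₂ : IsSymplecticForm f₂)
    (hT : IsTensorFormStructure _root_.id (QuadraticMap.polar Q) f₁ f₂ e P) (h0 : 0 < m)
    (hp : ∀ (x : Fin m → F) (y : Fin k → F), Q (P.1 *ᵥ ((fun a => x a.1 * y a.2) ∘ e)) = 0) :
    IsMaximalIn (omegaGL Q) (tensorProductSubgroup m k e P ⊓ omegaGL Q) := by
  obtain ⟨a, ha⟩ := even_of_symp h₁
  have hn : 5 ≤ Fintype.card ι := by rw [Fintype.card_congr e]; simp; nlinarith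
  obtain ⟨c, c0, hc⟩ := TF_pure (f := QuadraticMap.polar Q) (e := e) (P := P) (sf_of_symp h₁) (sf_of_symp h₂) hT
  obtain ⟨β, _, b1, b2, b3⟩ := exists_altF h₁ c0
  obtain ⟨γ, _, g1, g2, g3⟩ := exists_altF h₂ one_ne_zero
  obtain ⟨Q, rfl, _⟩ := exists_ofQuad hQ
  simp only [Fintype.card_fin] at ha
  rw [omegaGL_eq_E Q hn]
  exact max_tens (big_quad (isQuad_ofQuad Q) hn) (fun _ => tl_iff) (fun _ => rfl) b1.σ_eq g1.σ_eq (by simp [b2, g2])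
    (fun u w u' w' => by rw [b3, g3]; exact hc ..) (by simp; omega) (by simp; omega) (.inl g1)
    (.inr ⟨isQuad_ofQuad Q, b1, g1, hp⟩) ⟨by simpa, .inl g1⟩ (.inl ⟨b1, by simpa, by
      by_cases h2 : m = 2
      exacts [.inr ⟨by simpa, exists_ne01 fun h => hex ⟨h, h2⟩⟩, .inl (by simp; omega)]⟩)

theorem isMaximalIn_tens_sp {n m k : ℕ} (ho : Odd (Fintype.card F)) (h : 2 * m < k) (h0 : 2 ≤ m) {e : _ ≃ Fin m × Fin k}
    {P : GL (Fin n ⊕ Fin n) F} {f₁ f₂} (h₁ : IsSymplecticForm f₁) (h₂ : IsSymmetricForm f₂)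
    (hT : IsTensorFormStructure _root_.id (sympForm n F) f₁ f₂ e P) :
    IsMaximalIn (spGL n F) (tensorProductSubgroup m k e P ⊓ spGL n F) := by
  have h2 := odd_card.1 ho
  have hn : 3 ≤ n := by have := Fintype.card_congr e; simp at this; nlinarith
  obtain ⟨c, c0, hc⟩ := TF_pure (f := sympForm n F) (e := e) (P := P) (sf_of_symp h₁) (sf_of_symm h₂) hT
  obtain ⟨β, _, b1, b2, b3⟩ := exists_altF h₁ c0
  obtain ⟨γ, _, g1, g3⟩ := exists_symF h2 h₂ one_ne_zero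
  have hb := big_sp (F := F) (m := n) (by omega) (by omega)
  rw [spGL_eq_E] at hb ⊢
  exact max_tens hb (fun _ => tl_iff) (fun _ => rfl) b1.σ_eq g1.σ_eq (by rw [b2, g1.ε_eq, mul_one]; rfl)
    (fun u w u' w' => by rw [b3, g3, H09.spForm_B, ← H09.sympForm_eq]; exact hc ..) (by simpa) (by simp; omega)
    (.inr ⟨g1, h2, by simp; omega⟩) (.inl ⟨H09.isAltF_spForm, rfl, h2⟩) ⟨by simp; omega, .inr (by simpa)⟩
    (.inl ⟨b1, by simp; omega, by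
      by_cases h3 : m = 2
      exacts [.inr ⟨by simpa, exists_ne01 fun h => by simp [h] at ho; contradiction⟩, .inl (by simp; omega)]⟩)

theorem isMaximalIn_tens_sp3 {n m : ℕ} (ho : Odd (Fintype.card F)) (h5 : 5 ≤ Fintype.card F) (h0 : 4 ≤ m) {e : _ ≃ Fin m × Fin 3}
    {P : GL (Fin n ⊕ Fin n) F} {f₁ f₂} (h₁ : IsSymplecticForm f₁) (h₂ : IsSymmetricForm f₂)
    (hT : IsTensorFormStructure _root_.id (sympForm n F) f₁ f₂ e P) :
    IsMaximalIn (spGL n F) (tensorProductSubgroup m 3 e P ⊓ spGL n F) := by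
  have h2 := odd_card.1 ho
  have hn : 3 ≤ n := by have := Fintype.card_congr e; simp at this; omega
  obtain ⟨c, c0, hc⟩ := TF_pure (sf_of_symm h₂) (sf_of_symp h₁) (TF.swap (f := sympForm n F) (e := e) (P := P) hT)
  obtain ⟨β, _, b1, b3⟩ := exists_symF h2 h₂ c0
  obtain ⟨γ, _, g1, g2, g3⟩ := exists_altF h₁ one_ne_zero
  have hb := big_sp (F := F) (m := n) (by omega) (by omega)
  rw [spGL_eq_E] at hb ⊢
  refine max_tens (e := e.trans (.prodComm _ _)) (P := P) hb (fun _ => ⟨fun h g hg => tl_iff.1 (TL.swap (e := e.trans (.prodComm _ _)) h) hg,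
    fun h => (tl_iff.2 h).swap⟩) (fun _ => rfl) b1.σ_eq g1.σ_eq
    (by rw [g2, b1.ε_eq, one_mul]; rfl) (fun u w u' w' => by rw [b3, g3, H09.spForm_B, ← H09.sympForm_eq]; exact hc ..)
    (by simp) (by simpa) (.inl g1) (.inl ⟨H09.isAltF_spForm, rfl, h2⟩) ⟨by simp; omega, .inl g1⟩ (.inr ⟨b1, h2, by simp, g2, ?_⟩)
  classical
  by_contra! H
  have := Finset.card_le_card (show Finset.univ ⊆ ({0, 1, -1} : Finset F) from fun c _ => by
    simpa [or_iff_not_imp_left (a := c = 0), mul_self_eq_one_iff] using H c)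
  have := Finset.card_le_three (a := (0 : F)) (b := 1) (c := -1)
  simp only [Finset.card_univ] at *; omega

end H10.Mx
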