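import Mathlib
import Cfsg.Agent.H10.FrD
import Cfsg.Agent.H10.MxX
import Cfsg.Agent.H10.Subf4

/-!
# Stabilisers of non-degenerate subspaces of dimension five; the lists for `Ω₁₀`, `Ω₁₁`, `Ω₁₂`
* `Std.E_le_of_stab_nondeg5`, `OmL.ts`, `OmL.nd`, `OmL.vec`, `OmL.pair`, `OmL.noniso`, `OmL.subf`
-/

namespace H10

open Module

namespace Form.Std
variable {F V : Type*} [Field F] [AddCommGroup V] [Module F V] {φ : Form F V} [φ.Nondeg] [FiniteDimensional F V]
  (h : φ.Std)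
include h

theorem E_le_of_fix_sing {U : Submodule F V} (hU : φ.NondegOn U) (h6 : 5 ≤ finrank F U)
    (hwc : ∀ A, φ.WittClosed A (φ.perp U) → ∀ x ∈ φ.perp U, x ∈ A → x ≠ 0 → φ.perp U ≤ A)
    {M : Subgroup φ.Isom} (hM : φ.E ⊓ φ.stab U ≤ M) {t : φ.Isom} (ht : t ∈ M) {p z : V} (hp : p ∈ U) (hp0 : p ≠ 0)
    (hQ : φ.Q p = 0) (h3 : t.1 p = p) (hz : z ∈ U) (hpz : φ.B p z = 0) (hz' : t.1 z ∉ U) : φ.E ≤ M := by
  have hA : ∀ x ∈ U, ∀ w ∈ U, ∀ s, φ.Q x = 0 → φ.B x w = 0 → φ.T s = φ.Q w → φ.siegel x w s ∈ M :=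
    fun x hx w hw s h3 h4 h5 => hM ⟨φ.siegel_mem_E h3 h4 h5, siegel_mem_stab h3 h4 h5 hx (Or.inl hw)⟩
  have hX : ∀ t, φ.T t = 0 → φ.siegel p 0 t ∈ M := fun t ht =>
    hA p hp 0 (zero_mem _) t hQ (by simp) (by simpa using ht)
  have h4 : ∀ y ∈ U, φ.B p y = 0 → y ∈ sgSub M hQ hX := fun y hy h5 =>
    mem_sgSub_of h5 fun c s hs => hA p hp _ (U.smul_mem c hy) s hQ (by simp [h5]) hs
  have h5 : ∀ (a : U) (b : φ.perp U), φ.B p (a + b) = 0 → (a : V) ∈ sgSub M hQ hX := fun a b h6 =>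
    h4 a a.2 (by rwa [map_add, b.2 p hp, add_zero] at h6)
  have h7 := map_mem_sgSub ht h3 (h4 z hz hpz)
  obtain ⟨a, b, hab⟩ := exists_add_of_isCompl hU.isCompl_perp (t.1 z)
  rw [hab] at h7 hz'
  obtain ⟨f, hf, hyp⟩ := exists_hyp_mem hU hp hp0 hQ
  have hP : Submodule.span F {p, f} ≤ U := by
    rw [Submodule.span_le]; rintro y (rfl | rfl) <;> assumption
  have hW := hU.inf_perp hyp.nondegOn hP
  have hW' := finrank_le_inf_perp (φ := φ) U (Submodule.span F {p, f})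
  rw [hyp.finrank_span] at hW'
  have h8 : φ.perp U ≤ sgSub M hQ hX := by
    refine hwc _ (fun x hx hxA hx0 y hy hy0 hxy => ?_) b b.2
      ((add_mem_cancel_left (h5 a b h7.1)).1 h7) fun h0 => hz' (by simp [h0])
    obtain ⟨k, hk, hk'⟩ := hU.perp.exists_fix_map hx hy hx0 hy0 hxy.symm
    rw [perp_perp] at hk
    obtain ⟨r, hr, hr'⟩ := h.adj _ hW (by omega) k
    have h9 := φ.fix_anti (φ.perp_anti inf_le_left) hr
    have := map_mem_sgSub (hM ⟨hr', mul_mem (φ.fix_le_stab U hk)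
      (φ.stab_perp U ▸ φ.fix_le_stab _ h9)⟩) (by
        rw [Isom.mul_apply, hr p fun y hy => φ.B_symm_zero (φ.mem_perp_pair.1 hy.2).1, hk p hp]) hxA
    rwa [Isom.mul_apply, h9 x hx, hk'] at this
  have h9 : φ.Full M p := full_of_le_sgSub (hp := hQ) (hX := hX) fun y hy => by
    obtain ⟨a, b, rfl⟩ := exists_add_of_isCompl hU.isCompl_perp y
    exact add_mem (h5 a b (φ.mem_perp_singleton.1 hy)) (h8 b.2)
  have := hU.nondeg
  obtain ⟨w, s, h10, h11, h12, h13⟩ := Conn.exists_ne_zero (φ := φ.restrict U) (Or.inr (by omega))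
    (e := ⟨p, hp⟩) (f := ⟨f, hf⟩) ⟨hyp.Qe, hyp.Qf, hyp.Bef⟩
  exact h9.E_le_of_siegel hyp h10 h11 h12 h13 (hA f hf w w.2 s hyp.Qf h11 h12)


theorem E_le_of_stab_nondeg5 {U : Submodule F V} (hU : φ.NondegOn U) (h6 : 5 ≤ finrank F U)
    (h6' : 5 ≤ finrank F (φ.perp U))
    (hwc : ∀ A, φ.WittClosed A (φ.perp U) → ∀ x ∈ φ.perp U, x ∈ A → x ≠ 0 → φ.perp U ≤ A)
    (hwc' : ∀ A, φ.WittClosed A U → ∀ x ∈ U, x ∈ A → x ≠ 0 → U ≤ A)
    {M : Subgroup φ.Isom} (hM : φ.E ⊓ φ.stab U ≤ M) {g : φ.Isom} (hg : g ∈ M) (h1 : g ∉ φ.stab U)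
    (h2 : ¬ U.map (g.1 : V →ₗ[F] V) ≤ φ.perp U) : φ.E ≤ M := by
  have hA : ∀ x ∈ U, ∀ w ∈ U, ∀ s, φ.Q x = 0 → φ.B x w = 0 → φ.T s = φ.Q w → φ.siegel x w s ∈ M :=
    fun x hx w hw s h3 h4 h5 => hM ⟨φ.siegel_mem_E h3 h4 h5, siegel_mem_stab h3 h4 h5 hx (Or.inl hw)⟩
  have hd := Submodule.disjoint_def.1 (φ.nondegOn_iff_disjoint.1 hU)
  obtain ⟨x, w, s, hx, hw, hs, ht, ht'⟩ : ∃ x w s, φ.Q x = 0 ∧ φ.B x w = 0 ∧ φ.T s = φ.Q w ∧
      φ.siegel x w s ∈ M ∧ φ.siegel x w s ∉ φ.stab U := by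
    by_contra h0
    push Not at h0
    have key : ∀ x ∈ U, φ.Q x = 0 → g.1 x ∈ U ∨ g.1 x ∈ φ.perp U := fun x hx hQ => by
      by_contra h3
      push Not at h3
      have h4 : ∀ X : Submodule F V, g.1 x ∉ φ.perp X → φ.stab U ≤ φ.stab X →
          (U ⊓ φ.perp (F ∙ x)).map (g.1 : V →ₗ[F] V) ≤ X ⊔ F ∙ g.1 x := by
        rintro X hX hX' _ ⟨w, hw, rfl⟩
        obtain ⟨s, hs, -⟩ := φ.half w
        have hw' := φ.mem_perp_singleton.1 hw.2
        rw [mem_perp'] at hX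
        push Not at hX
        obtain ⟨z, hz, hz'⟩ := hX
        have h5 := (hX' (h0 _ _ s (by simpa using hQ) (by simpa using hw') (by simpa using hs)
          (siegel_conj_mem hg hQ hw' hs (hA x hx w hw.1 s hQ hw' hs))) z).1 hz
        rw [φ.siegel_apply (by simpa using hQ) (by simpa using hw') (by simpa using hs)] at h5
        rw [← Submodule.smul_mem_iff _ (mul_ne_zero φ.ε_ne_zero hz')]
        convert add_mem (Submodule.mem_sup_left (X.sub_mem hz h5)) (Submodule.mem_sup_right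
          (Submodule.smul_mem _ (φ.B (g.1 w) z - φ.ε * s * φ.B (g.1 x) z)
            (Submodule.mem_span_singleton_self (g.1 x)))) using 1
        simp only [LinearEquiv.coe_coe]; module
      have h5 := Submodule.finrank_mono (le_inf (h4 U h3.2 le_rfl)
        (h4 (φ.perp U) (by simpa using h3.1) (φ.stab_le_stab_perp U)))
      have h6 := Submodule.finrank_sup_add_finrank_inf_eq (U ⊔ F ∙ g.1 x) (φ.perp U ⊔ F ∙ g.1 x)
      rw [finrank_sup_singleton h3.1, finrank_sup_singleton h3.2, eq_top_iff.2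
        (hU.isCompl_perp.sup_eq_top.ge.trans (sup_le_sup le_sup_left le_sup_left)), finrank_top] at h6
      have h7 := φ.finrank_perp U
      have h8 := finrank_le_inf_perp (φ := φ) U (F ∙ x)
      have h9 := finrank_span_singleton_le (F := F) x
      rw [LinearEquiv.finrank_map_eq] at h5
      omega
    by_cases h3 : ∀ x ∈ U, φ.Q x = 0 → g.1 x ∈ U
    · exact h1 (φ.mem_stab_of_le (h.le_of_sing (A := U.comap (g.1 : V →ₗ[F] V)) hU (by omega)
        fun w hw _ hQ => h3 w hw hQ))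
    push Not at h3
    obtain ⟨x, hx, hQ, hx'⟩ := h3
    have h4 := (key x hx hQ).resolve_left hx'
    refine h2 (Submodule.map_le_iff_le_comap.2 (h.le_of_sing hU (by omega) fun y hy _ hQy => ?_))
    refine (key y hy hQy).elim (fun h5 => ?_) id
    have h6 : φ.B y x = 0 := by rw [← Isom.B_map g]; exact h4 _ h5
    rcases key _ (add_mem hy hx) (by rw [φ.Q_add_of_orth h6, hQ, hQy, add_zero]) with h7 | h7
    · rw [map_add] at h7; exact absurd ((add_mem_cancel_left h5).1 h7) hx'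
    · rw [map_add] at h7; exact (add_mem_cancel_right h4).1 h7
  by_contra hE
  have A : ∀ U : Submodule F V, φ.NondegOn U → 5 ≤ finrank F U → (∀ A, φ.WittClosed A (φ.perp U) → ∀ x ∈ φ.perp U,
      x ∈ A → x ≠ 0 → φ.perp U ≤ A) → φ.E ⊓ φ.stab U ≤ M → φ.siegel x w s ∉ φ.stab U → ∀ y,
      ¬ ∀ u ∈ U, φ.B y u = 0 → φ.B x u = 0 ∧ φ.B w u = 0 := fun U a b c d e y H => by
    obtain ⟨z, hz, hz'⟩ : ∃ z ∈ U, (φ.siegel x w s).1 z ∉ U := by
      by_contra h0; push Not at h0; exact e (φ.mem_stab_of_le h0)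
    obtain ⟨p, hp, hp0, hQ, h3⟩ := h.exists_sing_orth U ⊥ [y, z] (by simpa using b)
    simp only [List.mem_cons, List.not_mem_nil, or_false, forall_eq_or_imp, forall_eq] at h3
    exact hE (h.E_le_of_fix_sing a b c d ht hp (by simpa using hp0) hQ
      (siegel_apply_of_orth hx hw hs (H p hp h3.1).1 (H p hp h3.1).2) hz (φ.B_symm_zero h3.2) hz')
  have A1 := A U hU h6 hwc hM ht'
  have A2 := A _ hU.perp h6' (by rwa [perp_perp]) (by rwa [stab_perp]) (by rwa [stab_perp])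
  obtain ⟨p, hp, hp0, hQ, h3⟩ := h.exists_sing_orth U ⊥ [x, w] (by simpa using h6)
  simp only [List.mem_cons, List.not_mem_nil, or_false, forall_eq_or_imp, forall_eq] at h3
  refine A1 p fun z hz hpz => ?_
  have h4 : ∀ u ∈ φ.perp U, φ.B ((φ.siegel x w s).1 z) u = 0 := fun u hu => hu _ (by_contra fun e => hE
    (h.E_le_of_fix_sing hU h6 hwc hM ht hp (by simpa using hp0) hQ (siegel_apply_of_orth hx hw hs h3.1 h3.2) hz hpz e))
  simp only [φ.siegel_apply hx hw hs, map_sub, map_add, map_smulₛₗ, LinearMap.sub_apply, LinearMap.add_apply,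
    LinearMap.smul_apply, smul_eq_mul] at h4
  have h5 : φ.B x z = 0 := by_contra fun e => A2 x fun u hu a => ⟨a, by
    simpa [hu z hz, a, e, φ.ε_ne_zero] using h4 u hu⟩
  exact ⟨h5, by_contra fun e => A2 w fun u hu a => ⟨by simpa [hu z hz, a, e, h5] using h4 u hu, a⟩⟩

end Form.Std

namespace OmL
open Matrix Cfsg Cfsg.Geo
variable {ι : Type} [Fintype ι] [DecidableEq ι] {F : Type*} [Field F] [Fintype F] {Q : (ι → F) → F}
  (hQ : IsNondegenerateQuadraticForm Q) (hn : 10 ≤ Fintype.card ι)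
include hQ hn

theorem ts {W : Submodule F (ι → F)} (h0 : W ≠ ⊥) (hW : IsTotallySingularQuad Q W)
    (h : 2 * (finrank F W + 1) ≠ Fintype.card ι ∨ ¬ IsPlusTypeOn Q ⊤) :
    IsMaximalIn (omegaGL Q) (subspaceStabilizer W ⊓ omegaGL Q) := by
  obtain ⟨Q, rfl, _⟩ := exists_ofQuad hQ
  have q := Form.isQuad_ofQuad Q
  have h1 := q.ts hW
  rw [omegaGL_eq_E _ (by omega)]
  refine isMaximalIn_TS (q.std (by simp; omega)) (by omega) h0 h1 fun x hx hx' hQ => Or.inr ?_
  have h3 := h1.sup (Form.TS.singleton hQ) (by simpa using hx)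
  have h2 := h3.finrank_le
  have h4 := Form.finrank_sup_singleton hx'
  by_contra h5
  simp only [finrank_fintype_fun_eq_card] at h2
  exact h.elim (by omega) fun a => a ⟨_, le_top, h3.Q, by simp; omega⟩

theorem nd {W : Submodule F (ι → F)} (h0 : W ≠ ⊥) (h1 : W ≠ ⊤) (hW : IsNondegenerateOn (QuadraticMap.polar Q) W)
    (h2 : finrank F W = 2 → IsPlusTypeOn Q W → 4 ≤ Fintype.card F) (h3 : finrank F W + 2 ≠ Fintype.card ι)
    (h4 : 2 * finrank F W ≠ Fintype.card ι) : IsMaximalIn (omegaGL Q) (subspaceStabilizer W ⊓ omegaGL Q) := by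
  obtain ⟨Q, rfl, _⟩ := exists_ofQuad hQ
  have h := Form.isQuad_ofQuad Q
  replace hW := nondegOn_quad hW
  have h5 := (Form.ofQuad Q).finrank_perp W
  simp only [finrank_fintype_fun_eq_card] at h5
  rw [omegaGL_eq_E _ (by omega)]
  by_cases h6 : Fintype.card ι ≤ 2 * finrank F W
  · exact isMaximalIn_nondeg (h.std (by simp; omega)) hW (Or.inl rfl) (by omega) h1
      (fun A hA x hx hxA hx0 => h.le_of_wittClosed hA hW.perp (by omega) hx hxA hx0) (not_map_le_perp (by omega))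
  · exact isMaximalIn_nondeg (h.std (by simp; omega)) hW.perp (Or.inr rfl) (by omega)
      (fun h => h0 (by rw [← (Form.ofQuad Q).perp_perp W, h, Form.perp_top]))
      (fun A hA x hx hxA hx0 => h.le_of_wittClosed hA hW.perp.perp (by
        rw [Form.perp_perp, Nat.card_eq_fintype_card]
        exact fun ⟨a, b, c⟩ => by have := h2 a ((isPlusTypeOn_iff (k := 1) a).2 b); omega) hx hxA hx0)
      (not_map_le_perp (by omega))

theorem vec (hchar : ¬ Odd (Fintype.card F)) (v : ι → F) (hv : Q v ≠ 0) :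
    IsMaximalIn (omegaGL Q) (subspaceStabilizer (Submodule.span F {v}) ⊓ omegaGL Q) := by
  obtain ⟨Q, rfl, _⟩ := exists_ofQuad hQ
  have h0 := Form.isQuad_ofQuad Q
  have h1 := h0.std (by simp; omega)
  have h2 : (2 : F) = 0 := by
    by_contra h; exact hchar (by simpa using odd_card_iff.2 h)
  rw [omegaGL_eq_E _ (by omega)]
  refine isMaximalIn_map _ ?_ fun M hM g hg _ hg' => ?_
  · rw [comap_subspaceStabilizer]
    refine h1.not_E_le_stab (by simp; omega) (by rintro h; simp at h; simp [h] at hv) fun h => ?_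
    have := finrank_span_singleton_le (F := F) v
    rw [h] at this; simp at this; omega
  · rw [comap_subspaceStabilizer] at hM
    exact h1.E_le_of_stab_vec hv (by rw [h0.B_self, h2, zero_mul]) (by simp; omega) hM hg
      (mt toGL_mem_subspaceStabilizer.2 hg')

theorem pair {k : ℕ} (hke : Even k) (D : Fin 2 → Submodule F (ι → F)) (hD : IsMDecomposition k D)
    (hts : ∀ i, IsTotallySingularQuad Q (D i)) : IsMaximalIn (omegaGL Q) (decompositionStabilizer D ⊓ omegaGL Q) := by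
  obtain ⟨Q, rfl, _⟩ := exists_ofQuad hQ
  have h0 := Form.isQuad_ofQuad Q
  have hc := card_eq_of_dec hD
  have h1 : (Form.ofQuad Q).TSPair (D 0) (D 1) := ⟨h0.ts (hts 0), h0.ts (hts 1),
    isCompl_of_fin_two hD.indep hD.iSup_eq_top⟩
  rw [omegaGL_eq_E _ (by omega)]
  exact isMaximalIn_pair h1 (by rw [hD.finrank_eq]; omega) (fun t ht => ⟨0, by simpa using ht⟩)
    (h1.exists_swap_E_quad h0 (by simp; omega) (by rwa [hD.finrank_eq]))

theorem noniso {k : ℕ} (D : Fin 2 → Submodule F (ι → F))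
    (hD : IsNondegenerateMDecomposition (QuadraticMap.polar Q) k D) (hni : ¬ AreIsometricFor Q (D 0) (D 1)) :
    IsMaximalIn (omegaGL Q) (decompositionStabilizer D ⊓ omegaGL Q) := by
  obtain ⟨Q, rfl, _⟩ := exists_ofQuad hQ
  have h0 := Form.isQuad_ofQuad Q
  have hc := card_eq_of_dec hD.decomp
  have h1 := nondegOn_quad (hD.nondegenerate 0)
  have hk0 := hD.decomp.finrank_eq 0
  have hk1 := hD.decomp.finrank_eq 1
  have h2 : D 1 = (Form.ofQuad Q).perp (D 0) := by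
    have := (Form.ofQuad Q).finrank_perp (D 0)
    refine Submodule.eq_of_le_of_finrank_eq (fun y hy => ((Form.ofQuad Q).mem_perp).2
      fun x hx => hD.orthogonal 0 1 (by decide) x hx y hy) ?_
    simp at this
    omega
  have h3 : ∀ g : (Form.ofQuad Q).Isom, ¬ (D 0).map (g.1 : (ι → F) →ₗ[F] _) ≤
      (Form.ofQuad Q).perp (D 0) := fun g hg => by
    rw [← h2] at hg
    have hg' := Submodule.eq_of_le_of_finrank_eq hg (by rw [LinearEquiv.finrank_map_eq, hk0, hk1])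
    exact hni ⟨g.1.ofSubmodules _ _ hg', fun w => Form.Isom.Q_map g w⟩
  have h4 : (decompositionStabilizer D).comap (Form.ofQuad Q).toGL = (Form.ofQuad Q).stab (D 0) := by
    ext g
    rw [Subgroup.mem_comap, toGL_mem_decomp_two]
    refine ⟨fun h => h.elim (fun h => (Form.mem_stab_iff_map _).2 h.1)
      fun h => absurd (h.1.trans h2).le (h3 g), fun h => Or.inl ⟨(Form.mem_stab_iff_map _).1 h, ?_⟩⟩
    rw [h2]
    exact (Form.mem_stab_iff_map _).1 (Form.stab_le_stab_perp _ _ h)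
  have s := h0.std (by simp; omega)
  rw [omegaGL_eq_E _ (by omega)]
  refine isMaximalIn_map _ ?_ fun M hM g hg _ hg' => ?_
  · rw [h4]
    refine s.not_E_le_stab (by simp; omega) (fun h => ?_) fun h => ?_ <;> rw [h] at hk0 <;> simp at hk0 <;> omega
  · rw [h4] at hM
    exact s.E_le_of_stab_nondeg5 h1 (by omega) (by rw [← h2]; omega)
      (fun A hA x hx hxA hx0 => h0.le_of_wittClosed hA h1.perp (by rw [← h2]; omega) hx hxA hx0)
      (fun A hA x hx hxA hx0 => h0.le_of_wittClosed hA h1 (by omega) hx hxA hx0) hM hg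
      (fun e => hg' (h4.ge e)) (h3 g)

theorem subf (F₀ : Subfield F) (r : ℕ) (P : GL ι F) (ζ : F) (hr : r.Prime) (hcard : Fintype.card F = Nat.card F₀ ^ r)
    (hζ : ζ ≠ 0) (hP : IsQuadFormRationalStructure (fun v => ζ * Q v) F₀ P) :
    IsMaximalIn (omegaGL Q) (subfieldSubgroup F₀ P ⊓ omegaGL Q) := by
  obtain ⟨Q, rfl, _⟩ := exists_ofQuad hQ
  exact isMaximalIn_subfield_quad9 Q (by omega) hr hcard hζ hP

end OmL
end H10
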