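import Mathlib

/-!
# Orbit sums over coset spaces and unipotent filtrations
* `Ff.fixed` : an `S`-fixed element is `G`-fixed when two subgroups of `S` act freely on the other cosets
* `Ff.Fl` : filtrations on which a set of group elements acts unipotently; `Fl.hom`, `Fl.comap`, `Fl.sum_mem`
-/

set_option autoImplicit false

namespace H10.Ff

variable {G X Z : Type*} [Group G] [AddCommGroup X] [AddCommGroup Z]

theorem sum_sub_mem {A : Type*} [Group A] [Fintype A] (ρ : G →* AddMonoid.End X) (S : Subgroup G) [Fintype (G ⧸ S)]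
    (θ : A →* G) (h1 : ∀ a, θ a ∈ S) (h2 : ∀ a ≠ 1, ∀ g, g⁻¹ * θ a * g ∈ S → g ∈ S) {X' : AddSubgroup X}
    (h3 : ∀ Y, ∑ a, ρ (θ a) Y ∈ X') {N : X} (f : G ⧸ S → X) (f1 : f (1 : G) = N)
    (e : ∀ (g : G) ω, f (g • ω) = ρ g (f ω)) : ∑ ω, f ω - N ∈ X' := by
  classical
  have e1 : ∀ a, θ a • ((1 : G) : G ⧸ S) = (1 : G) := fun a => QuotientGroup.eq.2 (by simpa using h1 a)
  rw [← Finset.add_sum_erase _ _ (Finset.mem_univ ((1 : G) : G ⧸ S)), f1, add_sub_cancel_left,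
    ← QuotientAddGroup.eq_zero_iff, ← QuotientAddGroup.mk'_apply, map_sum, Finset.sum_cancels_of_partition_cancels
    ⟨fun x y => ∃ a, θ a • y = x, fun x => ⟨1, by simp⟩, fun ⟨a, h⟩ => ⟨a⁻¹, by simp [← h]⟩,
      fun ⟨a, h⟩ ⟨b, h'⟩ => ⟨a * b, by simp [mul_smul, h, h']⟩⟩ fun x hx => ?_]
  have hx := (Finset.mem_erase.1 hx).1
  rw [← map_sum, QuotientAddGroup.mk'_apply, QuotientAddGroup.eq_zero_iff]
  convert h3 (f x) using 1
  refine (Finset.sum_bij (fun a _ => θ a • x) (fun a _ => by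
    simp only [Finset.mem_filter, Finset.mem_erase, Finset.mem_univ, and_true]
    exact ⟨fun e => hx (by rw [← inv_smul_smul (θ a) x, e, ← map_inv, e1]), a, rfl⟩) (fun a _ b _ h => by_contra fun e' => ?_)
    (fun y hy => (Finset.mem_filter.1 hy).2.imp fun a h => ⟨Finset.mem_univ _, h⟩) fun a _ => (e _ _).symm).symm
  induction x using QuotientGroup.induction_on with | H k =>
  exact hx (QuotientGroup.eq.2 (by simpa using h2 (a⁻¹ * b) (by rwa [ne_eq, inv_mul_eq_one]) k (by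
    simpa [mul_assoc] using QuotientGroup.eq.1 h)))

theorem fixed [Finite G] {A : Type*} [Group A] [Fintype A] (ρ : G →* AddMonoid.End X) (S : Subgroup G)
    (θ θ' : A →* G) (h1 : ∀ a, θ a ∈ S) (h1' : ∀ a, θ' a ∈ S) (h2 : ∀ a ≠ 1, ∀ g, g⁻¹ * θ a * g ∈ S → g ∈ S)
    (h2' : ∀ a ≠ 1, ∀ g, g⁻¹ * θ' a * g ∈ S → g ∈ S) {X₁ X₂ : AddSubgroup X} (hd : ∀ x ∈ X₁, x ∈ X₂ → x = 0)
    (h3 : ∀ Y, ∑ a, ρ (θ a) Y ∈ X₁) (h3' : ∀ Y, ∑ a, ρ (θ' a) Y ∈ X₂) {N : X} (hN : ∀ s ∈ S, ρ s N = N) (g : G) :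
    ρ g N = N := by
  have := Fintype.ofFinite (G ⧸ S)
  let f : G ⧸ S → X := Quotient.lift (fun g => ρ g N) fun a b h => by
    rw [← mul_inv_cancel_left a b, map_mul]; exact congrArg (ρ a) (hN _ (QuotientGroup.leftRel_apply.1 h)).symm
  have e : ∀ (g : G) ω, f (g • ω) = ρ g (f ω) := fun g ω => by
    induction ω using QuotientGroup.induction_on with | H k => exact congrArg (· N) (map_mul ρ g k)
  have f1 : f (1 : G) = N := by simp [f]
  rw [← sub_eq_zero.1 (hd _ (sum_sub_mem ρ S θ h1 h2 h3 f f1 e) (sum_sub_mem ρ S θ' h1' h2' h3' f f1 e)), map_sum]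
  exact Fintype.sum_equiv (MulAction.toPerm g) _ _ fun ω => (e g ω).symm

/-- a filtration on which the elements of `T` act unipotently -/
structure Fl (ρ : G →* AddMonoid.End X) (T : Subgroup G) (Φ : ℕ → AddSubgroup X) : Prop where
  top : ∀ x, x ∈ Φ 0
  anti : Antitone Φ
  step : ∀ t ∈ T, ∀ i, ∀ x ∈ Φ i, ρ t x - x ∈ Φ (i + 1)

/-- the conjugation action on additive endomorphisms -/
def cj (ρ : G →* AddMonoid.End X) : G →* AddMonoid.End (X →+ X) where
  toFun g := AddMonoidHom.mk' (fun Y => AddMonoidHom.mk' (fun x => ρ g (Y (ρ g⁻¹ x))) fun _ _ => by simp)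
    fun _ _ => AddMonoidHom.ext fun _ => by simp
  map_one' := AddMonoidHom.ext fun _ => AddMonoidHom.ext fun _ => by simp; rfl
  map_mul' _ _ := AddMonoidHom.ext fun _ => AddMonoidHom.ext fun _ => by simp; rfl

theorem cj_apply (ρ : G →* AddMonoid.End X) (g : G) (Y : X →+ X) (x : X) : cj ρ g Y x = ρ g (Y (ρ g⁻¹ x)) := rfl

/-- the induced filtration on endomorphisms -/
def hm (Φ : ℕ → AddSubgroup X) (d k : ℕ) : AddSubgroup (X →+ X) where
  carrier := {Y | ∀ i, ∀ x ∈ Φ i, Y x ∈ Φ (i + k - d)}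
  zero_mem' _ _ _ := zero_mem _
  add_mem' a b i x hx := add_mem (a i x hx) (b i x hx)
  neg_mem' a i x hx := neg_mem (a i x hx)

variable {ρ : G →* AddMonoid.End X} {T : Subgroup G} {Φ : ℕ → AddSubgroup X}

theorem Fl.map_mem (h : Fl ρ T Φ) {t : G} (ht : t ∈ T) {i : ℕ} {x : X} (hx : x ∈ Φ i) : ρ t x ∈ Φ i := by
  simpa using add_mem (h.anti i.le_succ (h.step t ht i x hx)) hx

theorem Fl.hom (h : Fl ρ T Φ) {d : ℕ} (hd : ∀ x ∈ Φ (d + 1), x = 0) : Fl (cj ρ) T (hm Φ d) := by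
  refine ⟨fun Y i x hx => ?_, fun a b e Y hY i x hx => h.anti (by omega) (hY i x hx), fun t ht k Y hY i x hx => ?_⟩
  · by_cases e : i ≤ d
    · rw [show i + 0 - d = 0 by omega]; exact h.top _
    · rw [hd x (h.anti (by omega) hx), map_zero]; exact zero_mem _
  have := add_mem (h.anti (show i + (k + 1) - d ≤ i + k - d + 1 by omega) (h.step t ht _ _ (hY i _ (h.map_mem (inv_mem ht) hx))))
    (h.anti (show i + (k + 1) - d ≤ i + 1 + k - d by omega) (hY _ _ (h.step _ (inv_mem ht) i x hx)))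
  rwa [map_sub, sub_add_sub_cancel] at this

theorem hm_top (h : ∀ x, x ∈ Φ 0) {d : ℕ} {Y : X →+ X} (hY : Y ∈ hm Φ d (2 * d)) (x : X) : Y x ∈ Φ d := by
  simpa [two_mul] using hY 0 x (h x)

theorem hm_bot (h : ∀ x, x ∈ Φ 0) {d : ℕ} (hd : ∀ x ∈ Φ (d + 1), x = 0) : ∀ Y ∈ hm Φ d (2 * d + 1), Y = 0 :=
  fun Y hY => AddMonoidHom.ext fun x => hd _ (by simpa [two_mul, add_assoc] using hY 0 x (h x))

theorem Fl.comap (h : Fl ρ T Φ) {ρ' : G →* AddMonoid.End Z} (ι : Z →+ X) (e : ∀ g z, ι (ρ' g z) = ρ g (ι z)) :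
    Fl ρ' T fun i => (Φ i).comap ι :=
  ⟨fun _ => h.top _, fun _ _ e _ hx => h.anti e hx, fun t ht i x hx => by
    rw [AddSubgroup.mem_comap, map_sub, e]; exact h.step t ht i _ hx⟩

theorem geom_eq {R : Type*} [Ring R] {p : ℕ} (hp : p.Prime) (h : (p : R) = 0) (x : R) :
    ∑ i ∈ Finset.range p, x ^ i = (x - 1) ^ (p - 1) := by
  have := Fact.mk hp
  have e := Polynomial.cyclotomic_mul_prime_eq_pow_of_not_dvd (ZMod p) (p := p) (n := 1) (by simpa using hp.ne_one)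
  rw [one_mul, Polynomial.cyclotomic_prime, Polynomial.cyclotomic_one] at e
  obtain ⟨g, hg⟩ : Polynomial.C (p : ℤ) ∣ (∑ i ∈ Finset.range p, Polynomial.X ^ i) - (Polynomial.X - 1) ^ (p - 1) :=
    (Polynomial.C_dvd_iff_dvd_coeff _ _).2 fun i => (ZMod.intCast_zmod_eq_zero_iff_dvd _ p).1 (by
      rw [← eq_intCast (Int.castRingHom (ZMod p)), ← Polynomial.coeff_map]
      simp [Polynomial.map_sum, e])
  simpa [h, sub_eq_zero] using congrArg (Polynomial.aeval x) hg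

theorem Fl.pow_mem (h : Fl ρ T Φ) {t : G} (ht : t ∈ T) (n : ℕ) {i : ℕ} {x : X} (hx : x ∈ Φ i) :
    ((ρ t - 1) ^ n) x ∈ Φ (i + n) := by
  induction n with
  | zero => simpa using hx
  | succ n ih => rw [pow_succ']; exact h.step t ht _ _ ih

theorem Fl.sum_pi (h : Fl ρ T Φ) {p : ℕ} [hp : Fact p.Prime] (h0 : ∀ x : X, p • x = 0) (n : ℕ) :
    ∀ θ : Multiplicative (Fin n → ZMod p) →* G, (∀ a, θ a ∈ T) → ∀ x, ∑ a, ρ (θ a) x ∈ Φ (n * (p - 1)) := by
  induction n with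
  | zero => intro θ _ x; simpa using h.top _
  | succ n ih =>
    intro θ hθ x
    let c : (Fin n → ZMod p) →+ Fin (n + 1) → ZMod p := AddMonoidHom.mk' (fun a => Fin.cons 0 a) fun a b => by
      ext i; refine Fin.cases ?_ (fun i => ?_) i <;> simp
    have := h.pow_mem (hθ (.ofAdd (Pi.single 0 1))) (p - 1) (ih (θ.comp c.toMultiplicative) (fun _ => hθ _) x)
    rw [← geom_eq (R := AddMonoid.End X) hp.out (AddMonoidHom.ext h0), ← Nat.succ_mul] at this
    convert this using 1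
    rw [← (Multiplicative.ofAdd.sum_comp _), ← (Fin.consEquiv fun _ => ZMod p).sum_comp, Fintype.sum_prod_type,
      show ∀ (f : ℕ → AddMonoid.End X) y, (∑ i ∈ Finset.range p, f i) y = ∑ i ∈ Finset.range p, f i y from fun f y =>
        AddMonoidHom.finset_sum_apply f _ y, Finset.sum_range, ← (ZMod.finEquiv p).toEquiv.sum_comp]
    refine Finset.sum_congr rfl fun j _ => ?_
    rw [map_sum, ← (Multiplicative.ofAdd.sum_comp _)]
    refine Finset.sum_congr rfl fun a _ => ?_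
    rw [← map_pow, ← map_pow]
    refine Eq.trans ?_ (congrArg (· x) (map_mul ρ _ _))
    rw [MonoidHom.comp_apply, ← map_mul]
    congr 3
    ext i
    refine Fin.cases ?_ (fun i => ?_) i <;> simp [c, Fin.consEquiv]
    obtain ⟨p, rfl⟩ := Nat.exists_eq_succ_of_ne_zero hp.out.ne_zero
    exact (ZMod.natCast_zmod_val (n := p + 1) j).symm

theorem Fl.sum_mem (h : Fl ρ T Φ) {p : ℕ} (hp : p.Prime) (h0 : ∀ x : X, p • x = 0) {E : Type*} [AddCommGroup E] [Fintype E]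
    (hE : ∀ x : E, p • x = 0) {D : ℕ} (hD : ∀ n, Fintype.card E = p ^ n → D ≤ n * (p - 1)) (θ : Multiplicative E →* G)
    (hθ : ∀ a, θ a ∈ T) (x : X) : ∑ a, ρ (θ a) x ∈ Φ D := by
  have := Fact.mk hp
  have : NeZero p := ⟨hp.ne_zero⟩
  obtain ⟨_⟩ : Nonempty (Module (ZMod p) E) := ⟨AddCommGroup.zmodModule hE⟩
  let b₀ := Module.finBasis (ZMod p) E
  let b := b₀.equivFun.symm.toAddEquiv.toMultiplicative
  rw [← b.toEquiv.sum_comp]
  exact h.anti (hD _ (by rw [Module.card_eq_pow_finrank (K := ZMod p), ZMod.card]))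
    (h.sum_pi h0 _ (θ.comp b.toMonoidHom) (fun _ => hθ _) x)

end H10.Ff
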