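import Mathlib
import Cfsg.Agent.H10.Subf4
import Cfsg.Agent.H10.Ff
import Cfsg.Agent.H12.TnC

/-!
# Overgroups of subfield subgroups in small dimension: the common part
* `RatP`, `RatS.rt` (isometries rational up to a scalar), `RatP.step`, `RatP.fin`
-/

namespace H10

open Module

namespace Form
variable {F V : Type*} [Field F] [AddCommGroup V] [Module F V] {φ : Form F V}
  [φ.Nondeg] [FiniteDimensional F V] [Finite F]

variable (φ) in
/-- a rational structure and an overgroup of the rational Siegel maps -/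
structure RatP (K : Subfield F) (L : Submodule K V) (M : Subgroup φ.Isom) : Prop where
  rat : φ.RatS K L
  σ : ∀ a, φ.σ a = a
  mem : ∀ p ∈ L, ∀ w ∈ L, ∀ s ∈ K, φ.Q p = 0 → φ.B p w = 0 → φ.T s = φ.Q w → φ.siegel p w s ∈ M

theorem sq_or {K : Subfield F} (hK : (finrank K F).Prime) : finrank K F = 2 ∨ ∀ c : F, c * c ∈ K → c ∈ K := by
  refine or_iff_not_imp_right.2 fun H => ?_
  push Not at H
  obtain ⟨c, a, b⟩ := H
  have := Subalgebra.isSimpleOrder_of_finrank_prime K F hK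
  let A : Subalgebra K F := (Submodule.span K {1, c}).toSubalgebra (Submodule.subset_span (by simp)) fun x y hx hy => by
    obtain ⟨i, j, rfl⟩ := Submodule.mem_span_pair.1 hx
    obtain ⟨k, l, rfl⟩ := Submodule.mem_span_pair.1 hy
    exact Submodule.mem_span_pair.2 ⟨i * k + j * l * ⟨_, a⟩, i * l + j * k, by simp [Subfield.smul_def]; ring⟩
  rcases eq_bot_or_eq_top A with e | e
  · obtain ⟨x, rfl⟩ := Algebra.mem_bot.1 (e.le (Submodule.subset_span (by simp) : c ∈ Submodule.span K {1, c}))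
    exact absurd x.2 b
  have := finrank_span_pair_le (F := K) (1 : F) c
  rw [show Submodule.span K {1, c} = ⊤ from eq_top_iff.2 fun x _ => e.ge trivial, finrank_top] at this
  exact le_antisymm this hK.two_le

theorem RatS.two {K : Subfield F} {L : Submodule K V} (h : φ.RatS K L) (h5 : finrank K F = 2) (x : V) :
    ∃ a ∈ L, ∃ b ∈ L, ∀ y, φ.B a y = 0 → φ.B b y = 0 → φ.B x y = 0 := by
  let B := Module.finBasisOfFinrankEq K F h5
  let A : Submodule F V :=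
    { carrier := {x | ∀ c : F, ∃ a ∈ L, ∃ b ∈ L, c • x = B 0 • a + B 1 • b}
      zero_mem' := fun c => ⟨0, L.zero_mem, 0, L.zero_mem, by simp⟩
      smul_mem' := fun c x hx d => by simpa [smul_smul] using hx (d * c)
      add_mem' := fun {x y} hx hy c => by
        obtain ⟨a, ha, b, hb, h1⟩ := hx c
        obtain ⟨a', ha', b', hb', h2⟩ := hy c
        exact ⟨_, L.add_mem ha ha', _, L.add_mem hb hb', by rw [smul_add, h1, h2]; module⟩ }
  obtain ⟨a, ha, b, hb, h7⟩ := h.mem_of_le (A := A) (fun x hx c => ⟨_, L.smul_mem (B.repr c 0) hx,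
    _, L.smul_mem (B.repr c 1) hx, by
      conv_lhs => rw [← B.sum_repr c]
      simp only [Fin.sum_univ_two, Subfield.smul_def, smul_eq_mul]; module⟩) x 1
  exact ⟨a, ha, b, hb, fun y i j => by rw [← one_smul F x, h7]; simp [i, j]⟩

namespace RatP
variable {K : Subfield F} {L : Submodule K V} {M : Subgroup φ.Isom} (h : φ.RatP K L M) {g k : φ.Isom} {p u z : V} {c : F}

/-- isometries which are rational up to a scalar -/
def rt : Subgroup φ.Isom where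
  carrier := {g | ∃ c : F, c ≠ 0 ∧ ∀ x ∈ L, c • g.1 x ∈ L}
  one_mem' := ⟨1, one_ne_zero, fun x hx => by simpa using hx⟩
  mul_mem' := fun ⟨c, c0, a⟩ ⟨d, d0, b⟩ => ⟨c * d, mul_ne_zero c0 d0, fun x hx => by
    simpa [mul_smul] using a _ (b x hx)⟩
  inv_mem' := fun {g} ⟨c, c0, a⟩ => ⟨c, c0, fun x hx => h.rat.mem_of_B fun y hy => by
    rw [B_smul_left, h.σ, ← Isom.B_map g, Isom.apply_inv_apply, ← smul_eq_mul, ← map_smul]
    exact h.rat.B_mem _ hx _ (a y hy)⟩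

include h

omit [φ.Nondeg] [FiniteDimensional F V] [Finite F] in
theorem inA (hp : p ∈ L) (hu : u ∈ L) (hQ : φ.Q p = 0) (h0 : φ.B p u = 0) : InA M p u := by
  obtain ⟨s, h1, h2⟩ := h.rat.half u hu
  exact ⟨h0, s, h2, h.mem p hp u hu s h1 hQ h0 h2⟩

theorem sg_rt {s : F} (hp : p ∈ L) (hu : u ∈ L) (hs : s ∈ K) (h1 : φ.Q p = 0) (h2 : φ.B p u = 0) (h3 : φ.T s = φ.Q u) :
    φ.siegel p u s ∈ h.rt := ⟨1, one_ne_zero, fun x hx => by
  rw [one_smul, φ.siegel_apply h1 h2 h3]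
  exact sub_mem (sub_mem (add_mem hx (RatS.smul_mem (h.rat.B_mem _ hu _ hx) hp))
    (RatS.smul_mem (K.mul_mem h.rat.ε_mem (h.rat.B_mem _ hp _ hx)) hu))
    (RatS.smul_mem (K.mul_mem (K.mul_mem h.rat.ε_mem hs) (h.rat.B_mem _ hp _ hx)) hp)⟩

theorem coef (hp : p ∈ L) (p0 : p ≠ 0) (hc : c • p ∈ L) : c ∈ K := by
  obtain ⟨w, a, -, b⟩ := h.rat.exists_sep (W := ⊥) hp p0
  simpa [b] using h.rat.B_mem _ a _ hc

theorem map_of_fix (hg : g ∈ h.rt) (hp : p ∈ L) (p0 : p ≠ 0) (e : g.1 p = p) : ∀ x ∈ L, g.1 x ∈ L := fun x hx => by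
  obtain ⟨c, c0, a⟩ := hg
  have := RatS.smul_mem (K.inv_mem (h.coef hp p0 (e ▸ a p hp))) (a x hx)
  rwa [inv_smul_smul₀ c0] at this

theorem map_of_sq (sq : ∀ c : F, c * c ∈ K → c ∈ K) (hg : g ∈ h.rt) : ∀ x ∈ L, g.1 x ∈ L := fun x hx => by
  obtain ⟨c, c0, a⟩ := hg
  by_cases x0 : x = 0
  · simp [x0]
  obtain ⟨w, i, -, b⟩ := h.rat.exists_sep (W := ⊥) hx x0
  simpa [c0] using RatS.smul_mem (K.inv_mem (sq c (by simpa [b, h.σ] using h.rat.B_mem _ (a w i) _ (a x hx)))) (a x hx)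

theorem nbr (hU : ∀ p ∈ L, φ.Q p = 0 → p ≠ 0 → ∀ u, InA M p u → ∃ d : F, u + d • p ∈ L)
    (hk : k ∈ M) (hp : p ∈ L) (hQ : φ.Q p = 0) (p0 : p ≠ 0) (c0 : c ≠ 0) (hc : c • k.1 p ∈ L)
    (hy : ∃ a ∈ L, ∃ b ∈ L, φ.B p a = 0 ∧ φ.B p b = 0 ∧ φ.B a b = 1) :
    c * c ∈ K ∧ ∀ u ∈ L, φ.B p u = 0 → ∃ d : F, c • k.1 u + d • c • k.1 p ∈ L := by
  have hQ' : φ.Q (c • k.1 p) = 0 := φ.Q_smul_of_sing (by simpa using hQ) c
  have H : ∀ u ∈ L, φ.B p u = 0 → ∃ d : F, c⁻¹ • k.1 u + d • c • k.1 p ∈ L := fun u a b => by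
    have := InA.of_smul hQ' (inv_ne_zero c0) (u := k.1 u) (by simpa [c0] using (h.inA hp a hQ b).map hQ hk)
    rw [h.σ] at this
    exact hU _ hc hQ' (by simpa [c0] using p0) _ this
  obtain ⟨a, a1, b, b1, a2, b2, e⟩ := hy
  obtain ⟨d, hd⟩ := H a a1 a2
  obtain ⟨d', hd'⟩ := H b b1 b2
  have c2 : c * c ∈ K := by
    simpa [h.σ, e, a2, b2, φ.B_symm_zero a2, φ.B_self_eq_zero hQ] using K.inv_mem (h.rat.B_mem _ hd _ hd')
  exact ⟨c2, fun u i j => (H u i j).elim fun d hd => ⟨c * c * d, by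
    simpa [smul_smul, c0, mul_assoc] using RatS.smul_mem c2 hd⟩⟩

theorem step (hZ : ∀ p ∈ L, φ.Q p = 0 → p ≠ 0 → ∀ c : F, c ≠ 0 → c • k.1 p ∈ L → ∀ u ∈ L, φ.B p u = 0 → c • k.1 u ∈ L)
    (hp : p ∈ L) (hQ : φ.Q p = 0) (p0 : p ≠ 0) (c0 : c ≠ 0) (hc : c • k.1 p ∈ L) (hz : z ∈ L) (z1 : φ.Q z = 0)
    (z2 : φ.B p z = 0) (z3 : z ∉ F ∙ p) : k ∈ h.rt := by
  obtain ⟨w, a, b, e⟩ := h.rat.exists_sep hp (not_mem_span_singleton_symm p0 z3)
  refine ⟨c, c0, fun x hx => ?_⟩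
  have i := K.mul_mem h.rat.ε_mem (h.rat.B_mem _ hp _ hx)
  have := add_mem (hZ p hp hQ p0 c c0 hc _ (sub_mem hx (RatS.smul_mem i a)) (by simp [φ.symm w p, e, ← mul_assoc, mul_comm _ φ.ε]))
    (RatS.smul_mem i (hZ z hz z1 (by rintro rfl; simp at z3) c c0 (hZ p hp hQ p0 c c0 hc z hz z2) w a
      (φ.B_symm_zero (b z hz (Submodule.mem_span_singleton_self z)))))
  convert this using 1
  simp only [map_sub, map_smul]; module

theorem exists_proj : ∃ N : V →+ V, (∀ v, N v ∈ L) ∧ (∀ v ∈ L, N v = v) ∧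
    ∀ s : φ.Isom, (∀ x ∈ L, s.1 x ∈ L) → (∀ x ∈ L, (s⁻¹).1 x ∈ L) → ∀ v, s.1 (N ((s⁻¹).1 v)) = N v := by
  have := h.rat.nondeg
  have := RatS.finiteDim (L := L)
  obtain ⟨l, hl⟩ := (Algebra.linearMap K F).exists_leftInverse_of_injective
    (LinearMap.ker_eq_bot.2 (algebraMap K F).injective)
  replace hl : ∀ a ∈ K, (l a : F) = a := fun a ha => congrArg Subtype.val (LinearMap.congr_fun hl ⟨a, ha⟩)
  choose N hN using fun v => h.rat.form.exists_B_eq (l ∘ₗ ((φ.B v).restrictScalars K) ∘ₗ L.subtype)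
  replace hN : ∀ v, ∀ x ∈ L, φ.B (N v) x = l (φ.B v x) := fun v x hx => congrArg Subtype.val (LinearMap.congr_fun (hN v) ⟨x, hx⟩)
  have ext : ∀ a b, (∀ x ∈ L, φ.B a x = φ.B b x) → a = b := fun a b H => sub_eq_zero.1 (φ.eq_zero_of_B_left
    (h.rat.B_eq_zero fun x hx => by simp [H x hx]))
  exact ⟨.mk' (fun v => N v) fun a b => ext _ _ fun x hx => by simp [hN _ x hx], fun v => (N v).2,
    fun v hv => ext _ _ fun x hx => by simp [hN _ x hx, hl _ (h.rat.B_mem _ hv _ hx)], fun s a b v => ext _ _ fun x hx => by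
      rw [← Isom.B_map s⁻¹, Isom.inv_apply_apply]
      exact (hN _ _ (b x hx)).trans (by rw [Isom.B_map]; exact (hN _ x hx).symm)⟩

/-- the data of an elementary abelian group of rational quadratic elements -/
structure Qd (W : Submodule F V) (θ : Multiplicative (K × K) →* φ.Isom) : Prop where
  mem : ∀ a, θ a ∈ M
  rt : ∀ a, θ a ∈ h.rt
  sub : ∀ a v, (θ a).1 v - v ∈ W
  fix : ∀ a, ∀ v ∈ W, (θ a).1 v = v
  se : ∀ a ≠ 1, ∀ g ∈ M, g⁻¹ * θ a * g ∈ h.rt → g ∈ h.rt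

omit h [φ.Nondeg] [FiniteDimensional F V] [Finite F] in
/-- the two-step filtration -/
def fl2 (W : Submodule F V) : ℕ → AddSubgroup V | 0 => ⊤ | 1 => W.toAddSubgroup | _ => ⊥

omit h in
theorem Qd.sum {h : φ.RatP K L M} [Fintype K] {W θ} (a : h.Qd W θ) (Y : V →+ V) (x : V) :
    (∑ t, Ff.cj (DistribMulAction.toAddMonoidEnd M V) (θ.codRestrict M a.mem t) Y) x ∈ W := by
  have := Fintype.ofFinite F
  obtain ⟨p, hp⟩ := CharP.exists F
  have p1 := CharP.char_is_prime F p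
  have H : Ff.Fl (DistribMulAction.toAddMonoidEnd M V) (θ.codRestrict M a.mem).range (fl2 W) :=
    ⟨fun _ => trivial, antitone_nat_of_succ_le fun | 0 => le_top | 1 => bot_le | _ + 2 => le_rfl, by
      rintro _ ⟨t, rfl⟩ (_ | _ | _) x hx
      exacts [a.sub t x, sub_eq_zero.2 (a.fix t x hx), by rw [show x = 0 from hx, map_zero, sub_zero]; exact zero_mem _]⟩
  refine Ff.hm_top (Φ := fl2 W) (d := 1) (fun _ => trivial) ((H.hom (d := 1) fun _ hx => hx).sum_mem p1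
      (fun Y => AddMonoidHom.ext fun x => by simp [← Nat.cast_smul_eq_nsmul F]) (fun x => by
        ext <;> simp) (fun n hn => ?_) _ (fun t => ⟨t, rfl⟩) Y) x
  have : p ∣ Fintype.card K := (CharP.cast_eq_zero_iff K p _).1 (FiniteField.cast_card_eq_zero K)
  have := (Nat.pow_dvd_pow_iff_le_right p1.one_lt).1 (show p ^ 2 ∣ p ^ n by
    rw [← hn, Fintype.card_prod, pow_two]; exact mul_dvd_mul this this)
  exact this.trans (Nat.le_mul_of_pos_right _ (by have := p1.two_le; omega))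

theorem fin (sq : ∀ c : F, c * c ∈ K → c ∈ K) {W W' θ θ'} (a : h.Qd W θ) (b : h.Qd W' θ') (hd : ∀ x ∈ W, x ∈ W' → x = 0)
    (hg : g ∈ M) : g ∈ h.rt := by
  have := Fintype.ofFinite K
  obtain ⟨N, n1, n2, n3⟩ := h.exists_proj
  let Φ : Submodule F V → AddSubgroup (V →+ V) := fun W =>
    ⟨⟨⟨{Y | ∀ x, Y x ∈ W}, fun a b x => add_mem (a x) (b x)⟩, fun _ => zero_mem _⟩, fun a x => neg_mem (a x)⟩
  have := Ff.fixed (Ff.cj (DistribMulAction.toAddMonoidEnd M V)) (h.rt.subgroupOf M) (θ.codRestrict M a.mem)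
    (θ'.codRestrict M b.mem) a.rt b.rt (fun t i g => a.se t i g g.2) (fun t i g => b.se t i g g.2) (X₁ := Φ W) (X₂ := Φ W')
    (fun Y i j => AddMonoidHom.ext fun x => hd _ (i x) (j x)) a.sum b.sum (N := N)
    (fun s hs => AddMonoidHom.ext (n3 s (h.map_of_sq sq hs) (h.map_of_sq sq (inv_mem hs)))) ⟨g, hg⟩
  refine ⟨1, one_ne_zero, fun x hx => ?_⟩
  have e : g.1 (N ((g⁻¹).1 (g.1 x))) = N (g.1 x) := DFunLike.congr_fun this (g.1 x)
  rw [Isom.inv_apply_apply, n2 x hx] at e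
  rw [one_smul, e]; exact n1 _

end RatP
end Form
end H10
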