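import Mathlib
import Cfsg.Agent.H10.SfA

/-!
# Overgroups of `Sp_n(K)` in `Sp_n(F)`, `n ≥ 4`
* `RatP.alt`, `SpL.subf2`
-/

namespace H10

open Module

namespace Form
variable {F V : Type*} [Field F] [AddCommGroup V] [Module F V] {φ : Form F V}
  [φ.Nondeg] [FiniteDimensional F V] [Finite F]

omit [Finite F] in
theorem sg_alt (ha : H09.IsAltF φ) {p w : V} (h : φ.B p w = 0) (s : F) (x : V) :
    (φ.siegel p w s).1 x = x + φ.B w x • p + φ.B p x • w + (s * φ.B p x) • p := by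
  rw [φ.siegel_apply (ha.Q_eq p) h (by simp [ha.T_eq, ha.Q_eq]), ε_eq_of_isAltF ha]; module

namespace RatP
variable {K : Subfield F} {L : Submodule K V} {M : Subgroup φ.Isom} (h : φ.RatP K L M) {g k : φ.Isom} {p u z : V} {c d : F}
  (ha : H09.IsAltF φ)
include h

theorem exo (l : List V) (hl : ∀ x ∈ l, x ∈ L) (hp : p ∈ L) (hn : l.length + 2 ≤ finrank F V) :
    ∃ e ∈ L, e ∉ F ∙ p ∧ ∀ x ∈ l, φ.B x e = 0 := by
  have := h.rat.nondeg
  have := RatS.finiteDim (L := L)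
  lift l to List L using hl
  obtain ⟨e, -, h7, h3⟩ := h.rat.form.exists_orth ⊤ (K ∙ ⟨p, hp⟩) l (by
    have := finrank_span_singleton_le (F := K) (⟨p, hp⟩ : L); simp [h.rat.rank] at hn ⊢; omega)
  refine ⟨e, e.2, fun h0 => ?_, by simpa using fun x hx hx' => congrArg Subtype.val (h3 ⟨x, hx⟩ hx')⟩
  obtain ⟨w, h9, h10⟩ := h.rat.form.exists_sep h7
  obtain ⟨a, h11⟩ := Submodule.mem_span_singleton.1 h0
  have h12 : φ.B w p = 0 := congrArg Subtype.val (h9 _ (Submodule.mem_span_singleton_self _))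
  have h13 : φ.B w e = 1 := congrArg Subtype.val h10
  simp [← h11, h12] at h13

theorem pl (hp : p ∈ L) (hz : z ∈ L) (h1 : z ∉ F ∙ p) : ∃ w ∈ L, φ.B p w = 0 ∧ φ.B w p = 0 ∧ φ.B w z = 1 :=
  (h.rat.exists_sep hz h1).imp fun _ a => ⟨a.1, φ.B_symm_zero (a.2.1 p hp (Submodule.mem_span_singleton_self p)),
    a.2.1 p hp (Submodule.mem_span_singleton_self p), a.2.2⟩

omit h in
variable (L M) in
/-- coefficients of short root elements -/
def Cf (c : F) : Prop := ∀ p ∈ L, ∀ z ∈ L, φ.B p z = 0 → InA M p (c • z)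

include ha

omit [Finite F] in
theorem tv (hz : z ∈ L) {s : F} (hs : s ∈ K) : φ.siegel z 0 s ∈ M :=
  h.mem z hz 0 L.zero_mem s hs (ha.Q_eq z) (by simp) (by simp [ha.T_eq])

omit h [Finite F] in
theorem inA_of {s : F} (h0 : φ.B p u = 0) (h1 : φ.siegel p u s ∈ M) : InA M p u := ⟨h0, s, by simp [ha.T_eq, ha.Q_eq], h1⟩

omit h [Finite F] in
theorem inA_self (p : V) (c : F) : InA M p (c • p) := inA_of ha (s := -2 * c) (by simp [B_self_of_isAltF ha]) (by
  convert M.one_mem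
  exact Isom.ext fun x => by simp [sg_alt ha, B_self_of_isAltF ha, ha.σ_eq]; module)

omit [Finite F] in
theorem ex1 (hu : InA M p u) (hz : z ∈ L) (h1 : φ.B p z = 0) {s : F} (hs : s ∈ K) :
    φ.siegel p ((s * φ.B z u) • z) (-(s * φ.B z u * φ.B z u)) ∈ M := by
  obtain ⟨a, t, b, e⟩ := hu
  convert M.mul_mem (siegel_conj_mem (h.tv ha hz hs) (ha.Q_eq p) a b e) (M.inv_mem e) using 1
  rw [eq_mul_inv_iff_mul_eq]
  exact Isom.ext fun x => by
    simp [sg_alt ha, a, h1, φ.B_symm_zero h1, φ.B_symm_zero a, B_self_of_isAltF ha, ha.σ_eq]; module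

theorem tr (hp : p ∈ L) (p0 : p ≠ 0) (hz : z ∈ L) (z0 : z ≠ 0) : ∃ k ∈ M, (∀ x ∈ L, (k⁻¹).1 x ∈ L) ∧ k.1 p = z := by
  have H : ∀ p ∈ L, ∀ z ∈ L, φ.B z p ≠ 0 → ∃ k ∈ M, (∀ x ∈ L, (k⁻¹).1 x ∈ L) ∧ k.1 p = z := fun p a z b e => by
    have i := K.inv_mem (h.rat.B_mem _ b _ a)
    have j : (φ.siegel (z - p) 0 (φ.B z p)⁻¹).1 p = z := by simp [sg_alt ha, B_self_of_isAltF ha, e]
    exact ⟨_, h.tv ha (sub_mem b a) i, h.map_of_fix (inv_mem (h.sg_rt (sub_mem b a) L.zero_mem i (ha.Q_eq _) (by simp)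
      (by simp [ha.T_eq]))) (sub_mem b a) (fun d => e (by simp [sub_eq_zero.1 d, B_self_of_isAltF ha]))
      (by rw [Isom.inv_apply_eq, sg_alt ha (by simp), B_self_of_isAltF ha]; simp), j⟩
  obtain ⟨e, a, b, c⟩ : ∃ e ∈ L, φ.B e p ≠ 0 ∧ φ.B e z ≠ 0 := by
    obtain ⟨f, a, -, b⟩ := h.rat.exists_sep (W := ⊥) hp p0
    obtain ⟨f', a', -, b'⟩ := h.rat.exists_sep (W := ⊥) hz z0
    by_cases c : φ.B f z = 0
    · by_cases d : φ.B f' p = 0
      exacts [⟨_, add_mem a a', by simp [b, d], by simp [b', c]⟩, ⟨f', a', d, by simp [b']⟩]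
    exact ⟨f, a, by simp [b], c⟩
  obtain ⟨k, i, j, rfl⟩ := H p hp e a b
  obtain ⟨k', i', j', m⟩ := H _ a z hz (mt φ.B_symm_zero c)
  exact ⟨k' * k, mul_mem i' i, fun x hx => by rw [mul_inv_rev]; exact j _ (j' x hx), m⟩

theorem cf_of (hp : p ∈ L) (p0 : p ≠ 0) (hz : z ∈ L) (h1 : z ∉ F ∙ p) (hu : InA M p (c • z)) : Cf L M c := fun q a y b e => by
  have H : ∀ y ∈ L, φ.B p y = 0 → φ.B y z ≠ 0 → InA M p (c • y) := fun y b e i => inA_of ha (by simp [e]) (by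
    simpa [mul_comm c, i] using h.ex1 ha hu b e (K.inv_mem (h.rat.B_mem _ b _ hz)))
  have H' : ∀ y ∈ L, φ.B p y = 0 → InA M p (c • y) := fun y b e => by
    by_cases i : φ.B y z = 0; swap
    · exact H y b e i
    obtain ⟨w, j, m, -, n⟩ := h.pl hp hz h1
    simpa using (H _ (add_mem b j) (by simp [e, m]) (by simp [i, n])).sub (ha.Q_eq p) (H w j m (by simp [n]))
  by_cases q0 : q = 0
  · exact inA_of ha (s := 0) (by simp [q0]) (by rw [q0, siegel_zero_left (by simp [ha.T_eq, ha.Q_eq])]; exact one_mem _)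
  obtain ⟨k, i, j, rfl⟩ := h.tr ha hp p0 a q0
  simpa [Isom.apply_inv_apply] using (H' _ (j y b) (by rw [← Isom.B_map k, Isom.apply_inv_apply, e])).map (ha.Q_eq p) i

theorem cf_y (hc : Cf L M c) (hp : p ∈ L) (hz : z ∈ L) (h0 : φ.B z p = 0) (h1 : p ∉ F ∙ z) :
    φ.siegel z (c • p) (-(c * c)) ∈ M := by
  obtain ⟨w, a, b, -, e⟩ := h.pl hz hp h1
  simpa [B_swap_of_isAltF ha w, e] using h.ex1 ha (hc z hz _ (neg_mem a) (by simp [b])) hp h0 K.one_mem

variable (hn : 4 ≤ finrank F V)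
include hn

omit ha in
theorem pr (hp : p ∈ L) : ∃ z ∈ L, ∃ w ∈ L, z ∉ F ∙ p ∧ φ.B p z = 0 ∧ φ.B p w = 0 ∧ φ.B w z = 1 := by
  obtain ⟨z, a, b, c⟩ := h.exo [p] (by simpa) hp (by simp; omega)
  obtain ⟨w, d, e, -, i⟩ := h.pl hp a b
  exact ⟨z, a, w, d, b, by simpa using c, e, i⟩

omit ha in
theorem ne0 : ∃ p ∈ L, p ≠ 0 :=
  (h.exo [] (by simp) L.zero_mem (by simp; omega)).imp fun _ a => ⟨a.1, by simpa using a.2.1⟩

theorem cf_mul (hc : Cf L M c) (hd : Cf L M d) : Cf L M (c * c * d) := by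
  obtain ⟨p, hp, p0⟩ := h.ne0 hn
  obtain ⟨z, a, w, b, i, j, m, n⟩ := h.pr hn hp
  have := ((hd p hp w b m).sub (ha.Q_eq p) (by
    simpa [sg_alt ha, φ.B_symm_zero j, B_self_of_isAltF ha] using (hd p hp w b m).map (ha.Q_eq p)
      (h.cf_y ha hc hp a (φ.B_symm_zero j) (not_mem_span_singleton_symm p0 i)))).sub (ha.Q_eq p) (inA_self ha p (d * c))
  refine h.cf_of ha hp p0 (neg_mem a) (by simpa) ?_
  convert this using 1
  simp [B_swap_of_isAltF ha w z, n, m, ha.σ_eq]; module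

theorem E_le_cf (hK : ∃ c, c ∉ K) (hc : ∀ c, Cf L M c) : φ.E ≤ M := by
  have key : ∀ p ∈ L, ∀ f ∈ L, φ.IsHyp p f → φ.Full M p := fun p hp f hf hyp => by
    obtain ⟨z, a, w, b, i, j, m, n⟩ := h.pr hn hp
    have i' : w ∉ F ∙ p := fun e => by obtain ⟨c, rfl⟩ := Submodule.mem_span_singleton.1 e; simp [j] at n
    have n' : φ.B z w = -1 := by rw [B_swap_of_isAltF ha, n]
    have hX : ∀ t, φ.T t = 0 → φ.siegel p 0 t ∈ M := fun t _ => by
      have A := fun c => h.cf_y ha (hc c) a hp j i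
      by_cases h2 : (2 : F) = 0; swap
      · convert M.mul_mem (M.mul_mem (A (t / 2)) (A 1)) (M.inv_mem (A (t / 2 + 1))) using 1
        rw [eq_mul_inv_iff_mul_eq]
        exact Isom.ext fun x => by
          simp [sg_alt ha, j, φ.B_symm_zero j, B_self_of_isAltF ha, ha.σ_eq]; match_scalars <;> field_simp <;> ring
      obtain ⟨c, c1⟩ := hK
      have c2 : c * c * (c * c) - c * c ≠ 0 := fun e => by
        have : c * c * ((c - 1) * (c - 1)) = 0 := by linear_combination e + (c * c - c ^ 3) * h2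
        simp only [mul_eq_zero, or_self, sub_eq_zero] at this
        rcases this with rfl | rfl
        exacts [c1 K.zero_mem, c1 K.one_mem]
      obtain ⟨d, hd⟩ := chi_eq_one_iff.1 (chi_eq_one_of_two_eq_zero h2 (t / (c * c * (c * c) - c * c)))
      rw [div_eq_iff c2] at hd
      convert M.mul_mem (siegel_conj_mem (h.cf_y ha (hc c) hp b (φ.B_symm_zero m) (not_mem_span_singleton_symm hyp.e_ne_zero i'))
        (ha.Q_eq p) (by simp [j]) (by simp [ha.T_eq, ha.Q_eq]) (A d)) (M.inv_mem (M.mul_mem (A d)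
          (h.cf_y ha (hc (-(c * c * d))) b hp m i'))) using 1
      rw [eq_mul_inv_iff_mul_eq]
      refine Isom.ext fun x => ?_
      simp [sg_alt ha, j, m, n, n', φ.B_symm_zero j, φ.B_symm_zero m, B_self_of_isAltF ha, ha.σ_eq, hd]
      linear_combination (norm := module) (φ.B p x * (- d * c) * h2) • p
    refine full_of_le_sgSub (hp := hyp.Qe) (hX := hX) fun y hy => ?_
    have : y - φ.B p y • f ∈ sgSub M hyp.Qe hX := Submodule.mem_comap.1 <| h.rat.mem_of_le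
      (A := (sgSub M hyp.Qe hX).comap (LinearMap.id - (φ.B p).smulRight f))
      (fun x hx => ⟨by simp [hyp.Bef], fun c => (hc c p hp _ (L.sub_mem hx (RatS.smul_mem (h.rat.B_mem _ hp _ hx) hf))
        (by simp [hyp.Bef])).2⟩) y
    rwa [φ.mem_perp_singleton.1 hy, zero_smul, sub_zero] at this
  obtain ⟨p, hp, p0⟩ := h.ne0 hn
  obtain ⟨f, hf, hyp⟩ := h.rat.exists_partner hp (ha.Q_eq p) p0
  exact E_le_of_full (key p hp f hf hyp) hyp.Qe (key f hf _ (RatS.smul_mem h.rat.ε_mem hp) hyp.symm)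
    hyp.Qf (by simp [hyp.Bef])

theorem cf_cases (hK : (finrank K F).Prime) : φ.E ≤ M ∨ ∀ c, Cf L M c → c ∈ K := by
  have := Subalgebra.isSimpleOrder_of_finrank_prime K F hK
  have sb : ∀ {c d}, Cf L M c → Cf L M d → Cf L M (c - d) := fun a b p i z j e => by
    simpa [sub_smul] using (a p i z j e).sub (ha.Q_eq p) (b p i z j e)
  have km : ∀ {c d}, c ∈ K → Cf L M d → Cf L M (c * d) := fun a b p i z j e => by
    simpa [smul_smul, mul_comm] using b p i _ (RatS.smul_mem a j) (by simp [e])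
  have one : Cf L M 1 := fun p i z j e => by simpa using h.inA i j (ha.Q_eq p) e
  have ad : ∀ {c d}, Cf L M c → Cf L M d → Cf L M (c + d) := fun a b => by simpa using sb a (km (K.neg_mem K.one_mem) b)
  let A : Subalgebra K F :=
    { carrier := {x | ∀ d, Cf L M d → Cf L M (x * d)}
      mul_mem' := fun a b d e => by rw [mul_assoc]; exact a _ (b d e)
      add_mem' := fun a b d e => by rw [add_mul]; exact ad (a d e) (b d e)
      algebraMap_mem' := fun c _ => km c.2 }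
  rcases eq_bot_or_eq_top A with e | e
  swap
  · exact .inl (h.E_le_cf ha hn (exists_not_mem_of_prime hK) fun c => by simpa using (e.ge trivial : c ∈ A) 1 one)
  have H : ∀ c, Cf L M c → c * c ∈ K := fun c hc => by
    obtain ⟨x, e⟩ := Algebra.mem_bot.1 (e.le (show c * c ∈ A from fun _ => h.cf_mul ha hn hc))
    exact e ▸ x.2
  refine .inr fun c hc => ?_
  by_cases h2 : (2 : F) = 0
  · obtain ⟨a, e⟩ := chi_eq_one_iff.1 (chi_eq_one_of_two_eq_zero (F := K) (Subtype.ext h2) ⟨_, H c hc⟩)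
    have e : c * c = a * a := congrArg Subtype.val e
    have : (c - a) * (c - a) = 0 := by linear_combination e + (a * a - c * a) * h2
    exact sub_eq_zero.1 (mul_self_eq_zero.1 this) ▸ a.2
  exact mem_of_mul_mem (a := 2) (by convert K.sub_mem (K.sub_mem (H _ (ad hc one)) (H c hc)) K.one_mem using 1; ring)
    (ofNat_mem K 2) h2

variable (hc : ∀ c, Cf L M c → c ∈ K)
include hc

omit hn in
theorem hU (p) (hp : p ∈ L) (hQ : φ.Q p = 0) (p0 : p ≠ 0) (u) (hu : InA M p u) : ∃ d : F, u + d • p ∈ L :=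
  h.rat.exists_add_mem hp hQ fun x hx e => by
    by_cases i : x ∈ F ∙ p
    · obtain ⟨c, rfl⟩ := Submodule.mem_span_singleton.1 i; simp [φ.B_symm_zero hu.1]
    rw [B_swap_of_isAltF ha]
    exact K.neg_mem (hc _ (h.cf_of ha hp p0 hx i (inA_of ha (by simp [e]) (by simpa using h.ex1 ha hu hx e K.one_mem))))

theorem pt (hk : k ∈ M) (hp : p ∈ L) (p0 : p ≠ 0) (c0 : c ≠ 0) (e : c • k.1 p ∈ L) : k ∈ h.rt := by
  obtain ⟨z, a, -, -, i, j, -⟩ := h.pr hn hp
  refine h.step (fun p hp hQ p0 c c0 e u hu h0 => ?_) hp (ha.Q_eq p) p0 c0 e a (ha.Q_eq z) j i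
  by_cases i : u ∈ F ∙ p
  · obtain ⟨a, rfl⟩ := Submodule.mem_span_singleton.1 i
    rw [map_smul, smul_comm]; exact RatS.smul_mem (h.coef hp p0 hu) e
  obtain ⟨w, a, b, -, j⟩ := h.pl hp hu i
  obtain ⟨c2, H⟩ := h.nbr (h.hU ha hc) hk hp hQ p0 c0 e ⟨w, a, u, hu, b, h0, j⟩
  obtain ⟨d, hd⟩ := H u hu h0
  have m : φ.B (c • k.1 p) (c • k.1 u + d • c • k.1 p) = 0 := by simp [h0, B_self_of_isAltF ha]
  obtain ⟨t, ht⟩ := h.hU ha hc _ e (ha.Q_eq _) (by simpa [c0] using p0) _ (inA_of ha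
    (u := (-(c * c)⁻¹ * d) • (c • k.1 u + d • c • k.1 p)) (s := (c * c)⁻¹ * d * d) (by rw [map_smul, m, smul_zero]) (by
    convert M.mul_mem (siegel_conj_mem hk (ha.Q_eq u) (by simp) (by simp [ha.T_eq]) (h.tv ha hu K.one_mem))
      (h.tv ha hd (K.neg_mem (K.inv_mem c2))) using 1
    refine Isom.ext fun x => ?_
    rw [sg_alt ha (by rw [map_smul, m, smul_zero])]
    simp [sg_alt ha, h0, φ.B_symm_zero h0, B_self_of_isAltF ha, ha.σ_eq]
    match_scalars <;> field_simp <;> ring))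
  obtain ⟨y, y1, -, o, n⟩ := h.pl e hd fun e => i (by
    obtain ⟨a, e⟩ := Submodule.mem_span_singleton.1 e
    exact Submodule.mem_span_singleton.2 ⟨a - d, k.1.injective (smul_right_injective _ c0 (by
      simp only [map_smul]; linear_combination (norm := module) e))⟩)
  have := h.rat.B_mem _ y1 _ ht
  rw [map_add, map_smul, map_smul _ t, n, o, smul_zero, add_zero, smul_eq_mul, mul_one] at this
  simpa using L.sub_mem hd (RatS.smul_mem (mem_of_mul_mem this (K.neg_mem (K.inv_mem c2)) (by simpa)) e)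

theorem lemT (hg : g ∈ M) (hp : p ∈ L) (p0 : p ≠ 0) (hz : z ∈ L) (z0 : z ≠ 0) (e : φ.B (g.1 p) z = 0) : g ∈ h.rt := by
  have a := siegel_conj_mem hg (ha.Q_eq p) (by simp) (by simp [ha.T_eq]) (h.tv ha hp K.one_mem)
  have b : (φ.siegel (g.1 p) (g.1 0) 1).1 z = z := by simp [sg_alt ha, e]
  obtain ⟨x, i, j⟩ : ∃ x ∈ L, φ.B (g.1 p) x ≠ 0 := by
    by_contra! H; exact p0 (by simpa using φ.eq_zero_of_B_left (h.rat.B_eq_zero H))
  exact h.pt ha hn hc hg hp p0 j (by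
    simpa [sg_alt ha] using sub_mem (h.map_of_fix (h.pt ha hn hc a hz z0 one_ne_zero (by rwa [b, one_smul])) hz z0 b x i) i)

theorem qd_alt (sq : ∀ c : F, c * c ∈ K → c ∈ K) (hp : p ∈ L) (p0 : p ≠ 0) (hz : z ∈ L) (h0 : φ.B p z = 0) (h1 : z ∉ F ∙ p) :
    ∃ θ, h.Qd (Submodule.span F {p, z}) θ := by
  have b0 : ∀ a : F, φ.B p (a • z) = 0 := fun a => by simp [h0]
  have t0 : ∀ s w, φ.T s = φ.Q w := fun s w => by simp [ha.T_eq, ha.Q_eq]
  let θ : Multiplicative (K × K) →* φ.Isom := .mk' (fun a => φ.siegel p ((a.toAdd.1 : F) • z) a.toAdd.2) fun a b => by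
    simp [φ.siegel_mul (ha.Q_eq p) (b0 _) (t0 ..) (b0 _) (t0 ..), add_smul, B_self_of_isAltF ha]
  have e : ∀ a x, (θ a).1 x - x = ((a.toAdd.1 : F) * φ.B z x + a.toAdd.2 * φ.B p x) • p + (φ.B p x * a.toAdd.1) • z :=
    fun a x => by simp [θ, sg_alt ha (b0 _), ha.σ_eq]; module
  refine ⟨θ, fun a => h.mem p hp _ (RatS.smul_mem a.toAdd.1.2 hz) _ a.toAdd.2.2 (ha.Q_eq p) (b0 _) (t0 ..),
    fun a => h.sg_rt hp (RatS.smul_mem a.toAdd.1.2 hz) a.toAdd.2.2 (ha.Q_eq p) (b0 _) (t0 ..),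
    fun a v => Submodule.mem_span_pair.2 ⟨_, _, (e a v).symm⟩, fun a v hv => ?_, fun a a1 g hg H => ?_⟩
  · obtain ⟨i, j, rfl⟩ := Submodule.mem_span_pair.1 hv
    exact sub_eq_zero.1 (by rw [e]; simp [h0, φ.B_symm_zero h0, B_self_of_isAltF ha])
  obtain ⟨x, i, j⟩ : ∃ x ∈ L, (g⁻¹ * θ a * g).1 x - x ≠ 0 := by
    by_contra! H
    obtain ⟨f, -, -, m, n⟩ := h.pl hz hp (not_mem_span_singleton_symm p0 h1)
    obtain ⟨f', -, -, m', n'⟩ := h.pl hp hz h1
    have := h.rat.mem_of_le (A := LinearMap.ker ((g⁻¹ * θ a * g).1.toLinearMap - LinearMap.id)) (fun x hx => LinearMap.mem_ker.2 (H x hx)) ((g⁻¹).1 f)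
    simp only [LinearMap.mem_ker, LinearMap.sub_apply, LinearEquiv.coe_coe, Isom.mul_apply, Isom.apply_inv_apply,
      LinearMap.id_apply, ← map_sub, map_eq_zero_iff _ (g⁻¹).1.injective, e] at this
    exact a1 (Multiplicative.toAdd.injective (Prod.ext (by simpa [m', n', B_swap_of_isAltF ha f, n] using congrArg (φ.B f') this)
      (by simpa [m, n, B_swap_of_isAltF ha f] using congrArg (φ.B f) this)))
  refine (Subgroup.inv_mem_iff _).1 (h.lemT ha hn hc (inv_mem hg) hp p0 (sub_mem (h.map_of_sq sq H x i) i) j ?_)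
  rw [← Isom.B_map g, map_sub g.1, Isom.mul_apply, Isom.mul_apply, Isom.apply_inv_apply, Isom.apply_inv_apply, e]
  simp [h0, B_self_of_isAltF ha]

omit hc in
theorem alt (hK : (finrank K F).Prime) : φ.E ≤ M ∨ M ≤ h.rt := (h.cf_cases ha hn hK).imp_right fun hc g hg => by
  obtain ⟨p, hp, p0⟩ := h.ne0 hn
  rcases sq_or hK with e | sq
  · obtain ⟨a, i, b, j, e⟩ := h.rat.two e (g.1 p)
    obtain ⟨z, m, n, o⟩ := h.exo [a, b] (by simp [i, j]) L.zero_mem (by simpa)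
    exact h.lemT ha hn hc hg hp p0 m (by simpa using n) (e z (o a (by simp)) (o b (by simp)))
  obtain ⟨z, a, -, -, i, j, -⟩ := h.pr hn hp
  obtain ⟨f, b, -, m, n⟩ := h.pl a hp (not_mem_span_singleton_symm p0 i)
  obtain ⟨w, c, o, m', n'⟩ := h.pl hp a i
  obtain ⟨θ, a1⟩ := h.qd_alt ha hn hc sq hp p0 a j i
  obtain ⟨θ', a2⟩ := h.qd_alt ha hn hc sq b (by rintro rfl; simp at n) (sub_mem c (RatS.smul_mem (h.rat.B_mem _ b _ c) hp))
    (by simp [n]) fun e => by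
      obtain ⟨d, e⟩ := Submodule.mem_span_singleton.1 e
      simpa [m, n', j, ha.σ_eq] using congrArg (φ.B · z) e
  refine h.fin sq a1 a2 (fun x hx hx' => ?_) hg
  obtain ⟨s, t, rfl⟩ := Submodule.mem_span_pair.1 hx
  obtain ⟨s', t', e⟩ := Submodule.mem_span_pair.1 hx'
  obtain rfl : 0 = s := by simpa [m, n, B_self_of_isAltF ha] using congrArg (φ.B f) e
  obtain rfl : 0 = t := by
    simpa [m', n', n, j, o, B_self_of_isAltF ha, B_swap_of_isAltF ha f, ha.σ_eq, mul_comm] using congrArg (φ.B (w - φ.B f w • p)) e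
  simp

end RatP
end Form
end H10
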