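import Mathlib
import Cfsg.Agent.H10.MxX
import Cfsg.Agent.H10.Dec
import Cfsg.Agent.H09.SpStab
import Cfsg.Agent.H10.Subf3

/-! # Geometric maximal subgroups of `Sp_{2m}(q)` with small bounds on `m` -/

namespace H10.SpL
open Cfsg

theorem ts {F : Type*} [Field F] [Fintype F] {m : ℕ} (W : Submodule F (Fin m ⊕ Fin m → F)) (hW0 : W ≠ ⊥) (hW : Cfsg.Geo.IsTotallySingularFor (Cfsg.sympForm m F) W) : Cfsg.Geo.IsMaximalIn (Cfsg.spGL m F) (Cfsg.Geo.subspaceStabilizer W ⊓ Cfsg.spGL m F) := by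
  exact H09.isMaximalIn_spGL (H09.isCoatom_stab_sp_isotropic hW0 fun v hv u hu =>
    (H09.sympForm_eq m u v).symm.trans (hW u hu v hv))

theorem nd {F : Type*} [Field F] [Fintype F] {m : ℕ} (W : Submodule F (Fin m ⊕ Fin m → F)) (hW0 : W ≠ ⊥) (hW : Cfsg.Geo.IsNondegenerateOn (Cfsg.sympForm m F) W) (hdim : Module.finrank F W < m) : Cfsg.Geo.IsMaximalIn (Cfsg.spGL m F) (Cfsg.Geo.subspaceStabilizer W ⊓ Cfsg.spGL m F) := by
  refine H09.isMaximalIn_spGL (H09.isCoatom_stab_sp_nondeg hW0 ?_ (by simpa using hdim))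
  rw [Submodule.disjoint_def]
  intro x hx hx'
  by_contra h0
  obtain ⟨y, hy, hxy⟩ := (hW x hx h0).1
  exact hxy ((H09.sympForm_eq m y x).trans (hx' y hy))

theorem dec {F : Type*} [Field F] [Fintype F] {m : ℕ} (hm : 3 ≤ m) {t : ℕ} (k : ℕ) (D : Fin t → Submodule F (Fin m ⊕ Fin m → F)) (hD : Cfsg.Geo.IsNondegenerateMDecomposition (Cfsg.sympForm m F) k D) (hex : ¬ (k = 2 ∧ Fintype.card F = 2)) : Cfsg.Geo.IsMaximalIn (Cfsg.spGL m F) (Cfsg.Geo.decompositionStabilizer D ⊓ Cfsg.spGL m F) := by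
  have h0 := H09.isAltF_spForm (l := Fin m) (F := F)
  have h1 : (H09.spForm (Fin m) F).ODec D := H10.oDec_of (fun x y => Or.inl (H09.sympForm_eq _ _ _).symm)
    (fun x y => by simp only [H09.sympForm_eq]; exact (H09.spForm (Fin m) F).B_eq_zero_comm) hD
  have ht := hD.decomp.two_le
  have hk := hD.decomp.pos
  have : Nonempty (Fin t) := ⟨⟨0, by omega⟩⟩
  have h2 : ∀ i, ∃ u ∈ D i, u ≠ 0 := fun i => Submodule.exists_mem_ne_zero_of_ne_bot fun h => by
    have := hD.decomp.finrank_eq i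
    rw [h, finrank_bot] at this
    omega
  rw [H10.spGL_eq_E]
  refine H10.isMaximalIn_map _ ?_ fun M hM g hg _ hg' => ?_
  · obtain ⟨u, hu, hu0⟩ := h2 ⟨0, by omega⟩
    obtain ⟨v, hv, hv0⟩ := h2 ⟨1, by omega⟩
    rw [H10.comap_decompositionStabilizer]
    exact H10.not_E_le_dstab (H10.Form.std_of_isAltF h0) (by simp; omega) h1 (by simp) hu hv hu0 hv0
      hu rfl hu0
  rw [H10.comap_decompositionStabilizer, H10.Form.E_eq_top_of_isAltF h0, top_inf_eq] at hM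
  refine le_top.trans (h1.eq_top_alt h0 hD.decomp.finrank_eq hk ?_ hM hg
    fun h => hg' (H10.toGL_mem_decompositionStabilizer.2 h)).ge
  by_contra h3
  push Not at h3
  have := (h1.nondeg ⟨0, by omega⟩).nondeg
  obtain ⟨l, hl⟩ := H09.even_finrank_of_alt (h0.restrict (D ⟨0, _⟩)).bilin_nondeg
    (h0.restrict _).bilin_alt
  rw [hD.decomp.finrank_eq] at hl
  classical
  refine hex ⟨by omega, ?_⟩
  rw [← Finset.card_univ, Finset.card_eq_two]
  refine ⟨0, 1, zero_ne_one, Finset.ext fun c => ?_⟩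
  have := h3.2 c
  simp only [Finset.mem_univ, Finset.mem_insert, Finset.mem_singleton, true_iff]
  tauto

theorem pair {F : Type*} [Field F] [Fintype F] {m : ℕ} (hm : 5 ≤ m) (hodd : Odd (Fintype.card F)) (D : Fin 2 → Submodule F (Fin m ⊕ Fin m → F)) (hD : Cfsg.Geo.IsMDecomposition m D) (hts : ∀ i, Cfsg.Geo.IsTotallySingularFor (Cfsg.sympForm m F) (D i)) : Cfsg.Geo.IsMaximalIn (Cfsg.spGL m F) (Cfsg.Geo.decompositionStabilizer D ⊓ Cfsg.spGL m F) := by
  have h0 := H09.isAltF_spForm (l := Fin m) (F := F)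
  have h1 : (H09.spForm (Fin m) F).TSPair (D 0) (D 1) := ⟨h0.ts fun x hx y hy =>
    (H09.sympForm_eq _ _ _).symm.trans (hts 0 x hx y hy), h0.ts fun x hx y hy =>
    (H09.sympForm_eq _ _ _).symm.trans (hts 1 x hx y hy), H10.isCompl_of_fin_two hD.indep hD.iSup_eq_top⟩
  have h2 := H10.two_ne_zero_of_odd_card hodd
  rw [H10.spGL_eq_E]
  refine H10.isMaximalIn_pair h1 (by rw [hD.finrank_eq]; omega) (fun t _ => ⟨t / 2, ?_⟩) ?_
  · change t = t / 2 - (-1) * (t / 2)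
    field_simp; ring
  · simpa [H10.Form.E_eq_top_of_isAltF h0] using h1.exists_swap

theorem subf {F : Type*} [Field F] [Fintype F] {m : ℕ} (hm : 6 ≤ m) (F₀ : Subfield F) (r : ℕ) (hr : r.Prime) (hcard : Fintype.card F = Nat.card F₀ ^ r) (P : Matrix.GeneralLinearGroup (Fin m ⊕ Fin m) F) (ζ : F) (hζ : ζ ≠ 0) (hP : Cfsg.Geo.IsFormRationalStructure (Cfsg.sympForm m F) F₀ ζ P) : Cfsg.Geo.IsMaximalIn (Cfsg.spGL m F) (Cfsg.Geo.subfieldSubgroup F₀ P ⊓ Cfsg.spGL m F) := by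
  have h0 := H09.isAltF_spForm (l := Fin m) (F := F)
  have hz : (H09.spForm (Fin m) F).σ ζ = 1 * ζ := by simp [h0.σ_eq]
  rw [H10.spGL_eq_E, H10.scale_E_map_toGL _ hζ (Or.inl rfl) hz]
  refine H10.isMaximalIn_subfield (H10.ratS_of (fun _ h => h) (fun u v hu hv => ?_)
    (fun u _ => by simp) (fun a _ => by simp [h0.T_eq]) fun x _ _ => ⟨0, F₀.zero_mem, by simp⟩)
    (H10.rSing_of_Q fun x _ => by simp) (by simp; omega) (H10.finrank_eq_of_card hcard ▸ hr)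
    (fun t _ => ?_) (Or.inl ⟨1, F₀.one_mem, one_ne_zero, by simp [h0.T_eq]⟩)
  · simpa [H09.sympForm_eq] using hP u v hu hv
  by_cases h2 : (2 : F) = 0
  · obtain ⟨a, rfl⟩ := H10.chi_eq_one_iff.1 (H10.chi_eq_one_of_two_eq_zero h2 t)
    exact Or.inr ⟨a, 1, F₀.one_mem, by simp [h0.T_eq], by simp [h0.σ_eq]⟩
  · refine Or.inl ⟨t / 2, ?_⟩
    simp only [H10.Form.scale_ε, H10.Form.scale_σ, h0.σ_eq, H10.Form.ε_eq_of_isAltF h0]
    field_simp
    ring

theorem orth {F : Type*} [Field F] [Fintype F] {m : ℕ} (hm : 3 ≤ m) (heven : ¬ Odd (Fintype.card F)) (Q : (Fin m ⊕ Fin m → F) → F) (hQ : Cfsg.Geo.IsNondegenerateQuadraticForm Q) (hpol : ∀ u v, QuadraticMap.polar Q u v = Cfsg.sympForm m F u v) : Cfsg.Geo.IsMaximalIn (Cfsg.spGL m F) (Cfsg.Geo.quadSimilarityGroup Q ⊓ Cfsg.spGL m F) := by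
  obtain ⟨Q, rfl, _⟩ := H10.exists_ofQuad hQ
  have h0 := H10.Form.isQuad_ofQuad Q
  have h2 : (2 : F) = 0 := by
    by_contra h
    exact heven (Nat.card_eq_fintype_card (α := F) ▸ H10.odd_card_iff.2 h)
  have hB : ∀ x y, (H10.Form.ofQuad Q).B x y = (H09.spForm (Fin m) F).B x y := fun x y => by
    rw [H10.Form.ofQuad_B, hpol, H09.sympForm_eq, H09.spForm_B]
  obtain ⟨e, f, hyp⟩ := h0.exists_hyp_of_three_le (by simp; omega)
  have h3 : ∀ k : (H09.spForm (Fin m) F).Isom, (H09.spForm (Fin m) F).toGL k ∈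
      Cfsg.Geo.quadSimilarityGroup Q ↔ ∀ x, Q (k.1 x) = Q x := fun k => by
    refine ⟨fun ⟨c, hc⟩ x => ?_, fun h => ⟨1, fun x => by simp [H10.toGL_mulVec, h]⟩⟩
    simp only [H10.toGL_mulVec] at hc
    have h4 := H10.Form.Isom.B_map k e f
    rw [← hB, ← hB, hyp.Bef] at h4
    have h5 := hyp.Bef
    simp only [H10.Form.ofQuad_B, QuadraticMap.polar, ← map_add, hc] at h4 h5
    have h6 : (c : F) = 1 := by linear_combination h4 - c * h5
    rw [hc, h6, one_mul]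
  have hE := H10.Form.E_eq_top_of_isAltF (H09.isAltF_spForm (l := Fin m) (F := F))
  rw [H10.spGL_eq_E]
  refine H10.isMaximalIn_map _ (fun h => ?_) fun M hM g hg _ hg' => ?_
  · obtain ⟨k, hk⟩ := (H09.spForm (Fin m) F).witt_vec (u := e) (v := e + f) hyp.e_ne_zero
      (fun h => by
        have := congrArg ((H10.Form.ofQuad Q).B e) h
        rw [map_add, hyp.Bee, hyp.Bef] at this
        simp at this) rfl
    have h4 := (h3 k).1 (h (hE ▸ Subgroup.mem_top k)) e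
    have h5 := h0.Q_add e f
    rw [hyp.Qf, hyp.Bef, ← hk, H10.Form.ofQuad_Q, H10.Form.ofQuad_Q] at h5
    exact one_ne_zero (α := F) (by linear_combination h4 - h5)
  · exact le_top.trans (H10.Form.eq_top_of_orth H09.isAltF_spForm h2 h0 hB (by simp; omega)
      (fun k hk => hM ⟨hE ▸ Subgroup.mem_top k,
        (h3 k).2 hk⟩) hg fun h => hg' ((h3 g).2 h)).ge

end H10.SpL
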