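import Mathlib
import Cfsg.Agent.H10.SfB
import Cfsg.Agent.H10.SpL

/-! # Geometric maximal subgroups of `Sp_4(q)`: `isMaximalIn_ratP`, `SpL.dec2`, `SpL.orth2`, `SpL.subf2` -/

namespace H10
open Module
namespace Form
variable {F V : Type*} [Field F] [AddCommGroup V] [Module F V] {φ : Form F V}
  [φ.Nondeg] [FiniteDimensional F V]

theorem eq_top_of_orth3 [Finite F] (h : H09.IsAltF φ) {M : Subgroup φ.Isom} (h2 : (2 : F) = 0) {ψ : Form F V} [ψ.Nondeg] (hψ : ψ.IsQuad)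
    (hB : ∀ x y, ψ.B x y = φ.B x y) (hn : 3 ≤ finrank F V)
    (hM : ∀ k : φ.Isom, (∀ x, ψ.Q (k.1 x) = ψ.Q x) → k ∈ M) {g : φ.Isom} (hg : g ∈ M)
    (hg' : ¬ ∀ x, ψ.Q (g.1 x) = ψ.Q x) : M = ⊤ := by
  have h1 : ∀ u v, u ≠ 0 → v ≠ 0 → ψ.Q u = ψ.Q v → ∃ k ∈ M, k.1 u = v := fun u v hu hv hQ => by
    obtain ⟨k, hk⟩ := ψ.witt_vec hu hv hQ
    exact ⟨⟨k.1, fun x y => by simp [← hB], fun x => by simp [h.Q_eq]⟩, hM _ k.2.Q, hk⟩
  obtain ⟨e, he0, he, he'⟩ : ∃ e, e ≠ 0 ∧ ψ.Q e = 0 ∧ ψ.Q (g.1 e) ≠ 0 := by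
    by_contra h0
    push Not at h0
    let A : Submodule F V :=
      { carrier := {x | ψ.Q (g.1 x) = ψ.Q x}
        zero_mem' := by simp
        add_mem' := fun {x y} hx hy => by simp_all [hψ.Q_add]
        smul_mem' := fun c x hx => by simp_all [hψ.Q_smul] }
    obtain ⟨e, f, hyp⟩ := hψ.exists_hyp_of_three_le hn
    exact hg' fun x => le_of_sing_mem (A := A) (W := ⊤) hyp trivial trivial
      (fun w _ hw0 hw => (h0 w hw0 hw).trans hw.symm) Submodule.mem_top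
  have h3 : φ.quasi e (ψ.Q (g.1 e))⁻¹ ∈ M := by
    have := M.mul_mem (M.mul_mem (M.inv_mem hg) (hM (φ.quasi (g.1 e) (ψ.Q (g.1 e))⁻¹) fun x => by
      rw [quasi_apply_alt h, hψ.Q_add, hψ.Q_smul, map_smul, hB, B_swap_of_isAltF h x]
      rw [smul_eq_mul]
      field_simp
      ring)) (M.inv_mem (M.inv_mem hg))
    rwa [φ.quasi_conj _ (quasi_cond_alt h _ _), Isom.inv_apply_apply] at this
  have h4 : SFull M e := fun c => by
    by_cases hc : c = 0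
    · have := sFull_zero h (M := M) 1
      rwa [← zero_smul F e, quasi_smul_alt h, zero_mul, zero_mul, ← hc] at this
    obtain ⟨a, ha⟩ := chi_eq_one_iff.1 (chi_eq_one_of_two_eq_zero h2 (c * ψ.Q (g.1 e)))
    have ha0 : a ≠ 0 := by rintro rfl; simp [hc, he'] at ha
    obtain ⟨k, hk, hk'⟩ := h1 e (a • e) he0 (smul_ne_zero ha0 he0) (by simp [hψ.Q_smul, he])
    have := M.mul_mem (M.mul_mem hk h3) (M.inv_mem hk)
    rwa [φ.quasi_conj _ (quasi_cond_alt h _ _), hk', quasi_smul_alt h, ← ha,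
      mul_inv_cancel_right₀ he'] at this
  obtain ⟨f, hf⟩ := ψ.exists_hyp he he0
  obtain ⟨k, hk, rfl⟩ := h1 e f he0 hf.f_ne_zero (he.trans hf.Qf.symm)
  refine eq_top_of_sFull h fun v => ?_
  by_cases hv : v = 0
  · exact hv ▸ sFull_zero h
  obtain ⟨k', hk', h5⟩ := h1 (e + ψ.Q v • k.1 e) v
    (fun h0 => by simpa [hf.Bff, hf.Bef] using congrArg (ψ.B · (k.1 e)) h0) hv
    (by simp [hψ.Q_add, hψ.Q_smul, he, hf.Qf, hf.Bef])
  exact h5 ▸ (h4.add_smul h (h4.map h hk) (by simp [← hB, hf.Bef]) _).map h hk'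

end Form

open Matrix Cfsg Cfsg.Geo in
theorem isMaximalIn_ratP {ι : Type} [Fintype ι] [DecidableEq ι] {F : Type*} [Field F] {K : Subfield F} {P : GL ι F}
    [Finite F] {φ : Form F (ι → F)} [φ.Nondeg] (h : φ.RatS K (ratL K P)) (hσ : ∀ a, φ.σ a = a)
    (h1 : φ.RatP K (ratL K P) ⊤ → ∃ p ∈ ratL K P, ∃ w s, p ≠ 0 ∧ φ.Q p = 0 ∧ φ.B p w = 0 ∧ φ.T s = φ.Q w ∧
      ∃ x ∈ ratL K P, (φ.siegel p w s).1 x ∉ ratL K P)
    (h2 : ∀ M (h : φ.RatP K (ratL K P) M), φ.E ≤ M ∨ M ≤ h.rt) :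
    IsMaximalIn (φ.E.map φ.toGL) (subfieldSubgroup K P ⊓ φ.E.map φ.toGL) := by
  have t : φ.RatP K (ratL K P) ⊤ := ⟨h, hσ, fun _ _ _ _ _ _ _ _ _ => trivial⟩
  have e : ∀ g, φ.toGL g ∈ subfieldSubgroup K P ↔ g ∈ t.rt := fun g => by
    simp only [mem_subfieldSubgroup_iff, toGL_mulVec]; rfl
  refine isMaximalIn_map _ (fun h0 => ?_) fun M hM g hg _ hg' => ?_
  · obtain ⟨p, hp, w, s, p0, a, b, c, x, hx, d⟩ := h1 t
    exact d (t.map_of_fix ((e _).1 (h0 (φ.siegel_mem_E a b c))) hp p0 (Form.siegel_apply_self a b c) x hx)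
  · exact (h2 M ⟨h, hσ, fun p hp w hw s hs a b c => hM ⟨φ.siegel_mem_E a b c, (e _).2 (t.sg_rt hp hw hs a b c)⟩⟩).resolve_right
      fun h0 => hg' ((e g).2 (h0 hg))

end H10

namespace H10.SpL
open Cfsg

theorem dec2 {F : Type*} [Field F] [Fintype F] {m : ℕ} {t : ℕ} (k : ℕ) (D : Fin t → Submodule F (Fin m ⊕ Fin m → F)) (hD : Cfsg.Geo.IsNondegenerateMDecomposition (Cfsg.sympForm m F) k D) (hex : ¬ (k = 2 ∧ Fintype.card F = 2)) : Cfsg.Geo.IsMaximalIn (Cfsg.spGL m F) (Cfsg.Geo.decompositionStabilizer D ⊓ Cfsg.spGL m F) := by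
  have h0 := H09.isAltF_spForm (l := Fin m) (F := F)
  have h1 : (H09.spForm (Fin m) F).ODec D := H10.oDec_of (fun x y => Or.inl (H09.sympForm_eq _ _ _).symm)
    (fun x y => by simp only [H09.sympForm_eq]; exact (H09.spForm (Fin m) F).B_eq_zero_comm) hD
  have ht := hD.decomp.two_le
  have hk := hD.decomp.pos
  have : Nonempty (Fin t) := ⟨⟨0, by omega⟩⟩
  have h2 : ∀ i, ∃ u ∈ D i, u ≠ 0 := fun i => Submodule.exists_mem_ne_zero_of_ne_bot fun h => by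
    have := hD.decomp.finrank_eq i
    rw [h, finrank_bot] at this
    omega
  rw [H10.spGL_eq_E]
  refine H10.isMaximalIn_map _ ?_ fun M hM g hg _ hg' => ?_
  · obtain ⟨u, hu, hu0⟩ := h2 ⟨0, by omega⟩
    obtain ⟨v, hv, hv0⟩ := h2 ⟨1, by omega⟩
    rw [H10.comap_decompositionStabilizer]
    intro h3
    have h4 : ∀ i, u + v ∉ D i := fun i hi => by
      by_cases h5 : i = ⟨0, by omega⟩
      · exact hv0 (h1.eq_zero_of_mem (by simp) ((add_mem_cancel_left hu).1 (h5 ▸ hi)) hv)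
      · refine hu0 (h1.nondeg _ u hu fun y hy => (H09.spForm (Fin m) F).B_symm_zero ?_)
        have := h1.orth _ i (Ne.symm h5) hi y hy
        rwa [map_add, h1.orth _ _ (by simp) hv y hy, add_zero] at this
    obtain ⟨k, hk'⟩ := (H09.spForm (Fin m) F).witt_vec hu0 (v := u + v) (fun h => h4 ⟨0, by omega⟩ (h ▸ zero_mem _)) rfl
    obtain ⟨σ, hσ⟩ := h3 (H10.Form.E_eq_top_of_isAltF h0 ▸ Subgroup.mem_top k)
    exact h4 _ (hk' ▸ (hσ _).le (Submodule.mem_map_of_mem hu))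
  rw [H10.comap_decompositionStabilizer, H10.Form.E_eq_top_of_isAltF h0, top_inf_eq] at hM
  refine le_top.trans (h1.eq_top_alt h0 hD.decomp.finrank_eq hk ?_ hM hg
    fun h => hg' (H10.toGL_mem_decompositionStabilizer.2 h)).ge
  by_contra h3
  push Not at h3
  have := (h1.nondeg ⟨0, by omega⟩).nondeg
  obtain ⟨l, hl⟩ := H09.even_finrank_of_alt (h0.restrict (D ⟨0, _⟩)).bilin_nondeg
    (h0.restrict _).bilin_alt
  rw [hD.decomp.finrank_eq] at hl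
  classical
  refine hex ⟨by omega, ?_⟩
  rw [← Finset.card_univ, Finset.card_eq_two]
  refine ⟨0, 1, zero_ne_one, Finset.ext fun c => ?_⟩
  have := h3.2 c
  simp only [Finset.mem_univ, Finset.mem_insert, Finset.mem_singleton, true_iff]
  tauto

theorem subf2 {F : Type*} [Field F] [Fintype F] {m : ℕ} (hm : 2 ≤ m) (F₀ : Subfield F) (r : ℕ) (hr : r.Prime) (hcard : Fintype.card F = Nat.card F₀ ^ r) (P : Matrix.GeneralLinearGroup (Fin m ⊕ Fin m) F) (ζ : F) (hζ : ζ ≠ 0) (hP : Cfsg.Geo.IsFormRationalStructure (Cfsg.sympForm m F) F₀ ζ P) : Cfsg.Geo.IsMaximalIn (Cfsg.spGL m F) (Cfsg.Geo.subfieldSubgroup F₀ P ⊓ Cfsg.spGL m F) := by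
  have h0 := H09.isAltF_spForm (l := Fin m) (F := F)
  have hz : (H09.spForm (Fin m) F).σ ζ = 1 * ζ := by simp [h0.σ_eq]
  rw [H10.spGL_eq_E, H10.scale_E_map_toGL _ hζ (Or.inl rfl) hz]
  have ha : H09.IsAltF ((H09.spForm (Fin m) F).scale hζ (Or.inl rfl) hz) :=
    ⟨fun _ => rfl, fun x => by simp, by ext; simp [h0.T_eq]⟩
  have hK : (Module.finrank F₀ F).Prime := H10.finrank_eq_of_card hcard ▸ hr
  refine H10.isMaximalIn_ratP (H10.ratS_of (fun _ h => h) (fun u v hu hv => ?_)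
    (fun u _ => by simp) (fun a _ => by simp [h0.T_eq]) fun x _ _ => ⟨0, F₀.zero_mem, by simp⟩) ha.σ_eq
    (fun h => ?_) fun M h => h.alt ha (by simp; omega) hK
  · simpa [H09.sympForm_eq] using hP u v hu hv
  obtain ⟨c, hc⟩ := H10.exists_not_mem_of_prime hK
  obtain ⟨p, hp, p0⟩ := h.ne0 (by simp; omega)
  obtain ⟨f, hf, hyp⟩ := h.rat.exists_partner hp (ha.Q_eq p) p0
  refine ⟨p, hp, 0, c, p0, ha.Q_eq p, by simp, by simp [ha.T_eq], f, hf, fun e => hc (h.coef hp p0 ?_)⟩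
  simpa [H10.Form.sg_alt ha, hyp.Bef] using sub_mem e hf

theorem orth2 {F : Type*} [Field F] [Fintype F] {m : ℕ} (hm : 2 ≤ m) (heven : ¬ Odd (Fintype.card F)) (Q : (Fin m ⊕ Fin m → F) → F) (hQ : Cfsg.Geo.IsNondegenerateQuadraticForm Q) (hpol : ∀ u v, QuadraticMap.polar Q u v = Cfsg.sympForm m F u v) : Cfsg.Geo.IsMaximalIn (Cfsg.spGL m F) (Cfsg.Geo.quadSimilarityGroup Q ⊓ Cfsg.spGL m F) := by
  obtain ⟨Q, rfl, _⟩ := H10.exists_ofQuad hQ
  have h0 := H10.Form.isQuad_ofQuad Q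
  have h2 : (2 : F) = 0 := by
    by_contra h
    exact heven (Nat.card_eq_fintype_card (α := F) ▸ H10.odd_card_iff.2 h)
  have hB : ∀ x y, (H10.Form.ofQuad Q).B x y = (H09.spForm (Fin m) F).B x y := fun x y => by
    rw [H10.Form.ofQuad_B, hpol, H09.sympForm_eq, H09.spForm_B]
  obtain ⟨e, f, hyp⟩ := h0.exists_hyp_of_three_le (by simp; omega)
  have h3 : ∀ k : (H09.spForm (Fin m) F).Isom, (H09.spForm (Fin m) F).toGL k ∈
      Cfsg.Geo.quadSimilarityGroup Q ↔ ∀ x, Q (k.1 x) = Q x := fun k => by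
    refine ⟨fun ⟨c, hc⟩ x => ?_, fun h => ⟨1, fun x => by simp [H10.toGL_mulVec, h]⟩⟩
    simp only [H10.toGL_mulVec] at hc
    have h4 := H10.Form.Isom.B_map k e f
    rw [← hB, ← hB, hyp.Bef] at h4
    have h5 := hyp.Bef
    simp only [H10.Form.ofQuad_B, QuadraticMap.polar, ← map_add, hc] at h4 h5
    have h6 : (c : F) = 1 := by linear_combination h4 - c * h5
    rw [hc, h6, one_mul]
  have hE := H10.Form.E_eq_top_of_isAltF (H09.isAltF_spForm (l := Fin m) (F := F))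
  rw [H10.spGL_eq_E]
  refine H10.isMaximalIn_map _ (fun h => ?_) fun M hM g hg _ hg' => ?_
  · obtain ⟨k, hk⟩ := (H09.spForm (Fin m) F).witt_vec (u := e) (v := e + f) hyp.e_ne_zero
      (fun h => by
        have := congrArg ((H10.Form.ofQuad Q).B e) h
        rw [map_add, hyp.Bee, hyp.Bef] at this
        simp at this) rfl
    have h4 := (h3 k).1 (h (hE ▸ Subgroup.mem_top k)) e
    have h5 := h0.Q_add e f
    rw [hyp.Qf, hyp.Bef, ← hk, H10.Form.ofQuad_Q, H10.Form.ofQuad_Q] at h5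
    exact one_ne_zero (α := F) (by linear_combination h4 - h5)
  · exact le_top.trans (H10.Form.eq_top_of_orth3 H09.isAltF_spForm h2 h0 hB (by simp; omega)
      (fun k hk => hM ⟨hE ▸ Subgroup.mem_top k,
        (h3 k).2 hk⟩) hg fun h => hg' ((h3 g).2 h)).ge

end H10.SpL
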