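import Mathlib
import Cfsg.Agent.H10.SpM

/-!
# Overgroups of `Ω_n(K)` in `Ω_n(F)`, `n ≥ 7`
* `RatP.quad`, `isMaximalIn_subfield_quad7`
-/

namespace H10

open Module

namespace Form
variable {F V : Type*} [Field F] [AddCommGroup V] [Module F V] {φ : Form F V}
  [φ.Nondeg] [FiniteDimensional F V] [Finite F]

omit [Finite F] in
theorem sg_q (hq : φ.IsQuad) {p w : V} (h1 : φ.Q p = 0) (h2 : φ.Q w = 0) (h : φ.B p w = 0) (x : V) :
    (φ.siegel p w 0).1 x = x + φ.B w x • p - φ.B p x • w := by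
  rw [φ.siegel_apply h1 h (by simp [h2]), hq.ε_eq]; module

namespace RatP
variable {K : Subfield F} {L : Submodule K V} {M : Subgroup φ.Isom} (h : φ.RatP K L M) {g k : φ.Isom} {p u z w : V} {c d : F}
  (hq : φ.IsQuad) (hs : φ.RSing K L) (hn : 7 ≤ finrank F V)
include h

omit [Finite F] in
theorem ext' (hp : φ.Q p = 0) (h1 : InA M p u) (hz : z ∈ L) (hw : w ∈ L)
    (hQ : φ.Q z = 0) (h2 : φ.B z w = 0) (h3 : φ.B z p = 0) (h4 : φ.B w p = 0) (h5 : φ.B z u = 0) :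
    φ.siegel p (φ.B w u • z) 0 ∈ M := by
  obtain ⟨-, s, h6, h7⟩ := h.inA hz hw hQ h2
  exact extract hp h1 hQ h2 h6 h7 h3 h4 h5

theorem sep2 (hp : p ∈ L) (hz : z ∈ L) (hu : u ∈ L) (h1 : u ∉ Submodule.span F {p, z}) :
    ∃ w ∈ L, φ.B w p = 0 ∧ φ.B w z = 0 ∧ φ.B w u = 1 :=
  (h.rat.exists_sep hu h1).imp fun _ a => ⟨a.1, a.2.1 p hp (Submodule.subset_span (by simp)),
    a.2.1 z hz (Submodule.subset_span (by simp)), a.2.2⟩

theorem mv0 (hp : p ∈ L) (hu : u ∈ L) (hz : z ∈ L) (h1 : φ.Q p = 0) (h2 : φ.Q u = 0) (h3 : φ.Q z = 0)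
    (h4 : φ.B p u = 0) (h5 : φ.B p z = 0) (h8 : φ.B z u = 0) (h6 : u ∉ Submodule.span F {p, z})
    (h7 : φ.siegel p (c • u) 0 ∈ M) : φ.siegel p (c • z) 0 ∈ M := by
  obtain ⟨w, a, b, d, e⟩ := h.sep2 hp hz hu h6
  simpa [e] using h.ext' h1 (RatN.inA_of h2 h4 h7) hz a h3 (φ.B_symm_zero d) (φ.B_symm_zero h5) b (by simp [h8])

include hs hn

theorem hyp2 (hp : p ∈ L) (hz : z ∈ L) : ∃ e ∈ L, ∃ f ∈ L, φ.IsHyp e f ∧ (φ.B p e = 0 ∧ φ.B p f = 0 ∧ φ.B e p = 0 ∧ φ.B f p = 0) ∧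
    (φ.B z e = 0 ∧ φ.B z f = 0 ∧ φ.B e z = 0 ∧ φ.B f z = 0) ∧ e ∉ Submodule.span F {p, z} ∧ e ∉ F ∙ p := by
  obtain ⟨e, h1, f, h2, h3, -, h4⟩ := h.rat.exists_hyp hs [] [p, z] (by simp) (by simp [hp, hz]) (by simpa)
  obtain ⟨a, b⟩ := h4 p (by simp)
  obtain ⟨c, d⟩ := h4 z (by simp)
  have : e ∉ Submodule.span F {p, z} := fun e => by
    obtain ⟨i, j, rfl⟩ := Submodule.mem_span_pair.1 e
    simpa [b, d] using h3.Bef
  exact ⟨e, h1, f, h2, h3, ⟨a, b, φ.B_symm_zero a, φ.B_symm_zero b⟩, ⟨c, d, φ.B_symm_zero c, φ.B_symm_zero d⟩, this,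
    fun e => this (Submodule.span_mono (by simp) e)⟩

theorem mv (hp : p ∈ L) (hu : u ∈ L) (hz : z ∈ L) (h1 : φ.Q p = 0) (h2 : φ.Q u = 0) (h3 : φ.Q z = 0)
    (h4 : φ.B p u = 0) (h5 : φ.B p z = 0) (h6 : u ∉ F ∙ p) (h7 : φ.siegel p (c • u) 0 ∈ M) : φ.siegel p (c • z) 0 ∈ M := by
  have H : ∀ u ∈ L, ∀ z ∈ L, φ.Q u = 0 → φ.Q z = 0 → φ.B p u = 0 → φ.B p z = 0 → φ.B z u = 0 → u ∉ F ∙ p →
      φ.siegel p (c • u) 0 ∈ M → φ.siegel p (c • z) 0 ∈ M := fun u hu z hz h2 h3 h4 h5 h8 h6 h7 => by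
    by_cases i : u ∈ Submodule.span F {p, z}; swap
    · exact h.mv0 hp hu hz h1 h2 h3 h4 h5 h8 i h7
    obtain ⟨e, he, f, hf, hyp, a, b, j, -⟩ := h.hyp2 hs hn hp hz
    obtain ⟨s, t, rfl⟩ := Submodule.mem_span_pair.1 i
    refine h.mv0 hp he hz h1 hyp.Qe h3 a.1 h5 b.1 j (h.mv0 hp hu he h1 h2 hyp.Qe h4 a.1 (by simp [a, b]) (fun m => h6 ?_) h7)
    obtain ⟨s', t', m⟩ := Submodule.mem_span_pair.1 m
    obtain rfl : t' = 0 := by simpa [a, b, hyp.Bfe, φ.ε_ne_zero] using congrArg (φ.B f) m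
    exact Submodule.mem_span_singleton.2 ⟨s', by simpa using m⟩
  obtain ⟨e, he, a, b, i⟩ := h.rat.exists_sing hs [p, u, z] (by simp [hp, hu, hz]) hp (by simpa)
  exact H e he z hz a h3 (i p (by simp)) h5 (i z (by simp)) b
    (H u hu e he h2 a h4 (i p (by simp)) (φ.B_symm_zero (i u (by simp))) h6 h7)

theorem cpair (hp : p ∈ L) (hu : u ∈ L) (h1 : φ.Q p = 0) (hp0 : p ≠ 0) (h2 : φ.Q u = 0) (h4 : φ.B p u = 0)
    (h6 : u ∉ F ∙ p) (h7 : φ.siegel p (c • u) 0 ∈ M) : RatN.Coef K L M c := by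
  intro y hy z hz h8 h9 h10
  obtain ⟨e, he, f, hf, hyp, a, b, i, j⟩ := h.hyp2 hs hn hp hy
  have h13 := h.mv hs hn hp hu he h1 h2 hyp.Qe h4 a.1 h6 h7
  rw [siegel_swap h1 hyp.Qe a.1] at h13
  have h14 := h.mv hs hn he hp hy hyp.Qe h1 h8 a.2.2.1 b.2.2.1 (not_mem_span_singleton_symm hp0 j) h13
  rw [siegel_swap hyp.Qe h8 b.2.2.1] at h14
  simpa using h.mv hs hn hy he hz h8 hyp.Qe h9 b.1 h10 (fun e => i (Submodule.span_mono (by simp) e)) h14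

/-- the coefficient algebra -/
def cAlg : Subalgebra K F where
  carrier := {c | RatN.Coef K L M c}
  mul_mem' {c d} hc hd p hp z hz h1 h2 h3 := by
    obtain ⟨e, he, f, hf, hyp, a, b, -⟩ := h.hyp2 hs hn hp hz
    simpa [hyp.Bef, h.σ] using extract h1 (RatN.inA_of hyp.Qf a.2.1 (hc p hp f hf h1 hyp.Qf a.2.1))
      h2 (w := d • e) (by simp [b]) (by simp [φ.Q_smul_of_sing hyp.Qe])
      (hd z hz e he h2 hyp.Qe b.1) (φ.B_symm_zero h3) (by simp [a]) (by simp [b])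
  add_mem' {c d} hc hd p hp z hz h1 h2 h3 := by
    have := M.mul_mem (hc p hp z hz h1 h2 h3) (hd p hp z hz h1 h2 h3)
    rw [φ.siegel_mul h1 (by simp [h3]) (by simp [φ.Q_smul_of_sing h2]) (by simp [h3])
      (by simp [φ.Q_smul_of_sing h2])] at this
    simpa [φ.B_self_eq_zero h2, add_smul] using this
  algebraMap_mem' c p hp z hz h1 h2 h3 :=
    h.mem p hp _ (RatS.smul_mem c.2 hz) 0 K.zero_mem h1 (by simp [h3]) (by simp [φ.Q_smul_of_sing h2])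

include hq

theorem E_le_c (hc : ∀ c, RatN.Coef K L M c) : φ.E ≤ M := by
  have key : ∀ p ∈ L, ∀ f ∈ L, φ.IsHyp p f → φ.Full M p := fun p hp f hf hyp => by
    have hX := hq.siegel_zero_mem hyp.Qe M
    refine full_of_le_sgSub (hp := hyp.Qe) (hX := hX) fun y hy => ?_
    have : y - φ.B p y • f ∈ sgSub M hyp.Qe hX := Submodule.mem_comap.1 <|
      h.rat.mem_of_le (A := (sgSub M hyp.Qe hX).comap (LinearMap.id - (φ.B p).smulRight f))
      (fun x hx => h.rat.sing_induction hs hn hp (P := (· ∈ sgSub M hyp.Qe hX)) (fun z hz h2 h3 => ⟨h3, fun c => ⟨0,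
          by simp [φ.Q_smul_of_sing h2], hc c p hp z hz hyp.Qe h2 h3⟩⟩) (fun _ _ => sub_mem)
        (L.sub_mem hx (RatS.smul_mem (h.rat.B_mem _ hp _ hx) hf)) (by simp [hyp.Bef])) y
    rwa [φ.mem_perp_singleton.1 hy, zero_smul, sub_zero] at this
  obtain ⟨e, he, f, hf, hyp, -⟩ := h.hyp2 hs hn L.zero_mem L.zero_mem
  exact E_le_of_full (key e he f hf hyp) hyp.Qe (key f hf _ (RatS.smul_mem h.rat.ε_mem he) hyp.symm)
    hyp.Qf (by simp [hyp.Bef])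

variable (hc : ∀ c, RatN.Coef K L M c → c ∈ K)
include hc

theorem hUq (p) (hp : p ∈ L) (hQ : φ.Q p = 0) (p0 : p ≠ 0) (u) (hu : InA M p u) : ∃ d : F, u + d • p ∈ L := by
  refine h.rat.exists_add_mem hp hQ fun x hx hx' => ?_
  rw [hq.B_comm]
  refine h.rat.sing_induction hs hn hp (P := fun x => φ.B x u ∈ K) (fun z hz h1 h2 => ?_)
    (fun x y h1 h2 => by simpa using K.sub_mem h1 h2) hx hx'
  by_cases i : z ∈ F ∙ p
  · obtain ⟨c, rfl⟩ := Submodule.mem_span_singleton.1 i; simp [hu.1]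
  obtain ⟨w, hw, f, hf, hyp, a, b, -⟩ := h.hyp2 hs hn hp hz
  have h6 := hu.map hQ (h.mem z hz w hw 0 K.zero_mem h1 b.1 (by simp [hyp.Qe]))
  rw [siegel_apply_of_orth h1 b.1 (by simp [hyp.Qe]) (φ.B_symm_zero h2) a.2.2.1, sg_q hq h1 hyp.Qe b.1] at h6
  simpa [b, hyp.Bfe, hq.ε_eq] using hc _ (h.cpair hs hn hp hz hQ p0 h1 h2 i (h.ext' hQ (h6.sub hQ hu) hz hf h1 b.2.1
    (φ.B_symm_zero h2) a.2.2.2 (by simp [b, φ.B_self_eq_zero h1])))

theorem ptq (hk : k ∈ M) (hp : p ∈ L) (hQ : φ.Q p = 0) (p0 : p ≠ 0) (c0 : c ≠ 0) (e : c • k.1 p ∈ L) : k ∈ h.rt := by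
  obtain ⟨z, a, _, -, i, j, -, -, m⟩ := h.hyp2 hs hn hp hp
  refine h.step (fun p hp hQ p0 c c0 e u hu h0 => ?_) hp hQ p0 c0 e a i.Qe j.1 m
  refine h.rat.sing_induction hs hn hp (P := fun u => c • k.1 u ∈ L) (fun z hz h1 h2 => ?_)
    (fun x y h1 h2 => by simpa [smul_sub] using L.sub_mem h1 h2) hu h0
  by_cases i : z ∈ F ∙ p
  · obtain ⟨a, rfl⟩ := Submodule.mem_span_singleton.1 i
    rw [map_smul, smul_comm]; exact RatS.smul_mem (h.coef hp p0 hz) e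
  obtain ⟨w, hw, f, hf, hyp, a, b, j, -⟩ := h.hyp2 hs hn hp hz
  obtain ⟨c2, H⟩ := h.nbr (h.hUq hq hs hn hc) hk hp hQ p0 c0 e ⟨w, hw, f, hf, a.1, a.2.1, hyp.Bef⟩
  obtain ⟨d, hd⟩ := H z hz h2
  obtain ⟨d', hd'⟩ := H w hw a.1
  have t1 := siegel_conj_mem hk h1 b.1 (by simp [hyp.Qe]) (h.mem z hz w hw 0 K.zero_mem h1 b.1 (by simp [hyp.Qe]))
  have q1 : φ.Q (k.1 p) = 0 := by simpa
  have q2 : φ.Q (k.1 z) = 0 := by simpa
  have q3 : φ.Q (k.1 w) = 0 := by simpa using hyp.Qe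
  have b1 : φ.B (k.1 p) (k.1 z) = 0 := by simpa
  have b2 : φ.B (k.1 p) (k.1 w) = 0 := by simpa using a.1
  have b3 : φ.B (k.1 z) (k.1 w) = 0 := by simpa using b.1
  have b4 : φ.B (k.1 f) (k.1 w) = 1 := by simpa [hq.ε_eq] using hyp.Bfe
  have b5 : φ.B (k.1 f) (k.1 p) = 0 := by simpa using a.2.2.2
  have b6 : φ.B (k.1 f) (k.1 z) = 0 := by simpa using b.2.2.2
  have p1 : k.1 p ≠ 0 := by simpa
  generalize k.1 p = P at *
  generalize k.1 z = Z at *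
  generalize k.1 w = W at *
  have hB := fun x y (i : φ.B x y = 0) => φ.B_symm_zero i
  have S := fun x (i : φ.Q x = 0) => φ.B_self_eq_zero i
  have r1 : φ.Q (c • Z + d • c • P) = 0 := by simp [hq.Q_add, hq.Q_smul, q1, q2, hB _ _ b1]
  have r2 : φ.Q ((c * c)⁻¹ • (c • W + d' • c • P)) = 0 := by simp [hq.Q_add, hq.Q_smul, q1, q3, hB _ _ b2]
  have r3 : φ.B (c • Z + d • c • P) ((c * c)⁻¹ • (c • W + d' • c • P)) = 0 := by simp [b2, b3, hB _ _ b1, S _ q1]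
  have r4 : φ.Q ((c * c)⁻¹ • (d • (c • W + d' • c • P) - d' • (c • Z + d • c • P))) = 0 := by
    simp [sub_eq_add_neg, hq.Q_add, hq.Q_smul, q1, q2, q3, b1, hB _ _ b1, hB _ _ b2, hB _ _ b3, S _ q1]
  have r5 : φ.B (c • P) ((c * c)⁻¹ • (d • (c • W + d' • c • P) - d' • (c • Z + d • c • P))) = 0 := by simp [b1, b2, S _ q1]
  obtain ⟨t, ht⟩ := h.hUq hq hs hn hc _ e (φ.Q_smul_of_sing q1 c) (smul_ne_zero c0 p1) _ ⟨r5, 0, by rw [r4, map_zero], by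
    convert M.mul_mem (h.mem _ hd _ (RatS.smul_mem (K.inv_mem c2) hd') 0 K.zero_mem r1 r3 (by rw [r2, map_zero]))
      (M.inv_mem t1) using 1
    rw [eq_mul_inv_iff_mul_eq]
    refine Isom.ext fun x => ?_
    rw [Isom.mul_apply, sg_q hq r1 r2 r3, sg_q hq (φ.Q_smul_of_sing q1 c) r4 r5, sg_q hq q2 q3 b3]
    simp [b1, b2, b3, hB _ _ b1, hB _ _ b2, hB _ _ b3, S _ q1, S _ q2, S _ q3, hq.σ_eq]
    match_scalars <;> field_simp <;> ring⟩
  obtain ⟨y, y1, m, n, o⟩ := h.sep2 e hd hd' fun e => by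
    obtain ⟨i, j, e⟩ := Submodule.mem_span_pair.1 e
    simpa [b4, b5, b6, c0, eq_comm] using congrArg (φ.B (k.1 f)) e
  have := h.rat.B_mem _ y1 _ ht
  rw [map_add, map_smul, map_smul _ t, map_sub, map_smul, map_smul _ d', m, n, o] at this
  have := L.sub_mem hd (RatS.smul_mem (mem_of_mul_mem (b := d) (by simpa using this) (K.inv_mem c2) (by simpa)) e)
  rwa [add_sub_cancel_right] at this

theorem lemq (hg : g ∈ M) (hp : p ∈ L) (p0 : p ≠ 0) (hz : z ∈ L) (h1 : φ.Q p = 0) (h2 : φ.Q z = 0) (h3 : φ.B p z = 0)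
    (h4 : z ∉ F ∙ p) (H : ∀ w ∈ L, φ.Q w = 0 → φ.B p w = 0 → φ.B z w = 0 →
      ∃ y ∈ L, y ≠ 0 ∧ φ.Q y = 0 ∧ φ.B (g.1 p) y = 0 ∧ φ.B (g.1 w) y = 0) : g ∈ h.rt := by
  have hN : ∀ w ∈ L, φ.Q w = 0 → φ.B p w = 0 → φ.B z w = 0 → ∀ u ∈ L,
      φ.B (g.1 w) u • g.1 p - φ.B (g.1 p) u • g.1 w ∈ L := fun w hw a b c u hu => by
    obtain ⟨y, i, j, m, n, o⟩ := H w hw a b c
    have e := siegel_apply_of_orth (p := g.1 p) (w := g.1 w) (s := 0) (by simpa) (by simpa) (by simp [a]) n o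
    have := sub_mem (h.map_of_fix (h.ptq hq hs hn hc (siegel_conj_mem hg h1 b (by simp [a])
      (h.mem p hp w hw 0 K.zero_mem h1 b (by simp [a]))) i m j one_ne_zero (by rwa [e, one_smul])) i j e u hu) hu
    rw [sg_q hq (by simpa) (by simpa) (by simpa)] at this
    convert this using 1; module
  obtain ⟨w, hw, f, hf, hyp, a, b, -⟩ := h.hyp2 hs hn hp hz
  obtain ⟨f', -, a', -, b'⟩ := h.pl hp hz h4
  obtain ⟨x, hx, hx'⟩ : ∃ x ∈ L, φ.B (g.1 w) x • g.1 p - φ.B (g.1 p) x • g.1 w ∉ Submodule.span F {g.1 p, g.1 z} := by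
    by_contra! h0
    obtain ⟨v, hv⟩ := φ.exists_B_eq_one p0
    obtain ⟨i, j, h3⟩ := Submodule.mem_span_pair.1 (h.rat.mem_of_le (A := (Submodule.span F
      {g.1 p, g.1 z}).comap ((φ.B (g.1 w)).smulRight (g.1 p) - (φ.B (g.1 p)).smulRight (g.1 w))) h0 (g.1 v))
    simpa [a, b, hv, hyp.Bfe, φ.ε_ne_zero] using congrArg (φ.B (g.1 f)) h3
  obtain ⟨u, hu, h5, h6⟩ := h.rat.exists_sep (hN w hw hyp.Qe a.1 b.1 x hx) hx'
  have h7 : φ.B u (g.1 p) = 0 := by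
    simpa [hq.B_comm z f', a', b'] using h.rat.mem_of_le (A := LinearMap.ker (φ.B u ∘ₗ
      ((φ.B (g.1 z)).smulRight (g.1 p) - (φ.B (g.1 p)).smulRight (g.1 z))))
      (fun x hx => h5 _ (hN z hz h2 h3 (φ.B_self_eq_zero h2) x hx) (Submodule.mem_span_pair.2
        ⟨φ.B (g.1 z) x, -φ.B (g.1 p) x, by simp [sub_eq_add_neg]⟩)) (g.1 f')
  refine h.ptq hq hs hn hc hg hp h1 p0 (c := φ.B (g.1 w) u) (fun h0 => ?_)
    (by simpa [φ.B_symm_zero h7] using hN w hw hyp.Qe a.1 b.1 u hu)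
  simp [h7, φ.B_symm_zero h0] at h6

theorem qd_q (sq : ∀ c : F, c * c ∈ K → c ∈ K) (hp : p ∈ L) (p0 : p ≠ 0) (hz : z ∈ L) (hw : w ∈ L) (q1 : φ.Q p = 0)
    (q2 : φ.Q z = 0) (q3 : φ.Q w = 0) (b1 : φ.B p z = 0) (b2 : φ.B p w = 0) (b3 : φ.B z w = 0)
    (h1 : ∀ a b : F, a • z + b • w ∈ F ∙ p → a = 0 ∧ b = 0) : ∃ θ, h.Qd (Submodule.span F {p, z, w}) θ := by
  have hB := fun x y (i : φ.B x y = 0) => φ.B_symm_zero i
  have S := fun x (i : φ.Q x = 0) => φ.B_self_eq_zero i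
  let U : Multiplicative (K × K) → V := fun a => (a.toAdd.1 : F) • z + (a.toAdd.2 : F) • w
  have u0 : ∀ a, U a ∈ L := fun a => add_mem (RatS.smul_mem a.toAdd.1.2 hz) (RatS.smul_mem a.toAdd.2.2 hw)
  have u1 : ∀ a, φ.B p (U a) = 0 := fun a => by simp [U, b1, b2]
  have u2 : ∀ a, φ.Q (U a) = 0 := fun a => by simp [U, hq.Q_add, hq.Q_smul, q2, q3, b3]
  have u3 : ∀ a, φ.T 0 = φ.Q (U a) := fun a => by rw [u2, map_zero]
  let θ : Multiplicative (K × K) →* φ.Isom := .mk' (fun a => φ.siegel p (U a) 0) fun a b => by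
    rw [φ.siegel_mul q1 (u1 _) (u3 _) (u1 _) (u3 _)]
    congr 1
    · simp [U]; module
    · simp [U, b3, hB _ _ b3, S _ q2, S _ q3]
  have e : ∀ a x, (θ a).1 x - x = φ.B (U a) x • p - φ.B p x • U a := fun a x => by
    simp only [θ, MonoidHom.mk'_apply, sg_q hq q1 (u2 a) (u1 a)]; module
  have sp : ∀ x ∈ ({p, z, w} : Set V), x ∈ Submodule.span F {p, z, w} := fun x hx => Submodule.subset_span hx
  refine ⟨θ, fun a => h.mem p hp _ (u0 a) _ K.zero_mem q1 (u1 _) (u3 _), fun a => h.sg_rt hp (u0 a) K.zero_mem q1 (u1 _) (u3 _),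
    fun a v => e a v ▸ sub_mem (Submodule.smul_mem _ _ (sp p (by simp))) (Submodule.smul_mem _ _
      (add_mem (Submodule.smul_mem _ _ (sp z (by simp))) (Submodule.smul_mem _ _ (sp w (by simp))))),
    fun a v hv => ?_, fun a a1 g hg H => ?_⟩
  · obtain ⟨i, j, m, rfl⟩ := Submodule.mem_span_triple.1 hv
    exact sub_eq_zero.1 (by rw [e]; simp [U, b1, b2, b3, hB _ _ b1, hB _ _ b2, hB _ _ b3, S _ q1, S _ q2, S _ q3])
  have u4 : U a ∉ F ∙ p := fun e => a1 (Multiplicative.toAdd.injective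
    (Prod.ext (by simpa using (h1 _ _ e).1) (by simpa using (h1 _ _ e).2)))
  have e' : ∀ x, (g⁻¹ * θ a * g).1 x - x = (g⁻¹).1 (φ.B (U a) (g.1 x) • p - φ.B p (g.1 x) • U a) := fun x => by
    rw [← e, map_sub, Isom.inv_apply_apply]; rfl
  obtain ⟨x, i, j⟩ : ∃ x ∈ L, (g⁻¹ * θ a * g).1 x - x ≠ 0 := by
    by_contra! H
    obtain ⟨f, -, m, -, n⟩ := h.pl hp (u0 a) u4
    have : (_ : V) - _ = 0 := LinearMap.mem_ker.1 <| h.rat.mem_of_le (A := LinearMap.ker ((g⁻¹ * θ a * g).1.toLinearMap - LinearMap.id))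
      (fun x hx => LinearMap.mem_ker.2 (H x hx)) ((g⁻¹).1 f)
    exact p0 (by simpa [Isom.apply_inv_apply, m, hq.B_comm (U a), n] using (e' _).symm.trans this)
  refine (Subgroup.inv_mem_iff _).1 (h.lemq hq hs hn hc (inv_mem hg) hp p0 (u0 a) q1 (u2 a) (u1 a) u4 fun y _ _ m n =>
    ⟨_, sub_mem (h.map_of_sq sq H x i) i, j, ?_⟩)
  rw [e']
  simp [sub_eq_add_neg, hq.Q_add, hq.Q_smul, q1, u1, u2, S _ q1, hB _ _ m, hB _ _ n]

omit hc in
theorem quad (hK : (finrank K F).Prime) : φ.E ≤ M ∨ M ≤ h.rt := by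
  have := Subalgebra.isSimpleOrder_of_finrank_prime K F hK
  rcases eq_bot_or_eq_top (h.cAlg hs hn) with h0 | h0
  swap
  · exact .inl (h.E_le_c hq hs hn fun c => (h0.ge Algebra.mem_top : c ∈ h.cAlg hs hn))
  have hc : ∀ c, RatN.Coef K L M c → c ∈ K := fun c hc => by
    obtain ⟨a, rfl⟩ := Algebra.mem_bot.1 (h0.le hc)
    exact a.2
  refine .inr fun g hg => ?_
  obtain ⟨p, hp, f, hf, hyp, -⟩ := h.hyp2 hs hn L.zero_mem L.zero_mem
  obtain ⟨z, hz, f', hf', hyp', a, b, -, i⟩ := h.hyp2 hs hn hp hf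
  rcases sq_or hK with e | sq
  · refine h.lemq hq hs hn hc hg hp hyp.e_ne_zero hz hyp.Qe hyp'.Qe a.1 i fun w _ _ _ _ => ?_
    obtain ⟨s, s1, t, t1, j⟩ := h.rat.two e (g.1 p)
    obtain ⟨s', s2, t', t2, j'⟩ := h.rat.two e (g.1 w)
    obtain ⟨y, y1, _, -, m, n, -⟩ := h.rat.exists_hyp hs [s, t, s', t'] [] (by simp [*]) (by simp) (by simpa)
    exact ⟨y, y1, m.e_ne_zero, m.Qe, j y (n _ (by simp)) (n _ (by simp)), j' y (n _ (by simp)) (n _ (by simp))⟩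
  obtain ⟨w, hw, _, -, m, n, -⟩ := h.rat.exists_hyp hs [p, f, z, f'] [] (by simp [*]) (by simp) (by simpa)
  simp only [List.mem_cons, List.not_mem_nil, or_false, forall_eq_or_imp, forall_eq] at n
  obtain ⟨y, hy, y1, y2, y3⟩ := h.sep2 hf hf' hw fun e => by
    obtain ⟨i, j, rfl⟩ := Submodule.mem_span_pair.1 e
    simp [a, b, hyp.Bef, hyp'.Bef] at n
    simpa [n] using m.e_ne_zero
  have hB := fun x y (i : φ.B x y = 0) => φ.B_symm_zero i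
  have S := fun x (i : φ.Q x = 0) => φ.B_self_eq_zero i
  obtain ⟨θ, a1⟩ := h.qd_q hq hs hn hc sq hp hyp.e_ne_zero hz hw hyp.Qe hyp'.Qe m.Qe a.1 n.1 n.2.2.1 fun i j e => by
    obtain ⟨c, e⟩ := Submodule.mem_span_singleton.1 e
    obtain rfl : c = 0 := by simpa [b, n, hyp.Bfe, hq.ε_eq] using congrArg (φ.B f) e
    obtain rfl : 0 = i := by simpa [n, hyp'.Bfe, hq.ε_eq] using congrArg (φ.B f') e
    simpa [m.e_ne_zero, eq_comm] using e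
  obtain ⟨θ', a2⟩ := h.qd_q hq hs hn hc sq hf hyp.f_ne_zero hf' (sub_mem hy (RatS.smul_mem (h.rat.Q_mem y hy) hw)) hyp.Qf hyp'.Qf
    (by simp [sub_eq_add_neg, hq.Q_add, hq.Q_smul, m.Qe, y3]) b.2.1 (by simp [n, hB _ _ y1]) (by simp [n, hB _ _ y2]) fun i j e => by
    obtain ⟨c, e⟩ := Submodule.mem_span_singleton.1 e
    obtain rfl : 0 = j := by simpa [hB _ _ n.2.1, hB _ _ n.2.2.2, hq.B_comm w y, y3, S _ m.Qe] using congrArg (φ.B w) e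
    simpa [b, hyp'.Bef, eq_comm] using congrArg (φ.B z) e
  refine h.fin sq a1 a2 (fun x hx hx' => ?_) hg
  obtain ⟨s, t, r, rfl⟩ := Submodule.mem_span_triple.1 hx
  obtain ⟨s', t', r', e⟩ := Submodule.mem_span_triple.1 hx'
  obtain rfl : 0 = s := by simpa [b, n, hyp.Bfe, hq.ε_eq, S _ hyp.Qf, hB _ _ y1] using congrArg (φ.B f) e
  obtain rfl : 0 = t := by simpa [a, b, n, hyp'.Bfe, hq.ε_eq, S _ hyp'.Qf, hB _ _ y2] using congrArg (φ.B f') e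
  obtain rfl : 0 = r := by
    simpa [y1, y2, y3, hB _ _ n.2.1, hB _ _ n.2.2.2, S _ m.Qe, hq.B_comm w y, hq.B_self, hq.σ_eq, two_mul, mul_comm r']
      using congrArg (φ.B (y - φ.Q y • w)) e
  simp

end RatP
end Form

open Matrix Cfsg Cfsg.Geo in
theorem isMaximalIn_subfield_quad7 {ι : Type} [Fintype ι] [DecidableEq ι] {F : Type*} [Field F] {K : Subfield F} {P : GL ι F}
    [Fintype F] (Q : QuadraticForm F (ι → F)) [(Form.ofQuad Q).Nondeg]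
    (hn : 7 ≤ Fintype.card ι) {r : ℕ} (hr : r.Prime) (hcard : Fintype.card F = Nat.card K ^ r)
    {ζ : F} (hζ : ζ ≠ 0) (hP : IsQuadFormRationalStructure (fun v => ζ * Q v) K P) :
    IsMaximalIn (omegaGL Q) (subfieldSubgroup K P ⊓ omegaGL Q) := by
  have hz : (Form.ofQuad Q).σ ζ = 1 * ζ := by simp
  rw [omegaGL_eq_E _ (by omega), scale_E_map_toGL _ hζ (Or.inl rfl) hz]
  have h0 : ((Form.ofQuad Q).scale hζ (Or.inl rfl) hz).IsQuad :=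
    ⟨fun _ => rfl, by simp, fun a => by simp [hζ]⟩
  have h1 : ((Form.ofQuad Q).scale hζ (Or.inl rfl) hz).RatS K (ratL K P) :=
    ratS_of (fun _ h => h) (fun u v hu hv => by
      convert K.sub_mem (K.sub_mem (hP _ fun i => K.add_mem (hu i) (hv i)) (hP u hu)) (hP v hv) using 1
      change _ = ζ * Q (P.1 *ᵥ (u + v)) - _ - _
      simp only [Form.scale_B, Form.ofQuad_B, QuadraticMap.polar, mulVec_add]; ring) hP
      (fun a ha => by rwa [h0.T_eq]) fun x _ hx => ⟨_, hx, h0.T_eq _⟩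
  have hs : ((Form.ofQuad Q).scale hζ (Or.inl rfl) hz).RSing K (ratL K P) := fun W hW => by
    obtain ⟨v, h2, h3, h4⟩ := Form.IsQuad.exists_singular (φ := h1.form) ⟨fun a => Subtype.ext (h0.σ_eq a),
      Subtype.ext h0.ε_eq, fun a => Subtype.ext (h0.T_eq a)⟩ hW
    exact ⟨v, h2, h3, congrArg Subtype.val h4⟩
  have hK : (finrank K F).Prime := finrank_eq_of_card hcard ▸ hr
  have hn' : 7 ≤ finrank F (ι → F) := by simpa
  refine isMaximalIn_ratP h1 h0.σ_eq (fun h => ?_) fun M h => h.quad h0 hs hn' hK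
  obtain ⟨c, hc⟩ := exists_not_mem_of_prime hK
  obtain ⟨p, hp, f, hf, hyp, -⟩ := h.hyp2 hs hn' (zero_mem _) (zero_mem _)
  obtain ⟨z, -, f', hf', hyp', a, -⟩ := h.hyp2 hs hn' hp hf
  set φ := (Form.ofQuad Q).scale hζ (Or.inl rfl) hz
  have q := φ.Q_smul_of_sing hyp'.Qe c
  refine ⟨p, hp, c • z, 0, hyp.e_ne_zero, hyp.Qe, by simp [a], by simp [q], f', hf', fun e => hc (h.coef hp hyp.e_ne_zero ?_)⟩
  simpa [Form.sg_q h0 hyp.Qe q (by simp [a]), a, hyp'.Bef, h0.σ_eq] using sub_mem e hf'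

end H10
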