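import Mathlib
import Cfsg.Agent.H10.SfC
import Cfsg.Agent.H10.OmL

/-!
# Stabilisers of non-degenerate subspaces of dimension at least four in orthogonal groups
* `IsQuad.E_le_of_stab_nondeg4`, `isMaximalIn_nondeg4`
-/

namespace H10

open Module

namespace Form.IsQuad
variable {F V : Type*} [Field F] [AddCommGroup V] [Module F V] {φ : Form F V} [φ.Nondeg] [FiniteDimensional F V]
  (hq : φ.IsQuad) (h : φ.Std) {U : Submodule F V} (hU : φ.NondegOn U) (h4 : 4 ≤ finrank F U)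
  (hwc : ∀ A, φ.WittClosed A (φ.perp U) → ∀ x ∈ φ.perp U, x ∈ A → x ≠ 0 → φ.perp U ≤ A)
  {M : Subgroup φ.Isom} (hM : φ.E ⊓ φ.stab U ≤ M) {p a b x : V} {t g : φ.Isom}

omit [φ.Nondeg] [FiniteDimensional F V] in
include hq in
theorem two_an (h2 : ∀ c : F, c * c = c) {P : Submodule F V} (hP : 2 ≤ finrank F P) (ha : ∀ z ∈ P, φ.Q z = 0 → z = 0) :
    ∃ u ∈ P, ∃ v ∈ P, φ.Q u = 1 ∧ φ.Q v = 1 ∧ φ.B u v = 1 := by
  have H : ∀ z ∈ P, z ≠ 0 → φ.Q z = 1 := fun z i j => mul_left_cancel₀ (mt (ha z i) j) (by rw [h2, mul_one])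
  obtain ⟨u, i, j⟩ := Submodule.exists_mem_ne_zero_of_ne_bot (p := P) (by rintro rfl; simp at hP)
  obtain ⟨v, m, n⟩ : ∃ v ∈ P, v ∉ F ∙ u := by
    by_contra! e
    have : FiniteDimensional F (F ∙ u) := inferInstance
    have := (Submodule.finrank_mono (show P ≤ _ from e)).trans (finrank_span_singleton_le (F := F) u)
    omega
  have v0 : v ≠ 0 := by rintro rfl; simp at n
  have := H _ (add_mem i m) fun e => n (Submodule.mem_span_singleton.2 ⟨-1, by simp [eq_neg_of_add_eq_zero_right e]⟩)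
  rw [hq.Q_add, H u i j, H v m v0] at this
  exact ⟨u, i, v, m, H u i j, H v m v0, by linear_combination this - h2 (-1) ⟩

include hM in
theorem inA_U (hp : p ∈ U) (hQ : φ.Q p = 0) (ha : a ∈ U) (h0 : φ.B p a = 0) : InA M p a :=
  (φ.half a).elim fun s hs => ⟨h0, s, hs.1, hM ⟨φ.siegel_mem_E hQ h0 hs.1, siegel_mem_stab hQ h0 hs.1 hp (.inl ha)⟩⟩

include hq h hU h4 hwc hM

theorem E_le_of_inA (hp : p ∈ U) (p0 : p ≠ 0) (hQ : φ.Q p = 0) (hb : b ∈ φ.perp U) (b0 : b ≠ 0) (H : InA M p b) : φ.E ≤ M := by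
  have hX := hq.siegel_zero_mem hQ M
  have h5 : ∀ y ∈ U, φ.B p y = 0 → y ∈ sgSub M hQ hX := fun y hy h5 =>
    ⟨h5, fun c => (inA_U hM hp hQ (U.smul_mem c hy) (by simp [h5])).2⟩
  obtain ⟨f, hf, hyp⟩ := exists_hyp_mem hU hp p0 hQ
  have hW := hU.inf_perp hyp.nondegOn (by rw [Submodule.span_le]; rintro y (rfl | rfl) <;> assumption)
  have hW' := finrank_le_inf_perp (φ := φ) U (Submodule.span F {p, f})
  rw [hyp.finrank_span] at hW'
  have A : ∀ k : φ.Isom, k ∈ φ.stab U → ∃ k' ∈ M, k'.1 p = k.1 p ∧ ∀ x ∈ φ.perp U, k'.1 x = k.1 x := fun k hk => by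
    obtain ⟨r, hr, hr'⟩ := h.adj _ hW (by omega) k
    have h9 := φ.fix_anti (φ.perp_anti inf_le_left) hr
    exact ⟨_, hM ⟨hr', mul_mem hk (φ.stab_perp U ▸ φ.fix_le_stab _ h9)⟩, by
      rw [Isom.mul_apply, hr p fun y hy => φ.B_symm_zero (φ.mem_perp_pair.1 hy.2).1], fun x hx => by rw [Isom.mul_apply, h9 x hx]⟩
  have h8 : φ.perp U ≤ sgSub M hQ hX := by
    refine hwc _ (fun x hx hxA hx0 y hy hy0 hxy => ?_) b hb ⟨H.1, fun c => ?_⟩ b0
    · obtain ⟨k, hk, hk'⟩ := hU.perp.exists_fix_map hx hy hx0 hy0 hxy.symm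
      rw [perp_perp] at hk
      obtain ⟨k', i, j, m⟩ := A k (φ.fix_le_stab U hk)
      exact hk' ▸ m x hx ▸ map_mem_sgSub i (j.trans (hk p hp)) hxA
    by_cases c0 : c = 0
    · exact ⟨0, by simp [c0], by simpa [c0] using hX 0 (by simp)⟩
    obtain ⟨k, hk, hk'⟩ := hU.exists_fix_map hp (U.smul_mem c hp) p0 (smul_ne_zero c0 p0) (by simp [hq.Q_smul, hQ])
    obtain ⟨k', i, j, m⟩ := A k (fix_perp_le_stab _ hk)
    have := H.map hQ i
    rw [j, hk', m b hb, hk b hb] at this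
    exact (hq.σ_eq c ▸ this.of_smul hQ c0).2
  have h9 : φ.Full M p := full_of_le_sgSub (hp := hQ) (hX := hX) fun y hy => by
    obtain ⟨a, i, b, j, rfl⟩ := hU.split y
    exact add_mem (h5 a i (by simpa [j p hp] using φ.mem_perp_singleton.1 hy)) (h8 j)
  obtain ⟨w, i, j⟩ := hW.exists_Q_ne_zero ⟨1, by simp [hq.T_eq]⟩ (by rintro e; rw [e] at hW'; simp at hW'; omega)
  obtain ⟨m, n⟩ := φ.mem_perp_pair.1 i.2
  exact h9.E_le_of_siegel hyp m n (hq.T_eq _) j
    (hM ⟨φ.siegel_mem_E hyp.Qf n (hq.T_eq _), siegel_mem_stab hyp.Qf n (hq.T_eq _) hf (.inl i.1)⟩)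

theorem stab_of_fix (hE : ¬ φ.E ≤ M) (hp : p ∈ U) (p0 : p ≠ 0) (hQ : φ.Q p = 0) (ht : t ∈ M) (ht' : t ∈ φ.E)
    (e : t.1 p = p) : t ∈ φ.stab U := by
  have H : ∀ z ∈ U, φ.B p z = 0 → t.1 z ∈ U := fun z hz h0 => by
    obtain ⟨a, i, b, j, m⟩ := hU.split (t.1 z)
    have n := (inA_U hM hp hQ hz h0).map hQ ht
    rw [e, m] at n
    rw [m, by_contra fun b0 : b ≠ 0 => hE (hq.E_le_of_inA h hU h4 hwc hM hp p0 hQ j b0 (by
      simpa using n.sub hQ (inA_U hM hp hQ i (by simpa [j p hp] using n.1)))), add_zero]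
    exact i
  obtain ⟨f, hf, hyp⟩ := exists_hyp_mem hU hp p0 hQ
  obtain ⟨a, i, b, j, m⟩ := hU.split (t.1 f)
  have S : ∀ k : φ.Isom, k.1 f ∈ U → (∀ z ∈ U, φ.B p z = 0 → k.1 z ∈ U) → k ∈ φ.stab U := fun k i j =>
    φ.mem_stab_of_le fun x hx => by
      simpa using add_mem (j _ (sub_mem hx (U.smul_mem (φ.B p x) hf)) (by simp [hyp.Bef])) (U.smul_mem (φ.B p x) i)
  refine S t (by_contra fun n => hE (hq.E_le_of_inA h hU h4 hwc hM hp p0 hQ j (by rintro rfl; exact n (by simpa [m])) ?_)) H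
  have o : φ.B p a = 1 := by simpa [e, m, j p hp, hyp.Bef] using Isom.B_map t p f
  refine ⟨j p hp, _, hq.T_eq _, (M.mul_mem_cancel_right ht).1 (hM ⟨mul_mem (φ.siegel_mem_E hQ (j p hp) (hq.T_eq _)) ht',
    S _ ?_ fun z hz h0 => ?_⟩)⟩
  · rw [Isom.mul_apply, φ.siegel_apply hQ (j p hp) (hq.T_eq _), m]
    convert add_mem i (U.smul_mem (φ.B b (a + b) - φ.Q b) hp) using 1
    simp [o, j p hp, hq.ε_eq]; module
  · rw [Isom.mul_apply, siegel_apply_of_orth hQ (j p hp) (hq.T_eq _) (by rw [← e, Isom.B_map, h0])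
      (φ.mem_perp'.1 j _ (H z hz h0))]
    exact H z hz h0

theorem star (hE : ¬ φ.E ≤ M) (hg : g ∈ M) (hx : x ∈ U) (hQ : φ.Q x = 0) (ha : a ∈ U) (hb : b ∈ φ.perp U) (a0 : a ≠ 0)
    (b0 : b ≠ 0) (e : g.1 x = a + b) : finrank F U = 4 ∧ a ∈ U.map (g.1 : V →ₗ[F] V) ∧ ∀ c : F, c * c * φ.Q a = c := by
  have hd := Submodule.disjoint_def.1 (φ.nondegOn_iff_disjoint.1 hU)
  obtain ⟨p, hp, p0, q, i⟩ := h.exists_sing_orth U ⊥ [a] (by simpa using h4)
  replace i := i a (by simp)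
  have q' : φ.Q (a + b) = 0 := by rw [← e, Isom.Q_map, hQ]
  have b' := φ.mem_perp'.1 hb
  obtain ⟨y, y1, y2⟩ : ∃ y ∈ U, φ.B a y = 1 := by
    have := hU.nondeg
    obtain ⟨y, m⟩ := (φ.restrict U).exists_B_eq_one (x := ⟨a, ha⟩) (by simpa)
    exact ⟨y, y.2, m⟩
  obtain ⟨z, z1, z2⟩ : ∃ y ∈ φ.perp U, φ.B b y = 1 := by
    have := hU.perp.nondeg
    obtain ⟨y, m⟩ := (φ.restrict _).exists_B_eq_one (x := ⟨b, hb⟩) (by simpa)
    exact ⟨y, y.2, m⟩
  set Y := (U ⊓ φ.perp (F ∙ x)).map (g.1 : V →ₗ[F] V) ⊓ φ.perp (F ∙ p)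
  have H : ∀ w ∈ Y, φ.B (a + b) w = 0 ∧ φ.siegel (a + b) w (φ.Q w) ∈ φ.stab U := by
    rintro _ ⟨⟨w, ⟨j, m⟩, rfl⟩, n⟩
    have m' := φ.mem_perp_singleton.1 m
    have o : φ.B (a + b) (g.1 w) = 0 := by rw [← e, Isom.B_map, m']
    refine ⟨o, hq.stab_of_fix h hU h4 hwc hM hE hp (by simpa using p0) q ?_ (φ.siegel_mem_E q' o (hq.T_eq _))
      (siegel_apply_of_orth q' o (hq.T_eq _) (by simp [i, b' p hp]) (φ.B_symm_zero (φ.mem_perp_singleton.1 n)))⟩
    rw [← e, LinearEquiv.coe_coe, Isom.Q_map]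
    exact siegel_conj_mem hg hQ m' (hq.T_eq _) (hM ⟨φ.siegel_mem_E hQ m' (hq.T_eq _), siegel_mem_stab hQ m' (hq.T_eq _) hx (.inl j)⟩)
  have H' : Y ≤ Submodule.span F {a, b} := fun w hw => by
    obtain ⟨j, m⟩ := H w hw
    have r := sub_mem y1 ((m y).1 y1)
    have r' := sub_mem z1 ((φ.stab_le_stab_perp U m z).1 z1)
    rw [φ.siegel_apply q' j (hq.T_eq _)] at r r'
    simp only [map_add, LinearMap.add_apply, y2, z2, b' y y1, z1 a ha, hq.ε_eq] at r r'
    refine Submodule.mem_span_pair.2 ⟨φ.B w z - φ.Q w, φ.B w y - φ.Q w, (sub_eq_zero.1 (hd _ ?_ ?_)).symm⟩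
    · convert add_mem r (U.smul_mem (φ.B w y - φ.B w z) ha) using 1; module
    · convert add_mem r' ((φ.perp U).smul_mem (φ.B w z - φ.B w y) hb) using 1; module
  have d1 := finrank_le_inf_perp (φ := φ) U (F ∙ x)
  have d2 := finrank_le_inf_perp (φ := φ) ((U ⊓ φ.perp (F ∙ x)).map (g.1 : V →ₗ[F] V)) (F ∙ p)
  have d3 := finrank_span_singleton_le (F := F) x
  have d4 := finrank_span_singleton_le (F := F) p
  have d5 : finrank F (Submodule.span F {a, b}) ≤ 2 := by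
    convert finrank_span_list_le (F := F) [a, b] <;> simp [Set.ext_iff]
  have d6 := Submodule.finrank_mono H'
  rw [LinearEquiv.finrank_map_eq] at d2
  change _ ≤ finrank F Y + _ at d2
  have a1 : a ∈ Y := (Submodule.eq_of_le_of_finrank_le H' (by omega)).ge (Submodule.subset_span (by simp))
  refine ⟨by omega, Submodule.map_mono inf_le_left a1.1, fun c => ?_⟩
  obtain ⟨j, m⟩ := H _ (Y.smul_mem c a1)
  have r := (m y).1 y1
  rw [φ.siegel_apply q' j (hq.T_eq _)] at r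
  simp only [map_add, LinearMap.add_apply, y2, b' y y1, hq.ε_eq, hq.B_smul_left, hq.Q_smul] at r
  refine (sub_eq_zero.1 ((smul_eq_zero.1 (hd _ ?_ ((φ.perp U).smul_mem _ hb))).resolve_right b0)).symm
  convert add_mem (sub_mem r y1) (U.smul_mem (c * c * φ.Q a) ha) using 1; module

theorem E_le_of_stab_nondeg4 (hex : finrank F U = 4 → (∀ c : F, c * c = c) →
    finrank F (φ.perp U) = 4 ∧ ¬ (φ.restrict (φ.perp U)).HasTS 2) (hg : g ∈ M) (h1 : g ∉ φ.stab U)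
    (h2 : ¬ U.map (g.1 : V →ₗ[F] V) ≤ φ.perp U) : φ.E ≤ M := by
  by_contra hE
  have S := @hq.star _ _ _ _ _ _ _ _ h _ hU h4 hwc _ hM
  have hd := Submodule.disjoint_def.1 (φ.nondegOn_iff_disjoint.1 hU)
  obtain ⟨x, hx, hQ, i, j⟩ : ∃ x ∈ U, φ.Q x = 0 ∧ g.1 x ∉ U ∧ g.1 x ∉ φ.perp U := by
    by_contra! key
    by_cases h3 : ∀ x ∈ U, φ.Q x = 0 → g.1 x ∈ U
    · exact h1 (φ.mem_stab_of_le (h.le_of_sing (A := U.comap (g.1 : V →ₗ[F] V)) hU (by omega) fun w hw _ hQ => h3 w hw hQ))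
    push Not at h3
    obtain ⟨x, hx, hQ, hx'⟩ := h3
    have h4 := key x hx hQ hx'
    refine h2 (Submodule.map_le_iff_le_comap.2 (h.le_of_sing hU (by omega) fun y hy _ hQy => ?_))
    refine (em _).elim (fun h5 => ?_) (key y hy hQy)
    have h6 : φ.B y x = 0 := by rw [← Isom.B_map g]; exact h4 _ h5
    have := key _ (add_mem hy hx) (by rw [φ.Q_add_of_orth h6, hQ, hQy, add_zero])
    rw [map_add] at this
    exact (add_mem_cancel_right h4).1 (this fun h7 => hx' ((add_mem_cancel_left h5).1 h7))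
  obtain ⟨a, ha, b, hb, e⟩ := hU.split (g.1 x)
  obtain ⟨d, a1, a2⟩ := S hE hg hx hQ ha hb (by rintro rfl; exact j (by simpa [e])) (by rintro rfl; exact i (by simpa [e])) e
  have a3 : φ.Q a = 1 := by simpa using a2 1
  simp only [a3, mul_one] at a2
  obtain ⟨d', hm⟩ := hex d a2
  set X := U.map (g.1 : V →ₗ[F] V)
  have x1 : a + b ∈ X := e ▸ Submodule.mem_map_of_mem hx
  have hX : ∀ z ∈ φ.perp X, (g⁻¹).1 z ∈ φ.perp U := fun z hz u hu => by
    rw [← Isom.B_map g, Isom.apply_inv_apply]; exact hz _ (Submodule.mem_map_of_mem hu)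
  have N : ∀ D : Submodule F V, φ.NondegOn D → φ.stab D ≤ φ.stab U → ∀ a ∈ D, ∀ b ∈ φ.perp D, g.1 x = a + b → a ∈ X →
      φ.Q a ≠ 0 → ∀ z ∈ D, z ∈ φ.perp X → φ.Q z = 0 → z = 0 := fun D hD hD' a ha b hb e a1 a2 z z1 z2 z3 => by
    by_contra z0
    have := hD.nondeg
    obtain ⟨w, w1, w2⟩ := (φ.restrict D).exists_sep (W := F ∙ ⟨z, z1⟩) (u := ⟨a, ha⟩) fun m => by
      obtain ⟨c, m⟩ := Submodule.mem_span_singleton.1 m
      exact a2 ((show c • z = a from congrArg Subtype.val m) ▸ φ.Q_smul_of_sing z3 c)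
    have w3 : φ.B z w = 0 := φ.B_symm_zero (w1 _ (Submodule.mem_span_singleton_self _))
    have := (S (g := g⁻¹ * φ.siegel z w (φ.Q w) * g) hE (mul_mem (mul_mem (inv_mem hg) (hM ⟨φ.siegel_mem_E z3 w3 (hq.T_eq _),
      hD' (siegel_mem_stab z3 w3 (hq.T_eq _) z1 (.inl w.2))⟩)) hg) hx hQ hx (hX z z2) (by rintro rfl; simp at i)
      (by simpa using z0) (by
        rw [Isom.mul_apply, Isom.mul_apply, Isom.inv_apply_eq, map_add, Isom.apply_inv_apply,
          φ.siegel_apply z3 w3 (hq.T_eq _), show φ.B z (g.1 x) = 0 from φ.mem_perp'.1 z2 _ (Submodule.mem_map_of_mem hx), e, map_add, hb _ w.2]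
        simpa using congrArg (· • z) w2)).2.2 1
    simp [hQ] at this
  have X1 : X ≤ X ⊓ U ⊔ X ⊓ φ.perp U := Submodule.map_le_iff_le_comap.2 (h.le_of_sing hU (by omega) fun y hy _ q => by
    have m : g.1 y ∈ X := Submodule.mem_map_of_mem hy
    obtain ⟨a, ha, b, hb, e⟩ := hU.split (g.1 y)
    have : a ∈ X := by
      by_cases a0 : a = 0
      · simp [a0]
      by_cases b0 : b = 0
      · simpa [e, b0] using m
      exact (S hE hg hy q ha hb a0 b0 e).2.1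
    rw [e] at m
    exact Submodule.mem_sup.2 ⟨a, ⟨this, ha⟩, b, ⟨(add_mem_cancel_left this).1 m, hb⟩, e.symm⟩)
  have P : ∀ D D' : Submodule F V, D' ≤ φ.perp D → X ≤ X ⊓ D ⊔ X ⊓ D' → D ⊓ φ.perp (X ⊓ D) ≤ φ.perp X := fun D D' i j z m y n => by
    obtain ⟨a, ha, b, hb, rfl⟩ := Submodule.mem_sup.1 (j n)
    simp [m.2 a ha, φ.mem_perp'.1 (i hb.2) z m.1]
  have P1 := P U _ le_rfl X1
  have P2 := P _ U (φ.perp_perp U).ge (sup_comm (X ⊓ U) _ ▸ X1)
  have N1 := fun z (m : z ∈ U ⊓ φ.perp (X ⊓ U)) => N U hU le_rfl a ha b hb e a1 (by simp [a3]) z m.1 (P1 m)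
  have b3 : φ.Q b = -1 := by
    have := φ.Q_add_of_orth (hb a ha)
    rw [← e, Isom.Q_map, hQ, a3] at this
    linear_combination -this
  have N2 := fun z (m : z ∈ φ.perp U ⊓ φ.perp (X ⊓ φ.perp U)) => N _ hU.perp (φ.stab_perp U).le b hb a
    ((φ.perp_perp U).ge ha) (e.trans (add_comm _ _)) ((add_mem_cancel_left a1).1 x1) (by simp [b3]) z m.1 (P2 m)
  have d1 := finrank_le_inf_perp (φ := φ) U (X ⊓ U)
  have d2 := finrank_le_inf_perp (φ := φ) (φ.perp U) (X ⊓ φ.perp U)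
  have d3 := Submodule.finrank_sup_add_finrank_inf_eq (X ⊓ U) (X ⊓ φ.perp U)
  have d4 := Submodule.finrank_mono (sup_le (inf_le_left (b := U)) (inf_le_left (a := X) (b := φ.perp U)))
  have d5 : ∀ D : Submodule F V, (∀ z ∈ D, φ.Q z = 0 → z = 0) → finrank F D ≤ 2 := fun D H => by
    by_contra e
    obtain ⟨v, i, j, m⟩ := h.sing D (by omega)
    exact j (H v i m)
  have d6 := d5 _ N1
  have d7 := d5 _ N2
  rw [(Submodule.eq_bot_iff (X ⊓ U ⊓ (X ⊓ φ.perp U))).2 fun z m => hd z m.1.2 m.2.2, finrank_bot] at d3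
  rw [LinearEquiv.finrank_map_eq] at d4
  obtain ⟨u, u1, v, v1, u2, v2, r⟩ := hq.two_an a2 (by omega) N1
  obtain ⟨u', u3, v', v3, u4, v4, r'⟩ := hq.two_an a2 (by omega) N2
  have t2 : (1 : F) + 1 = 0 := by linear_combination a2 (-1)
  have o := fun y (m : y ∈ φ.perp U) z n => φ.mem_perp'.1 m z n
  refine hm (hasTS_restrict_iff.2 ⟨(F ∙ (g⁻¹).1 (u + u')) ⊔ F ∙ (g⁻¹).1 (v + v'), sup_le
    ((Submodule.span_singleton_le_iff_mem _ _).2 (hX _ (add_mem (P1 u1) (P2 u3))))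
    ((Submodule.span_singleton_le_iff_mem _ _).2 (hX _ (add_mem (P1 v1) (P2 v3)))), hq.ts fun z m => ?_, ?_⟩)
  · rw [← Submodule.span_insert] at m
    obtain ⟨s, t, rfl⟩ := Submodule.mem_span_pair.1 m
    simp [hq.Q_add, hq.Q_smul, u2, v2, u4, v4, r, r', u3.1 u u1.1, v3.1 v v1.1, v3.1 u u1.1, o u' u3.1 v v1.1, hq.σ_eq]
    linear_combination (s * s + t * t + s * t) * t2
  rw [finrank_sup_singleton fun m => ?_, finrank_span_singleton fun m => ?_]
  · simpa [hq.B_comm v u, r, u3.1 v v1.1] using congrArg (φ.B ((g⁻¹).1 v)) m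
  obtain ⟨c, m⟩ := Submodule.mem_span_singleton.1 m
  simpa [r, hq.B_self, u2, u3.1 u u1.1, v3.1 u u1.1, ← one_add_one_eq_two, t2] using congrArg (φ.B ((g⁻¹).1 u)) m

end Form.IsQuad

namespace OmS
open Matrix Cfsg Cfsg.Geo
variable {ι : Type} [Fintype ι] [DecidableEq ι] {F : Type*} [Field F] [Fintype F] {Q : (ι → F) → F}
  (hQ : IsNondegenerateQuadraticForm Q) (hn : 7 ≤ Fintype.card ι)
include hQ hn

theorem ts {W : Submodule F (ι → F)} (h0 : W ≠ ⊥) (hW : IsTotallySingularQuad Q W)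
    (h : 2 * (finrank F W + 1) ≠ Fintype.card ι ∨ ¬ IsPlusTypeOn Q ⊤) :
    IsMaximalIn (omegaGL Q) (subspaceStabilizer W ⊓ omegaGL Q) := by
  obtain ⟨Q, rfl, _⟩ := exists_ofQuad hQ
  have q := Form.isQuad_ofQuad Q
  have h1 := q.ts hW
  rw [omegaGL_eq_E _ (by omega)]
  refine isMaximalIn_TS (q.std (by simp; omega)) (by omega) h0 h1 fun x hx hx' hQ => Or.inr ?_
  have h3 := h1.sup (Form.TS.singleton hQ) (by simpa using hx)
  have h2 := h3.finrank_le
  have h4 := Form.finrank_sup_singleton hx'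
  by_contra h5
  simp only [finrank_fintype_fun_eq_card] at h2
  exact h.elim (by omega) fun a => a ⟨_, le_top, h3.Q, by simp; omega⟩

theorem vec (hchar : ¬ Odd (Fintype.card F)) (v : ι → F) (hv : Q v ≠ 0) :
    IsMaximalIn (omegaGL Q) (subspaceStabilizer (Submodule.span F {v}) ⊓ omegaGL Q) := by
  obtain ⟨Q, rfl, _⟩ := exists_ofQuad hQ
  have h0 := Form.isQuad_ofQuad Q
  have h1 := h0.std (by simp; omega)
  have h2 : (2 : F) = 0 := by
    by_contra h; exact hchar (by simpa using odd_card_iff.2 h)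
  rw [omegaGL_eq_E _ (by omega)]
  refine isMaximalIn_map _ ?_ fun M hM g hg _ hg' => ?_
  · rw [comap_subspaceStabilizer]
    refine h1.not_E_le_stab (by simp; omega) (by rintro h; simp at h; simp [h] at hv) fun h => ?_
    have := finrank_span_singleton_le (F := F) v
    rw [h] at this; simp at this; omega
  · rw [comap_subspaceStabilizer] at hM
    exact h1.E_le_of_stab_vec hv (by rw [h0.B_self, h2, zero_mul]) (by simp; omega) hM hg
      (mt toGL_mem_subspaceStabilizer.2 hg')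

theorem subf (F₀ : Subfield F) (r : ℕ) (P : GL ι F) (ζ : F) (hr : r.Prime) (hcard : Fintype.card F = Nat.card F₀ ^ r)
    (hζ : ζ ≠ 0) (hP : IsQuadFormRationalStructure (fun v => ζ * Q v) F₀ P) :
    IsMaximalIn (omegaGL Q) (subfieldSubgroup F₀ P ⊓ omegaGL Q) := by
  obtain ⟨Q, rfl, _⟩ := exists_ofQuad hQ
  exact isMaximalIn_subfield_quad7 Q (by omega) hr hcard hζ hP

theorem nd (h8 : 8 ≤ Fintype.card ι ∨ Odd (Fintype.card F)) {W : Submodule F (ι → F)} (h0 : W ≠ ⊥) (h1 : W ≠ ⊤)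
    (hW : IsNondegenerateOn (QuadraticMap.polar Q) W) (h2 : finrank F W = 2 → IsPlusTypeOn Q W → 4 ≤ Fintype.card F)
    (h3 : finrank F W + 2 ≠ Fintype.card ι)
    (h4 : 2 * finrank F W = Fintype.card ι → Even (finrank F W) ∧ ¬ IsPlusTypeOn Q ⊤) :
    IsMaximalIn (omegaGL Q) (subspaceStabilizer W ⊓ omegaGL Q) := by
  obtain ⟨Q, rfl, _⟩ := exists_ofQuad hQ
  have h := Form.isQuad_ofQuad Q
  have s := h.std (by simp; omega)
  replace hW := nondegOn_quad hW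
  have h5 := (Form.ofQuad Q).finrank_perp W
  simp only [finrank_fintype_fun_eq_card] at h5
  rw [omegaGL_eq_E _ (by omega)]
  have key : ∀ U, U = W ∨ U = (Form.ofQuad Q).perp W → Fintype.card ι ≤ 2 * finrank F U →
      (2 * finrank F U = 8 → Fintype.card ι = 8 → ¬ ((Form.ofQuad Q).restrict ((Form.ofQuad Q).perp U)).HasTS 2) →
      IsMaximalIn ((Form.ofQuad Q).E.map (Form.ofQuad Q).toGL)
        (subspaceStabilizer W ⊓ (Form.ofQuad Q).E.map (Form.ofQuad Q).toGL) := fun U a b c => by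
    have h6 := (Form.ofQuad Q).finrank_perp U
    simp only [finrank_fintype_fun_eq_card] at h6
    have hU : (Form.ofQuad Q).NondegOn U := by rcases a with rfl | rfl; exacts [hW, hW.perp]
    have e : (subspaceStabilizer W).comap (Form.ofQuad Q).toGL = (Form.ofQuad Q).stab U := by
      rw [comap_subspaceStabilizer]
      rcases a with rfl | rfl
      exacts [rfl, (Form.stab_perp _ W).symm]
    refine isMaximalIn_map _ ?_ fun M hM g hg _ hg' => ?_
    · rw [e, ← e, comap_subspaceStabilizer]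
      exact s.not_E_le_stab (by simp; omega) h0 h1
    rw [e] at hM
    refine h.E_le_of_stab_nondeg4 s hU (by omega) (fun A hA x hx hxA hx0 => h.le_of_wittClosed hA hU.perp ?_ hx hxA hx0) hM
      (fun i j => ?_) hg (fun i => hg' (e.ge i)) fun i => ?_
    · rintro ⟨i, j, k⟩
      rcases a with rfl | rfl
      · omega
      rw [Form.perp_perp] at i j
      have := h2 i ((isPlusTypeOn_iff (k := 1) i).2 j)
      rw [Nat.card_eq_fintype_card] at k; omega
    · have := h8.resolve_right fun o => two_ne_zero_of_odd_card o (by linear_combination j (-1))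
      exact ⟨by omega, c (by omega) (by omega)⟩
    rcases b.eq_or_lt with b | b
    · obtain ⟨⟨l, hl⟩, m⟩ := h4 (by rcases a with rfl | rfl <;> omega)
      exact m ((isPlusTypeOn_top_iff (k := 2 * l) (by rcases a with rfl | rfl <;> omega)).2
        (h.hasTS_of_map_le_perp hU (by rcases a with rfl | rfl <;> omega) i))
    exact not_map_le_perp b g i
  by_cases a : Fintype.card ι ≤ 2 * finrank F W ∧ (2 * finrank F W = 8 → Fintype.card ι = 8 →
      ¬ ((Form.ofQuad Q).restrict ((Form.ofQuad Q).perp W)).HasTS 2)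
  · exact key W (.inl rfl) a.1 a.2
  refine key _ (.inr rfl) (by by_contra; exact a ⟨by omega, by omega⟩) fun b c d => a ⟨by omega, fun _ _ e => ?_⟩
  rw [Form.perp_perp] at d
  obtain ⟨X, i, j, k⟩ := Form.hasTS_restrict_iff.1 d
  obtain ⟨Y, i', j', k'⟩ := Form.hasTS_restrict_iff.1 e
  have := Submodule.finrank_sup_add_finrank_inf_eq X Y
  rw [((Form.nondegOn_iff_disjoint _).1 hW).mono i i' |>.eq_bot, finrank_bot] at this
  exact (h4 (by omega)).2 ((isPlusTypeOn_top_iff (k := 4) (by omega)).2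
    ⟨_, j.sup j' fun x hx y hy => i' hx y (i hy), by omega⟩)

end OmS
end H10
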