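import Cfsg.Agent.H10.AsEf

/-!
# Decompositions for even-dimensional orthogonal groups over small fields
`refine_blocks`, `blk2_small`, `blk4_two`.
-/

namespace H10.As
open Matrix Module Cfsg Cfsg.Geo Subgroup Form
set_option synthInstance.maxSize 4000

variable {ι κ μ ν : Type} [Fintype ι] [DecidableEq ι] [Fintype κ] [DecidableEq κ] [Fintype μ] [DecidableEq μ] [Fintype ν]
  [DecidableEq ν] {F : Type*} [Field F] {H : Subgroup (GL ι F)} {W : Submodule F (ι → F)} {t m : ℕ}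
  {D : Fin t → Submodule F (ι → F)} {Q : (ι → F) → F} (hQ : IsNondegenerateQuadraticForm Q)
include hQ

theorem exists_T2 (h2 : finrank F W = 2) {v w : ι → F} (hv : v ∈ W) (hw : w ∈ W)
    (h : 4 * Q v * Q w ≠ QuadraticMap.polar Q v w ^ 2) : ∃ T : (Fin 2 → F) ≃ₗ[F] W, ∀ x,
      Q (T x) = Q v * x 0 ^ 2 + QuadraticMap.polar Q v w * (x 0 * x 1) + Q w * x 1 ^ 2 := by
  obtain ⟨Q, rfl, _⟩ := exists_ofQuad hQ
  have h3 := ((ofQuad Q).restrict W).linearIndependent_pair_of_gram (e := ⟨v, hv⟩) (f := ⟨w, hw⟩) (by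
    simp only [restrict_B, (isQuad_ofQuad Q).B_self, (isQuad_ofQuad Q).B_comm w]
    exact fun e => h (by simp at e; linear_combination e))
  refine ⟨(basisOfLinearIndependentOfCardEqFinrank' _ h3 (by simp [h2])).equivFun.symm, fun x => ?_⟩
  simpa [add_right_comm, mul_comm] using (isQuad_ofQuad Q).Q_comb (x 0) (x 1) v w

variable (hI : Irr H) (h1 : ∀ g ∈ H, ∀ v, Q (g.1 *ᵥ v) = Q v) (hD : IsNondegenerateMDecomposition (QuadraticMap.polar Q) m D)
  (hH : H ≤ decompositionStabilizer D)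
include hI h1 hD hH

theorem exists_bdQ {i₀ : Fin t} (T : (ν → F) ≃ₗ[F] D i₀) : ∃ (e : ι ≃ ν × Fin t) (P : GL ι F),
    gramMatrix (pf e P (QuadraticMap.polar Q)) = blockDiagonal (fun _ => gramMatrix fun x y => QuadraticMap.polar Q (T x) (T y)) ∧
      ∀ g ∈ H, ∃ π u, pm e P g.1 = bm π u ∧ ∀ i x, Q (T (u i *ᵥ x)) = Q (T x) := by
  obtain ⟨e, P, -, a, b, c⟩ := exists_bdF (sf_of_quad hQ) hI (fun g hg => sim_polar (h1 g hg)) hD hH T rfl
  refine ⟨e, P, a, fun g hg => (c g hg).imp fun π => Exists.imp fun u h => ⟨h.1, fun i x => ?_⟩⟩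
  obtain ⟨k, k1, k2⟩ := b i
  obtain ⟨l, l1, l2⟩ := b (π i)
  have := h1 g hg (k.1 *ᵥ T x)
  rw [h1 k k1, ← k2, mulVec_lq, h.1] at this
  rw [← this, ← h1 l l1, ← l2]
  congr 2; ext ⟨j, i'⟩
  obtain ⟨i', rfl⟩ := π.surjective i'
  by_cases h : i' = i <;> simp [bm_mulVec, h, ← Pi.zero_def]

theorem refine_blocks [Nonempty κ] [Nonempty μ] {i₀ : Fin t} (T : (ν → F) ≃ₗ[F] D i₀) (β : ν ≃ κ × μ)
    (hG : ∀ a b, (β a).2 ≠ (β b).2 → QuadraticMap.polar Q (T (Pi.single a 1)) (T (Pi.single b 1)) = 0)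
    (h : ∀ u : Matrix ν ν F, (∀ x, Q (T (u *ᵥ x)) = Q (T x)) → ∀ j, ∃ j', ∀ a b, (β b).2 = j → (β a).2 ≠ j' → u a b = 0) :
    ∃ (t : ℕ) (D : Fin t → _), IsNondegenerateMDecomposition (QuadraticMap.polar Q) (Fintype.card κ) D ∧
      H ≤ decompositionStabilizer D := by
  obtain ⟨e, P, a, b⟩ := exists_bdQ hQ hI h1 hD hH T
  let γ := Fintype.equivFin (μ × Fin t)
  let δ : ν × Fin t ≃ κ × _ := ((β.prodCongr (.refl _)).trans (.prodAssoc _ _ _)).trans ((Equiv.refl κ).prodCongr γ)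
  have h2 : ∀ x y, (δ x).2 = γ y ↔ (β x.1).2 = y.1 ∧ x.2 = y.2 := fun x y => by simp [δ, Prod.ext_iff]
  have ht : 2 ≤ Fintype.card (μ × Fin t) := by
    have := hD.1.two_le; have := Fintype.card_pos (α := μ); simp; nlinarith
  refine ⟨_, _, (bd_cd (e := e.trans δ) (P := P)).ndec ht (sf_of_quad hQ) fun x y hxy => ?_, fun g hg => bd_cd.le ht fun i => ?_⟩
  · obtain ⟨x, rfl⟩ := δ.surjective x
    obtain ⟨y, rfl⟩ := δ.surjective y
    rw [show gramMatrix _ (δ x) (δ y) = gramMatrix (pf e P (QuadraticMap.polar Q)) x y by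
      simp only [gramMatrix, pf_trans]; congr 1 <;> ext <;> simp [Pi.single_apply], a, blockDiagonal_apply]
    split_ifs with h3
    exacts [hG _ _ fun h4 => hxy ((h2 x ((β y.1).2, y.2)).2 ⟨h4, h3⟩), rfl]
  · obtain ⟨π, u, c, d⟩ := b g hg
    obtain ⟨i, rfl⟩ := γ.surjective i
    obtain ⟨j, hj⟩ := h _ (d i.2) i.1
    refine ⟨γ (j, π i.2), fun x y h3 h4 => ?_⟩
    obtain ⟨x, rfl⟩ := δ.surjective x
    obtain ⟨y, rfl⟩ := δ.surjective y
    obtain ⟨h5, h6⟩ := (h2 _ _).1 h3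
    simp only [pm_trans, c, bm, reindex_apply, submatrix_apply, Equiv.symm_apply_apply, of_apply, h6]
    split_ifs with h7
    exacts [hj _ _ h5 fun h8 => h4 ((h2 _ _).2 ⟨h8, h7⟩), rfl]

variable [Fintype F]

omit hQ hI h1 hD hH in
theorem wt35 {a b : F} (ha : a ≠ 0) (hb : b ≠ 0) (h : Fintype.card F = 3 ∨ Fintype.card F = 5 ∧ ∃ x y, a * x ^ 2 + b * y ^ 2 = 0 ∧
    ¬ (x = 0 ∧ y = 0)) (x y : F) (h1 : a * x ^ 2 + b * y ^ 2 = a ∨ a * x ^ 2 + b * y ^ 2 = b) : x = 0 ∨ y = 0 := by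
  rcases h with h | ⟨h, z, w, c, d⟩ <;> let φ := (ZMod.ringEquivOfPrime F (by decide) h).symm
  · have : ∀ a b x y : ZMod 3, a ≠ 0 → b ≠ 0 → a * x ^ 2 + b * y ^ 2 = a ∨ a * x ^ 2 + b * y ^ 2 = b → x = 0 ∨ y = 0 := by
      decide +kernel
    simpa using this (φ a) (φ b) (φ x) (φ y) (by simpa) (by simpa) (h1.imp (by simpa using congrArg φ ·) (by simpa using congrArg φ ·))
  · have : ∀ a b : ZMod 5, a ≠ 0 → b ≠ 0 → (∃ x y, a * x ^ 2 + b * y ^ 2 = 0 ∧ ¬ (x = 0 ∧ y = 0)) → ∀ x y,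
        a * x ^ 2 + b * y ^ 2 = a ∨ a * x ^ 2 + b * y ^ 2 = b → x = 0 ∨ y = 0 := by decide +kernel
    simpa using this (φ a) (φ b) (by simpa) (by simpa) ⟨φ z, φ w, by simpa using congrArg φ c, by simpa using d⟩ (φ x) (φ y)
      (h1.imp (by simpa using congrArg φ ·) (by simpa using congrArg φ ·))

omit hQ hI h1 hD hH [Fintype F] in
theorem plus_two (h2 : finrank F W = 2) (h : IsPlusTypeOn Q W) : ∃ v ∈ W, v ≠ 0 ∧ Q v = 0 := by
  obtain ⟨X, a, b, c⟩ := h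
  obtain ⟨v, d, e⟩ := Submodule.exists_mem_ne_zero_of_ne_bot (p := X) (by rintro rfl; simp [h2] at c)
  exact ⟨v, a d, e, b v d⟩

theorem blk2_frame (hm : m = 2) (i : Fin t) (h : Fintype.card F = 3 ∨ Fintype.card F = 5 ∧ IsPlusTypeOn Q (D i)) :
    ∃ (t : ℕ) (D : Fin t → _), IsNondegenerateMDecomposition (QuadraticMap.polar Q) 1 D ∧ H ≤ decompositionStabilizer D := by
  subst hm
  have h2 : (2 : F) ≠ 0 := odd_card.1 (by rcases h with h | ⟨h, -⟩ <;> rw [h] <;> decide)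
  obtain ⟨v, w, hv, hw, a, b, c⟩ : ∃ v w, v ∈ D i ∧ w ∈ D i ∧ Q v ≠ 0 ∧ Q w ≠ 0 ∧ QuadraticMap.polar Q v w = 0 := by
    obtain ⟨Q, rfl, _⟩ := exists_ofQuad hQ
    have := (nondegOn_quad (hD.2 i)).nondeg
    obtain ⟨b, b1, b2⟩ := ((isQuad_ofQuad Q).restrict (D i)).exists_orth_basis' h2 (hD.1.finrank_eq i)
    exact ⟨_, _, (b 0).2, (b 1).2, b2 0, b2 1, b1 0 1 (by decide)⟩
  obtain ⟨T, hT⟩ := exists_T2 hQ (hD.1.finrank_eq i) hv hw (by
    rw [c, show (4 : F) = 2 * 2 by norm_num]; simp [a, b, h2])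
  simp only [c, zero_mul, add_zero] at hT
  refine refine_blocks hQ hI h1 hD hH T (Equiv.uniqueProd _ Unit).symm (fun x y h => ?_) fun u hu j => ?_
  · simp only [QuadraticMap.polar, ← Submodule.coe_add, ← map_add, hT]
    fin_cases x <;> fin_cases y <;> simp at h ⊢
  · have := hu (Pi.single j 1)
    rcases wt35 a b (h.imp_right (.imp_right fun h => (plus_two (hD.1.finrank_eq i) h).elim fun z h => ⟨T.symm ⟨z, h.1⟩ 0,
      T.symm ⟨z, h.1⟩ 1, by rw [← hT]; simp [h.2.2], fun e => h.2.1 (by simpa using T.symm.map_eq_zero_iff.1 (funext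
        (Fin.forall_fin_two.2 e)))⟩)) (u 0 j) (u 1 j) (by fin_cases j <;> simp_all) with e | e
    exacts [⟨1, by rintro x _ rfl; fin_cases x <;> simp_all⟩, ⟨0, by rintro x _ rfl; fin_cases x <;> simp_all⟩]

theorem blk2_four (hm : m = 2) (i : Fin t) (hq : Fintype.card F = 4) (h : IsPlusTypeOn Q (D i)) : SubF (QuadraticMap.polar Q) H := by
  subst hm
  obtain ⟨φ⟩ := exists_qa (p := 2) 1 1 hq
  have h2 : (2 : F) = 0 := φ.injective (by rw [map_ofNat, map_zero]; decide)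
  obtain ⟨ω, hω⟩ : ∃ ω : F, ω ^ 2 = ω + 1 := ⟨φ.symm ⟨0, 1⟩, φ.injective (by simp; decide)⟩
  obtain ⟨v, w, hv, hw, a, b, c⟩ : ∃ v w, v ∈ D i ∧ w ∈ D i ∧ Q v = 1 ∧ Q w = 1 ∧ QuadraticMap.polar Q v w = 1 := by
    obtain ⟨e, e1, e2, e3⟩ := plus_two (hD.1.finrank_eq i) h
    obtain ⟨Q, rfl, _⟩ := exists_ofQuad hQ
    obtain ⟨f, f1, f2⟩ := exists_hyp_mem (nondegOn_quad (hD.2 i)) e1 e2 e3
    have h3 := fun a b => (isQuad_ofQuad Q).Q_comb a b e f
    simp only [f2.1, f2.2, f2.3] at h3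
    refine ⟨e + f, ω • e + ω ^ 2 • f, add_mem e1 f1, add_mem ((D i).smul_mem _ e1) ((D i).smul_mem _ f1), by simpa using h3 1 1,
      (h3 _ _).trans (by linear_combination (ω + 1) * hω + ω * h2), ?_⟩
    change (ofQuad Q).B _ _ = 1
    simp only [map_add, map_smul, LinearMap.add_apply, f2.Bee, f2.Bff, f2.Bfe, f2.3, hω]
    simp [← add_assoc, ← two_mul, h2]
  obtain ⟨T, hT⟩ := exists_T2 hQ (hD.1.finrank_eq i) hv hw (by rw [a, b, c, show (4 : F) = 2 * 2 by norm_num]; simp [h2])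
  simp only [a, b, c, one_mul] at hT
  obtain ⟨e, P, d, d'⟩ := exists_bdQ hQ hI h1 hD hH T
  refine subF_of_coords (P := P) (sf_of_quad hQ).toSq (fun _ _ h => h) e (bot_ne_top (by rw [hq]; decide))
    (fun g hg => ⟨1, one_ne_zero, fun x y => ?_⟩) one_ne_zero fun ⟨x, _⟩ ⟨y, _⟩ => ?_
  · obtain ⟨π, u, c, d⟩ := d' g hg
    have h3 : ∀ x : Fin 2 → QA 2 1 1, x 0 ^ 2 + x 0 * x 1 + x 1 ^ 2 = 1 → ∀ i, x i = 0 ∨ x i = 1 := by decide +kernel
    have := h3 (fun j => φ (u y.2 j y.1)) (by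
      have := congrArg φ (d y.2 (Pi.single y.1 1))
      obtain ⟨y, z⟩ := y
      fin_cases y <;> simpa [hT] using this) x.1
    rw [c, bm, of_apply]
    split_ifs
    · rcases this with h | h <;> simp at h <;> simp [h]
    · simp
  · rw [d, blockDiagonal_apply]
    simp only [gramMatrix, QuadraticMap.polar, ← Submodule.coe_add, ← map_add, hT]
    split_ifs
    · fin_cases x <;> fin_cases y <;> simp <;> norm_num
    · simp

theorem blk2_two (hm : m = 2) (i : Fin t) (hq : Fintype.card F = 2) : ¬ IsPlusTypeOn Q (D i) := fun h => by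
  subst hm
  have h2 : (2 : F) = 0 := by simpa [hq] using FiniteField.cast_card_eq_zero F
  obtain ⟨Q', a, b⟩ := blk2_qf hq (sf_of_quad hQ) (symp_of_quad hQ h2).3 hI (fun g hg => sim_polar (h1 g hg)) hD hH
  obtain ⟨v, c, d, e⟩ := plus_two (hD.1.finrank_eq i) h
  have := hD.1.two_le
  exact d (b i v c ((qf_self hQ h1).eq a h2 hI (by rw [mdec_card hD.1]; omega) ▸ e))

theorem blk4_two (hm : m = 4) (i : Fin t) (hq : Fintype.card F = 2) (h : IsPlusTypeOn Q (D i)) :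
    ∃ (t : ℕ) (D : Fin t → _), IsNondegenerateMDecomposition (QuadraticMap.polar Q) 2 D ∧ H ≤ decompositionStabilizer D := by
  subst hm
  have h2 : (2 : F) = 0 := by simpa [hq] using FiniteField.cast_card_eq_zero F
  let q : (Fin 2 × Fin 2 → F) → F := fun x => ∑ j, (x (0, j) ^ 2 + x (0, j) * x (1, j) + x (1, j) ^ 2)
  have h3 : ∀ x y, QuadraticMap.polar q x y = formOfGram (RingHom.id F) (blockDiagonal fun _ => J2 F) x y := fun x y => by
    simp [QuadraticMap.polar, q, formOfGram, Fintype.sum_prod_type, J2, blockDiagonal_apply]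
    linear_combination (x (0, 0) * y (0, 0) + x (1, 0) * y (1, 0) + x (0, 1) * y (0, 1) + x (1, 1) * y (1, 1) +
      x (1, 0) * y (0, 0) + x (1, 1) * y (0, 1)) * h2
  obtain ⟨T, hT⟩ : ∃ T : _ ≃ₗ[F] D i, ∀ x, Q (T x) = q x := by
    obtain ⟨q', a, _⟩ := exists_ofQuad (QF.nd (H := ⊥) ⟨fun c v => by simp [q]; ring, h3, by simp⟩
      (sf_blk (fun _ => rfl) (.inr rfl) fun _ => sf_J2))
    obtain ⟨Q, rfl, _⟩ := exists_ofQuad hQ
    have := (nondegOn_quad (hD.2 i)).nondeg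
    obtain ⟨T, hT⟩ := (isQuad_ofQuad q').exists_isEquiv_even ((isQuad_ofQuad Q).restrict (D i)) (m := 2) (by simp)
      (hD.1.finrank_eq i) (iff_of_true ⟨(LinearMap.funLeft F F Prod.fst).range, (isQuad_ofQuad _).ts (by
        rintro _ ⟨x, rfl⟩; simp [a, q, ← two_mul, h2]), by
        rw [LinearMap.finrank_range_of_inj (LinearMap.funLeft_injective_of_surjective _ _ _ Prod.fst_surjective)]; simp⟩
        ((isPlusTypeOn_iff (hD.1.finrank_eq i)).1 h))
    exact ⟨T, fun x => (hT.Q x).trans (congrFun a x)⟩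
  refine refine_blocks hQ hI h1 hD hH T (.refl _) (fun x y h => ?_) fun u hu j => ?_
  · have := h3 (Pi.single x 1) (Pi.single y 1)
    simp only [QuadraticMap.polar, ← Submodule.coe_add, ← map_add, hT] at this ⊢
    rw [this]; exact (congrFun₂ (gram_formOfGram _) x y).trans (blockDiagonal_apply_ne _ _ _ h)
  · let φ := (ZMod.ringEquivOfPrime F (by decide) hq).symm
    let q' : (Fin 2 × Fin 2 → ZMod 2) → ZMod 2 := fun z => ∑ j, (z (0, j) ^ 2 + z (0, j) * z (1, j) + z (1, j) ^ 2)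
    have h4 : ∀ x y, q' x = 1 → q' y = 1 → q' (x + y) = 1 → ∃ j, ∀ a, a.2 ≠ j → x a = 0 ∧ y a = 0 := by decide +kernel
    have h5 : ∀ x, q x = 1 → q' (φ ∘ (u *ᵥ x)) = 1 := fun x hx => by
      simpa only [hT, q, q', map_sum, map_add, map_mul, map_pow, map_one, Function.comp] using
        congrArg φ ((hu x).trans ((hT x).trans hx))
    obtain ⟨k, hk⟩ := h4 _ _ (h5 (Pi.single (0, j) 1) (by fin_cases j <;> simp [q]))
      (h5 (Pi.single (1, j) 1) (by fin_cases j <;> simp [q])) (by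
        convert h5 (Pi.single (0, j) 1 + Pi.single (1, j) 1) (by fin_cases j <;> simp [q, one_add_one_eq_two, h2])
        ext; simp [mulVec_add])
    refine ⟨k, ?_⟩
    rintro a ⟨b, _⟩ rfl h
    fin_cases b
    exacts [by simpa using (hk a h).1, by simpa using (hk a h).2]

end H10.As
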