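import Cfsg.Agent.H10.AsTy

/-!
# Extension fields for even-dimensional orthogonal groups
`fld_norm`, `fld_minus`, `fld_o2`, `SF.cases_of`.
-/

namespace H10.As
open Matrix Module Cfsg Cfsg.Geo Subgroup Form

variable {ι : Type} [Fintype ι] [DecidableEq ι] [Nonempty ι] {F : Type*} [Field F] {H : Subgroup (GL ι F)} {g : GL ι F}
  {W : Submodule F (ι → F)} {r m : ℕ} {K : Subalgebra F (Matrix ι ι F)} {σ : F →+* F} {ε : F} {f : (ι → F) → (ι → F) → F}
  {Q : (ι → F) → F}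

open scoped Matrix.Module in
theorem fld_dvd_sub (hK : IsFieldSubalgebra r K) (hW : ∀ k ∈ K, ∀ v ∈ W, k *ᵥ v ∈ W) : r ∣ finrank F W := by
  have : IsScalarTower F K (ι → F) := ⟨fun c k v => smul_mulVec c k.1 v⟩
  let W' : Submodule K (ι → F) := { W with smul_mem' := fun k v hv => hW k k.2 v hv }
  have : StrongRankCondition K := letI := (isField hK).toField; inferInstance
  have : Module.Free K W' := @Module.Free.of_divisionRing K W' (isField hK).toField.toDivisionRing _ W'.module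
  exact ⟨finrank K W', by rw [← hK.3, finrank_mul_finrank]; rfl⟩

theorem fld_two_sc (hf : SF (.id F) ε f) (hK : IsFieldSubalgebra 2 K) (hs : ¬ ∀ a ∈ K, adj f a = a) {x : Matrix ι ι F}
    (hx : x ∈ K) (h : adj f x = x) : Sc x := by_contra fun h0 => hs fun a ha => by
  obtain ⟨c, d, e⟩ := Submodule.mem_span_pair.1 ((span_pair_eq_top (u := 1) (v := (⟨x, hx⟩ : K)) ((LinearIndependent.pair_iff'
    one_ne_zero).2 fun c e => h0 ⟨c, (congrArg Subtype.val e).symm⟩) hK.3).ge (Submodule.mem_top (x := ⟨a, ha⟩)))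
  rw [← show c • 1 + d • x = a from congrArg Subtype.val e, hf.adj_add, hf.adj_smul, hf.adj_smul, h, hf.adj_one]; rfl

theorem fld_norm [Finite F] (hQ : IsNondegenerateQuadraticForm Q) (hI : Irr H) (h1 : ∀ g ∈ H, ∀ v, Q (g.1 *ᵥ v) = Q v)
    (hn : 2 < Fintype.card ι) (hK : IsFieldSubalgebra 2 K) (hN : Nrm H K) (hA : ∀ a ∈ K, adj (QuadraticMap.polar Q) a ∈ K)
    (hs : ¬ ∀ a ∈ K, adj (QuadraticMap.polar Q) a = a) : ∀ k ∈ K, ∃ c, ∀ v, Q (k *ᵥ v) = c * Q v := fun k hk => by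
  have hf := sf_of_quad hQ
  obtain ⟨c, hc⟩ := fld_two_sc hf hK hs (mul_mem (hA k hk) hk) (by rw [hf.adj_mul, hf.adj_adj])
  refine ⟨c, fun v => ?_⟩
  by_cases h2 : (2 : F) = 0
  · obtain ⟨ω, a, b⟩ := fld_qf hf h2 hI (fun g hg => sim_polar (h1 g hg)) hK hn hN hA hs
    have := congrFun ((qf_self hQ h1).eq b h2 hI hn.le)
    rw [this, this, hf.adj_right, mulVec_mulVec, mulVec_mulVec, mul_assoc, hK.1 ω a k hk, ← mul_assoc, hc, smul_mul_assoc, one_mul,
      smul_mulVec, hf.smul_left]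
  · refine mul_left_cancel₀ h2 ?_
    rw [← polar_self hQ, hf.adj_right, mulVec_mulVec, hc, smul_mulVec, hf.smul_left, one_mulVec, polar_self hQ, mul_left_comm]

theorem fld_minus (hQ : IsNondegenerateQuadraticForm Q) (hK : IsFieldSubalgebra r K)
    (hA : ∀ a ∈ K, adj (QuadraticMap.polar Q) a ∈ K) (h : ∀ k ∈ K, ∃ c, ∀ v, Q (k *ᵥ v) = c * Q v) (hp : IsPlusTypeOn Q ⊤) :
    2 * r ∣ Fintype.card ι := by
  have hf := sf_of_quad hQ
  obtain ⟨Q, rfl, _⟩ := exists_ofQuad hQ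
  obtain ⟨W, ⟨a, b⟩, c⟩ := exists_maximal_of_wellFoundedGT
    (fun W : Submodule F (ι → F) => (ofQuad Q).TS W ∧ ∀ k ∈ K, ∀ v ∈ W, k *ᵥ v ∈ W) ⟨⊥, .bot, by simp⟩
  obtain ⟨X, -, x1, x2⟩ := hp
  have h1 := not_hasTS_of_maximal a fun x hx h0 => c (y := W ⊔ (orb K x).range) ⟨a.sup ((isQuad_ofQuad Q).ts (by
      rintro _ ⟨k, rfl⟩; exact (h k k.2).elim fun c hc => (hc x).trans (by rw [show Q x = 0 from h0, mul_zero]))) (by
      rintro _ ⟨k, rfl⟩ w hw; exact (hf.adj_right k.1 w x).trans (hx _ (b _ (hA k k.2) w hw))), fun k hk v hv => by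
      obtain ⟨w, hw, _, ⟨l, rfl⟩, rfl⟩ := Submodule.mem_sup.1 hv
      exact mulVec_add k _ _ ▸ Submodule.add_mem_sup (b k hk w hw) ⟨⟨k, hk⟩ * l, (mulVec_mulVec _ _ _).symm⟩⟩ le_sup_left
    (Submodule.mem_sup_right ⟨1, one_mulVec x⟩)
  have h2 := mt (HasTS.of_le ⟨X, (isQuad_ofQuad Q).ts x1, rfl⟩) h1
  have h3 := a.finrank_le
  simp only [finrank_top, finrank_fintype_fun_eq_card] at x2 h3
  exact (show 2 * finrank F W = Fintype.card ι by omega) ▸ mul_dvd_mul_left 2 (fld_dvd_sub hK b)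

section half
variable (hK : IsFieldSubalgebra r K) (hn : Fintype.card ι = 2 * r)
include hK hn

omit [Nonempty ι] in
theorem fld_compl {v w : ι → F} (hv : v ≠ 0) (hw : w ∉ (orb K v).range) : IsCompl (orb K v).range (orb K w).range :=
  (Submodule.isCompl_iff_disjoint _ _ (by
    rw [LinearMap.finrank_range_of_inj (orb_inj hK hv), LinearMap.finrank_range_of_inj (orb_inj hK (by rintro rfl; simp at hw)),
      hK.3]; simp [hn, two_mul])).2 (Submodule.disjoint_def.2 (by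
    rintro _ ⟨k, rfl⟩ ⟨l, e⟩
    refine by_contra fun h => (hK.2 l l.2 fun h0 => h (e.symm.trans (show l.1 *ᵥ w = 0 by simp [h0]))).elim fun y hy => hw
      ⟨⟨y, hy.1⟩ * k, ?_⟩
    change (y * k.1) *ᵥ v = w
    rw [← mulVec_mulVec, show k.1 *ᵥ v = l.1 *ᵥ w from e.symm, mulVec_mulVec, hK.1 y hy.1 l l.2, hy.2, one_mulVec]))

variable (hf : SF (.id F) 1 f) (hs : ∀ a ∈ K, adj f a = a)
include hf hs

omit hn in
theorem fld_dp [Finite F] {d : Matrix ι ι F} (h1 : ∀ k ∈ K, d * k = k * d) (h2 : ∀ v, f (d *ᵥ v) v = 0) :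
    ∀ k ∈ K, ∀ v, f (d *ᵥ v) (k *ᵥ v) = 0 := fun k hk v => by
  by_cases h : (2 : F) = 0
  · letI := (isField hK).toField
    have : Finite K := Module.finite_of_finite F
    obtain ⟨l, hl⟩ := exists_sqrt (F := K) (by rw [← map_ofNat (algebraMap F K) 2, h, map_zero]) ⟨k, hk⟩
    rw [show k = l * l from congrArg Subtype.val hl, ← mulVec_mulVec, hf.adj_right, hs _ l.2, mulVec_mulVec, ← h1 _ l.2,
      ← mulVec_mulVec, h2]
  · have := h2 (v + k *ᵥ v)
    rw [mulVec_add, hf.add_left, hf.add_right, hf.add_right, h2, h2, mulVec_mulVec, h1 k hk, ← mulVec_mulVec, hf.adj_spec k,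
      hs k hk] at this
    exact (mul_eq_zero.1 (by linear_combination this : (2 : F) * _ = 0)).resolve_left h

theorem fld_line [Finite F] {d d' : Matrix ι ι F} (h1 : ∀ k ∈ K, d * k = k * d) (h2 : ∀ v, f (d *ᵥ v) v = 0) (h0 : d ≠ 0)
    (h1' : ∀ k ∈ K, d' * k = k * d') (h2' : ∀ v, f (d' *ᵥ v) v = 0) : ∃ k ∈ K, d' = k * d := by
  have h3 : ∀ d : Matrix ι ι F, (∀ k ∈ K, d * k = k * d) → (∀ v, f (d *ᵥ v) v = 0) → d *ᵥ 1 = 0 → d = 0 := fun d a b c =>
    matrix_eq_iff_mulVec.2 fun w => by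
      have e : ∀ k : K, d *ᵥ orb K 1 k = 0 := fun k => (mulVec_mulVec _ _ _).trans (by rw [a k k.2, ← mulVec_mulVec, c, mulVec_zero])
      rw [zero_mulVec]
      by_cases hw : w ∈ (orb K 1).range
      · exact hw.elim fun k h => h ▸ e k
      refine hf.nondeg' _ fun u => ?_
      obtain ⟨_, ⟨k, rfl⟩, _, ⟨l, rfl⟩, rfl⟩ := Submodule.mem_sup.1 ((fld_compl hK hn one_ne_zero hw).sup_eq_top.ge (Submodule.mem_top (x := u)))
      simpa [mulVec_add, hf.add_left, hf.add_right, e, b, hf.zero_left, show f (d *ᵥ w) (orb K w l) = 0 from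
        fld_dp hK hf hs a b l l.2 w] using b (w + orb K 1 k)
  obtain ⟨U, a, b⟩ := hf.exists_perp (orb K 1).range
  have h4 : ∀ d : Matrix ι ι F, (∀ k ∈ K, d * k = k * d) → (∀ v, f (d *ᵥ v) v = 0) → d *ᵥ 1 ∈ U := fun d c e => (a _).2 (by
    rintro _ ⟨k, rfl⟩; exact hf.zero_comm.1 (fld_dp hK hf hs c e k k.2 1))
  have h5 : (orb K (d *ᵥ 1)).range = U := Submodule.eq_of_le_of_finrank_eq (by
    rintro _ ⟨k, rfl⟩
    exact show k.1 *ᵥ d *ᵥ 1 ∈ U from (mulVec_mulVec 1 k.1 d).symm ▸ h4 _ (fun l hl => by rw [mul_assoc, h1 l hl, ← mul_assoc, hK.1 _ k.2 l hl, mul_assoc]) fun v => by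
      rw [← mulVec_mulVec, hf.adj_spec, hs _ k.2, fld_dp hK hf hs h1 h2 _ k.2]) (by
    rw [LinearMap.finrank_range_of_inj (orb_inj hK one_ne_zero), hK.3] at b
    rw [LinearMap.finrank_range_of_inj (orb_inj hK (mt (h3 d h1 h2) h0)), hK.3]; omega)
  obtain ⟨k, hk⟩ := h5.ge (h4 d' h1' h2')
  exact ⟨k, k.2, sub_eq_zero.1 (h3 _ (fun l hl => by
    rw [sub_mul, mul_sub, h1' l hl, mul_assoc, h1 l hl, ← mul_assoc, hK.1 _ k.2 l hl, mul_assoc]) (fun v => by
    rw [sub_mulVec, hf.sub_left, h2', ← mulVec_mulVec, hf.adj_spec, hs _ k.2, fld_dp hK hf hs h1 h2 _ k.2, sub_zero]) (by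
    rw [sub_mulVec, ← mulVec_mulVec, ← hk]; exact sub_self _))⟩

theorem fld_o2 [Finite F] (hQ : IsNondegenerateQuadraticForm Q) (hQf : QuadraticMap.polar Q = f)
    (h1 : ∀ g ∈ H, ∀ v, Q (g.1 *ᵥ v) = Q v) (hN : Nrm H K) :
    ∃ L, Comm L ∧ Nrm H L ∧ (∀ a ∈ L, adj f a ∈ L) ∧ ¬ ∀ a ∈ L, adj f a = a := by
  let A : Set (Matrix ι ι F) := {a | (∀ k ∈ K, a * k = k * a) ∧ ∀ v, f (a *ᵥ v) v = Q v}
  have h2 : ∀ v, f v v = 2 * Q v := hQf ▸ polar_self hQ
  have h3 : ∀ a, (∀ k ∈ K, a * k = k * a) → ∀ k ∈ K, adj f a * k = k * adj f a := fun a ha k hk => by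
    rw [← hs k hk, ← hf.adj_mul, ← ha k hk, hf.adj_mul]
  have h4 : ∀ a v, f (adj f a *ᵥ v) v = f (a *ᵥ v) v := fun a v => by rw [← hf.adj_right, hf.symm]; simp
  have h5 : ∀ a, (∀ v, f (a *ᵥ v) v = Q v) → ∀ u v, f (a *ᵥ u) v + f (a *ᵥ v) u = f u v := fun a ha u v => by
    have := congrFun₂ hQf u v
    simp only [QuadraticMap.polar, ← ha, mulVec_add, hf.add_left, hf.add_right] at this
    linear_combination this
  have h6 : ∀ a ∈ A, ∀ b ∈ A, a * b = b * a := fun a ha b hb => by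
    by_cases h : (2 : F) • a - 1 = 0
    · by_cases h2 : (2 : F) = 0
      · simp [h2] at h
      · rw [(eq_inv_smul_iff₀ h2).2 (sub_eq_zero.1 h)]; simp
    obtain ⟨k, hk, e⟩ := fld_line hK hn hf hs (d' := b - a) (fun k hk => by simp [sub_mul, mul_sub, ha.1 k hk])
      (fun v => by rw [sub_mulVec, hf.sub_left, smul_mulVec, hf.smul_left, ha.2, one_mulVec, h2, sub_self]) h
      (fun k hk => by rw [sub_mul, mul_sub, ha.1 k hk, hb.1 k hk]) fun v => by rw [sub_mulVec, hf.sub_left, ha.2, hb.2, sub_self]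
    rw [sub_eq_iff_eq_add.1 e, mul_add, add_mul, ← mul_assoc, ha.1 k hk]; simp [mul_sub, sub_mul, mul_assoc]
  refine ⟨Algebra.adjoin F A, fun a ha b hb => Algebra.adjoin_induction₂ (p := fun a b _ _ => a * b = b * a) (fun a b c => h6 a c b)
    (fun _ _ => Algebra.commutes _ _) (fun _ _ _ => Algebra.commutes _ _) (fun _ _ _ => (Algebra.commutes _ _).symm)
    (fun _ _ _ _ _ _ a b => Commute.add_left a b) (fun _ _ _ _ _ _ a b => Commute.add_right a b)
    (fun _ _ _ _ _ _ a b => Commute.mul_left a b) (fun _ _ _ _ _ _ a b => Commute.mul_right a b) ha hb,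
    fun g hg a ha => Algebra.adjoin_le (S := (Algebra.adjoin F A).comap (cj g).toAlgHom) (fun a ha => Algebra.subset_adjoin
      ⟨fun k hk => by rw [← cj_cj_inv g k]; exact (map_mul _ _ _).symm.trans ((congrArg _ (ha.1 _ (hN _ (inv_mem hg) k hk))).trans
        (map_mul _ _ _)), fun v => by
        change f (cj g a *ᵥ v) v = _
        rw [← mulVec_inv_mulVec g v, cj_mulVec, ← hQf, sim_polar (h1 g hg), h1 g hg, one_mul, hQf, ha.2]⟩) ha,
    fun a ha => ?_, fun h => ?_⟩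
  · induction ha using Algebra.adjoin_induction with
    | mem y hy => exact Algebra.subset_adjoin ⟨h3 y hy.1, fun v => (h4 y v).trans (hy.2 v)⟩
    | algebraMap c => rw [Algebra.algebraMap_eq_smul_one, hf.adj_smul, hf.adj_one]; exact Sc.mem ⟨_, rfl⟩ _
    | add a b _ _ ha hb => rw [hf.adj_add]; exact add_mem ha hb
    | mul a b _ _ ha hb => rw [hf.adj_mul]; exact mul_mem hb ha
  by_cases h7 : (2 : F) = 0
  · obtain ⟨Q, rfl, _⟩ := exists_ofQuad hQ
    letI := (Fintype.equivFin ι).linearOrder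
    let B := Q.toBilin (Pi.basisFun F ι)
    obtain ⟨a, ha⟩ := hf.exists_C (f' := fun u v => B u v) ⟨by simp, by simp, by simp, by simp⟩
    have h8 : ∀ v, f (a *ᵥ v) v = Q v := fun v => (ha v v).symm.trans (congr($(Q.toQuadraticMap_toBilin _) v))
    have : Finite K := Module.finite_of_finite F
    have := Fintype.ofFinite Kˣ
    have h9 : ∑ u : Kˣ, (u⁻¹).1.1 * a * u.1.1 ∈ A := ⟨fun k hk => (eq_or_ne k 0).elim (by simp +contextual) fun h0 => by
      obtain ⟨w, rfl⟩ : ∃ w : Kˣ, w.1.1 = k := (hK.2 k hk h0).elim fun y hy =>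
        ⟨⟨⟨k, hk⟩, ⟨y, hy.1⟩, Subtype.ext hy.2, Subtype.ext ((hK.1 y hy.1 k hk).trans hy.2)⟩, rfl⟩
      rw [Finset.mul_sum, Finset.sum_mul, ← Equiv.sum_comp (Equiv.mulRight w) fun u => w.1.1 * _]
      simp [← mul_assoc, show w.1.1 * w⁻¹.1.1 = 1 from congrArg Subtype.val w.mul_inv], fun v => by
      classical
      rw [sum_mulVec, hf.sum_left, ← Finset.add_sum_erase _ _ (Finset.mem_univ 1), Finset.sum_involution (fun u _ => u⁻¹)
        (fun u _ => by
          simp only [← mulVec_mulVec, inv_inv]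
          rw [hf.adj_spec u⁻¹.1.1, hf.adj_spec u.1.1, hs _ u.1.2, hs _ u⁻¹.1.2, h5 a h8, hf.adj_spec, hs _ u.1.2, mulVec_mulVec,
            show u.1.1 * u⁻¹.1.1 = 1 from congrArg Subtype.val u.mul_inv, one_mulVec, h2, h7, zero_mul])
        (fun u hu _ e => (Finset.mem_erase.1 hu).1 (Units.ext (by
          have := (isField hK).isDomain
          refine (mul_self_eq_one_iff.1 (congrArg Units.val (inv_eq_iff_mul_eq_one.1 e))).elim id fun h => h.trans ?_
          rw [neg_eq_iff_add_eq_zero, Units.val_one, one_add_one_eq_two, ← map_ofNat (algebraMap F K) 2, h7, map_zero])))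
        (by simp) (by simp)]; simp [h8]⟩
    exact one_ne_zero (hf.nondeg 1 fun u => by
      rw [← h5 _ h9.2, hf.adj_spec _ 1, h _ (Algebra.subset_adjoin h9), hf.symm]; simp [← two_mul, h7])
  · refine one_ne_zero (hf.nondeg' 1 fun w => ?_)
    have h8 : ∀ w ∉ (orb K 1).range, f 1 w = 0 := fun w hw => by
      have c := fld_compl hK hn one_ne_zero hw
      let p := LinearMap.toMatrix' ((orb K 1).range.projection _ c)
      have p1 : ∀ k : K, p *ᵥ k.1 *ᵥ 1 = k.1 *ᵥ 1 := fun k =>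
        (LinearMap.toMatrix'_mulVec _ _).trans (Submodule.projection_apply_of_mem_left c ⟨k, rfl⟩)
      have p2 : ∀ k : K, p *ᵥ k.1 *ᵥ w = 0 := fun k =>
        (LinearMap.toMatrix'_mulVec _ _).trans ((Submodule.projection_apply_eq_zero_iff c).2 ⟨k, rfl⟩)
      have p3 : ∀ k ∈ K, p * k = k * p := fun k hk => matrix_eq_iff_mulVec.2 fun u => by
        obtain ⟨_, ⟨a, rfl⟩, _, ⟨b, rfl⟩, rfl⟩ := Submodule.mem_sup.1 (c.sup_eq_top.ge (Submodule.mem_top (x := u)))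
        simpa [orb, mulVec_add, ← mulVec_mulVec, p1, p2] using congrArg₂ (· + ·) (p1 (⟨k, hk⟩ * a)) (p2 (⟨k, hk⟩ * b))
      have := h ((2 : F)⁻¹ • 1 + (p - adj f p)) (Algebra.subset_adjoin ⟨fun k hk => by
        simp [add_mul, mul_add, sub_mul, mul_sub, p3 k hk, h3 p p3 k hk], fun v => by
        simp [add_mulVec, sub_mulVec, smul_mulVec, hf.add_left, hf.sub_left, hf.smul_left, h4, h2, h7]⟩)
      rw [hf.adj_add, hf.adj_sub, hf.adj_adj, hf.adj_smul, hf.adj_one] at this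
      have p4 : adj f p = p := smul_right_injective _ h7 (by linear_combination (norm := (simp; module)) this)
      have := hf.adj_spec p 1 w
      rwa [p4, show p *ᵥ w = 0 by simpa using p2 1, show p *ᵥ 1 = 1 by simpa using p1 1, hf.zero_right] at this
    obtain ⟨u, hu⟩ : ∃ u, u ∉ (orb K 1).range := by_contra fun h => by
      have := (Submodule.eq_top_iff'.2 (by simpa using h) : (orb K 1).range = ⊤) ▸ LinearMap.finrank_range_of_inj (orb_inj hK one_ne_zero)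
      have := Fintype.card_pos (α := ι)
      simp [hK.3] at *; omega
    by_cases hw : w ∈ (orb K 1).range
    · simpa [hf.add_right, h8 u hu] using h8 (u + w) fun h => hu (by simpa using sub_mem h hw)
    · exact h8 w hw

end half

theorem SF.cases_of [Fintype F] (hf : SF (.id F) ε f) (hI : Irr H) (hH : H ≤ similarityGroup f) (h1 : Comm K) (h2 : Nrm H K)
    (h3 : ∀ a ∈ K, adj f a ∈ K) (h4 : ¬ ∀ a ∈ K, adj f a = a) :
    (∃ (t m : ℕ) (D : Fin t → _), IsNondegenerateMDecomposition f m D ∧ H ≤ decompositionStabilizer D) ∨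
    (∃ (m : ℕ) (D : Fin 2 → _), IsMDecomposition m D ∧ (∀ i, IsTotallySingularFor f (D i)) ∧ H ≤ decompositionStabilizer D) ∨
    ∃ L, IsFieldSubalgebra 2 L ∧ Nrm H L ∧ ∀ a ∈ L, adj f a ∈ L := by
  rcases of_comm hI h2 h1 (hf.inv hH h3) with ⟨e, -, a1, a2, a3, a4, a5⟩ | ⟨e, -, a1, a2, a3, a4, a5⟩ | a
  · obtain ⟨t, m, g, b1, b2, b3, b4⟩ := exists_dec hI a1 a2 a3 a5
    have b5 : ∀ i, adj f (cj (g i) e) = cj (g i) e := fun i => by rw [hf.adj_cj (hH (b1 i)), a4]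
    refine .inl ⟨t, m, _, ⟨b3, fun i w hw h0 => ?_, ?_⟩, b4⟩
    · obtain ⟨x, hx⟩ := (hf.isNondeg w h0).1
      rw [← (mem_rg (by rw [← map_mul, a1])).1 hw, hf.adj_right, b5] at hx
      exact ⟨⟨_, mulVec_mem_rg _ _, hx⟩, _, mulVec_mem_rg _ _, mt hf.zero_comm.1 hx⟩
    · rintro i j hij _ ⟨u, rfl⟩ _ ⟨v, rfl⟩
      rw [toLin'_apply, toLin'_apply, hf.adj_spec, b5, mulVec_mulVec, b2 i j hij, zero_mulVec, hf.zero_right]
  · obtain ⟨t, m, g, b1, b2, b3, b4⟩ := exists_dec hI a1 a2 a3 fun g hg => (a5 g hg).imp_right fun h => by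
      rw [h, mul_sub, mul_one, a1, sub_self]
    obtain rfl : t = 2 := le_antisymm (by
      classical
      have := Finset.card_le_card_of_injOn (s := .univ) (t := {e, 1 - e}) (fun i => cj (g i) e)
        (fun i _ => by simpa using a5 _ (b1 i)) fun i _ j _ h => by_contra fun h' => a2 (by
          have := b2 i j h'
          rwa [← show _ = cj (g j) e from h, ← map_mul, a1, map_eq_zero_iff _ (cj _).injective] at this)
      simpa using this.trans Finset.card_le_two) b3.two_le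
    refine .inr (.inl ⟨m, _, b3, ?_, b4⟩)
    rintro i _ ⟨u, rfl⟩ _ ⟨v, rfl⟩
    rw [toLin'_apply, toLin'_apply, hf.adj_spec, mulVec_mulVec, hf.adj_cj (hH (b1 i)), a4, ← map_mul, sub_mul, one_mul, a1, sub_self,
      map_zero, zero_mulVec, hf.zero_right]
  · obtain ⟨L, b1, b2⟩ := fld_sub ⟨h1, a, rfl⟩ (Nat.not_odd_iff_even.1 (mt (hf.self_of_odd ⟨h1, a, rfl⟩ h3) h4)).two_dvd
    exact .inr (.inr ⟨L, b1, fun g hg x hx => (b2 _).2 ⟨h2 g hg x ((b2 x).1 hx).1, by rw [← map_pow, ((b2 x).1 hx).2]⟩,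
      fun x hx => (b2 _).2 ⟨h3 x ((b2 x).1 hx).1, by rw [← hf.adj_pow, ((b2 x).1 hx).2]⟩⟩)

end H10.As
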