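import Cfsg.Agent.H10.AsO4

/-!
# Maximal subgroups of even-dimensional orthogonal groups, dimensions 8 to 12
`ev_red`, `ev_dec`, `ev_max`.
-/

namespace H10.As
open Matrix Module Cfsg Cfsg.Geo Subgroup Form
open scoped Kronecker commutatorElement

variable {ι κ μ : Type} [Fintype ι] [DecidableEq ι] [Fintype κ] [DecidableEq κ] [Fintype μ] [DecidableEq μ]
  {F : Type*} [Field F] {H N R : Subgroup (GL ι F)} {P : GL ι F} {W : Submodule F (ι → F)} {t k m : ℕ}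
  {D : Fin t → Submodule F (ι → F)} {Q : (ι → F) → F} (hQ : IsNondegenerateQuadraticForm Q)

theorem not_perf_o2 {f : (ι → F) → (ι → F) → F} (hf : SF (.id F) 1 f) (h2 : (2 : F) ≠ 0) (hn : Fintype.card ι = 2)
    (hH : H ≤ similarityGroup f) (h1 : ⁅H, H⁆ = H) : alg H ≠ ⊤ := fun h => by
  obtain ⟨x, -, b, c⟩ := o2_line hf h2 hn
  refine b (sc_of_alg h fun g hg => (cj_eq_iff.1 ((h1.ge.trans (commutator_le.2 fun a ha b hb => ?_) : H ≤ fixS x) hg)).symm)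
  obtain ⟨k, hk⟩ := c _ (hH (inv_mem ha))
  obtain ⟨l, hl⟩ := c _ (hH (inv_mem hb))
  change cj _ x = x
  rw [show ⁅a, b⁆ = (b⁻¹ * a⁻¹)⁻¹ * (a⁻¹ * b⁻¹) by group, cj_mul, show cj (a⁻¹ * b⁻¹) x = cj (b⁻¹ * a⁻¹) x by
    rw [cj_mul, cj_mul, hk, hl, map_smul, map_smul, hk, hl, smul_comm], cj_inv_cj]

/-- the imprimitive class for even-dimensional orthogonal groups -/
def EvD [Fintype F] (Q : (ι → F) → F) (H : Subgroup (GL ι F)) (m : ℕ) : Prop :=
  ∃ k, k ∣ 2 * m ∧ k < 2 * m ∧ ∃ D : Fin (2 * m / k) → _, IsOrthogonalMDecomposition Q k D ∧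
    (Odd k → Odd (Fintype.card F) ∧ (IsPlusTypeOn Q ⊤ ↔ Fintype.card F ^ m % 4 = 1)) ∧
    (Even k → (Even (2 * m / k) → IsPlusTypeOn Q ⊤) ∧ (Odd (2 * m / k) → ∀ i, IsPlusTypeOn Q ⊤ ↔ IsPlusTypeOn Q (D i))) ∧
    (k = 1 → (Fintype.card F).Prime) ∧ (k = 2 → Fintype.card F ≠ 3 ∧ ∀ i, IsPlusTypeOn Q (D i) → 7 ≤ Fintype.card F) ∧
    (k = 3 → Fintype.card F ≠ 3) ∧ (k = 4 → ∀ i, IsPlusTypeOn Q (D i) → Fintype.card F ≠ 2) ∧
    H = decompositionStabilizer D ⊓ omegaGL Q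

include hQ

theorem plus_of_skew (h2 : (2 : F) ≠ 0) {z : Matrix ι ι F} (h : adj (QuadraticMap.polar Q) z = -z) (h1 : z * z = 1) :
    IsPlusTypeOn Q ⊤ := by
  have hf := sf_of_quad hQ
  have h3 : ∀ z, adj (QuadraticMap.polar Q) z = -z → z * z = 1 → IsTotallySingularFor (QuadraticMap.polar Q) (rg (1 + z)) := by
    rintro z h h1 _ ⟨u, rfl⟩ _ ⟨v, rfl⟩
    rw [toLin'_apply, toLin'_apply, hf.adj_spec, mulVec_mulVec, hf.adj_add, hf.adj_one, h, show (1 + -z) * (1 + z) = 1 - z * z by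
      noncomm_ring, h1, sub_self, zero_mulVec, hf.zero_right]
  have h4 := hf.ts_le (h3 z h h1)
  have h5 := hf.ts_le (h3 (-z) (by rw [← neg_one_smul F z, hf.adj_smul, h]; simp) (by simpa))
  have h6 := Submodule.finrank_add_le_finrank_add_finrank (rg (1 + z)) (rg (1 + -z))
  rw [show _ ⊔ _ = ⊤ from eq_top_iff.2 fun v _ => Submodule.mem_sup.2 ⟨_, mulVec_mem_rg _ ((2 : F)⁻¹ • v), _,
    mulVec_mem_rg _ ((2 : F)⁻¹ • v), by rw [← add_mulVec, show 1 + z + (1 + -z) = (2 : F) • 1 by module]; simp [smul_mulVec, h2]⟩] at h6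
  exact ⟨_, le_top, fun w hw => by simpa [polar_self hQ, h2] using h3 z h h1 w hw w hw, by simp at *; omega⟩

theorem Good.plus [Finite F] [Nonempty ι] (h : Good N R 2) (h1 : ∀ x ∈ R, Sim (QuadraticMap.polar Q) x 1) : IsPlusTypeOn Q ⊤ := by
  have hf := sf_of_quad hQ
  have h2 : (2 : F) ≠ 0 := h.cast_ne
  have h3 : ∀ x ∈ R, x.1 * x.1 = -1 → adj (QuadraticMap.polar Q) x.1 = -x.1 := fun x hx e => by
    rw [hf.adj_sim (h1 x hx), map_one, one_smul, Units.inv_eq_of_mul_eq_one_right (show x.1 * -x.1 = 1 by simp [e])]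
  obtain ⟨x, ⟨a, b⟩, y, ⟨c, d⟩, e⟩ : ∃ x ∈ {x ∈ R | x.1 * x.1 = -1}, ∃ y ∈ {x ∈ R | x.1 * x.1 = -1}, x * y ≠ y * x := by
    by_contra! h4
    have h5 := h.ab (closure {x ∈ R | x.1 * x.1 = -1}) ((closure_le _).2 fun _ h => h.1) (nm_iff.2 fun g hg => by
      rw [MonoidHom.map_closure]
      refine closure_mono ?_
      rintro _ ⟨x, hx, rfl⟩
      exact ⟨nm_normalizer g hg x hx.1, show (g * x * g⁻¹).1 * (g * x * g⁻¹).1 = _ by rw [← cj_val, ← map_mul, hx.2]; simp⟩)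
      fun x hx y hy => closure_induction₂ (p := fun x y _ _ => x * y = y * x) (fun x y a b => h4 x a y b) (by simp) (by simp)
        (fun _ _ _ _ _ _ a b => Commute.mul_left a b) (fun _ _ _ _ _ _ a b => Commute.mul_right a b)
        (fun _ _ _ _ a => Commute.inv_left a) (fun _ _ _ _ a => Commute.inv_right a) hx hy
    have h6 : ∀ x : R, x * x = 1 := fun x => by
      obtain ⟨c, hc⟩ := mem_scalars.1 (h.pow x (h.leN x.2))
      rw [sq, Units.val_mul] at hc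
      rcases mul_self_eq_one_iff.1 (hf.sim_unique (hf.sim_scalar (g := x * x) hc) (h1 _ (mul_mem x.2 x.2))) with rfl | rfl
      · exact Subtype.ext (Units.ext (by simpa using hc))
      obtain ⟨d, hd⟩ := mem_scalars.1 (h5 (subset_closure ⟨x.2, by simpa using hc⟩))
      have := hf.sim_unique (hf.sim_scalar hd) (h1 _ x.2)
      rw [hd, smul_mul_smul_comm, one_mul] at hc
      exact (h2 (by linear_combination smul_one_inj hc - this)).elim
    exact h.not_commR fun x y => (Commute.of_orderOf_dvd_two (fun x => orderOf_dvd_of_pow_eq_one ((sq x).trans (h6 x))) x y).eq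
  obtain ⟨k, h4, h5⟩ := h.exists_c (h.leN a) (h.leN c)
  have h6 : y.1 * x.1 = -(x.1 * y.1) := by
    rw [← map_pow, ← map_one (sc ι), sc_injective.eq_iff, sq, Units.ext_iff] at h4
    rcases mul_self_eq_one_iff.1 h4 with h | h <;> have := congrArg Units.val (mul_inv_eq_iff_eq_mul.1 h5)
    exacts [(e (Units.ext (by simpa [h] using this.symm))).elim, by simpa [h] using this]
  have := NeZero.mk (CharP.ringChar_ne_zero_of_finite F)
  obtain ⟨r, s, h7⟩ := CharP.sq_add_sq F (ringChar F) (-1)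
  exact plus_of_skew hQ h2 (z := (r : F) • x.1 + (s : F) • y.1) (by rw [hf.adj_add, hf.adj_smul, hf.adj_smul, h3 x a b, h3 y c d]; simp [add_comm])
    (by simp only [add_mul, mul_add, smul_mul_smul_comm, b, d, h6]; linear_combination (norm := module) -h7 • (1 : Matrix ι ι F))

theorem ts_ne_top [Nonempty ι] (h : IsTotallySingularQuad Q W) : W ≠ ⊤ := by
  rintro rfl; exact one_ne_zero ((sf_of_quad hQ).nondeg 1 fun u => by simp [QuadraticMap.polar, h _ trivial])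

theorem ts_quad [Finite F] (h1 : ∀ g ∈ H, ∀ v, Q (g.1 *ᵥ v) = Q v) (h0 : W ≠ ⊥) (h : IsTotallySingularFor (QuadraticMap.polar Q) W)
    (hH : H ≤ subspaceStabilizer W) : (∃ W, W ≠ ⊥ ∧ IsTotallySingularQuad Q W ∧ H ≤ subspaceStabilizer W) ∨
      (2 : F) = 0 ∧ ∃ v, Q v ≠ 0 ∧ H ≤ subspaceStabilizer (.span F {v}) := by
  have h3 : ∀ u ∈ W, ∀ v ∈ W, Q (u + v) = Q u + Q v := fun u hu v hv => by
    linear_combination (norm := (rw [QuadraticMap.polar]; ring)) h u hu v hv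
  let U : Submodule F (ι → F) :=
    { carrier := {v ∈ W | Q v = 0}
      zero_mem' := ⟨zero_mem _, by simpa using hQ.smul 0 0⟩
      add_mem' := fun a b => ⟨add_mem a.1 b.1, by rw [h3 _ a.1 _ b.1, a.2, b.2, add_zero]⟩
      smul_mem' := fun c _ a => ⟨W.smul_mem c a.1, by rw [hQ.smul, a.2, mul_zero]⟩ }
  refine or_iff_not_imp_left.2 fun h4 => ?_
  have h5 : U = ⊥ := by_contra fun h => h4 ⟨U, h, fun _ h => h.2, le_stab fun g hg v hv => ⟨(hH hg v).1 hv.1, (h1 g hg v).trans hv.2⟩⟩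
  obtain ⟨v, a, b⟩ := W.ne_bot_iff.1 h0
  have h6 : Q v ≠ 0 := fun h => b (h5.le ⟨a, h⟩)
  have h2 : (2 : F) = 0 := by simpa [polar_self hQ, h6] using h v a v a
  refine ⟨h2, v, h6, (show W = .span F {v} from le_antisymm (fun w hw => ?_) (by simpa)) ▸ hH⟩
  obtain ⟨c, hc⟩ := exists_sqrt h2 (Q w / Q v)
  refine Submodule.mem_span_singleton.2 ⟨-c, (eq_neg_of_add_eq_zero_left (h5.le ⟨add_mem hw (W.smul_mem c a), ?_⟩ :
    w + c • v = 0)).symm ▸ neg_smul _ _⟩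
  rw [h3 _ hw _ (W.smul_mem c a), hQ.smul, sq, ← hc, div_mul_cancel₀ _ h6, ← two_mul, h2, zero_mul]

variable [Fintype F] (hn : Fintype.card ι = 2 * m) (hm : 3 ≤ m) (hH : IsMaximalIn (omegaGL Q) H)
include hn hm hH

theorem ev_red (hm' : m ≤ 6) (h : Red H) :
    (∃ W, W ≠ ⊥ ∧ IsTotallySingularQuad Q W ∧ (IsPlusTypeOn Q ⊤ → finrank F W + 1 ≠ m) ∧ H = subspaceStabilizer W ⊓ omegaGL Q) ∨
    (Odd (Fintype.card F) ∧ ∃ W : Submodule F _, W ≠ ⊥ ∧ W ≠ ⊤ ∧ Odd (finrank F W) ∧ 2 * finrank F W ≠ 2 * m ∧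
      IsNondegenerateOn (QuadraticMap.polar Q) W ∧ H = subspaceStabilizer W ⊓ omegaGL Q) ∨
    (∃ W : Submodule F _, finrank F W = 2 ∧ IsNondegenerateOn (QuadraticMap.polar Q) W ∧ ¬ IsPlusTypeOn Q W ∧
      H = subspaceStabilizer W ⊓ omegaGL Q) ∨
    (4 ≤ Fintype.card F ∧ ∃ W : Submodule F _, finrank F W = 2 ∧ IsNondegenerateOn (QuadraticMap.polar Q) W ∧ IsPlusTypeOn Q W ∧
      H = subspaceStabilizer W ⊓ omegaGL Q) ∨
    (∃ W : Submodule F _, finrank F W = 4 ∧ IsNondegenerateOn (QuadraticMap.polar Q) W ∧ H = subspaceStabilizer W ⊓ omegaGL Q) ∨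
    (m = 6 ∧ ¬ IsPlusTypeOn Q ⊤ ∧ ∃ W : Submodule F _, finrank F W = 6 ∧ IsNondegenerateOn (QuadraticMap.polar Q) W ∧
      H = subspaceStabilizer W ⊓ omegaGL Q) ∨
    (¬ Odd (Fintype.card F) ∧ ∃ v, Q v ≠ 0 ∧ H = subspaceStabilizer (.span F {v}) ⊓ omegaGL Q) ∨
    (Odd m ∧ Odd (Fintype.card F) ∧ (IsPlusTypeOn Q ⊤ ↔ Fintype.card F ^ m % 4 = 3) ∧ ∃ D : Fin 2 → _,
      IsNondegenerateMDecomposition (QuadraticMap.polar Q) m D ∧ ¬ AreIsometricFor Q (D 0) (D 1) ∧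
      H = decompositionStabilizer D ⊓ omegaGL Q) := by
  have : Nonempty ι := Fintype.card_pos_iff.1 (by omega)
  have h1 := om_fix hH.1.le
  have hb := big_om hQ (by omega)
  have hS : H ≤ similarityGroup _ := fun g hg => ⟨1, sim_polar (h1 g hg)⟩
  obtain ⟨Q, rfl, _⟩ := exists_ofQuad hQ
  have hφ : ∀ x y, (ofQuad Q).B x y = 0 ↔ QuadraticMap.polar Q x y = 0 := fun _ _ => Iff.rfl
  rcases red_cases hφ hS h with ⟨W, a, b, c⟩ | ⟨W, a, b⟩
  · rcases ts_quad hQ h1 a b c with ⟨W, a, b, c⟩ | ⟨h2, v, a, b⟩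
    · have d := max_eq hH c (hb.not_stab a (ts_ne_top hQ b))
      exact .inl ⟨W, a, b, fun p e => not_max_of (between_TS hm hn p ((isQuad_ofQuad Q).ts b) e) (d ▸ hH), d⟩
    · have c : v ≠ 0 := by rintro rfl; simp at a
      exact .inr (.inr (.inr (.inr (.inr (.inr (.inl ⟨fun h => odd_card.1 h h2, v, a, max_eq hH b (hb.not_stab (by simpa) fun h => by
        have := finrank_span_singleton (K := F) c; rw [h] at this; simp at this; omega)⟩))))))
  have c := max_eq hH a.4 (hb.not_stab a.1 a.2)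
  have d := Submodule.finrank_eq_zero.not.2 a.1
  obtain ⟨e1, e2⟩ := a.perp hφ hS
  have h3 : 2 * finrank F W = Fintype.card ι → ¬ AreIsometricFor Q W ((ofQuad Q).perp W) := fun h ⟨e, he⟩ => by
    rw [omegaGL_eq_E Q (by omega)] at hb hH
    exact not_max_half ((isQuad_ofQuad Q).std (by simp; omega)) hb hφ hH hS a h (by omega)
      ⟨e, ((isQuad_ofQuad Q).restrict _).isEquiv ((isQuad_ofQuad Q).restrict _) he⟩
  refine .inr ?_
  rcases Nat.even_or_odd (finrank F W) with ⟨k, hk⟩ | ho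
  · obtain h | h | h : finrank F W = 2 ∨ finrank F W = 4 ∨ finrank F W = 6 := by omega
    · by_cases p : IsPlusTypeOn Q W
      exacts [.inr (.inr (.inl ⟨not_plus_plane hQ (by omega) hH a h p, W, h, a.3, p, c⟩)), .inr (.inl ⟨W, h, a.3, p, c⟩)]
    · exact .inr (.inr (.inr (.inl ⟨W, h, a.3, c⟩)))
    refine .inr (.inr (.inr (.inr (.inl ⟨by omega, fun p => h3 (by omega) ?_, W, h, a.3, c⟩))))
    have := (nondegOn_quad a.3).nondeg
    have := (nondegOn_quad e1.3).nondeg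
    have h4 : finrank F ((ofQuad Q).perp W) = 2 * 3 := by omega
    exact (((isQuad_ofQuad Q).restrict W).exists_isEquiv_even ((isQuad_ofQuad Q).restrict _) (m := 3) h h4 (by
      rw [← isPlusTypeOn_iff h, ← isPlusTypeOn_iff h4]
      exact ⟨fun h => (plus_perp hQ ⟨m, by omega⟩ e1.3 (by rwa [perp_perp])).1 p,
        fun h => (plus_perp hQ ⟨m, by omega⟩ a.3 h).1 p⟩)).imp fun _ h => h.Q
  have h2 : (2 : F) ≠ 0 := fun h => Nat.not_even_iff_odd.2 ho (nd_even (symp_of_quad hQ h) a.3)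
  by_cases h4 : 2 * finrank F W = 2 * m
  · obtain ⟨e3, e4⟩ := a.dec hφ hS (by omega)
    obtain rfl : finrank F W = m := by omega
    exact .inr (.inr (.inr (.inr (.inr (.inr ⟨ho, odd_card.2 h2, (dec_plus_half hQ e3 ho (h3 hn.symm)).2, _, e3, h3 hn.symm,
      max_eq hH e4 (not_om_dstab hQ (by omega) e3)⟩)))))
  · exact .inl ⟨odd_card.2 h2, W, a.1, a.2, ho, h4, a.3, c⟩

variable (hI : Irr H)
include hI

theorem ev_dec (hs : ¬ SubF (QuadraticMap.polar Q) H) (hD : IsNondegenerateMDecomposition (QuadraticMap.polar Q) k D)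
    (h : H ≤ decompositionStabilizer D) : EvD Q H m := by
  have h1 := om_fix hH.1.le
  have h2 := fun g hg => sim_polar (h1 g hg)
  have a0 : ∀ t k (D : Fin t → _), IsNondegenerateMDecomposition (QuadraticMap.polar Q) k D → H ≤ decompositionStabilizer D →
      (k = 1 → (Fintype.card F).Prime) → (k = 2 → Fintype.card F ≠ 3 ∧ ∀ i, IsPlusTypeOn Q (D i) → 7 ≤ Fintype.card F) →
      (k = 3 → Fintype.card F ≠ 3) → (k = 4 → ∀ i, IsPlusTypeOn Q (D i) → Fintype.card F ≠ 2) → EvD Q H m :=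
    fun t k D a b c d e f => by
      have b0 := hn.symm.trans (mdec_card a.1)
      have b1 := a.1.two_le
      have b2 := a.1.pos
      obtain rfl : t = 2 * m / k := by rw [b0, Nat.mul_div_cancel _ b2]
      exact ⟨k, Dvd.intro_left _ b0.symm, by nlinarith, D, hI.odec h1 a b, fun h => (dec_plus_odd hQ hn hI h2 a b h).imp_left
        odd_card.2, dec_plus hQ (hI.odec h1 a b), c, d, e, f, max_eq hH b (not_om_dstab hQ (by omega) a)⟩
  have a1 : (∃ (t : ℕ) (D : Fin t → _), IsNondegenerateMDecomposition (QuadraticMap.polar Q) 1 D ∧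
      H ≤ decompositionStabilizer D) → EvD Q H m := fun ⟨t, D, a, b⟩ =>
    a0 t 1 D a b (fun _ => (frame_sub (sf_of_quad hQ) hI h2 a b).resolve_right hs) (by simp) (by simp) (by simp)
  have a2 : (∃ (t : ℕ) (D : Fin t → _), IsNondegenerateMDecomposition (QuadraticMap.polar Q) 2 D ∧
      H ≤ decompositionStabilizer D) → EvD Q H m := fun ⟨t, D, a, b⟩ => by_contra fun h0 => by
    have c := fun i h => h0 (a1 (blk2_frame hQ hI h1 a b rfl i h))
    have := a.1.two_le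
    refine h0 (a0 t 2 D a b (by simp) (fun _ => ⟨fun h => c ⟨0, by omega⟩ (.inl h), fun i p => ?_⟩) (by simp) (by simp))
    have := Fintype.one_lt_card (α := F)
    have := card_ne_six (F := F)
    have := mt (blk2_two hQ hI h1 a b rfl i) (not_not.2 p)
    have := mt (blk2_four hQ hI h1 a b rfl i · p) hs
    have := mt (fun h => .inl h) (c i)
    have := mt (fun h => .inr ⟨h, p⟩) (c i)
    omega
  refine by_contra fun h0 => h0 (a0 t k D hD h ?_ ?_ ?_ ?_) <;> rintro rfl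
  exacts [(h0 (a1 ⟨t, D, hD, h⟩)).elim, (h0 (a2 ⟨t, D, hD, h⟩)).elim,
    fun hq => h0 (a1 ⟨_, o33_blocks hq (sf_of_quad hQ) hI h2 hD h⟩), fun i p hq => h0 (a2 (blk4_two hQ hI h1 hD h rfl i hq p))]

theorem ev_pair {D : Fin 2 → Submodule F (ι → F)} (hD : IsMDecomposition k D)
    (h1 : ∀ i, IsTotallySingularFor (QuadraticMap.polar Q) (D i)) (h : H ≤ decompositionStabilizer D) :
    IsPlusTypeOn Q ⊤ ∧ Even m ∧ ∃ D : Fin 2 → _, IsMDecomposition m D ∧ (∀ i, IsTotallySingularQuad Q (D i)) ∧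
      H = decompositionStabilizer D ⊓ omegaGL Q := by
  obtain rfl : k = m := by have := mdec_card hD; omega
  have h2 := om_fix hH.1.le
  have h3 : ∀ i, IsTotallySingularQuad Q (D i) := fun i v hv => by
    by_cases h0 : (2 : F) = 0
    · obtain ⟨Q', a, b⟩ := ts_qf (sf_of_quad hQ) (fun g hg => sim_polar (h2 g hg)) hD h1 h
      exact (qf_self hQ h2).eq a h0 hI (by omega) ▸ b i v hv
    · simpa [polar_self hQ, h0] using h1 i v hv v hv
  have h4 := max_eq hH h ((big_om hQ (by omega)).not_dstab hD (by decide))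
  refine ⟨⟨D 0, le_top, h3 0, by simp [hD.finrank_eq, hn]⟩, Nat.not_odd_iff_even.1 fun ho => ?_, D, hD, h3, h4⟩
  obtain ⟨Q, rfl, _⟩ := exists_ofQuad hQ
  exact not_max_of (between_pair ⟨(isQuad_ofQuad Q).ts (h3 0), (isQuad_ofQuad Q).ts (h3 1),
    isCompl_of_fin_two hD.indep hD.iSup_eq_top⟩ (by rwa [hD.finrank_eq]) (by rwa [hD.finrank_eq])) (h4 ▸ hH)

theorem ev_fld2 {K : Subalgebra F (Matrix ι ι F)} (hK : IsFieldSubalgebra 2 K) (h1 : Nrm H K)
    (h2 : ∀ a ∈ K, adj (QuadraticMap.polar Q) a ∈ K) : ∃ K, IsFieldSubalgebra 2 K ∧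
      ((IsSelfAdjointFor (QuadraticMap.polar Q) K ∧ (Odd m → Odd (Fintype.card F))) ∨
        IsAdjointClosedFor (QuadraticMap.polar Q) K ∧ ¬ IsSelfAdjointFor (QuadraticMap.polar Q) K ∧
          (∀ k ∈ K, ∃ c, ∀ v, Q (k *ᵥ v) = c * Q v) ∧ (IsPlusTypeOn Q ⊤ → Even m)) ∧ H = subalgebraNormalizer K ⊓ omegaGL Q := by
  have : Nonempty ι := Fintype.card_pos_iff.1 (by omega)
  have h3 := om_fix hH.1.le
  have hf := sf_of_quad hQ
  refine ⟨K, hK, ?_, max_eq hH h1.le ((big_om hQ (by omega)).not_field hK (by decide))⟩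
  by_cases h4 : ∀ a ∈ K, adj (QuadraticMap.polar Q) a = a
  · refine .inl ⟨hf.selfAdj h4, fun ho => odd_card.2 fun h => ?_⟩
    have := fld_half hf hK (hf.selfAdj h4) (fld_alt (hf.of_two h (.inr rfl)) hI (fun g hg => sim_polar (h3 g hg)) hK (by omega) h1 h4)
    obtain ⟨_, ho⟩ := ho
    omega
  · have h5 := fld_norm hQ hI h3 (by omega) hK h1 h2 h4
    exact .inr ⟨hf.adjClosed h2, fun h => h4 fun a ha => hf.adj_eq (h a ha), h5, fun p => by
      have := fld_minus hQ hK h2 h5 p; exact ⟨m / 2, by omega⟩⟩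

omit hI in
theorem ev_t2 {e : ι ≃ Fin 2 × Fin k} {ε₁ ε₂ : F} {f₁ : (Fin 2 → F) → (Fin 2 → F) → F} {f₂ : (Fin k → F) → (Fin k → F) → F}
    (h : TL H e P) (hP : Pr H (adj (QuadraticMap.polar Q))) (h₁ : SF (.id F) ε₁ f₁) (h₂ : SF (.id F) ε₂ f₂)
    (hT : TF (.id F) (QuadraticMap.polar Q) e P (gramMatrix f₁ ⊗ₖ gramMatrix f₂)) :
    IsPlusTypeOn Q ⊤ ∧ 3 ≤ Fintype.card F ∧ Even m ∧ ∃ (e : ι ≃ Fin 2 × Fin m) (P : GL ι F) (f₁ : _) (f₂ : _), IsSymplecticForm f₁ ∧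
      IsSymplecticForm f₂ ∧ IsTensorFormStructure id (QuadraticMap.polar Q) f₁ f₂ e P ∧
      (∀ (x : Fin 2 → F) (y : Fin m → F), Q (P.1 *ᵥ ((fun a => x a.1 * y a.2) ∘ e)) = 0) ∧
      H = tensorProductSubgroup 2 m e P ⊓ omegaGL Q := by
  obtain rfl : k = m := by have := Fintype.card_congr e; simp at this; omega
  have : Nonempty (Fin k) := ⟨⟨0, by omega⟩⟩
  have h1 := om_fix hH.1.le
  have hf := sf_of_quad hQ
  have hS : H ≤ similarityGroup _ := fun g hg => ⟨1, sim_polar (h1 g hg)⟩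
  obtain ⟨a, b, c⟩ : IsSymplecticForm f₁ ∧ IsSymplecticForm f₂ ∧
      ∀ (x : Fin 2 → F) (y : Fin k → F), Q (lq e P fun a => x a.1 * y a.2) = 0 := by
    by_cases h2 : (2 : F) = 0
    · have a := h.alt hP.1 hf hS h2 h₁ hT (by simp)
      have b := h.swap.alt hP.1 hf hS h2 h₂ hT.swap (by simp; omega)
      obtain ⟨Q', c, d⟩ := h.qf hf h2 hP.1 (fun g hg => sim_polar (h1 g hg)) h₁ h₂.toSq a b hT
      exact ⟨(h₁.of_two h2 (.inr rfl)).symp a, (h₂.of_two h2 (.inr rfl)).symp b, (qf_self hQ h1).eq c h2 hP.1 (by omega) ▸ d⟩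
    obtain rfl := h₁.eps.resolve_left (by rintro rfl; exact absurd (h.three hP hf hS h2 h₁ hT le_rfl) (by decide))
    obtain rfl : ε₂ = -1 := by linear_combination hT.eps hf (h₁.kron h₂)
    refine ⟨h₁.symp (h₁.alt h2), h₂.symp (h₂.alt h2), fun x y => mul_left_cancel₀ h2 ?_⟩
    obtain ⟨c, -, hc⟩ := hT
    rw [← polar_self hQ, ← pf_eq e P (f := QuadraticMap.polar Q), hc, formOfGram_kron, ← h₁.eq_gram, h₁.alt h2]; simp
  refine ⟨plus_of_basis hQ e P ({0} ×ˢ .univ) (by simp [hn]) (fun x _ => ?_) fun x hx y hy => ?_,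
    h.not_two ((h.pr_form hP hf h₁ hT).prim h₁ (p1_le_sim hS hf h₁ hT)), by simpa using even_of_symp b, e, P, f₁, f₂, a, b, hT, c,
    max_eq hH (tl_iff.1 h) fun h => (big_om hQ (by omega)).not_TL (by simp) (by simpa) (tl_iff.2 h)⟩
  · convert c (Pi.single x.1 1) (Pi.single x.2 1) using 3
    ext; simp only [Pi.single_apply, Prod.ext_iff]; split_ifs <;> simp_all
  · obtain ⟨c, -, hc⟩ := hT
    simp only [Finset.mem_product, Finset.mem_singleton] at hx hy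
    rw [gramMatrix, hc, show formOfGram _ _ _ _ = _ from congrFun₂ (gram_formOfGram _) x y, kroneckerMap_apply, hx.1, hy.1,
      show gramMatrix f₁ 0 0 = 0 from a.3 _]; simp

omit hI in
theorem ev_t3 {e : ι ≃ Fin 3 × Fin 4} {f₁ : (Fin 3 → F) → (Fin 3 → F) → F} {f₂ : (Fin 4 → F) → (Fin 4 → F) → F} (h2 : (2 : F) ≠ 0)
    (h : TL H e P) (hP : Pr H (adj (QuadraticMap.polar Q))) (h₁ : SF (.id F) 1 f₁) (h₂ : SF (.id F) 1 f₂)
    (hT : TF (.id F) (QuadraticMap.polar Q) e P (gramMatrix f₁ ⊗ₖ gramMatrix f₂)) :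
    (∃ (k : ℕ) (e : ι ≃ Fin 2 × Fin k) (P : GL ι F) (ε₁ ε₂ : F) (f₁ : _) (f₂ : _), TL H e P ∧ SF (.id F) ε₁ f₁ ∧ SF (.id F) ε₂ f₂ ∧
      TF (.id F) (QuadraticMap.polar Q) e P (gramMatrix f₁ ⊗ₖ gramMatrix f₂)) ∨
    m = 6 ∧ ¬ IsPlusTypeOn Q ⊤ ∧ Odd (Fintype.card F) ∧ 5 ≤ Fintype.card F ∧ ∃ (e : ι ≃ Fin 3 × Fin 4) (P : GL ι F) (f₁ : _) (f₂ : _),
      IsSymmetricForm f₁ ∧ IsSymmetricForm f₂ ∧ ¬ IsPlusTypeOn (fun v => f₂ v v) ⊤ ∧
      IsTensorFormStructure id (QuadraticMap.polar Q) f₁ f₂ e P ∧ H = tensorProductSubgroup 3 4 e P ⊓ omegaGL Q := by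
  obtain rfl : m = 6 := by have := Fintype.card_congr e; simp at this; omega
  have h1 := om_fix hH.1.le
  have hf := sf_of_quad hQ
  by_cases p : IsPlusTypeOn (fun v => f₂ v v) ⊤
  · obtain ⟨e, P, a, b⟩ := h.o4 h2 (by simp) h₂ p hT
    refine .inl (a.o4_det h2 hf (fun g hg => sim_polar (h1 g hg)) (fun g hg => ?_) h₁ (by decide) b)
    obtain ⟨g, a, rfl⟩ := hH.1.le hg
    exact congrArg Units.val (Abelianization.commutator_subset_ker (GeneralLinearGroup.det.comp (isometryGroup F Q).subtype) a)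
  have := Fintype.one_lt_card (α := F)
  have := mt (h.not_o33 · hP hf (fun g hg => ⟨1, sim_polar (h1 g hg)⟩) h₁ hT) id
  refine .inr ⟨rfl, fun p' => p ?_, odd_card.2 h2, by obtain ⟨_, h⟩ := odd_card.2 h2; omega, e, P, f₁, f₂, h₁.symmF, h₂.symmF, p, hT,
    max_eq hH (tl_iff.1 h) fun h => (big_om hQ (by omega)).not_TL (by simp) (by simp) (tl_iff.2 h)⟩
  obtain ⟨c, c0, hc⟩ := hT
  have d₁ := ((isUnit_iff_isUnit_det _).1 h₁.isUnit_gram).ne_zero
  have d₂ := ((isUnit_iff_isUnit_det _).1 h₂.isUnit_gram).ne_zero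
  rw [plus_iff_det hQ h2 hn e P, show gramMatrix (pf e P _) = c • (gramMatrix f₁ ⊗ₖ gramMatrix f₂) from Matrix.ext fun x y =>
    (hc _ _).trans (congrArg _ (congrFun₂ (gram_formOfGram _) x y)), det_smul, det_kronecker] at p'
  rw [plus_iff_det (h₂.quad h2) h2 (m := 2) (by simp) (.refl _) 1, h₂.polar_eq, show gramMatrix _ = (2 : F) • gramMatrix f₂ from
    Matrix.ext fun x y => by simp only [gramMatrix, pf_eq, lq_apply, Units.val_one, one_mulVec]; rfl, det_smul]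
  have h3 : ∀ a : F, a ≠ 0 → chi (a * a * det (gramMatrix f₂)) = chi (det (gramMatrix f₂)) := fun a h => by
    rw [chi_mul (mul_self_ne_zero.2 h) d₂, chi_mul_self, one_mul]
  rw [Fintype.card_fin, show (2 : F) ^ 4 = 2 ^ 2 * 2 ^ 2 by ring, h3 _ (pow_ne_zero _ h2),
    ← h3 (c ^ 6 * det (gramMatrix f₁) ^ 2 * det (gramMatrix f₂)) (by simp [*])]
  exact (congrArg chi (by simp; ring)).trans (p'.trans (by rcases Int.units_eq_one_or (chi (-1 : F)) with h | h <;> rw [h] <;> rfl))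

theorem ev_max (hm' : m ≤ 6) (hx : m = 3 ∨ m = 4 ∧ IsPlusTypeOn Q ⊤ → False) : EvD Q H m ∨
    (IsPlusTypeOn Q ⊤ ∧ Even m ∧ ∃ D : Fin 2 → _, IsMDecomposition m D ∧ (∀ i, IsTotallySingularQuad Q (D i)) ∧
      H = decompositionStabilizer D ⊓ omegaGL Q) ∨
    (∃ K, IsFieldSubalgebra 2 K ∧ ((IsSelfAdjointFor (QuadraticMap.polar Q) K ∧ (Odd m → Odd (Fintype.card F))) ∨
      IsAdjointClosedFor (QuadraticMap.polar Q) K ∧ ¬ IsSelfAdjointFor (QuadraticMap.polar Q) K ∧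
        (∀ k ∈ K, ∃ c, ∀ v, Q (k *ᵥ v) = c * Q v) ∧ (IsPlusTypeOn Q ⊤ → Even m)) ∧ H = subalgebraNormalizer K ⊓ omegaGL Q) ∨
    (m = 6 ∧ ∃ K, IsFieldSubalgebra 3 K ∧ H = subalgebraNormalizer K ⊓ omegaGL Q) ∨
    (IsPlusTypeOn Q ⊤ ∧ 3 ≤ Fintype.card F ∧ Even m ∧ ∃ (e : ι ≃ Fin 2 × Fin m) (P : GL ι F) (f₁ : _) (f₂ : _), IsSymplecticForm f₁ ∧
      IsSymplecticForm f₂ ∧ IsTensorFormStructure id (QuadraticMap.polar Q) f₁ f₂ e P ∧
      (∀ (x : Fin 2 → F) (y : Fin m → F), Q (P.1 *ᵥ ((fun a => x a.1 * y a.2) ∘ e)) = 0) ∧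
      H = tensorProductSubgroup 2 m e P ⊓ omegaGL Q) ∨
    (m = 6 ∧ ¬ IsPlusTypeOn Q ⊤ ∧ Odd (Fintype.card F) ∧ 5 ≤ Fintype.card F ∧ ∃ (e : ι ≃ Fin 3 × Fin 4) (P : GL ι F) (f₁ : _) (f₂ : _),
      IsSymmetricForm f₁ ∧ IsSymmetricForm f₂ ∧ ¬ IsPlusTypeOn (fun v => f₂ v v) ⊤ ∧
      IsTensorFormStructure id (QuadraticMap.polar Q) f₁ f₂ e P ∧ H = tensorProductSubgroup 3 4 e P ⊓ omegaGL Q) ∨
    (∃ (L : Subfield F) (r : ℕ) (P : GL ι F) (ζ : F), r.Prime ∧ (IsPlusTypeOn Q ⊤ ∨ Odd r) ∧ Fintype.card F = Nat.card L ^ r ∧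
      ζ ≠ 0 ∧ IsQuadFormRationalStructure (fun v => ζ * Q v) L P ∧ H = subfieldSubgroup L P ⊓ omegaGL Q) ∨
    InOrthogonalResidualClass H := by
  have : Nonempty ι := Fintype.card_pos_iff.1 (by omega)
  have h1 := om_fix hH.1.le
  have h3 := fun g hg => sim_polar (h1 g hg)
  have hf := sf_of_quad hQ
  have hS : H ≤ similarityGroup _ := fun g hg => ⟨1, h3 g hg⟩
  have hb := big_om hQ (by omega)
  refine by_contra fun h0 => ?_
  simp only [not_or] at h0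
  obtain ⟨a1, a2, a3, a4, a5, a6, a7, a8⟩ := h0
  replace a7 : ¬ SubF _ H := fun h => (h.quad hQ hI (by omega) h1).elim fun L ⟨r, P, ζ, a, b, c, d, e, i⟩ =>
    a7 ⟨L, r, P, ζ, a, b ⟨m, by omega⟩, c, d, e, max_eq hH i (hb.not_subfield (ne_top_of_card a c))⟩
  replace a1 := fun t k (D : Fin t → _) a b => a1 (ev_dec (k := k) (D := D) hQ hn hm hH hI a7 a b)
  replace a2 := fun k D a b c => a2 (ev_pair (k := k) (D := D) hQ hn hm hH hI a b c)
  replace a3 := fun K a b c => a3 (ev_fld2 (K := K) hQ hn hm hH hI a b c)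
  rcases hf.cases hI hS with hP | ⟨t, k, D, a, b, -⟩ | ⟨k, D, a, b, c⟩ | ⟨r, K, a, b, c, d⟩
  rotate_left
  · exact a1 t k D a b
  · exact a2 k D a b c
  · have e := hn ▸ fld_dvd b
    obtain rfl | ho := a.eq_two_or_odd'
    · exact a3 K b c d
    by_cases h4 : m = r
    · obtain ⟨L, i, j, k, l⟩ := fld_o2 b (h4 ▸ hn) hf (hf.self_of_odd b d ho) hQ rfl h1 c
      rcases hf.cases_of hI hS i j k l with ⟨t, k, D, a, b⟩ | ⟨k, D, a, b, c⟩ | ⟨L, a, b, c⟩
      exacts [a1 t k D a b, a2 k D a b c, a3 L a b c]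
    have := Nat.le_of_dvd (by omega) e
    have := a.two_le
    obtain ⟨rfl, rfl⟩ : m = 6 ∧ r = 3 := by obtain ⟨_, ho⟩ := ho; interval_cases m <;> interval_cases r <;> omega
    exact a4 ⟨rfl, K, b, max_eq hH c.le (hb.not_field b (by decide))⟩
  replace a5 := fun k e P ε₁ ε₂ f₁ f₂ a b c d =>
    a5 (ev_t2 (k := k) (e := e) (P := P) (ε₁ := ε₁) (ε₂ := ε₂) (f₁ := f₁) (f₂ := f₂) hQ hn hm hH a hP b c d)
  replace a6 := fun e P f₁ f₂ h2 a b c d => (ev_t3 (e := e) (P := P) (f₁ := f₁) (f₂ := f₂) hQ hn hm hH h2 a hP b c d).elim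
    (fun ⟨_, _, _, _, _, _, _, a, b, c, d⟩ => a5 _ _ _ _ _ _ _ a b c d) a6
  have hH' := sup_le hS hf.scalars_le
  have hP' := hP.mono (le_sup_left (b := scalars ι F))
  have h5 : ∀ {a b}, 2 ≤ a → 2 ≤ b → 2 * m = a ^ b → m = 4 ∧ a = 2 ∧ b = 3 := fun {a b} c d e => by
    have := Nat.pow_le_pow_left c b
    have : b < 4 := lt_of_not_ge fun h => by have := Nat.pow_le_pow_right two_pos h; omega
    have : a < 4 := lt_of_not_ge fun h => by have := Nat.pow_le_pow_left h b; interval_cases b <;> omega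
    interval_cases a <;> interval_cases b <;> omega
  rcases (hP'.prim hf hH').cases le_sup_right (by omega) with h | ⟨N, r, h⟩ | h | ⟨S, h⟩
  · obtain ⟨k, l, e, P, ε₁, ε₂, f₁, f₂, b1, b2, b3, b4, b5, -, b6⟩ := h.form hf hH'
    replace b3 : TL H e P := fun g hg => b3 g (mem_sup_left hg)
    obtain rfl | c1 := b1.eq_or_lt
    · exact a5 _ _ _ _ _ _ _ b3 b4 b5 b6
    obtain rfl | c2 := b2.eq_or_lt
    · exact a5 _ _ _ _ _ _ _ b3.swap b5 b4 b6.swap
    have b7 : 2 * m = k * l := by simpa using hn.symm.trans (Fintype.card_congr e)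
    have := e.symm.nonempty_congr.2 this
    have b8 := b6.eps hf (b4.kron b5)
    have b9 : ∀ {ε₁ ε₂ f₁ f₂} (e : ι ≃ Fin 3 × Fin 4), TL H e P → SF (.id F) ε₁ f₁ → SF (.id F) ε₂ f₂ → 1 = ε₁ * ε₂ →
        ¬ TF (.id F) (QuadraticMap.polar Q) e P (gramMatrix f₁ ⊗ₖ gramMatrix f₂) := fun e a b c d i => by
      have h2 : (2 : F) ≠ 0 := fun h2 => absurd (even_of_symp ((b.of_two h2 (.inr rfl)).symp (a.alt hI hf hS h2 b i (by simp))))
        (by decide)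
      obtain rfl := b.eps_of_odd h2 (by decide)
      obtain rfl := d.trans (one_mul _)
      exact a6 e P _ _ h2 a b c i
    have : k ≤ 4 := by nlinarith
    have : l ≤ 4 := by nlinarith
    obtain ⟨rfl, rfl⟩ | ⟨rfl, rfl⟩ : k = 3 ∧ l = 4 ∨ k = 4 ∧ l = 3 := by interval_cases k <;> omega
    exacts [b9 e b3 b4 b5 b8 b6, b9 _ b3.swap b5 b4 (mul_comm ε₁ _ ▸ b8) b6.swap]
  · obtain ⟨R, a, -, c⟩ := h.bil hf hH'
    obtain ⟨k, hk⟩ := a.exists_pow
    exact hx (.inr ⟨(h5 le_rfl (by_contra fun h => by interval_cases k <;> omega) (hn ▸ hk)).1, a.plus hQ c⟩)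
  · obtain ⟨t, k, e, P, L, ε₁, f₁, b1, b2, b3, b4, b5, b6, -, b7, b8⟩ := h.form hf hH'
    obtain ⟨h6, rfl, rfl⟩ := h5 b2 b1 (by simpa using hn.symm.trans (Fintype.card_congr e))
    by_cases h2 : (2 : F) = 0
    · have a := (b6.alt_or_red h2 (by simp) b7).resolve_right (irr_of_alg b5).not_red
      obtain ⟨Q', c, d⟩ := WL.qf (fun g hg => b3 g (mem_sup_left hg)) hf h2 hI h3 b6 a b8
      refine hx (.inr ⟨h6, plus_of_basis hQ e P {x | x 0 = 0} (by rw [hn, h6]; rfl) (fun x _ => ?_) fun x hx y hy => ?_⟩)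
      · convert (qf_self hQ h1).eq c h2 hI (by omega) ▸ d fun i => Pi.single (x i) 1 using 3
        ext; simp [Pi.single_apply, funext_iff, Finset.prod_boole]
      · obtain ⟨c, -, hc⟩ := b8
        rw [gramMatrix, hc, show formOfGram _ _ _ _ = _ from congrFun₂ (gram_formOfGram _) x y, pt_apply,
          Finset.prod_eq_zero (Finset.mem_univ 0) (by rw [(Finset.mem_filter.1 hx).2, (Finset.mem_filter.1 hy).2]; exact a _),
          mul_zero]
    · obtain rfl := b6.eps.resolve_right (by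
        rintro rfl; have := b8.eps hf b6.pow; rw [Fintype.card_fin] at this; exact h2 (by linear_combination this))
      exact not_perf_o2 b6 h2 (by simp) b7 b4 b5
  · obtain ⟨b, c⟩ := (h.form hf hS).2.resolve_left a7
    exact a8 ⟨S, b, fun ⟨σ, f', d, e⟩ => (sf_of_unit d).2 (c _ _ _ (sf_of_unit d).1 e)⟩

end H10.As
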