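import Cfsg.Agent.H10.AsEd

/-!
# Four-dimensional plus-type factors
`o4_cases`, `TL.o4`, `tl_of_hom`, `TL.o4_det`.
-/

namespace H10.As
open Matrix Module Cfsg Cfsg.Geo Subgroup Form
open scoped Kronecker

variable {ι κ μ : Type} [Fintype ι] [DecidableEq ι] [Fintype κ] [DecidableEq κ] [Fintype μ] [DecidableEq μ]
  {F : Type*} [Field F] {H : Subgroup (GL ι F)} {P : GL ι F} {σ : F →+* F} {ε : F} {f : (ι → F) → (ι → F) → F}

variable (κ F) in
/-- interchange of the two tensor factors -/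
def sw : GL (κ × κ) F where
  val := (1 : Matrix _ _ F).submatrix id (Equiv.prodComm κ κ)
  inv := (1 : Matrix _ _ F).submatrix id (Equiv.prodComm κ κ)
  val_inv := by rw [one_submatrix_mul]; ext; simp [one_apply]
  inv_val := by rw [one_submatrix_mul]; ext; simp [one_apply]

theorem sw_mul (a b : Matrix κ κ F) : (sw κ F).1 * (a ⊗ₖ b) = (b ⊗ₖ a) * (sw κ F).1 := by
  ext x y
  have : ∀ z : κ × κ, (x = z.swap) = (z = x.swap) := fun z => propext ⟨by rintro rfl; rfl, by rintro rfl; rfl⟩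
  simp [sw, mul_apply, one_apply, this, mul_comm]

theorem cj_sw (a b : Matrix κ κ F) : cj (sw κ F) (a ⊗ₖ b) = b ⊗ₖ a := cj_eq_iff.2 (sw_mul a b)

theorem cj_kU_kr (u : GL κ F) (v : GL μ F) (a : Matrix μ μ F) : cj (kU u v) (kr κ a) = kr κ (cj v a) := by
  rw [cj_eq_iff, kU_val, kr_apply, kr_apply, ← mul_kronecker_mul, ← mul_kronecker_mul, cj_mul_self]; simp

theorem det_sw : det (sw (Fin 2) F).1 = -1 := by
  rw [sw, det_permute', show Equiv.Perm.sign (Equiv.prodComm (Fin 2) (Fin 2)) = -1 by decide]; simp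

theorem sf_JJ : SF (.id F) 1 (formOfGram (RingHom.id F) (J2 F ⊗ₖ J2 F)) := by
  simpa only [gram_formOfGram, neg_mul_neg, mul_one] using (sf_J2 (F := F)).kron sf_J2

theorem skew_JJ (h2 : (2 : F) ≠ 0) {x : Matrix (Fin 2 × Fin 2) (Fin 2 × Fin 2) F}
    (h : adj (formOfGram (RingHom.id F) (J2 F ⊗ₖ J2 F)) x = -x) (h' : Sc (x * x)) : (∃ a, x = kl _ a) ∨ ∃ a, x = kr _ a := by
  have h1 := adj_gram_iff.1 (h ▸ sf_JJ.adj_spec x)
  obtain ⟨c, h3⟩ := h'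
  simp only [← ext_iff, Prod.forall, Fin.forall_fin_two, mul_apply, Fintype.sum_prod_type, Fin.sum_univ_two, J2] at h1 h3
  simp at h1 h3
  have h4 : ∀ a : F, a = -a → a = 0 := fun a h => (mul_eq_zero.1 (by linear_combination h : 2 * a = 0)).resolve_left h2
  have h5 : x (1, 1) (0, 0) = 0 ∧ x (1, 0) (0, 1) = 0 ∧ x (0, 1) (1, 0) = 0 ∧ x (0, 0) (1, 1) = 0 :=
    ⟨h4 _ (by tauto), h4 _ (by tauto), h4 _ (by tauto), h4 _ (by tauto)⟩
  by_cases h : x (0, 0) (0, 1) = 0 ∧ x (0, 1) (0, 0) = 0 ∧ x (0, 0) (0, 0) = x (0, 1) (0, 1)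
  · refine .inl ⟨of fun i j => x (i, 0) (j, 0), ?_⟩
    simp only [← ext_iff, Prod.forall, Fin.forall_fin_two, kl_apply]
    simp; grind
  · refine .inr ⟨of fun i j => x (0, i) (0, j), ?_⟩
    have : x (0, 0) (1, 0) = 0 ∧ x (1, 0) (0, 0) = 0 ∧ x (0, 0) (0, 0) = -x (0, 1) (0, 1) := by
      refine ⟨?_, ?_, ?_⟩ <;> grind
    simp only [← ext_iff, Prod.forall, Fin.forall_fin_two, kr_apply]
    simp; grind

theorem o4_cases (h2 : (2 : F) ≠ 0) {v : GL (Fin 2 × Fin 2) F}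
    (hv : v ∈ similarityGroup (formOfGram (RingHom.id F) (J2 F ⊗ₖ J2 F))) : ∃ a b, v = kU a b ∨ v = sw _ F * kU a b := by
  have h1 : ∀ (φ : Matrix (Fin 2) (Fin 2) F →ₐ[F] _), (LinearMap.ker (traceLinearMap _ F F)).map
      ((cj v).toAlgHom.comp (kl _)).toLinearMap ≤ φ.range.toSubmodule → ∀ a, ∃ b, cj v (kl _ a) = φ b := fun φ h a => by
    obtain ⟨b, hb⟩ := h ⟨a - (trace a / 2) • 1, by simp [h2], rfl⟩
    exact ⟨b + (trace a / 2) • 1, by rw [map_add, show φ b = _ from hb]; simp⟩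
  rcases le_or_le_of_forall (X := (LinearMap.ker (traceLinearMap _ F F)).map ((cj v).toAlgHom.comp (kl _)).toLinearMap)
    (A := (kl (Fin 2)).range.toSubmodule) (B := (kr (Fin 2)).range.toSubmodule) (by
      rintro _ ⟨a, ha, rfl⟩
      have h3 : a 1 1 = -a 0 0 := eq_neg_of_add_eq_zero_right ((trace_fin_two a).symm.trans ha)
      refine (skew_JJ h2 (x := cj v (kl _ a)) ?_ ?_).imp (fun ⟨b, h⟩ => ⟨b, h.symm⟩) fun ⟨b, h⟩ => ⟨b, h.symm⟩
      · rw [sf_JJ.adj_cj hv, ← map_neg, ← map_neg, sf_JJ.adj_eq (b := kl _ (-a)) (adj_gram_iff.2 ?_)]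
        simp [← ext_iff, kl_apply, mul_apply, Fintype.sum_prod_type, J2, h3]
      · rw [← map_mul, sc_cj, ← map_mul]
        exact ⟨-det a, by
          rw [← map_one (kl (Fin 2)), ← map_smul]; congr 1
          simp [← ext_iff, mul_apply, det_fin_two, h3]; grind⟩) with h | h
  · exact (exists_kron_eq (h1 _ h)).imp fun a => .imp fun b h => .inl (Units.ext (h.trans (kU_val _ _).symm))
  · exact (exists_kron_eq (g := (sw _ F)⁻¹ * v) fun a => (h1 _ h a).imp fun b hb => by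
      rw [cj_mul, hb, kr_apply, ← cj_sw, cj_inv_cj, kl_apply]).imp fun a => .imp fun b h =>
        .inr (inv_mul_eq_iff_eq_mul.1 (Units.ext (h.trans (kU_val _ _).symm)))

theorem sim_JJ (a b : GL (Fin 2) F) : Sim (formOfGram (RingHom.id F) (J2 F ⊗ₖ J2 F)) (kU a b) (det a.1 * det b.1) :=
  fun x y => by
    rw [formOfGram_mulVec, ← formOfGram_smul, kU_val, RingHom.coe_id, Matrix.map_id, ← kroneckerMap_transpose,
      ← mul_kronecker_mul, ← mul_kronecker_mul, show a.1ᵀ * _ * a.1 = _ from mul_J2 a.1, show b.1ᵀ * _ * b.1 = _ from mul_J2 b.1,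
      smul_kronecker, kronecker_smul, smul_smul]

theorem sim_sw (G : Matrix κ κ F) : Sim (formOfGram (RingHom.id F) (G ⊗ₖ G)) (sw κ F) 1 := fun x y => by
  rw [formOfGram_mulVec, one_mul, RingHom.coe_id, Matrix.map_id, show (sw κ F).1ᵀ = (sw κ F).1 by
    ext; simp [sw, one_apply, Prod.ext_iff, and_comm, eq_comm], sw_mul, mul_assoc, show (sw κ F).1 * (sw κ F).1 = 1 from (sw κ F).3, mul_one]

theorem TL.o4 {e : ι ≃ κ × μ} {G : Matrix κ κ F} {f₂ : (μ → F) → (μ → F) → F} [Finite F] (h : TL H e P) (h2 : (2 : F) ≠ 0)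
    (hμ : Fintype.card μ = 4) (h₂ : SF (.id F) 1 f₂) (hp : IsPlusTypeOn (fun v => f₂ v v) ⊤)
    (hT : TF (.id F) f e P (G ⊗ₖ gramMatrix f₂)) :
    ∃ (e : ι ≃ κ × Fin 2 × Fin 2) (P : GL ι F), TL H e P ∧ TF (.id F) f e P (G ⊗ₖ (J2 F ⊗ₖ J2 F)) := by
  obtain ⟨T, h3⟩ : ∃ T : _ ≃ₗ[F] μ → F, ∀ x y, f₂ (T x) (T y) = formOfGram (RingHom.id F) (J2 F ⊗ₖ J2 F) x y := by
    obtain ⟨q, a, _⟩ := exists_ofQuad (sf_JJ.quad h2)
    obtain ⟨q', a', _⟩ := exists_ofQuad (h₂.quad h2)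
    obtain ⟨T, hT⟩ := (isQuad_ofQuad q).exists_isEquiv_even (isQuad_ofQuad q') (m := 2) (by simp) (by simp [hμ])
      (iff_of_true ((isPlusTypeOn_top_iff (by simp)).1 (a ▸ plus_of_basis (sf_JJ.quad h2) (.refl _) 1 {(0, 0), (0, 1)} (by simp)
        (by simp [lq_apply, formOfGram, J2, Fintype.sum_prod_type])
        (by rw [sf_JJ.polar_eq]; simp [gramMatrix, pf_eq, lq_apply, formOfGram, J2, Fintype.sum_prod_type])))
        ((isPlusTypeOn_top_iff (by simp [hμ])).1 (a' ▸ hp)))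
    refine ⟨T, fun x y => mul_left_cancel₀ h2 ?_⟩
    have := hT.B x y
    rwa [ofQuad_B, ofQuad_B, a, a', sf_JJ.polar_eq, h₂.polar_eq] at this
  obtain ⟨β, u, rfl⟩ := exists_lq T
  refine ⟨e.trans ((Equiv.refl κ).prodCongr β), P * glReindex e.symm (kU 1 u), fun g hg => ?_, ?_⟩
  · obtain ⟨a, b, c⟩ := h.mul 1 u g hg
    exact ⟨a, pl β 1 b, Units.ext (by rw [pl_val, pm_trans, ← pl_val, c, kU_val, kU_val]; ext; simp [pl_val, pm, cj_apply])⟩
  · convert (hT.mul (kU 1 u)).trans ((Equiv.refl κ).prodCongr β)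
    rw [kU_val, RingHom.coe_id, Matrix.map_id, ← kroneckerMap_transpose, ← mul_kronecker_mul, ← mul_kronecker_mul,
      show u.1ᵀ * _ * u.1 = _ from (gram_mulVec h₂.toSq u.1).symm, ← gram_formOfGram (σ := .id F) (J2 F ⊗ₖ J2 F)]
    ext x y
    simp [gramMatrix]
    refine .inl ((h3 _ _).symm.trans ?_)
    simp only [lq_apply, ← mulVec_single_one]
    congr 2 <;> ext <;> simp [Pi.single_apply, Equiv.eq_symm_apply]

theorem tl_of_hom [Nonempty κ] (φ : Matrix κ κ F →ₐ[F] Matrix ι ι F) (hf : SF σ ε f) [Nonempty ι]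
    (h1 : ∀ g ∈ H, ∀ a, ∃ b, cj g (φ a) = φ b) (h2 : ∀ a, ∃ b, adj f (φ a) = φ b) :
    ∃ (k : ℕ) (e : ι ≃ κ × Fin k) (P : GL ι F) (ε₁ ε₂ : F) (f₁ : _) (f₂ : _), TL H e P ∧ SF σ ε₁ f₁ ∧ SF σ ε₂ f₂ ∧
      TF σ f e P (gramMatrix f₁ ⊗ₖ gramMatrix f₂) := by
  obtain ⟨k, Φ, h3⟩ := exists_kron φ
  obtain ⟨e, P, rfl⟩ := exists_pm Φ
  have : Nonempty (Fin k) := e.nonempty_congr.1 ‹_› |>.map Prod.snd
  have h4 : ∀ a, kl _ a = pm e P (φ a) := fun a => by rw [← h3, AlgEquiv.apply_symm_apply]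
  obtain ⟨ε₁, ε₂, f₁, f₂, a, b, -, c⟩ := (hf.pf e P).exists_kron_form fun a => (h2 a).imp fun b h => by
    rw [h4, h4, hf.adj_pm, h]
  refine ⟨k, e, P, ε₁, ε₂, f₁, f₂, fun g hg => ?_, a, b, c⟩
  exact (exists_kron_eq (g := pl e P g) fun a => (h1 g hg a).imp fun b h => by rw [h4, h4, cj_pl, h]).imp fun u =>
    .imp fun v h => Units.ext (h.trans (kU_val _ _).symm)

theorem TF.sim_kU {e : ι ≃ κ × μ} {G : Matrix κ κ F} {G' : Matrix μ μ F} (hT : TF σ f e P (G ⊗ₖ G')) {g : GL ι F} {u : GL κ F}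
    {v : GL μ F} (h : pl e P g = kU u v) {c d : F} (hu : Sim (formOfGram σ G) u c) (hv : Sim (formOfGram σ G') v d) :
    Sim f g (c * d) := (sim_pl e P).1 fun x y => hT.elim fun k hk => by
  have a := Sim.gram (sq_gram _) hu
  have b := Sim.gram (sq_gram _) hv
  rw [gram_formOfGram] at a b
  rw [hk.2, hk.2, formOfGram_mulVec, h, kU_val, ← kroneckerMap_transpose, show (u.1 ⊗ₖ v.1).map σ = u.1.map σ ⊗ₖ v.1.map σ by
    ext; simp, ← mul_kronecker_mul, ← mul_kronecker_mul, a, b, smul_kronecker, kronecker_smul, smul_smul, formOfGram_smul,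
    mul_left_comm]

theorem TL.o4_cases [Nonempty κ] {e : ι ≃ κ × Fin 2 × Fin 2} {G : Matrix κ κ F} (h : TL H e P) (h2 : (2 : F) ≠ 0)
    (hf : SF (.id F) ε f) (hH : H ≤ similarityGroup f) (hT : TF (.id F) f e P (G ⊗ₖ (J2 F ⊗ₖ J2 F))) :
    ∀ g ∈ H, ∃ u a b, pl e P g = kU u (kU a b) ∨ pl e P g = kU u (sw _ F * kU a b) := fun g hg => by
  obtain ⟨u, v, c⟩ := h g hg
  rw [← gram_formOfGram (σ := .id F) (J2 F ⊗ₖ J2 F)] at hT
  obtain ⟨a, b, d⟩ := As.o4_cases h2 (v := v) (p1_le_sim hH hf sf_JJ hT.swap ⟨g, hg, u, Units.ext (by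
    rw [pl_val, pm_trans, ← pl_val, c, kU_val, kU_val]; ext; simp [mul_comm])⟩)
  exact ⟨u, a, b, d.imp (c.trans <| congrArg _ ·) (c.trans <| congrArg _ ·)⟩

theorem TL.o4_det {e : ι ≃ κ × Fin 2 × Fin 2} {f₁ : (κ → F) → (κ → F) → F} (h : TL H e P) (h2 : (2 : F) ≠ 0)
    (hf : SF (.id F) ε f) (h1 : ∀ g ∈ H, Sim f g 1) (hd : ∀ g ∈ H, det g.1 = 1) (h₁ : SF (.id F) 1 f₁) (ho : Odd (Fintype.card κ))
    (hT : TF (.id F) f e P (gramMatrix f₁ ⊗ₖ (J2 F ⊗ₖ J2 F))) :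
    ∃ (k : ℕ) (e : ι ≃ Fin 2 × Fin k) (P : GL ι F) (ε₁ ε₂ : F) (f₁ : _) (f₂ : _), TL H e P ∧ SF (.id F) ε₁ f₁ ∧ SF (.id F) ε₂ f₂ ∧
      TF (.id F) f e P (gramMatrix f₁ ⊗ₖ gramMatrix f₂) := by
  have : Nonempty κ := Fintype.card_pos_iff.1 ho.pos
  have : Nonempty ι := e.nonempty
  have hH : H ≤ similarityGroup f := fun g hg => hf.mem_sim (h1 g hg)
  refine tl_of_hom ((pm e P).symm.toAlgHom.comp ((kr κ).comp (kl _))) hf (fun g hg x => ?_) fun x =>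
    ⟨adj (formOfGram (RingHom.id F) (J2 F)) x, ?_⟩
  · obtain ⟨u, a, b, c | c⟩ := h.o4_cases h2 hf hH hT g hg
    · exact ⟨cj a x, (pm e P).injective (by rw [← cj_pl, c]; simp [cj_kU_kr, cj_kU])⟩
    obtain ⟨k, hk⟩ := p1_le_sim hH hf h₁ hT ⟨g, hg, _, c⟩
    have h3 := hf.sim_unique (h1 g hg) (hT.sim_kU c (h₁.eq_gram ▸ hk) ((sim_sw _).mul (sim_JJ a b)))
    have h4 := congrArg det (Sim.gram h₁.toSq hk)
    have h5 := hd g hg
    rw [det_mul, det_mul, det_transpose, RingHom.coe_id, Matrix.map_id, det_smul, mul_right_comm,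
      mul_left_inj' ((isUnit_iff_isUnit_det _).1 h₁.isUnit_gram).ne_zero] at h4
    rw [← det_pm e P, ← pl_val, c, kU_val, det_kronecker, Units.val_mul, det_mul, det_sw, kU_val, det_kronecker,
      show det u.1 ^ Fintype.card (Fin 2 × Fin 2) = (det u.1 * det u.1) ^ 2 by simp; ring, h4, ← pow_mul, mul_comm _ 2, pow_mul,
      ← mul_pow, show _ * (-1 * _) = -(k * (1 * (det a.1 * det b.1))) ^ 2 by simp; ring, ← h3, ho.neg_pow] at h5
    exact (h2 (by linear_combination -h5)).elim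
  · rw [← gram_formOfGram (σ := .id F) (J2 F ⊗ₖ J2 F)] at hT
    refine (hT.adj hf (adj_kr sf_JJ _ _)).trans (congrArg (fun y => (pm e P).symm (kr κ y)) (sf_JJ.adj_eq ?_))
    have := adj_kl sf_J2 (J2 F) x
    rwa [gram_formOfGram] at this

end H10.As
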