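import Cfsg.Agent.H10.AsO4

/-!
# `Sp₂ ⊗ O₄⁺` is not maximal in `Sp₈`
`good_wr`, `TL.wl3`, `sp8_plus`.
-/

namespace H10.As
open Matrix Module Cfsg Cfsg.Geo Subgroup
open scoped Kronecker commutatorElement

variable {ι κ τ : Type} [Fintype ι] [DecidableEq ι] [Fintype κ] [DecidableEq κ] [Fintype τ] [DecidableEq τ]
  {F : Type*} [Field F] {H R : Subgroup (GL ι F)} {P : GL ι F} {σ : F →+* F} {ε : F} {f : (ι → F) → (ι → F) → F} {r : ℕ}

theorem good_of_pr (hP : Pr H (adj f)) (hf : SF σ ε f) (h1 : Nm H R) (h2 : alg R = ⊤) (h3 : R ≤ similarityGroup f)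
    (hn : 2 ≤ Fintype.card ι) (hr : r.Prime) (h4 : ⁅R, R⁆ ≤ scalars ι F) (h5 : ∀ x ∈ R, x ^ r ∈ scalars ι F)
    (h6 : ∀ x ∈ R, x ^ (r * Nat.gcd 2 r) = 1) : Good (R ⊔ scalars ι F) R r := by
  refine ⟨⟨lt_of_le_of_ne le_sup_right fun h => (irr_of_alg h2).not_le hn (le_sup_left.trans h.ge), by rw [alg_sup_scalars, h2],
    hr, by rwa [commutator_sup_center scalars_le_center], fun x hx => ?_⟩, rfl, h6, fun C a b c x hx => mem_scalars.2 (hP.2 (alg C)
      (fun a ha b => alg_comm fun g hg => (alg_comm (fun y hy => congrArg Units.val (c g hg y hy)) ha).symm)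
      (nrm_alg (b.mono h1.le_normalizer)) (fun _ => hf.star_alg (a.trans h3)) _ (mem_alg hx))⟩
  obtain ⟨y, hy, z, hz, rfl⟩ := mem_sup_of_normal_right.1 hx
  rw [Commute.mul_pow (scalars_comm hz y).symm]
  exact mul_mem (h5 y hy) (pow_mem hz _)

/-- `ptU` as a homomorphism -/
def ptH (τ κ : Type) [Fintype τ] [DecidableEq τ] [Fintype κ] [DecidableEq κ] (F : Type*) [Field F] :
    (τ → GL κ F) →* GL (τ → κ) F := (Units.map pt).comp MulEquiv.piUnits.symm.toMonoidHom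

/-- tensor power of a matrix group -/
def wS (e : ι ≃ (τ → κ)) (P : GL ι F) (A : Subgroup (GL κ F)) : Subgroup (GL ι F) :=
  ((pi Set.univ fun _ => A).map (ptH τ κ F)).comap (pl e P).toMonoidHom

theorem good_wr {e : ι ≃ (τ → κ)} {A A' : Subgroup (GL κ F)} (hT : WL H e P) (hP : Pr H (adj f)) (hf : SF σ ε f)
    (hA : Good A' A r) (h1 : Nm ⊤ A) (h3 : wS e P A ≤ similarityGroup f) (hn : 2 ≤ Fintype.card ι) :
    Good (wS e P A ⊔ scalars ι F) (wS e P A) r ∧ Nm H (wS e P A) := by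
  have h4 : Nm H (wS e P A) := fun g hg x ⟨u, hu, a⟩ => by
    obtain ⟨π, w, b⟩ := hT g hg
    refine ⟨(w * u * w⁻¹) ∘ π.symm, fun i _ => h1 _ trivial _ (hu _ trivial), Units.ext ?_⟩
    rw [map_mul, map_mul, map_inv, ← a, show (pl e P).toMonoidHom g = _ * ptH τ κ F w from b, show ∀ a b c : GL (τ → κ) F,
      a * b * c * (a * b)⁻¹ = a * (b * c * b⁻¹) * a⁻¹ from fun _ _ _ => by group, ← map_inv, ← map_mul, ← map_mul, ← cj_val]
    exact (cj_fp π fun i => ((w * u * w⁻¹) i).1).symm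
  have h5 : ∀ u : τ → GL κ F, (∀ i, u i ∈ scalars κ F) → ∀ g, ptH τ κ F u = pl e P g → g ∈ scalars ι F := fun u hu g h => by
    choose c hc using fun i => mem_scalars.1 (hu i)
    refine mem_scalars.2 ⟨∏ i, c i, (pm e P).injective ?_⟩
    rw [← pl_val, ← h, show (ptH τ κ F u).1 = pt fun i => c i • (1 : τ → Matrix κ κ F) i from congrArg pt (funext hc), pt_smul]
    simp
  refine ⟨good_of_pr hP hf h4 (eq_top_iff.2 fun a _ => ?_) h3 hn hA.prime (commutator_le.2 fun x ⟨u, hu, a⟩ y ⟨v, hv, b⟩ =>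
    h5 ⁅u, v⁆ (fun i => hA.comm (commutator_mem_commutator (hA.leN (hu i trivial)) (hA.leN (hv i trivial)))) _ (by
      rw [map_commutatorElement, map_commutatorElement, a, b]; rfl)) (fun x ⟨u, hu, a⟩ => h5 (u ^ r)
      (fun i => hA.pow _ (hA.leN (hu i trivial))) _ (by rw [map_pow, map_pow, a]; rfl)) fun x ⟨u, hu, a⟩ => (pl e P).injective (by
      rw [map_pow, show pl e P x = _ from a.symm, ← map_pow, show u ^ _ = 1 from funext fun i => hA.powR _ (hu i trivial),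
        map_one, map_one]), h4⟩
  rw [← (pm e P).symm_apply_apply a, matrix_eq_sum_single (pm e P a), map_sum]
  refine sum_mem fun i _ => map_sum (pm e P).symm _ _ ▸ sum_mem fun j _ => ?_
  rw [← mul_one (pm e P a i j), ← smul_eq_mul, ← smul_single, ← pt_single]
  refine Subalgebra.smul_mem ((alg _).comap (pm e P).symm.toAlgHom) (pt_mem (S := Subsemiring.toSubmonoid _) fun k =>
    (alg_le (A := (alg _).comap ((pm e P).symm.toAlgHom.comp (pi1 k))) fun u hu => ?_) (hA.topR.ge trivial)) _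
  convert mem_alg (N := wS e P A) (g := (pl e P).symm (ptH τ κ F (Pi.mulSingle k u))) ⟨Pi.mulSingle k u, fun i _ => by
    by_cases h : i = k <;> simp [Pi.mulSingle_apply, h, hu, one_mem], by simp⟩
  change _ ↔ (pm e P).symm (pt fun i => (Pi.mulSingle (M := fun _ => GL κ F) k u i).1) ∈ _
  rw [show (fun i => _) = Pi.mulSingle k u.1 from funext fun i => Pi.apply_mulSingle (fun _ => Units.val) (fun _ => rfl) k u i]; rfl

/-- three tensor factors -/
def e3 (κ : Type) : κ × κ × κ ≃ (Fin 3 → κ) :=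
  ⟨fun x => ![x.1, x.2.1, x.2.2], fun y => (y 0, y 1, y 2), fun _ => rfl, fun y => funext fun i => by fin_cases i <;> rfl⟩

theorem e3_symm (y : Fin 3 → κ) : (e3 κ).symm y = (y 0, y 1, y 2) := rfl

theorem reindex_e3 (a b c : Matrix κ κ F) : reindex (e3 κ) (e3 κ) (a ⊗ₖ (b ⊗ₖ c)) = pt ![a, b, c] := by
  ext; simp [pt_apply, e3_symm, Fin.prod_univ_three, mul_assoc]

theorem TL.wl3 {e : ι ≃ Fin 2 × Fin 2 × Fin 2} {G : Matrix (Fin 2) (Fin 2) F} (h : TL H e P) (h2 : (2 : F) ≠ 0)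
    (hf : SF (.id F) ε f) (hH : H ≤ similarityGroup f) (hT : TF (.id F) f e P (G ⊗ₖ (J2 F ⊗ₖ J2 F))) :
    WL H (e.trans (e3 _)) P := fun g hg => by
  have h3 : ∀ u a b : GL (Fin 2) F, reindex (e3 _) (e3 _) (kU u (kU a b)).1 = (ptU ![u, a, b]).1 := fun u a b => by
    rw [kU_val, kU_val, reindex_e3, ptU_val]; congr 1; funext i; fin_cases i <;> rfl
  obtain ⟨u, a, b, c | c⟩ := h.o4_cases h2 hf hH hT g hg
  · exact ⟨1, ![u, a, b], Units.ext (by
      rw [pl_val, pm_trans, ← pl_val, c, h3, Units.val_mul, show (fp (Fin 2) F 1).1 = 1 by ext; simp [fp, one_apply, eq_comm], one_mul])⟩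
  · refine ⟨.swap 1 2, ![u, a, b], Units.ext ?_⟩
    rw [pl_val, pm_trans, ← pl_val, c, ← one_mul u, kU_mul, Units.val_mul, Units.val_mul, one_mul, ← h3,
      show (fp (Fin 2) F (.swap 1 2)).1 = reindex (e3 _) (e3 _) (kU 1 (sw (Fin 2) F)).1 by
        ext x y; simp [kU_val, fp, sw, e3_symm, one_apply, funext_iff, Fin.forall_fin_succ, Equiv.swap_apply_def]; grind]
    exact map_mul (reindexAlgEquiv F F (e3 _)) _ _

theorem exists_q8 [Fintype F] (hq : Fintype.card F = 3) {K : Subgroup (GL (Fin 2) F)}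
    (h : Pr K (adj (formOfGram (RingHom.id F) (J2 F)))) :
    ∃ A' A, Good A' A 2 ∧ Nm ⊤ A ∧ ∀ x ∈ A, Sim (formOfGram (RingHom.id F) (J2 F)) x 1 := by
  have h1 : ⊤ ≤ similarityGroup (formOfGram (RingHom.id F) (J2 F)) := fun g _ => sf_J2.mem_sim (c := det g.1) fun u v => by
    rw [formOfGram_mulVec, mul_J2, formOfGram_smul]
  obtain ⟨N, h2⟩ := ((h.mono le_top).prim sf_J2 h1).caseE_of_solvable le_top Nat.prime_two fun L _ => perfect_gl2 hq.le
  exact ⟨N, h2.bil sf_J2 h1⟩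

theorem sp8_plus [Fintype F] {H : Subgroup (GL (Fin 4 ⊕ Fin 4) F)} (hH : IsMaximalIn (spGL 4 F) H) (ho : Odd (Fintype.card F))
    {e : _ ≃ Fin 2 × Fin 4} {P : GL _ F} {f₁ : (Fin 2 → F) → (Fin 2 → F) → F} {f₂ : (Fin 4 → F) → (Fin 4 → F) → F}
    (h₁ : IsSymplecticForm f₁) (h₂ : IsSymmetricForm f₂) (hT : IsTensorFormStructure id (sympForm 4 F) f₁ f₂ e P)
    (h : TL (H ⊔ scalars _ F) e P) (hP : Pr (H ⊔ scalars _ F) (adj (sympForm 4 F))) (hp : IsPlusTypeOn (fun v => f₂ v v) ⊤) :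
    (∃ k R, 2 * 4 = 2 ^ k ∧ (Fintype.card F).Prime ∧ Odd (Fintype.card F) ∧ IsSymplecticTypeGroup 2 R ∧
      ActsAbsolutelyIrreducibly (matrixSet R) ∧ R ≤ similarityGroup (sympForm 4 F) ∧ Nat.card R = 2 ^ (1 + 2 * k) ∧
      Nat.card (center R) = 2 ∧ IsOfMinusType k R ∧ H = subgroupNormalizer R ⊓ spGL 4 F) ∨
    5 ≤ Fintype.card F ∧ ∃ (e : _ ≃ (Fin 3 → Fin 2)) (P : GL _ F) (f₁ : _), IsSymplecticForm f₁ ∧
      IsTensorPowerFormStructure id (sympForm 4 F) f₁ e P ∧ H = tensorWreathSubgroup 2 3 e P ⊓ spGL 4 F := by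
  have h2 := odd_card.1 ho
  have hf := sf_of_symp (symp_sp (m := 4) (F := F))
  have hS := sup_le (fun g hg => hf.mem_sim (sp_sim hH.1.le g hg)) hf.scalars_le
  obtain ⟨e, P, a, b⟩ := h.o4 (f := sympForm 4 F) (G := gramMatrix f₁) h2 (by simp) (sf_of_symm h₂) hp hT
  have h3 : gramMatrix f₁ = gramMatrix f₁ 0 1 • J2 F := by
    ext i j; fin_cases i <;> fin_cases j <;> simp [J2, gramMatrix, h₁.3]; exact h₁.2 _ _
  rw [h3, smul_kronecker] at b
  replace b := b.smul fun h => ((isUnit_iff_isUnit_det _).1 (sf_of_symp h₁).isUnit_gram).ne_zero (by rw [h3, h]; simp)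
  have c := a.wl3 h2 hf hS b
  have d := b.trans (e3 _)
  rw [reindex_e3, show ![J2 F, J2 F, J2 F] = fun _ => gramMatrix (formOfGram (RingHom.id F) (J2 F)) from
    funext fun i => by rw [gram_formOfGram]; fin_cases i <;> rfl] at d
  by_cases hq : Fintype.card F = 3
  · rw [← gram_formOfGram (σ := .id F) (J2 F)] at b
    obtain ⟨A', A, i, j, k⟩ := exists_q8 hq (a.pr_form hP hf sf_J2 b)
    have l : ∀ x ∈ wS (e.trans (e3 _)) P A, Sim (sympForm 4 F) x 1 := fun x ⟨u, hu, h⟩ => (sim_pl _ P).1 fun y z => d.elim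
      fun s hs => by
        have := sim_wreath (σ := .id F) 1 (u := u) (c := fun _ => 1) fun i => (k _ (hu i trivial)).gram (sq_gram _)
        rw [hs.2, hs.2, show pl _ P x = fp _ F 1 * ptU u from h.symm.trans (Units.ext (by
          rw [Units.val_mul, show (fp (Fin 2) F 1).1 = 1 by ext; simp [fp, one_apply, eq_comm], one_mul]; rfl)), this]; simp
    obtain ⟨m, n⟩ := good_wr c hP hf i j (fun x hx => hf.mem_sim (l x hx)) (by simp)
    exact .inl (sp_E (by decide) (by simp) hH m l (hq ▸ Nat.prime_three) (n.mono le_sup_left).le_normalizer)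
  · have := Fintype.one_lt_card (α := F)
    exact .inr ⟨by obtain ⟨_, h⟩ := ho; omega, _, P, _, sf_J2.symp (sf_J2.alt h2), d, max_eq hH (le_sup_left.trans c.le) fun h =>
      (big_sp (by decide) (by simp)).not_WL (by simp) (by simp) (by simp) fun g hg => wl_wreath g (h hg)⟩

end H10.As
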