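import Cfsg.Agent.H10.AsZ

/-!
# Small exceptions, IV : extension field subgroups of `SU_6(2)` and `SU_5(2)`
-/

namespace H10.As
open Matrix Module Cfsg Cfsg.Geo Subgroup Algebra

variable {ι : Type} [Fintype ι] [DecidableEq ι] {F : Type*} [Field F] {σ : F →+* F}
  {f : (ι → F) → (ι → F) → F} {E : Type*} [Field E] [Algebra F E] [Finite E]

theorem tr_hom (τ : E →+* E) (h : ∀ c, τ (algebraMap F E c) = algebraMap F E (σ c)) (x : E) :
    Algebra.trace F E (τ x) = σ (Algebra.trace F E x) := (algebraMap F E).injective (by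
  simp only [← h, FiniteField.algebraMap_trace_eq_sum_pow, map_sum, map_pow])

theorem tr_ext {a b : E} (h : ∀ c, Algebra.trace F E (a * c) = Algebra.trace F E (b * c)) : a = b :=
  have := Finite.of_injective _ (algebraMap F E).injective
  sub_eq_zero.1 ((traceForm_nondegenerate F E).1 _ fun c => by simp [sub_mul, h])

theorem det_gal (h : (2 : F) = 0) (α : E ≃ₐ[F] E) : LinearMap.det α.toLinearMap = 1 := by
  classical
  have := Finite.of_injective _ (algebraMap F E).injective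
  let b := IsGalois.normalBasis F E
  rw [← LinearMap.det_toMatrix b, show LinearMap.toMatrix b b α.toLinearMap = (Equiv.mulLeft α⁻¹).permMatrix F by
    ext i j
    rw [LinearMap.toMatrix_apply, show α.toLinearMap (b j) = b (α * j) by
      simp only [b]; rw [IsGalois.normalBasis_apply j, IsGalois.normalBasis_apply (α * j)]; rfl]
    simp [PEquiv.toMatrix_apply, Finsupp.single_apply, inv_mul_eq_iff_eq_mul, @eq_comm _ i], det_permutation]
  rcases Int.units_eq_one_or (Equiv.Perm.sign (Equiv.mulLeft α⁻¹)) with e | e <;> simp [e]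
  grind

theorem fld_herm [Module E (ι → F)] [IsScalarTower F E (ι → F)] (hf : SF σ 1 f) (hσ : σ ≠ .id F) (h2 : (2 : F) = 0)
    (h : ∀ e : E, ∃ e' : E, ∀ u v : ι → F, f (e • u) v = f u (e' • v)) {m : ℕ} (hm : finrank E (ι → F) = m + 1) :
    ∃ (τ : E →+* E) (Q : ℕ) (T : (Fin (m + 1) → E) ≃ₗ[E] (ι → F)), Nat.card E = Q ^ 2 ∧ (∀ a, τ a = a ^ Q) ∧ (∀ a, τ (τ a) = a) ∧
      (∀ x y, f (T x) (T y) = Algebra.trace F E (x ⬝ᵥ τ ∘ y)) ∧
      ∀ g : GL ι F, (∀ e : E, ∃ e' : E, ∀ y, g.1 *ᵥ (e • y) = e' • g.1 *ᵥ y) → Sim f g 1 → det g.1 = 1 →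
        ∃ (α : E ≃ₐ[F] E) (G : Matrix _ _ E), (∀ x, g.1 *ᵥ T x = T (G *ᵥ (α ∘ x))) ∧ det G ^ (Q + 1) = 1 ∧
          Algebra.norm F (det G) = 1 := by
  have := Finite.of_injective _ (algebraMap F E).injective
  have : Nontrivial (ι → F) := nontrivial_of_finrank_eq_succ hm
  have := finite_of_finrank_eq_succ hm
  obtain ⟨v, hv⟩ := exists_ne (0 : ι → F)
  have ex : ∀ {a b : E}, (∀ u, f u (a • v) = f u (b • v)) → a = b := fun h => smul_left_injective E hv (hf.ext_right h)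
  obtain ⟨τ, ht⟩ : ∃ τ : E →+* E, ∀ e u v, f (e • u) v = f u (τ e • v) := by
    choose t ht using h
    exact ⟨{
      toFun := t, map_one' := ex fun u => by rw [← ht, one_smul, one_smul]
      map_mul' a b := ex fun u => by rw [← ht, mul_comm a, mul_smul, ht, ht, mul_smul]
      map_zero' := ex fun u => by rw [← ht, zero_smul, zero_smul, hf.zero_left, hf.zero_right]
      map_add' a b := ex fun u => by rw [← ht, add_smul, add_smul, hf.add_left, hf.add_right, ht, ht] }, ht⟩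
  have a1 : ∀ a, τ (τ a) = a := fun a => ex fun u => by rw [← ht, hf.symm, ← ht, ← hf.symm]
  have a2 : ∀ c, τ (algebraMap F E c) = algebraMap F E (σ c) := fun c => ex fun u => by
    rw [← ht, algebraMap_smul, algebraMap_smul, hf.smul_left, hf.smul_right, hf.σσ]
  have a3 : τ ≠ .id E := fun e => hσ (RingHom.ext fun c => (algebraMap F E).injective ((a2 c).symm.trans (RingHom.congr_fun e _)))
  let T := (finBasisOfFinrankEq E _ hm).equivFun.symm
  have : ∀ x y, ∃ z, ∀ c : E, Algebra.trace F E (z * c) = f (c • T x) (T y) := fun x y =>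
    ⟨_, LinearMap.BilinForm.apply_toDual_symm_apply (hB := traceForm_nondegenerate F E)
      { toFun c := f (c • T x) (T y), map_add' a b := by rw [add_smul, hf.add_left]
        map_smul' a b := by rw [smul_assoc, hf.smul_left]; rfl }⟩
  choose ψ hψ using this
  have a4 : ∀ x y, f (T x) (T y) = Algebra.trace F E (ψ x y) := fun x y => by simpa using (hψ x y 1).symm
  have a5 : SF τ 1 ψ := sf_of_herm a1 (fun x y v => tr_ext (F := F) fun c => by simp [hψ, add_mul, hf.add_left])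
    (fun c x v => tr_ext (F := F) fun d => by rw [mul_comm c, mul_assoc, hψ, hψ, map_smul, smul_smul, mul_comm])
    (fun v w => tr_ext (F := F) fun c => by
      rw [hψ, ← a1 c, ← map_mul, tr_hom τ a2, hψ, ht, hf.symm, one_mul, a1]) fun x hx =>
    (hf.isNondeg _ (T.map_ne_zero_iff.2 hx)).imp (fun ⟨u, h⟩ => ⟨T.symm u, fun e => h (by
      rw [← T.apply_symm_apply u, a4, e, map_zero])⟩) fun ⟨u, h⟩ => ⟨T.symm u, fun e => h (by
      rw [← T.apply_symm_apply u, a4, e, map_zero])⟩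
  obtain ⟨k, hk⟩ := exists_orthonormal a5 a3
  obtain ⟨Q, q1, q2⟩ := exists_q_of_involutive a3 a1
  have a6 : ∀ x y, f (((glEquiv k).trans T) x) (((glEquiv k).trans T) y) = Algebra.trace F E (x ⬝ᵥ τ ∘ y) := fun x y => by
    refine (a4 (k.1 *ᵥ x) (k.1 *ᵥ y)).trans ?_
    rw [a5.eq_gram, formOfGram_mulVec, hk, formOfGram_eq, one_smul, one_mulVec]
  refine ⟨τ, Q, _, q1, q2, a1, a6, fun g h1 h3 h4 => ?_⟩
  generalize (glEquiv k).trans T = T at a6
  have ex : ∀ {a b : E}, a • g.1 *ᵥ v = b • g.1 *ᵥ v → a = b := fun h =>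
    smul_left_injective E (fun e => hv (eq_zero_of_mulVec_eq_zero g.det_ne_zero e)) h
  obtain ⟨α, hs⟩ : ∃ α : E ≃ₐ[F] E, ∀ (e : E) y, g.1 *ᵥ (e • y) = α e • g.1 *ᵥ y := by
    choose s hs using h1
    let α : E →ₐ[F] E :=
      { toFun := s, map_one' := ex (by rw [← hs, one_smul, one_smul]), map_mul' a b := ex (by rw [← hs, mul_smul, hs, hs, mul_smul])
        map_zero' := ex (by rw [← hs, zero_smul, zero_smul, mulVec_zero])
        map_add' a b := ex (by rw [← hs, add_smul, add_smul, mulVec_add, hs, hs])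
        commutes' c := ex (by rw [← hs, algebraMap_smul, algebraMap_smul, mulVec_smul]) }
    exact ⟨.ofBijective α (Finite.injective_iff_bijective.1 α.toRingHom.injective), hs⟩
  obtain ⟨G, b1⟩ : ∃ G : Matrix _ _ E, ∀ x, g.1 *ᵥ T x = T (G *ᵥ (α ∘ x)) :=
    ⟨of fun i j => T.symm (g.1 *ᵥ T (Pi.single j 1)) i, fun x => by
      rw [← T.symm_apply_eq]
      conv_lhs => rw [pi_eq_sum_univ' x]
      simp only [map_sum, mulVec_sum, hs, map_smul]
      ext i; simp [mulVec, dotProduct, mul_comm]⟩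
  refine ⟨α, G, b1, ?_, ?_⟩
  · have : Gᵀ * G.map τ = 1 := Matrix.ext fun i j => tr_ext (F := F) fun c => by
      have := h3 (T (Pi.single i (α.symm c))) (T (Pi.single j 1))
      rw [b1, b1, a6, a6, one_mul] at this
      refine Eq.trans (congrArg _ ?_) (this.trans ((tr_hom (σ := .id F) (α : E →+* E) α.commutes _).symm.trans (congrArg _ ?_))) <;>
        simp [mul_apply, dotProduct, Finset.mul_sum, mulVec, Pi.single_apply, apply_ite α, apply_ite τ, one_apply, mul_comm,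
          mul_left_comm, mul_assoc]
    rw [pow_succ', ← q2, RingHom.map_det, ← det_transpose, ← det_mul]; exact this ▸ det_one
  · have : toLin' g.1 = (T.restrictScalars F : _ →ₗ[F] _) ∘ₗ (((toLin' G).restrictScalars F ∘ₗ
        LinearMap.pi fun i => α.toLinearMap ∘ₗ LinearMap.proj i)) ∘ₗ ((T.restrictScalars F).symm : _ →ₗ[F] _) :=
      LinearMap.ext fun x => by rw [← T.apply_symm_apply x, toLin'_apply, b1]; simp; rfl
    rw [← LinearMap.det_toLin', this, LinearMap.det_conj, LinearMap.det_comp, LinearMap.det_pi, LinearMap.det_restrictScalars] at h4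
    simpa [det_gal h2] using h4

universe u
variable {F : Type u} [Field F] [Fintype F] {n r : ℕ} (hF : Nat.card F = 2 ^ 2) {H : Subgroup (GL (Fin n) F)}
  {K : Subalgebra F (Matrix (Fin n) (Fin n) F)} (hK : IsFieldSubalgebra r K) (h1 : IsAdjointClosedFor (hermForm n F 2) K)
  (h : H ≤ subalgebraNormalizer K)
include hF hK h1 h

theorem fld_su {m : ℕ} (hn : n = r * (m + 1)) (hr : r ≠ 0) (hH : H ≤ GU n F 2 ⊓ specialLinear (Fin n) F) {P : Prop}
    (hP : ∀ (E : Type u) [Field E] [Algebra F E] [Finite E] (τ : E →+* E) (T : (Fin (m + 1) → E) ≃ₗ[F] (Fin n → F)) (ω : F),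
      finrank F E = r → (∀ a, τ a = a ^ 2 ^ r) → (∀ a, τ (τ a) = a) → (2 : E) = 0 → ω * ω = ω + 1 →
      (∀ x y, hermForm n F 2 (T x) (T y) = Algebra.trace F E (x ⬝ᵥ τ ∘ y)) →
      (∀ g ∈ H, ∃ (α : E ≃ₐ[F] E) (G : Matrix _ _ E), (∀ x, g.1 *ᵥ T x = T (G *ᵥ (α ∘ x))) ∧ det G ^ (2 ^ r + 1) = 1 ∧
        det G ^ ((4 ^ r - 1) / 3) = 1) → P) : P := by
  have : Nonempty (Fin n) := ⟨⟨0, by subst hn; positivity⟩⟩
  obtain ⟨φ⟩ := exists_qa (p := 2) 1 1 (F := F) (by simpa using hF)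
  have h2 : (2 : F) = 0 := φ.injective (by rw [map_ofNat, map_zero]; decide)
  refine Mx.fld_bridge hK fun E _ _ _ _ _ hE a b => ?_
  have := Module.finite_of_finite F (M := E)
  have c : Nat.card E = (2 ^ r) ^ 2 := by rw [Module.natCard_eq_pow_finrank (K := F), hF, hE, ← pow_mul, ← pow_mul, mul_comm]
  obtain ⟨τ, Q, T, c1, c2, c3, c4, c5⟩ := fld_herm (E := E) (sf_herm hF) (conj_ne_id hF) h2 (fun e => by
    obtain ⟨k, c, d⟩ := b e
    obtain ⟨k', c', d'⟩ := h1 k c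
    exact ((a k').1 c').imp fun e' l u v => by rw [← d, d', l]) (m := m) (mul_left_cancel₀ hr (by
      rw [← hn, ← hE, finrank_mul_finrank, finrank_fin_fun]))
  obtain rfl : Q = 2 ^ r := Nat.pow_left_injective two_ne_zero (c1.symm.trans c)
  refine hP E τ (T.restrictScalars F) (φ.symm ⟨0, 1⟩) hE c2 c3 (by rw [← map_ofNat (algebraMap F E), h2, map_zero])
    (φ.injective (by simp only [map_mul, map_add, map_one, φ.apply_symm_apply]; decide)) c4 fun g hg => ?_
  obtain ⟨α, G, d⟩ := c5 g ((Mx.mem_nrm_iff a b).1 (h hg)) (su_sim (hH.trans inf_le_left) g hg) (H09.mem_specialLinear.1 (hH hg).2)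
  refine ⟨α, G, d.1, d.2.1, ?_⟩
  have := FiniteField.algebraMap_norm_eq_pow (K := F) (x := det G)
  rwa [d.2.2, map_one, c, hF, ← pow_mul, mul_comm, pow_mul, eq_comm] at this

theorem su6_fld (hn : n = 6) (hr : r = 3) (hH : H ≤ GU n F 2 ⊓ specialLinear (Fin n) F) : SubF (hermForm n F 2) H := by
  subst hn hr
  refine fld_su hF hK h1 h (m := 1) rfl (by decide) hH fun E _ _ _ τ T ω a1 a2 a3 a4 a5 a6 a7 => ?_
  have hf := sf_herm (n := 6) hF
  have hb : SF (.id F) (-1) fun u v => Algebra.trace F E (T.symm u 0 * T.symm v 1 - T.symm u 1 * T.symm v 0) := by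
    refine ⟨⟨fun x y v => ?_, fun c x v => ?_, fun v x y => ?_, fun c v x => ?_⟩, fun _ => rfl, .inr rfl, fun u v => ?_,
      fun v h => T.symm.injective ?_⟩
    · rw [← map_add]; congr 1; simp; ring
    · rw [← smul_eq_mul c, ← map_smul]; congr 1; simp [smul_sub]
    · rw [← map_add]; congr 1; simp; ring
    · rw [RingHom.id_apply, ← smul_eq_mul c, ← map_smul]; congr 1; simp [smul_sub]
    · rw [RingHom.id_apply, neg_one_mul, ← map_neg]; congr 1; ring
    · ext i; fin_cases i <;> refine tr_ext (F := F) fun c => ?_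
      · simpa [mul_comm] using h (T ![0, c])
      · simpa [mul_comm] using h (T ![c, 0])
  refine subF_of_semi hf (conj_ne_id hF) hb (fun g hg => hf.mem_sim (su_sim (hH.trans inf_le_left) g hg)) (fun g hg => ?_)
    fun y _ _ h => ⟨-1, matrix_eq_iff_mulVec.2 fun v => ?_⟩
  · obtain ⟨α, G, b1, b2, b3⟩ := a7 g hg
    obtain ⟨d, hd⟩ : ∃ d, algebraMap F E d = det G := by
      have := congrArg (algebraMap F E) a5
      rw [map_mul, map_add, map_one] at this
      have b4 : det G ^ 3 = 1 := by rw [← b3, show (4 ^ 3 - 1) / 3 = (2 ^ 3 + 1) * 2 + 3 by rfl, pow_add, pow_mul, b2]; simp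
      have : (1 - det G) * ((algebraMap F E ω - det G) * (algebraMap F E ω + 1 - det G)) = 0 := by grind
      simp only [mul_eq_zero, sub_eq_zero] at this
      rcases this with e | e | e
      exacts [⟨1, by simpa⟩, ⟨ω, e⟩, ⟨ω + 1, by simpa⟩]
    refine hb.mem_sim (c := d) fun u v => ?_
    obtain ⟨x, rfl⟩ := T.surjective u
    obtain ⟨y, rfl⟩ := T.surjective v
    simp only [b1, T.symm_apply_apply]
    rw [← (tr_hom (σ := .id F) (α : E →+* E) α.commutes (x 0 * y 1 - x 1 * y 0)).trans (RingHom.id_apply _), ← smul_eq_mul d,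
      ← map_smul, Algebra.smul_def, hd, det_fin_two]
    congr 1; simp [mulVec, dotProduct]; ring
  · rw [← h (fun v => T ![τ (T.symm v 1), -τ (T.symm v 0)]) fun u v => ?_]
    · rw [smul_mulVec, one_mulVec, ← T.eq_symm_apply]
      ext i; fin_cases i <;> simp [a3]
    · rw [← T.apply_symm_apply u, a6]; simp [a3, sub_eq_add_neg]

/-- coordinates of `0` and of the eleventh roots of unity -/
def S11 {R : Type*} [Ring R] (w : R) : Fin 12 → Fin 5 → R :=
  ![![1, 0, 0, 0, 0], ![0, 1, 0, 0, 0], ![0, 0, 1, 0, 0], ![0, 0, 0, 1, 0], ![0, 0, 0, 0, 1], ![1, w + 1, 1, 1, w],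
    ![w, 0, 1, w + 1, w], ![w, w + 1, w, w + 1, 0], ![0, w, w + 1, w, w + 1], ![w + 1, w, 1, 0, w + 1],
    ![w + 1, 1, 1, w, 1], ![0, 0, 0, 0, 0]]

def G11 {R : Type*} [Ring R] (w : R) : Matrix (Fin 5) (Fin 5) R :=
  !![1, w + 1, w, w + 1, w + 1; w, 1, w + 1, w, w + 1; w + 1, w, 1, w + 1, w; w, w + 1, w, 1, w + 1; w, w, w + 1, w, 1]

def A11 {R : Type*} [Ring R] (w : R) : Matrix (Fin 5) (Fin 5) R :=
  !![1, 1, w + 1, 1, 1; 0, 0, 0, 1, 0; 0, 0, 1, 0, 0; 1, 0, w + 1, 0, 0; 0, 1, w, 0, 0]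

set_option maxHeartbeats 1000000 in
theorem su5_fld (hn : n = 5) (hr : r = 5) (hH : IsMaximalIn (GU n F 2 ⊓ specialLinear (Fin n) F) H) : False := by
  subst hn hr
  refine fld_su hF hK h1 h (m := 0) rfl (by decide) hH.1.le fun E _ _ _ τ T _ a1 a2 _ a4 _ a6 a7 => ?_
  have hf := sf_herm (n := 5) hF
  obtain ⟨φ⟩ := exists_qa (p := 2) 1 1 (F := F) (by simpa using hF)
  obtain ⟨ω, hω⟩ := φ.surjective ⟨0, 1⟩
  have a5 := congrArg (algebraMap F E) (show ω * ω = ω + 1 from φ.injective (by rw [map_mul, map_add, map_one, hω]; decide))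
  rw [map_mul, map_add, map_one] at a5
  obtain ⟨ζ, b1, b2⟩ : ∃ ζ : E, orderOf ζ = 11 ∧ ζ ^ 5 = 1 + (algebraMap F E ω + 1) * ζ + ζ ^ 2 + ζ ^ 3 + algebraMap F E ω * ζ ^ 4 := by
    obtain ⟨y, hy⟩ := exists_prime_orderOf_dvd_card' (G := Eˣ) 11 (hp := ⟨by decide⟩) (by
      rw [Nat.card_units, Module.natCard_eq_pow_finrank (K := F), hF, a1]; decide)
    rw [← orderOf_units] at hy
    have c : y.1 ^ 11 = 1 := hy ▸ pow_orderOf_eq_one _
    have d : y.1 - 1 ≠ 0 := fun h => by simp [sub_eq_zero.1 h] at hy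
    generalize algebraMap F E ω = w at a5
    refine (mul_eq_zero.1 (mul_left_cancel₀ d (?_ : _ * ((y.1 ^ 5 - (1 + (w + 1) * y + y ^ 2 + y ^ 3 + w * y ^ 4)) *
      ((y.1 ^ 2) ^ 5 - (1 + (w + 1) * y ^ 2 + (y ^ 2) ^ 2 + (y ^ 2) ^ 3 + w * (y ^ 2) ^ 4))) = _ * 0))).elim
      (fun h => ⟨_, hy, sub_eq_zero.1 h⟩) fun h => ⟨_, (Nat.Coprime.orderOf_pow (by rw [hy]; decide)).trans hy, sub_eq_zero.1 h⟩
    grind
  have b3 : ζ ^ 11 = 1 := b1 ▸ pow_orderOf_eq_one _
  obtain ⟨e, P, c1, c2, -⟩ := exists_cols hf.toSq (fun i : Fin 5 => T fun _ => ζ ^ i.1) rfl (G := G11 ω) (fun i j =>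
    (algebraMap F E).injective (by
      simp only [a6, FiniteField.algebraMap_trace_eq_sum_pow, a1, hF, dotProduct, Fin.sum_univ_succ, Function.comp, a2,
        Finset.univ_eq_empty, Finset.sum_empty, add_zero, ← pow_mul, ← pow_add]
      rw [Finset.sum_congr rfl fun i _ => pow_eq_pow_mod _ b3]
      fin_cases i <;> fin_cases j <;> simp [G11, Finset.sum_range_succ] <;> grind)) fun e => by
    have := congrArg φ e
    rw [φ.map_det, map_zero, show φ.mapMatrix (G11 ω) = G11 ⟨0, 1⟩ by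
      ext1 i j; fin_cases i <;> fin_cases j <;> simp [G11, hω]] at this
    revert this; decide +kernel
  have c3 : ∀ k, lq e P (S11 ω k) = T fun _ => if k = 11 then 0 else ζ ^ k.1 := fun k => by
    simp only [c2, ← map_smul, ← map_sum]; congr 1; ext
    fin_cases k <;> simp [S11, Fin.sum_univ_succ, Algebra.smul_def] <;> grind
  have c4 : ∀ k, φ ∘ S11 ω k = S11 ⟨0, 1⟩ k := fun k => by ext1 i; fin_cases k <;> fin_cases i <;> simp [S11, hω]
  have c5 : ∀ g ∈ H, ∀ k, ∃ l, (pm e P g.1).map φ *ᵥ S11 (⟨0, 1⟩ : QA 2 1 1) k = S11 ⟨0, 1⟩ l := fun g hg k => by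
    obtain ⟨α, G, d1, d2, d3⟩ := a7 g hg
    rw [det_eq_elem_of_card_eq_one rfl 0] at d2 d3
    obtain ⟨l, hl⟩ : ∃ l : Fin 12, (if l = 11 then 0 else ζ ^ l.1) = G 0 0 * α (if k = 11 then 0 else ζ ^ k.1) := by
      split_ifs
      · exact ⟨11, by simp⟩
      obtain ⟨l, c, d⟩ := (b1 ▸ IsPrimitiveRoot.orderOf ζ).eq_pow_of_pow_eq_one (ξ := G 0 0 * α (ζ ^ k.1)) (by
        rw [mul_pow, ← map_pow α, ← pow_mul ζ, mul_comm k.1, pow_mul ζ, b3, one_pow, map_one, mul_one, ← d3, show (4 ^ 5 - 1) / 3 = (2 ^ 5 + 1) * 10 + 11 by rfl,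
          pow_add, pow_mul, d2]; simp)
      exact ⟨⟨l, by omega⟩, by rw [if_neg (by simp [Fin.ext_iff]; omega), d]⟩
    refine ⟨l, funext fun i => ?_⟩
    rw [← c4, ← c4, ← show pm e P g.1 *ᵥ S11 ω k = S11 ω l from (lq e P).injective (by
      rw [← mulVec_lq, c3, c3, d1, hl]; congr 1; ext i; simp [mulVec, dotProduct, Fin.fin_one_eq_zero i])]
    exact (RingHom.map_mulVec φ.toRingHom _ _ i).symm
  obtain ⟨g, d1, d2⟩ := nm_coords φ (τ := (· ^ 2)) (fun a => map_pow φ a 2) hf.toSq hH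
    (fun g a b => ⟨fun u v => (a u v).trans (one_mul _), H09.mem_specialLinear.2 b⟩) e P (G := G11 ⟨0, 1⟩)
    (by rw [c1]; ext1 i j; fin_cases i <;> fin_cases j <;> simp [G11, hω])
    (fun x _ => ∃ k l, x = S11 ⟨0, 1⟩ k + S11 ⟨0, 1⟩ l) (fun g hg x _ ⟨k, l, e⟩ => (c5 g hg k).elim fun k' hk =>
      (c5 g hg l).elim fun l' hl => ⟨k', l', by rw [e, mulVec_add, hk, hl]⟩) (a := A11 ⟨0, 1⟩)
    (b := 1 + vecMulVec ![0, 0, 0, 1, ⟨1, 1⟩] ![⟨0, 1⟩, ⟨1, 1⟩, 0, 0, 0]) (by decide +kernel)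
    ⟨by decide +kernel, by rw [H09.det_one_add_vecMulVec]; decide +kernel⟩ (fun x _ ⟨k, l, e⟩ => by
      obtain ⟨π, this⟩ : ∃ π : Fin 12 → Fin 12, ∀ k, A11 ⟨0, 1⟩ *ᵥ S11 (⟨0, 1⟩ : QA 2 1 1) k = S11 ⟨0, 1⟩ (π k) + S11 ⟨0, 1⟩ 0 :=
        ⟨![3, 4, 6, 1, 11, 10, 5, 7, 8, 2, 9, 0], by decide +kernel⟩
      exact ⟨π k, π l, by rw [e, mulVec_add, this, this, add_add_add_comm,
        show S11 (⟨0, 1⟩ : QA 2 1 1) 0 + S11 ⟨0, 1⟩ 0 = 0 by decide +kernel, add_zero]⟩)
    (x := S11 ⟨0, 1⟩ 0) (y := 0) (by decide +kernel)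
  have := d2 ▸ c5 g d1 2
  revert this; decide +kernel

end H10.As
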