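import Cfsg.Agent.H10.AsSU2
import Cfsg.Agent.H10.C2A

/-!
# Small exceptions: geometric subgroups of `SU_4(3)`, `SU_6(2)` which are not maximal
-/

namespace H10.As
open Matrix Module Cfsg Cfsg.Geo Subgroup

variable {ι κ : Type} [Fintype ι] [DecidableEq ι] [Fintype κ] [DecidableEq κ] {F : Type*} [Field F] {σ : F →+* F}
  {f : (ι → F) → (ι → F) → F} {Ω H : Subgroup (GL ι F)}

theorem sim_iff (hf : Sq σ f) (e : ι ≃ κ) (P : GL ι F) {g : GL ι F} : Sim f g 1 ↔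
    (pm e P g.1)ᵀ * gramMatrix (pf e P f) * (pm e P g.1).map σ = gramMatrix (pf e P f) := by
  have h : Sq σ (pf e P f) := funext₂ (pf_eq e P (f := f)) ▸ hf.comp (T := lq e P) (map_add _) (map_smul _)
  rw [← sim_pl e P, ← gram_mulVec h]
  exact ⟨fun H => congrArg gramMatrix (funext₂ fun x y => (H x y).trans (one_mul _)), fun H x y => by
    have h' := h.comp (T := (pm e P g.1 *ᵥ ·)) (mulVec_add _) (mulVec_smul _)
    rw [one_mul]; exact (congrFun₂ h'.eq_gram x y).trans (H ▸ (congrFun₂ h.eq_gram x y).symm)⟩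

theorem nm_coords [Finite F] {K : Type*} [Field K] (φ : F ≃+* K) {τ : K → K} (hτ : ∀ a, φ (σ a) = τ (φ a)) (hf : Sq σ f)
    (hH : IsMaximalIn Ω H) (hΩ : ∀ g : GL ι F, Sim f g 1 → det g.1 = 1 → g ∈ Ω) (e : ι ≃ κ) (P : GL ι F) {G : Matrix κ κ K}
    (hG : (gramMatrix (pf e P f)).map φ = G) (Ψ : (κ → K) → (κ → K) → Prop)
    (h1 : ∀ g ∈ H, ∀ x y, Ψ x y → Ψ ((pm e P g.1).map φ *ᵥ x) ((pm e P g.1).map φ *ᵥ y)) {a b : Matrix κ κ K}
    (ha : aᵀ * G * a.map τ = G ∧ det a = 1) (hb : bᵀ * G * b.map τ = G ∧ det b = 1)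
    (ha' : ∀ x y, Ψ x y → Ψ (a *ᵥ x) (a *ᵥ y)) {x y} (hb' : Ψ x y ∧ ¬ Ψ (b *ᵥ x) (b *ᵥ y)) :
    ∃ g ∈ H, (pm e P g.1).map φ = a := by
  have m : ∀ g h : GL ι F, (pm e P (g * h).1).map φ = (pm e P g.1).map φ * (pm e P h.1).map φ := fun g h => by
    rw [Units.val_mul, map_mul]; exact Matrix.map_mul (f := φ)
  have o : (pm e P (1 : GL ι F).1).map φ = 1 := by simp
  let T : Submonoid (GL ι F) :=
    { carrier := {g | ∀ x y, Ψ x y → Ψ ((pm e P g.1).map φ *ᵥ x) ((pm e P g.1).map φ *ᵥ y)}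
      one_mem' := fun x y => by simp only [o, one_mulVec, imp_self]
      mul_mem' := fun a b x y h => by simp only [m, ← mulVec_mulVec]; exact a _ _ (b _ _ h) }
  let S : Subgroup (GL ι F) := ⟨T, fun {g} a =>
    Submonoid.powers_le.2 a (mem_powers_iff_mem_zpowers.2 (inv_mem (mem_zpowers g)))⟩
  have H2 : ∀ a : Matrix κ κ K, aᵀ * G * a.map τ = G ∧ det a = 1 → ∃ g ∈ Ω, (pm e P g.1).map φ = a := fun a ha => by
    have d : det (a.map φ.symm) = 1 := (φ.symm.map_det a).symm.trans (by rw [ha.2, map_one])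
    have c := congrArg Units.val ((pl e P).apply_symm_apply (GeneralLinearGroup.mkOfDetNeZero _ (d.trans_ne one_ne_zero)))
    refine ⟨_, hΩ _ ((sim_iff hf e P).2 ?_) (H09.mem_specialLinear.1 (pl_mem_sl d)), by rw [← pl_val, c]; ext; simp⟩
    rw [← pl_val, c]
    refine map_injective φ.injective ?_
    simp only [Matrix.map_mul (f := φ), hG]
    convert ha.1 <;> ext <;> simp [hτ]
  obtain ⟨g, c, d⟩ := H2 a ha
  obtain ⟨k, i, rfl⟩ := H2 b hb
  exact ⟨g, (max_eq hH (M := S) h1 fun h => hb'.2 (h i x y hb'.1)).ge ⟨fun x y => d ▸ ha' x y, c⟩, d⟩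

section su
variable [Fintype F] {q n : ℕ} {H : Subgroup (GL (Fin n) F)} (hF : Nat.card F = q ^ 2)
  (hH : IsMaximalIn (GU n F q ⊓ specialLinear (Fin n) F) H)
include hF hH

theorem su_frame {D : Fin n → Submodule F (Fin n → F)} (hD : IsNondegenerateMDecomposition (hermForm n F q) 1 D)
    (h : H ≤ decompositionStabilizer D) {K : Type*} [Field K] (φ : F ≃+* K) (Ψ : (Fin n → K) → Prop)
    (h1 : ∀ (π : Equiv.Perm (Fin n)) c x, (∀ i, c i * c i ^ q = 1) → ((Equiv.Perm.sign π : ℤ) : K) * ∏ i, c i = 1 →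
      Ψ x → Ψ (mo π c *ᵥ x)) {a b : Matrix (Fin n) (Fin n) K}
    (ha : aᵀ * 1 * a.map (· ^ q) = 1 ∧ det a = 1) (hb : bᵀ * 1 * b.map (· ^ q) = 1 ∧ det b = 1)
    (ha' : ∀ x, Ψ x → Ψ (a *ᵥ x)) {x} (hb' : Ψ x ∧ ¬ Ψ (b *ᵥ x)) {i j k} (h2 : i ≠ j) (h3 : a i k ≠ 0) (h4 : a j k ≠ 0) :
    False := by
  have hf := sf_herm (n := n) hF
  have : ∀ i, ∃ v ∈ D i, hermForm n F q v v = 1 := fun i => by
    obtain ⟨v, c, d⟩ := mdec_exists hD.1 i
    obtain ⟨w, j, k⟩ := (hD.2 i v c d).1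
    obtain ⟨t, rfl⟩ := (finrank_eq_one_iff_of_nonzero' (⟨v, c⟩ : D i) (by simpa)).1 (hD.1.3 i) ⟨w, j⟩ |>.imp
      fun _ h => congrArg Subtype.val h
    simp only [SetLike.mk_smul_mk, hf.smul_left, ne_eq, mul_eq_zero, not_or] at k
    obtain ⟨s, l⟩ := exists_norm_eq hF (μ := (hermForm n F q v v)⁻¹) (by
      rw [inv_pow, ← conj_apply hF, ← one_mul (conj hF _), ← hf.symm])
    exact ⟨s • v, (D i).smul_mem s c, by rw [hf.smul_left, hf.smul_right, conj_apply, ← mul_assoc, mul_comm s, l, inv_mul_cancel₀ k.2]⟩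
  choose v v1 v2 using this
  obtain ⟨e, P, c, d⟩ := exists_fd hD.1 v1 fun i h => by simpa [h, hf.zero_left] using v2 i
  have hG : gramMatrix (pf e P (hermForm n F q)) = 1 := Matrix.ext fun i j => by
    rw [gramMatrix, pf_eq, c, c, one_apply]; split_ifs with h
    exacts [h ▸ v2 i, hD.3 i j h _ (v1 i) _ (v1 j)]
  have m : ∀ (π : Equiv.Perm (Fin n)) c, (mo π c).map φ = mo π (φ ∘ c) := fun π c => by ext; simp [mo, apply_ite φ]
  obtain ⟨g, i1, rfl⟩ := nm_coords φ (τ := (· ^ q)) (fun a => map_pow φ a q) hf.toSq hH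
    (fun g a b => ⟨fun u v => (a u v).trans (one_mul _), H09.mem_specialLinear.2 b⟩) e P (by rw [hG]; simp) (fun x _ => Ψ x)
    (fun g hg x _ => by
      obtain ⟨π, c, -, i, j⟩ := d g (h hg)
      have := (sim_iff hf.toSq e P).1 (su_sim (hH.1.le.trans inf_le_left) g hg)
      rw [i, hG] at this
      rw [i, m]
      refine h1 π _ x (fun k => ?_) ?_
      · have := congrFun₂ this k k
        rw [mul_one, mul_apply, Finset.sum_eq_single (π k) (fun _ _ h => by simp [mo, h]) (by simp)] at this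
        simpa [mo, conj_apply] using congrArg φ this
      · simpa [H09.mem_specialLinear.1 (hH.1.le hg).2] using congrArg φ j.symm) ha hb (fun x _ => ha' x) (y := x) hb'
  obtain ⟨π, c, -, l, -⟩ := d g (h i1)
  rw [l, m] at h3 h4
  simp only [mo, of_apply, ne_eq, ite_eq_right_iff, not_forall] at h3 h4
  exact h2 (h3.1.trans h4.1.symm)

theorem su6_frame (hq : q = 2) (hn : n = 6) {D : Fin n → Submodule F (Fin n → F)}
    (hD : IsNondegenerateMDecomposition (hermForm n F q) 1 D) (h : H ≤ decompositionStabilizer D) : False := by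
  subst hq hn
  obtain ⟨φ⟩ := exists_qa (p := 2) 1 1 (F := F) (by simpa using hF)
  refine su_frame hF hH hD h φ (fun x => (∑ i, if x i = 0 then 0 else 1) = 2 ∨ ∏ i, x i = 1) (fun π c x a b => ?_)
    (a := 1 + vecMulVec 1 1) (b := 1 + vecMulVec ![1, 1, 1, 1, 0, 0] ![1, 1, 1, 1, 0, 0])
    ⟨by decide +kernel, by rw [H09.det_one_add_vecMulVec]; decide +kernel⟩
    ⟨by decide +kernel, by rw [H09.det_one_add_vecMulVec]; decide +kernel⟩ (fun x => ?_) (x := ![1, ⟨0, 1⟩, 0, 0, 0, 0])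
    (by decide +kernel) (i := 1) (j := 2) (k := 0) (by decide) (by decide) (by decide)
  · have c0 : ∀ i, c i ≠ 0 := fun i e => by simpa [e] using a i
    have : ∏ i, c i = 1 := by
      rcases Int.units_eq_one_or (Equiv.Perm.sign π) with e | e <;> rw [e] at b
      · simpa using b
      · rwa [show (((-1 : ℤˣ) : ℤ) : QA 2 1 1) = 1 by decide, one_mul] at b
    intro h
    rw [← Equiv.sum_comp π, ← Equiv.prod_comp π]
    simpa only [mo_mulVec, mul_eq_zero, c0, false_or, Finset.prod_mul_distrib, this, one_mul]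
  · simp only [add_mulVec, one_mulVec, vecMulVec_mulVec, dotProduct, Fin.sum_univ_six, Fin.prod_univ_six, Pi.add_apply,
      Pi.smul_apply, Pi.one_apply, one_mul, op_smul_eq_mul]
    generalize x 0 = a, x 1 = b, x 2 = c, x 3 = d, x 4 = e, x 5 = f
    revert a b c d e f; decide +kernel

instance fact9 : Fact (∀ r : ZMod 3, r ^ 2 ≠ -1 + 0 * r) := ⟨by decide⟩
def n9 (x : QA 3 (-1) 0) : ZMod 3 := x.re * x.re + x.im * x.im

set_option synthInstance.maxSize 4000 in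
theorem su4_frame (hq : q = 3) (hn : n = 4) {D : Fin n → Submodule F (Fin n → F)}
    (hD : IsNondegenerateMDecomposition (hermForm n F q) 1 D) (h : H ≤ decompositionStabilizer D) : False := by
  subst hq hn
  obtain ⟨φ⟩ := exists_qa (p := 3) (-1) 0 (F := F) (by simpa using hF)
  refine su_frame hF hH hD h φ (fun x => (∀ i j, n9 (x i) * n9 (x j) ≠ -1) ∧ ∑ i, n9 (x i) ≠ 0 ∧ (∏ i, x i) * ∏ i, x i ≠ -1)
    (fun π c x a b => ?_) (a := !![1, 1, 1, 1; 1, -1, 1, -1; 1, 1, -1, -1; 1, -1, -1, 1])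
    (b := 1 + vecMulVec ![1, 1, 1, 0] ![⟨0, 1⟩, ⟨0, 1⟩, ⟨0, 1⟩, 0])
    (by decide +kernel) (by decide +kernel) (fun x h => ?_) (x := ![1, 0, 0, 0]) (by decide +kernel)
    (i := 1) (j := 2) (k := 0) (by decide) (by decide) (by decide)
  · have c4 : ∀ i x, n9 (c i * x) = n9 x := fun i => (by decide +kernel : ∀ c, c * c ^ 3 = 1 → ∀ x, n9 (c * x) = n9 x) _ (a i)
    have : (∏ i, c i) ^ 2 = 1 := by
      have := congrArg (· ^ 2) b
      simpa only [mul_pow, ← Int.cast_pow, ← Units.val_pow_eq_pow_val, Int.units_sq, one_pow, Units.val_one, Int.cast_one,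
        one_mul] using this
    intro h
    rw [← Equiv.sum_comp π, ← Equiv.prod_comp π, π.surjective.forall₂]
    simpa only [mo_mulVec, c4, Finset.prod_mul_distrib, ← sq, mul_pow, this, one_mul] using h
  · have := (by decide +kernel : ∀ a b : QA 3 (-1) 0, n9 a * n9 b ≠ -1 → ∀ c, n9 a * n9 c ≠ -1 → n9 b * n9 c ≠ -1 → ∀ d,
      n9 a * n9 d ≠ -1 → n9 b * n9 d ≠ -1 → n9 c * n9 d ≠ -1 → n9 a + n9 b + n9 c + n9 d ≠ 0 → a * b * c * d * (a * b * c * d) ≠ -1 →
      (∀ i j, n9 (![a + b + c + d, a - b + c - d, a + b - c - d, a - b - c + d] i) *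
        n9 (![a + b + c + d, a - b + c - d, a + b - c - d, a - b - c + d] j) ≠ -1) ∧
      n9 (a + b + c + d) + n9 (a - b + c - d) + n9 (a + b - c - d) + n9 (a - b - c + d) ≠ 0 ∧
      (a + b + c + d) * (a - b + c - d) * (a + b - c - d) * (a - b - c + d) *
        ((a + b + c + d) * (a - b + c - d) * (a + b - c - d) * (a - b - c + d)) ≠ -1)
      _ _ (h.1 0 1) _ (h.1 0 2) (h.1 1 2) _ (h.1 0 3) (h.1 1 3) (h.1 2 3) (Fin.sum_univ_four (n9 ∘ x) ▸ h.2.1)
      (Fin.prod_univ_four x ▸ h.2.2)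
    rw [show _ *ᵥ x = ![x 0 + x 1 + x 2 + x 3, x 0 - x 1 + x 2 - x 3, x 0 + x 1 - x 2 - x 3, x 0 - x 1 - x 2 + x 3] by
      ext1 i; fin_cases i <;> simp [mulVec, dotProduct, Fin.sum_univ_four, sub_eq_add_neg], Fin.sum_univ_four, Fin.prod_univ_four]
    exact this

end su

end H10.As
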