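import Cfsg.Agent.H10.AsX
import Cfsg.Agent.H10.AsSp
import Cfsg.Agent.H10.MxG

/-!
# Small exceptions, II
-/

namespace H10.As
open Matrix Module Cfsg Cfsg.Geo Subgroup
open scoped Kronecker

variable {ι κ : Type} [Fintype ι] [DecidableEq ι] [Fintype κ] [DecidableEq κ] {F : Type*} [Field F] {σ : F →+* F} {ε : F}
  {f : (ι → F) → (ι → F) → F} {Ω H : Subgroup (GL ι F)}

theorem subF_of_M [Fintype F] [Nonempty ι] (hf : SF σ 1 f) (hσ : σ ≠ .id F) (e : ι ≃ κ) (P : GL ι F) {G M : Matrix κ κ F}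
    (hG : gramMatrix (pf e P f) * M = G) (hb : SF (.id F) ε (formOfGram (RingHom.id F) G)) {l : F} (hM : M.map σ * M = l • 1)
    (h1 : H ≤ similarityGroup f) (h2 : ∀ g ∈ H, ∃ c : F, (pm e P g.1)ᵀ * G * pm e P g.1 = c • G) : SubF f H := by
  have := e.symm.nonempty
  obtain ⟨b, a, c⟩ := exists_pf e P (formOfGram (RingHom.id F) G)
  refine subF_of_semi hf hσ (c _ _ hb) h1 (fun g hg => (mem_sim_pl e P).1 ((h2 g hg).elim fun k hk => a ▸ hb.mem_sim (c := k)
    fun u v => by rw [formOfGram_mulVec, ← formOfGram_smul, ← hk]; rfl)) fun y _ _ h => ⟨l, matrix_eq_iff_mulVec.2 fun v => ?_⟩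
  rw [← h (fun v => lq e P (σ ∘ (M *ᵥ (lq e P).symm v))) fun u v => ?_]
  · rw [LinearEquiv.symm_apply_apply, comp_mulVec, ← Function.comp_assoc, show σ ∘ σ = id from funext hf.σσ, Function.id_comp,
      mulVec_mulVec, hM, smul_mulVec, smul_mulVec, one_mulVec, one_mulVec, map_smul, LinearEquiv.apply_symm_apply]
  · obtain ⟨u, rfl⟩ := (lq e P).surjective u
    obtain ⟨v, rfl⟩ := (lq e P).surjective v
    rw [← pf_eq e P (f := f), ← pf_eq e P (f := b), a, (hf.pf e P).eq_gram, formOfGram_eq, formOfGram_eq, ← Function.comp_assoc,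
      show σ ∘ σ = id from funext hf.σσ, LinearEquiv.symm_apply_apply, Function.id_comp, mulVec_mulVec, hG]; rfl

theorem bm_blk {μ τ : Type} [Fintype μ] [DecidableEq μ] [Fintype τ] [DecidableEq τ] (π : Equiv.Perm τ) (u : τ → Matrix μ μ F)
    (G : Matrix (μ × τ) (μ × τ) F) (i j : τ) : (of fun a b => ((bm π u)ᵀ * G * (bm π u).map σ) (a, i) (b, j)) =
      (u i)ᵀ * (of fun c d => G (c, π i) (d, π j)) * (u j).map σ := by
  ext; simp [bm, mul_apply, Fintype.sum_prod_type, apply_ite σ]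

theorem ts_coords (hf : SF σ ε f) {D : Fin 2 → Submodule F (ι → F)} (hD : IsMDecomposition 2 D)
    (h : ∀ i, IsTotallySingularFor f (D i)) : ∃ (e : ι ≃ Fin 2 × Fin 2) (P : GL ι F),
    gramMatrix (pf e P f) = bm (.swap 0 1) ![-ε • J2 F, J2 F] ∧ ∀ g ∈ decompositionStabilizer D, Sim f g 1 → ∃ π u,
      pm e P g.1 = bm π u ∧ ∃ c : F, c * c = 1 ∧ (u 0)ᵀ * J2 F * (u 1).map σ = c • J2 F ∧ (ε = -1 → c = 1) := by
  have A : ∀ e P, BD D e P → gramMatrix (pf e P f) = bm (.swap 0 1) ![ε • ((of fun a b => gramMatrix (pf e P f) (a, 0) (b, 1)).map σ)ᵀ,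
      of fun a b => gramMatrix (pf e P f) (a, 0) (b, 1)] := fun (e : ι ≃ Fin 2 × Fin 2) P h1 => by
    ext ⟨a, i⟩ ⟨b, j⟩
    have := h i _ (h1.single (a, i) 1) _ (h1.single (b, i) 1)
    fin_cases i <;> fin_cases j <;> simp [bm]
    exacts [this, congrFun₂ (hf.pf e P).gram_symm _ _, this]
  obtain ⟨e, P, h1⟩ := exists_bd' hD
  obtain ⟨B, hB⟩ : ∃ B, B = of fun a b => gramMatrix (pf e P f) (a, 0) (b, 1) := ⟨_, rfl⟩
  have h2 : IsUnit (det B) := by
    have := (isUnit_iff_isUnit_det _).1 (hf.pf e P).isUnit_gram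
    rw [A e P h1, ← hB, det_bm, Fin.prod_univ_two] at this
    exact isUnit_of_mul_isUnit_right (isUnit_of_mul_isUnit_right this)
  have h3 : ∀ i, det (![(J2 F * B⁻¹)ᵀ, 1] i) ≠ 0 := by
    simp [Fin.forall_fin_two, h2.ne_zero, show det (J2 F) = 1 by simp [J2]]
  let k := GeneralLinearGroup.mkOfDetNeZero (bm 1 ![(J2 F * B⁻¹)ᵀ, 1]) (by simpa [det_bm, -Fin.prod_univ_two, Finset.prod_eq_zero_iff] using h3)
  have h4 : BD D e (P * glReindex e.symm k) := fun i x => by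
    rw [lq_mul, h1]
    simp only [Prod.forall, forall_comm (α := Fin 2) (β := Fin 2), forall_comm (α := Fin 2) (β := _ ≠ i)]
    refine forall₂_congr fun j _ => ?_
    simp only [show ∀ a, (k.1 *ᵥ x) (a, j) = _ from fun a => bm_mulVec 1 _ x a j]
    exact ⟨fun h => congrFun (eq_zero_of_mulVec_eq_zero (h3 j) (funext h)), fun h a => by
      rw [show (fun k => x (k, j)) = 0 from funext h, mulVec_zero]; rfl⟩
  have h5 : gramMatrix (pf e (P * glReindex e.symm k) f) = bm (.swap 0 1) ![-ε • J2 F, J2 F] := by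
    rw [A _ _ h4, show pf e (P * glReindex e.symm k) f = fun x y => pf e P f (k.1 *ᵥ x) (k.1 *ᵥ y) by
      ext; simp only [pf_eq, lq_mul], gram_mulVec (hf.pf e P).toSq]
    erw [bm_blk, ← hB]
    congr 2
    all_goals simp [mul_assoc, nonsing_inv_mul _ h2]
    ext i j; fin_cases i <;> fin_cases j <;> simp [J2]
  refine ⟨e, _, h5, fun g hg h6 => ?_⟩
  obtain ⟨π, u, a, -⟩ := h4.mem hg
  have := bm_blk (σ := σ) π u (bm (.swap 0 1) ![-ε • J2 F, J2 F]) 0 1
  rw [← a, ← h5, (sim_iff hf.toSq _ _).1 h6, h5] at this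
  refine ⟨π, u, a, ?_⟩
  rcases (by decide : ∀ π : Equiv.Perm (Fin 2), (π 0 = 0 ∧ π 1 = 1) ∨ π 0 = 1 ∧ π 1 = 0) π with ⟨b, c⟩ | ⟨b, c⟩ <;>
    rw [b, c] at this
  · exact ⟨1, mul_one 1, this.symm.trans (one_smul F _).symm, fun _ => rfl⟩
  · refine ⟨-ε, by simp [hf.εε], ?_, by rintro rfl; simp⟩
    have : J2 F = (u 0)ᵀ * (-ε • J2 F) * (u 1).map σ := this
    conv_rhs => rw [this, Matrix.mul_smul, Matrix.smul_mul, smul_smul, neg_mul_neg, hf.εε, one_smul]

theorem det_J2 : det (J2 F) = 1 := by simp [J2]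

theorem su4_ts [Fintype F] {q : ℕ} (hF : Nat.card F = q ^ 2) (hq : q ≤ 3) {H : Subgroup (GL (Fin 4) F)}
    (hH : H ≤ GU 4 F q ⊓ specialLinear (Fin 4) F) {D : Fin 2 → Submodule F (Fin 4 → F)} (hD : IsMDecomposition 2 D)
    (h : ∀ i, IsTotallySingularFor (hermForm 4 F q) (D i)) (h1 : H ≤ decompositionStabilizer D) : SubF (hermForm 4 F q) H := by
  have hf := sf_herm (n := 4) hF
  have h2 := su_sim (hH.trans inf_le_left)
  obtain ⟨e, P, a, b⟩ := ts_coords hf hD h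
  refine subF_of_M hf (conj_ne_id hF) e P (M := bm (.swap 0 1) ![1, -1]) (G := blockDiagonal fun _ => J2 F) (l := -1) ?_
    (sf_blk (fun _ => rfl) (.inr rfl) fun _ => sf_J2) ?_ (fun g hg => hf.mem_sim (h2 g hg)) fun g hg => ?_
  · rw [a]; ext ⟨a, i⟩ ⟨b, j⟩
    fin_cases i <;> fin_cases j <;> simp [bm, mul_apply, Fintype.sum_prod_type, blockDiagonal_apply, one_apply, -Fin.sum_univ_two]
  · ext ⟨a, i⟩ ⟨b, j⟩
    fin_cases i <;> fin_cases j <;> simp [bm, mul_apply, Fintype.sum_prod_type, one_apply, -Fin.sum_univ_two, apply_ite (conj hF)] <;>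
      split_ifs <;> simp
  obtain ⟨π, u, c, k, k1, k2, -⟩ := b g (h1 hg) (h2 g hg)
  have h3 := det_pm e P g.1
  have h4 := congrArg det k2
  rw [H09.mem_specialLinear.1 (hH hg).2, c, det_bm, Fin.prod_univ_two, Fintype.card_fin, ← Int.cast_pow, ← Units.val_pow_eq_pow_val,
    Int.units_sq] at h3
  rw [det_mul, det_mul, det_smul, det_transpose, ← RingHom.mapMatrix_apply, ← RingHom.map_det, det_J2, conj_apply,
    Fintype.card_fin, sq, k1] at h4
  have h5 : det (u 0) = det (u 1) := by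
    have := two_le_q hF
    interval_cases q <;> simp at h3 <;> grind
  refine ⟨det (u 0), ?_⟩
  rw [c, ← blockDiagonal_smul]
  refine (bm_form (σ := .id F) π u _).trans (congrArg _ (funext (Fin.forall_fin_two.2 ⟨mul_J2 _, h5 ▸ mul_J2 _⟩)))

theorem sp4_ts [Fintype F] (hq : Fintype.card F = 3) (hf : SF (.id F) (-1) f) (hH : ∀ g ∈ H, Sim f g 1)
    {D : Fin 2 → Submodule F (ι → F)} (hD : IsMDecomposition 2 D) (h : ∀ i, IsTotallySingularFor f (D i))
    (h1 : H ≤ decompositionStabilizer D) :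
    ∃ D : Fin 2 → Submodule F (ι → F), IsNondegenerateMDecomposition f 2 D ∧ H ≤ decompositionStabilizer D := by
  obtain ⟨e, P, a, b⟩ := ts_coords hf hD h
  have h3 : (3 : F) = 0 := by simpa [hq] using FiniteField.cast_card_eq_zero F
  have h4 : ∀ x : F, x ≠ 0 → x * x = 1 := fun x h => by simpa [hq, sq] using FiniteField.pow_card_sub_one_eq_one x h
  let k : GL (Fin 2) F := ⟨!![1, 1; 1, -1], !![-1, -1; -1, 1], by ext i j; fin_cases i <;> fin_cases j <;> simp <;> grind,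
    by ext i j; fin_cases i <;> fin_cases j <;> simp <;> grind⟩
  refine ⟨_, (bd_cd (e := e) (P := P * glReindex e.symm (kU 1 k))).ndec le_rfl hf fun x y hxy => ?_,
    fun g hg => bd_cd.le le_rfl ?_⟩
  · rw [show pf e (P * glReindex e.symm (kU 1 k)) f = fun x y => pf e P f ((kU 1 k).1 *ᵥ x) ((kU 1 k).1 *ᵥ y) by
      ext; simp only [pf_eq, lq_mul], gram_mulVec (hf.pf e P).toSq, a, show bm (.swap 0 1) ![- -(1 : F) • J2 F, J2 F] =
      J2 F ⊗ₖ !![0, 1; 1, 0] by ext ⟨_, i⟩ ⟨_, j⟩; fin_cases i <;> fin_cases j <;> simp [bm], kU_val, RingHom.coe_id, map_id,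
      ← kroneckerMap_transpose, ← mul_kronecker_mul, ← mul_kronecker_mul]
    obtain ⟨x, i⟩ := x; obtain ⟨y, j⟩ := y
    fin_cases i <;> fin_cases j <;> simp [k, mul_apply] at hxy ⊢
  obtain ⟨π, u, c, _, -, k2, k3⟩ := b g (h1 hg) (hH g hg)
  have h5 := congrArg det k2
  rw [k3 rfl, one_smul, det_mul, det_mul, det_transpose, det_J2] at h5
  have h6 := h4 _ (left_ne_zero_of_mul_eq_one (mul_one (det (u 0)) ▸ h5))
  have h7 : u 1 = det (u 0) • u 0 := by
    refine (IsUnit.of_mul_eq_one _ h5).elim fun w hw => ((isUnit_iff_isUnit_det _).2 (show IsUnit (det ((u 0)ᵀ * J2 F)) by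
      rw [det_mul, det_transpose, det_J2, ← hw]; simp)).mul_left_cancel ?_
    rw [Matrix.mul_smul, show _ * u 0 = _ from mul_J2 _, smul_smul, h6, ← k3 rfl]; exact k2
  have h8 : pm e P g.1 = u 0 ⊗ₖ of fun i j => if i = π j then if j = 0 then 1 else det (u 0) else 0 := by
    rw [c]; ext ⟨_, i⟩ ⟨_, j⟩; fin_cases j <;> simp [bm, h7, mul_comm]
  simp only [← pl_val, pl_mul, ← kU_inv, Units.val_mul, kU_val]
  simp only [pl_val, h8, ← mul_kronecker_mul, Prod.forall, kroneckerMap_apply]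
  suffices ∀ i, ∃ j, ∀ a, a ≠ j → (!![-1, -1; -1, 1] * (of fun i j => if i = π j then if j = 0 then 1 else det (u 0) else 0) *
      !![1, 1; 1, -1] : Matrix (Fin 2) (Fin 2) F) a i = 0 from fun i => (this i).imp fun j h _ a _ _ e e' => mul_eq_zero_of_right _ (e ▸ h a e')
  rcases (by decide : ∀ π : Equiv.Perm (Fin 2), π = 1 ∨ π = .swap 0 1) π with rfl | rfl <;>
    rcases mul_self_eq_one_iff.1 h6 with h | h <;> simp [h, mul_apply, Fin.forall_fin_two, Fin.exists_fin_two, vecHead, vecTail]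

end H10.As
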