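import Cfsg.Agent.H10.AsY

/-!
# Small exceptions, III
-/

namespace H10.As
open Matrix Module Cfsg Cfsg.Geo Subgroup

variable {ι κ : Type} [Fintype ι] [DecidableEq ι] [Fintype κ] [DecidableEq κ] {F : Type*} [Field F] {σ : F →+* F} {ε : F}
  {f : (ι → F) → (ι → F) → F} {Ω H : Subgroup (GL ι F)}

theorem exists_cols (hf : Sq σ f) (v : κ → ι → F) (h : Fintype.card κ = Fintype.card ι) {G : Matrix κ κ F}
    (hG : ∀ a b, f (v a) (v b) = G a b) (h0 : det G ≠ 0) : ∃ (e : ι ≃ κ) (P : GL ι F), gramMatrix (pf e P f) = G ∧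
      (∀ x, lq e P x = ∑ a, x a • v a) ∧ ∀ j M, (∀ a, j *ᵥ v a = ∑ b, M b a • v b) → pm e P j = M := by
  have h1 : Function.Injective (Fintype.linearCombination F v) := (injective_iff_map_eq_zero _).2 fun x hx =>
    eq_zero_of_vecMul_eq_zero h0 (funext fun b => by
      simpa [Fintype.linearCombination_apply, hf.sum_left, hf.smul_left, hG, hf.zero_left, vecMul, dotProduct] using congrArg (f · (v b)) hx)
  obtain ⟨e, P, h2⟩ := exists_lq (LinearMap.linearEquivOfInjective _ h1 (by simp [h]))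
  have h3 : ∀ x, lq e P x = ∑ a, x a • v a := fun x => by rw [h2]; exact Fintype.linearCombination_apply _ _ _
  have h4 : ∀ a, lq e P (Pi.single a 1) = v a := fun a => by simp [h3, Pi.single_apply]
  refine ⟨e, P, Matrix.ext fun a b => by rw [gramMatrix, pf_eq, h4, h4, hG], h3, fun j M h => Matrix.ext fun a b => ?_⟩
  have := h b
  rw [← h4, mulVec_lq, ← h3] at this
  simpa using congrFun ((lq e P).injective this) a

theorem exists_J [Nonempty ι] (h3 : (3 : F) = 0) (h4 : ∀ x : F, x ≠ 0 → x = 1 ∨ x = -1) (hf : SF (.id F) ε f)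
    {K : Subalgebra F (Matrix ι ι F)} (hK : IsFieldSubalgebra 2 K) (h1 : IsAdjointClosedFor f K) (h2 : ¬ IsSelfAdjointFor f K) :
    ∃ J, adj f J = -J ∧ J * J = -1 ∧ ∀ g ∈ subalgebraNormalizer K, ∃ s : F, s * s = 1 ∧ cj g J = s • J := by
  letI := (isField hK).toField
  simp only [IsSelfAdjointFor, not_forall] at h2
  obtain ⟨k, c, u, v, d⟩ := h2
  obtain ⟨j, hj⟩ : ∃ j : K, j.1 = k - adj f k := ⟨⟨_, sub_mem c (hf.adj_mem h1 k c)⟩, rfl⟩
  have b1 : adj f j.1 = -j.1 := by simp [hj, hf.adj_sub, hf.adj_adj]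
  have b2 : ∀ a : F, j ≠ a • 1 := fun a e => d (by
    have e' : j.1 = a • 1 := congrArg Subtype.val e
    rw [e', hf.adj_smul, hf.adj_one, ← neg_smul] at b1
    have : a = 0 := by have := congrFun₂ b1 (Classical.arbitrary ι) (Classical.arbitrary ι); simp at this; grind
    rw [this, zero_smul, hj, sub_eq_zero] at e'
    rw [hf.adj_spec k u v, ← e'])
  obtain ⟨a, b, e⟩ := Mx.span2 (K := F) hK.3 one_ne_zero (t := j)
    (fun h => (Submodule.mem_span_singleton.1 h).elim fun a e => b2 a e.symm) (j * j)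
  have b3 : j * j = a • 1 := by
    have e1 : j.1 * j.1 = a • 1 + b • j.1 := congrArg Subtype.val e
    have := congrArg (adj f) e1
    rw [hf.adj_mul, hf.adj_add, hf.adj_smul, hf.adj_smul, hf.adj_one, b1, neg_mul_neg] at this
    refine Subtype.ext (show j.1 * j.1 = a • 1 from ?_)
    rw [← one_smul F (j.1 * j.1), show (1 : F) = -1 + -1 by grind, add_smul]
    nth_rw 1 [this, e1]; ext; simp; grind
  have b4 : j * j = -1 := by
    rcases h4 a (by rintro rfl; exact b2 0 (by simpa using b3)) with rfl | rfl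
    · exact absurd (mul_self_eq_one_iff.1 (b3.trans (one_smul _ _))) (not_or.2 ⟨by simpa using b2 1, by simpa using b2 (-1)⟩)
    · simpa using b3
  have b5 : j.1 * j.1 = -1 := congrArg Subtype.val b4
  refine ⟨j, b1, b5, fun g hg => ?_⟩
  obtain ⟨y, hy⟩ : ∃ y : K, y.1 = cj g j.1 := ⟨⟨_, nrm_normalizer K g hg _ j.2⟩, rfl⟩
  rcases mul_self_eq_mul_self_iff.1 (show y * y = j * j from Subtype.ext (show y.1 * y.1 = j.1 * j.1 by
    rw [hy, ← map_mul, b5, map_neg, map_one])) with e | e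
  exacts [⟨1, mul_one 1, by rw [← hy, e, one_smul]⟩, ⟨-1, by simp, by rw [← hy, e, neg_one_smul]; rfl⟩]

set_option synthInstance.maxSize 4000 in
theorem sp4_gu [Fintype F] (hq : Fintype.card F = 3) (hn : Fintype.card ι = 4) (hs : IsSymplecticForm f) (hH : IsMaximalIn Ω H)
    (hΩ : ∀ g, g ∈ Ω ↔ Sim f g 1) {K : Subalgebra F (Matrix ι ι F)} (hK : IsFieldSubalgebra 2 K)
    (h1 : IsAdjointClosedFor f K) (h2 : ¬ IsSelfAdjointFor f K) (h : H ≤ subalgebraNormalizer K) : False := by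
  have hf := sf_of_symp hs
  have : Nonempty ι := Fintype.card_pos_iff.1 (by omega)
  have h3 : (3 : F) = 0 := by simpa [hq] using FiniteField.cast_card_eq_zero F
  have h4 : ∀ x : F, x ≠ 0 → x = 1 ∨ x = -1 := fun x h =>
    mul_self_eq_one_iff.1 (by simpa [hq, sq] using FiniteField.pow_card_sub_one_eq_one x h)
  obtain ⟨J, a1, a2, a3⟩ := exists_J h3 h4 hf hK h1 h2
  have b1 : ∀ x y, f x (J *ᵥ y) = -f (J *ᵥ x) y := fun x y => by rw [hf.adj_right, a1, neg_mulVec, hf.neg_left]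
  have b2 : ∀ x, J *ᵥ J *ᵥ x = -x := fun x => by rw [mulVec_mulVec, a2, neg_mulVec, one_mulVec]
  have A : ∀ U : Submodule F _, (∀ v ∈ U, J *ᵥ v ∈ U) → ∀ x ∈ U, ∀ y ∈ U, f x y ≠ 0 → ∃ w ∈ U, f (J *ᵥ w) w = 1 :=
    fun U c x d y e k => by
      obtain ⟨w, l, m⟩ : ∃ w ∈ U, f (J *ᵥ w) w ≠ 0 := by
        by_contra! l
        have := l _ (add_mem (c x d) e)
        simp only [mulVec_add, hf.add_left, hf.add_right, l _ (c x d), l y e, b1 (J *ᵥ y), b2, hf.neg_left, hs.2 y x] at this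
        grind
      refine (h4 _ m).elim (fun m => ⟨w, l, m⟩) fun m => ⟨_, add_mem l (c w l), ?_⟩
      simp only [mulVec_add, hf.add_left, hf.add_right, b2, hf.neg_left, hs.3, b1 w, m]; grind
  obtain ⟨x, c⟩ := exists_ne (0 : ι → F)
  obtain ⟨y, d⟩ := (hf.isNondeg x c).2
  obtain ⟨u, -, c1⟩ := A ⊤ (fun _ _ => trivial) x trivial y trivial d
  let T : (ι → F) →ₗ[F] F × F :=
    { toFun v := (f v u, f v (J *ᵥ u)), map_add' := by simp [hf.add_left], map_smul' := by simp [hf.smul_left] }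
  obtain ⟨x, c, c'⟩ := (Submodule.ne_bot_iff _).1 (T.ker_ne_bot_of_finrank_lt (by simp [hn]))
  obtain ⟨y, d⟩ := (hf.isNondeg x c').2
  simp only [T, LinearMap.mem_ker, LinearMap.coe_mk, AddHom.coe_mk, Prod.mk_eq_zero] at c
  obtain ⟨w, c2, c3⟩ := A (LinearMap.ker T) (fun v hv => by
      simp only [T, LinearMap.mem_ker, LinearMap.coe_mk, AddHom.coe_mk, Prod.mk_eq_zero] at hv ⊢
      exact ⟨by rw [← neg_eq_zero, ← b1, hv.2], by rw [b1, b2, hf.neg_left, hv.1, neg_neg]⟩) x (Prod.mk_eq_zero.2 c)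
    (y + f y (J *ᵥ u) • u - f y u • J *ᵥ u) (Prod.mk_eq_zero.2 (by
      simp [hf.add_left, hf.sub_left, hf.smul_left, hs.3, c1, b1 u])) (by
      simpa [hf.add_right, hf.sub_right, hf.smul_right, c])
  replace c2 : f w u = 0 ∧ f w (J *ᵥ u) = 0 := Prod.mk_eq_zero.1 c2
  have c4 : f (J *ᵥ u) w = 0 := by rw [hs.2, c2.2, neg_zero]
  have c5 : f (J *ᵥ w) u = 0 := by rw [← neg_eq_zero, ← b1, c2.2]
  obtain ⟨e, P, d1, -, d2⟩ := exists_cols hf.toSq ![u, J *ᵥ u, w, J *ᵥ w] (by simp [hn])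
    (G := !![0, -1, 0, 0; 1, 0, 0, 0; 0, 0, 0, -1; 0, 0, 1, 0]) (fun a b => by
      fin_cases a <;> fin_cases b <;> simp [hs.3, c1, c3, b1, b2, c2.1, hf.neg_left, hs.2 u w, c4, c5]) (by
      simp [det_succ_row_zero, Fin.sum_univ_succ, Fin.succAbove])
  replace d2 := d2 J !![0, -1, 0, 0; 1, 0, 0, 0; 0, 0, 0, -1; 0, 0, 1, 0] fun a => by
    fin_cases a <;> simp [Fin.sum_univ_four, b2]
  let φ := (ZMod.ringEquivOfPrime F (by decide) hq).symm
  obtain ⟨G, hG⟩ : ∃ G : Matrix (Fin 4) (Fin 4) (ZMod 3), G = !![0, -1, 0, 0; 1, 0, 0, 0; 0, 0, 0, -1; 0, 0, 1, 0] := ⟨_, rfl⟩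
  have d3 : (pm e P J).map φ = G := by rw [d2, hG]; ext i j; fin_cases i <;> fin_cases j <;> simp
  have d4 : ∀ g ∈ H, ∃ s : ZMod 3, s * s = 1 ∧ (pm e P g.1).map φ * G = s • (G * (pm e P g.1).map φ) := fun g hg =>
    (a3 g (h hg)).elim fun s hs => ⟨φ s, by rw [← map_mul, hs.1, map_one], by
      rw [← d3, ← Matrix.map_mul (f := φ), ← Matrix.map_mul (f := φ), ← map_mul, ← map_mul, cj_eq_iff.1 hs.2, smul_mul_assoc,
        map_smul]; exact Matrix.ext fun _ _ => map_mul φ _ _⟩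
  obtain ⟨g, c, d⟩ := nm_coords φ (τ := id) (fun _ => rfl) hf.toSq hH (fun g a _ => (hΩ g).2 a) e P (d1.trans d2.symm ▸ d3)
    (fun x y => x ⬝ᵥ G *ᵥ y ≠ 0 ∧ ((x ⬝ᵥ x) * (y ⬝ᵥ y) = (x ⬝ᵥ y) ^ 2 + (x ⬝ᵥ G *ᵥ y) ^ 2 ∨ x ⬝ᵥ x = 0 ∧ y ⬝ᵥ y = 0 ∧ x ⬝ᵥ y = 0))
    (fun g hg x y => by
      obtain ⟨s, a, b⟩ := d4 g hg
      have c := congrArg (·.map φ) ((sim_iff hf.toSq e P).1 ((hΩ g).1 (hH.1.le hg)))
      simp only [Matrix.map_mul (f := φ), d1.trans d2.symm, d3, RingHom.coe_id, Matrix.map_id, transpose_map] at c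
      generalize (pm e P g.1).map φ = m at b c
      have d : ∀ x y, (m *ᵥ x) ⬝ᵥ (m *ᵥ y) = s * (x ⬝ᵥ y) := fun x y => by
        have k : G * G = -1 := by subst hG; decide +kernel
        have : mᵀ * m = s • 1 := by
          have : m * G = s • (G * m) → mᵀ * m * G = s • G := fun b => by rw [mul_assoc, b, Matrix.mul_smul, ← mul_assoc, c]
          simpa [mul_assoc, k] using congrArg (· * G) (this b)
        rw [dotProduct_mulVec, vecMul_mulVec, this, vecMul_smul, vecMul_one, smul_dotProduct, smul_eq_mul]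
      have k : (m *ᵥ x) ⬝ᵥ G *ᵥ (m *ᵥ y) = x ⬝ᵥ G *ᵥ y := by
        rw [mulVec_mulVec, dotProduct_mulVec, vecMul_mulVec, ← mul_assoc, c, ← dotProduct_mulVec]
      simp only [d, k]; grind)
    (a := !![-1, 0, 0, 0; 0, -1, 0, 0; 0, 0, 1, 1; 0, 0, 1, -1]) (b := !![1, 1, 0, 0; 0, 1, 0, 0; 0, 0, 1, 0; 0, 0, 0, 1])
    (by subst hG; decide +kernel) (by subst hG; decide +kernel) (by subst hG; decide +kernel)
    (x := ![1, 0, 2, 1]) (y := ![2, 1, 2, 0]) (by subst hG; decide +kernel)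
  obtain ⟨s, -, b⟩ := d4 g c
  rw [d, hG] at b
  revert s; decide +kernel

end H10.As
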