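import Mathlib
import Cfsg.Agent.H10.Dec

/-!
# Reflection subgroups of orthogonal groups: tools
* `Form.sg`, `IsQuad.ss` (Siegel elements, directions), `Form.Rf L v` (reflection vectors of `L`)
* `rex` (adjoining a reflection), `loc` (localisation), `dihedral`, `shrink` (support reduction)
* `IsQuad.commutator_le_three`, `IsQuad.refl_mem_three`
-/

namespace H10

open Module

namespace Form
variable {F V : Type*} [Field F] [AddCommGroup V] [Module F V] {φ : Form F V}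

variable (φ) in
/-- Siegel element of a quadratic space -/
noncomputable def sg (p w : V) : φ.Isom := φ.siegel p w (φ.Q w)

/-- reflection vectors of a subgroup -/
def Rf (L : Subgroup φ.Isom) (v : V) : Prop := φ.Q v ≠ 0 ∧ φ.refl v ∈ L

/-- `z` is `-1` on `W` and `1` on its perp -/
def Neg (z : φ.Isom) (W : Submodule F V) : Prop :=
  (∀ x ∈ W, z.1 x = -x) ∧ ∀ x ∈ φ.perp W, z.1 x = x

theorem Neg.mul {z z' : φ.Isom} {W W' : Submodule F V} (h : Neg z W) (h' : Neg z' W')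
    (ho : W' ≤ φ.perp W) : Neg (z * z') (W ⊔ W') := by
  refine ⟨fun x hx => ?_, fun x hx => ?_⟩
  · obtain ⟨a, ha, b, hb, rfl⟩ := Submodule.mem_sup.1 hx
    simp [Isom.mul_apply, h.1 a ha, h'.1 b hb, h.2 b (ho hb), h'.2 a (φ.le_perp_comm.1 ho ha), add_comm]
  · rw [perp_sup] at hx
    rw [Isom.mul_apply, h'.2 x hx.2, h.2 x hx.1]

/-- adjoining an involution -/
def rex (M : Subgroup φ.Isom) (r : φ.Isom) (hr : r * r = 1) : Subgroup φ.Isom where
  carrier := {g | (g ∈ M ∧ r * g * r ∈ M) ∨ (g * r ∈ M ∧ r * g ∈ M)}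
  one_mem' := Or.inl ⟨one_mem _, by simpa [hr] using one_mem M⟩
  mul_mem' {a b} := by
    have e : ∀ y : φ.Isom, r * (r * y) = y := fun y => by rw [← mul_assoc r, hr, one_mul]
    rintro (⟨h1, h2⟩ | ⟨h1, h2⟩) (⟨h3, h4⟩ | ⟨h3, h4⟩)
    · exact Or.inl ⟨mul_mem h1 h3, by simpa [mul_assoc, e] using mul_mem h2 h4⟩
    · exact Or.inr ⟨by simpa [mul_assoc] using mul_mem h1 h3, by simpa [e, mul_assoc] using mul_mem h2 h4⟩
    · exact Or.inr ⟨by simpa [mul_assoc, e] using mul_mem h1 h4, by simpa [mul_assoc] using mul_mem h2 h3⟩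
    · exact Or.inl ⟨by simpa [mul_assoc, e] using mul_mem h1 h4, by simpa [mul_assoc] using mul_mem h2 h3⟩
  inv_mem' {a} := by
    have e : r⁻¹ = r := inv_eq_of_mul_eq_one_right hr
    rintro (⟨h1, h2⟩ | ⟨h1, h2⟩)
    · exact Or.inl ⟨inv_mem h1, by simpa [e, mul_assoc] using inv_mem h2⟩
    · exact Or.inr ⟨by simpa [e] using inv_mem h2, by simpa [e] using inv_mem h1⟩

variable [φ.Nondeg] [FiniteDimensional F V]

theorem commute_fix {Z : Submodule F V} (hZ : φ.NondegOn Z) {g k : φ.Isom} (hg : g ∈ φ.fix Z)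
    (hk : k ∈ φ.fix (φ.perp Z)) : g * k = k * g := Isom.ext fun x => by
  obtain ⟨a, b, rfl⟩ := exists_add_of_isCompl hZ.isCompl_perp x
  have h1 := (fix_perp_le_stab Z hk a).1 a.2
  have h2 := (φ.stab_le_stab_perp Z (φ.fix_le_stab Z hg) b).1 b.2
  simp only [Isom.mul_apply, map_add, hg _ a.2, hk _ b.2, hg _ h1, hk _ h2]

/-- elements fixing `Z` that lie in `L` up to an element of `S` supported on `Z` -/
def loc (L S : Subgroup φ.Isom) {Z : Submodule F V} (hZ : φ.NondegOn Z) : Subgroup φ.Isom where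
  carrier := {g | g ∈ φ.fix Z ∧ ∃ k ∈ φ.fix (φ.perp Z), k ∈ S ∧ g * k ∈ L}
  one_mem' := ⟨one_mem _, 1, one_mem _, one_mem _, by simp⟩
  mul_mem' {a b} := fun ⟨h1, k, h2, h3, h4⟩ ⟨h5, l, h6, h7, h8⟩ =>
    ⟨mul_mem h1 h5, k * l, mul_mem h2 h6, mul_mem h3 h7, by
      convert mul_mem h4 h8 using 1
      rw [mul_assoc, mul_assoc, ← mul_assoc b, commute_fix hZ h5 h2, mul_assoc]⟩
  inv_mem' {a} := fun ⟨h1, k, h2, h3, h4⟩ => ⟨inv_mem h1, k⁻¹, inv_mem h2, inv_mem h3, by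
    rw [← mul_inv_rev, ← commute_fix hZ h1 h2]; exact inv_mem h4⟩

theorem loc_inf_E {L S : Subgroup φ.Isom} {Z : Submodule F V} (hZ : φ.NondegOn Z) {r : φ.Isom}
    (h1 : φ.E ⊓ S ≤ L) (h2 : r ∈ L) (h3 : r ∈ S) (h4 : ∀ g ∈ L, g ∈ φ.E ∨ g * r ∈ φ.E) :
    loc L S hZ ⊓ φ.E ≤ L := by
  rintro g ⟨⟨-, k, -, h5, h6⟩, h7⟩
  refine (mul_mem_cancel_right ?_).1 h6
  rcases h4 _ h6 with h8 | h8
  · exact h1 ⟨(φ.E.mul_mem_cancel_left h7).1 h8, h5⟩
  · rw [mul_assoc] at h8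
    exact (mul_mem_cancel_right h2).1 (h1 ⟨(φ.E.mul_mem_cancel_left h7).1 h8, mul_mem h5 h3⟩)

theorem exists_neg {W : Submodule F V} (hW : φ.NondegOn W) : ∃ z : φ.Isom, Neg z W := by
  have := hW.nondeg
  exact ⟨extHom hW ((φ.restrict W).scalar (-1)), fun x hx => by
    simpa [neg_one_apply] using extHom_left hW ((φ.restrict W).scalar (-1)) ⟨x, hx⟩,
    fun x hx => extHom_right hW _ hx⟩

theorem Neg.ext {z g : φ.Isom} {W : Submodule F V} (hW : φ.NondegOn W) (h : Neg z W) (h' : Neg g W) :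
    z = g := Isom.ext fun x => by
  obtain ⟨a, b, rfl⟩ := exists_add_of_isCompl hW.isCompl_perp x
  simp [h.1 _ a.2, h.2 _ b.2, h'.1 _ a.2, h'.2 _ b.2]

theorem Neg.mul_self {z : φ.Isom} {W : Submodule F V} (hW : φ.NondegOn W) (h : Neg z W) :
    z * z = 1 := Isom.ext fun x => by
  obtain ⟨a, b, rfl⟩ := exists_add_of_isCompl hW.isCompl_perp x
  simp [Isom.mul_apply, h.1 _ a.2, h.2 _ b.2]

theorem Neg.conj {z : φ.Isom} {W : Submodule F V} (h : Neg z W) (g : φ.Isom) :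
    Neg (g * z * g⁻¹) (W.map (g.1 : V →ₗ[F] V)) := by
  refine ⟨?_, fun x hx => ?_⟩
  · rintro _ ⟨x, hx, rfl⟩
    simp [Isom.mul_apply, h.1 x hx]
  · rw [Isom.mul_apply, Isom.mul_apply, h.2, Isom.apply_inv_apply]
    exact fun y hy => by rw [← Isom.B_map g, Isom.apply_inv_apply]; exact hx _ ⟨y, hy, rfl⟩

namespace IsQuad
variable (h : φ.IsQuad) {L : Subgroup φ.Isom} {p w x : V}
include h

theorem sg_apply (hp : φ.Q p = 0) (hw : φ.B p w = 0) (x : V) :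
    (φ.sg p w).1 x = x + φ.B w x • p - φ.B p x • w - (φ.Q w * φ.B p x) • p := by
  rw [sg, φ.siegel_apply hp hw (h.T_eq _)]; simp [h.ε_eq]

theorem sg_mul (hp : φ.Q p = 0) (hw : φ.B p w = 0) {w' : V} (hw' : φ.B p w' = 0) :
    φ.sg p w * φ.sg p w' = φ.sg p (w + w') := by
  rw [sg, sg, φ.siegel_mul hp hw (h.T_eq _) hw' (h.T_eq _), sg, h.Q_add]

theorem sg_smul (hp : φ.Q p = 0) (hw : φ.B p w = 0) (c : F) : φ.sg (c • p) w = φ.sg p (c • w) := by
  rw [sg, siegel_smul hp hw (h.T_eq _), sg, h.Q_smul]; simp [h.σ_eq]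

theorem sg_conj (hp : φ.Q p = 0) (hw : φ.B p w = 0) (g : φ.Isom) :
    g * φ.sg p w * g⁻¹ = φ.sg (g.1 p) (g.1 w) := by
  rw [sg, φ.siegel_conj g hp hw (h.T_eq _), sg, Isom.Q_map]

theorem sg_self (hp : φ.Q p = 0) (c : F) : φ.sg p (c • p) = 1 := Isom.ext fun x => by
  rw [h.sg_apply hp (by simp [φ.B_self_eq_zero hp]), h.B_smul_left, φ.Q_smul_of_sing hp, smul_smul]
  simp [mul_comm]

theorem sg_add_self (hp : φ.Q p = 0) (hw : φ.B p w = 0) (c : F) : φ.sg p (w + c • p) = φ.sg p w := by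
  rw [← h.sg_mul hp hw (by simp [φ.B_self_eq_zero hp]), h.sg_self hp, mul_one]

theorem sg_inv (hp : φ.Q p = 0) (hw : φ.B p w = 0) : (φ.sg p w)⁻¹ = φ.sg p (-w) :=
  inv_eq_of_mul_eq_one_right (by simpa [h.sg_mul hp hw (w' := -w) (by simp [hw])] using h.sg_self hp 0)

theorem sg_mem_E (hp : φ.Q p = 0) (hw : φ.B p w = 0) : φ.sg p w ∈ φ.E :=
  φ.siegel_mem_E hp hw (h.T_eq _)

theorem sg_mem_fix (hp : φ.Q p = 0) (hw : φ.B p w = 0) {W : Submodule F V} (h1 : p ∈ W) (h2 : w ∈ W) :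
    φ.sg p w ∈ φ.fix (φ.perp W) := fun x hx => by simp [h.sg_apply hp hw, hx p h1, hx w h2]

theorem refl_refl (hp : φ.Q p = 0) (hw : φ.B p w = 0) (hQ : φ.Q w ≠ 0) (c : F) :
    φ.refl w * φ.refl (w + c • p) = φ.sg p ((-c / φ.Q w) • w) := by
  rw [← h.sg_smul hp hw, sg, h.siegel_eq_refl (φ.Q_smul_of_sing hp _) (by simp [h.B_smul_left, hw]) hQ,
    smul_smul, mul_div_cancel₀ _ hQ, neg_smul, sub_neg_eq_add]

/-- directions of Siegel elements at `p` -/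
def ss (L : Subgroup φ.Isom) {p : V} (hp : φ.Q p = 0) : Submodule F V :=
  sgSub L hp (h.siegel_zero_mem hp L)

theorem mem_ss {hp : φ.Q p = 0} : w ∈ h.ss L hp ↔ φ.B p w = 0 ∧ ∀ c : F, φ.sg p (c • w) ∈ L :=
  and_congr_right fun _ => forall_congr' fun c => ⟨fun ⟨s, h1, h2⟩ => by
    rw [h.T_eq] at h1; subst h1; exact h2, fun h1 => ⟨_, h.T_eq _, h1⟩⟩

theorem self_mem_ss {hp : φ.Q p = 0} : p ∈ h.ss L hp := self_mem_sgSub

theorem ss_map {hp : φ.Q p = 0} {g : φ.Isom} (hg : g ∈ L) (hgp : g.1 p = p) (hw : w ∈ h.ss L hp) :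
    g.1 w ∈ h.ss L hp := map_mem_sgSub hg hgp hw

theorem ss_mono {hp : φ.Q p = 0} {K : Subgroup φ.Isom} (hK : K ⊓ φ.E ≤ L) : h.ss K hp ≤ h.ss L hp :=
  fun _ hw => h.mem_ss.2 ⟨hw.1, fun c => hK ⟨(h.mem_ss.1 hw).2 c, h.sg_mem_E hp (by simp [hw.1])⟩⟩

theorem mem_ss_of_fix {hp : φ.Q p = 0} {W : Submodule F V} (hW : φ.E ⊓ φ.fix (φ.perp W) ≤ L)
    (h1 : p ∈ W) (h2 : w ∈ W) (h3 : φ.B p w = 0) : w ∈ h.ss L hp :=
  h.mem_ss.2 ⟨h3, fun c => hW ⟨h.sg_mem_E hp (by simp [h3]),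
    h.sg_mem_fix hp (by simp [h3]) h1 (W.smul_mem c h2)⟩⟩

theorem mem_of_refl {A : Submodule F V} (hx : φ.Q x ≠ 0) (hw : w ∈ A) (h1 : (φ.refl x).1 w ∈ A)
    (h0 : φ.B x w ≠ 0) : x ∈ A := by
  rw [h.refl_apply, add_mem_cancel_left hw] at h1
  exact (A.smul_mem_iff (by simp [hx, h0])).1 h1

theorem ss_refl {hp : φ.Q p = 0} (hx : Rf L x) (h1 : φ.B x p = 0) (hw : w ∈ h.ss L hp)
    (h0 : φ.B x w ≠ 0) : x ∈ h.ss L hp :=
  h.mem_of_refl hx.1 hw (h.ss_map hx.2 (h.refl_of_orth h1) hw) h0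

theorem ss_refl₂ {hp : φ.Q p = 0} {y : V} (hx : φ.Q x ≠ 0) (hy : φ.refl x * φ.refl y ∈ L)
    (h1 : φ.B x p = 0) (h2 : φ.B y p = 0) (hw : w ∈ h.ss L hp) (h3 : φ.B y w = 0)
    (h0 : φ.B x w ≠ 0) : x ∈ h.ss L hp := by
  have := h.ss_map hy (by rw [Isom.mul_apply, h.refl_of_orth h2, h.refl_of_orth h1]) hw
  rw [Isom.mul_apply, h.refl_of_orth h3] at this
  exact h.mem_of_refl hx hw this h0

theorem ss_E_le {hp : φ.Q p = 0} (h1 : ∀ w, φ.B p w = 0 → w ∈ h.ss L hp) {g : φ.Isom} (hg : g ∈ L)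
    (h0 : φ.B p (g.1 p) ≠ 0) : φ.E ≤ L :=
  (full_of_le_sgSub fun w hw => h1 w (φ.mem_perp_singleton.1 hw)).E_le hp hg h0

theorem ss_of_rot [Finite F] {f z : V} (hyp : φ.IsHyp p f) (hr : ∀ c : F, c ≠ 0 → φ.rot p f (c * c) ∈ L)
    (h1 : φ.B p z = 0) (h2 : φ.B f z = 0) (h3 : φ.sg p z ∈ L) : z ∈ h.ss L hyp.Qe := by
  have h4 : ∀ c : F, φ.sg p ((c * c) • z) ∈ L := fun c => by
    by_cases hc : c = 0
    · rw [hc, mul_zero, zero_smul, ← zero_smul F p, h.sg_self hyp.Qe]; exact one_mem L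
    have := mul_mem (mul_mem (hr c hc) h3) (inv_mem (hr c hc))
    rwa [h.sg_conj hyp.Qe h1, φ.rot_apply_e hyp (mul_ne_zero hc hc),
      φ.rot_apply_of_orth hyp (mul_ne_zero hc hc) h1 h2, h.sg_smul hyp.Qe h1] at this
  refine h.mem_ss.2 ⟨h1, fun c => ?_⟩
  by_cases h5 : (2 : F) = 0
  · obtain ⟨d, rfl⟩ := chi_eq_one_iff.1 (chi_eq_one_of_two_eq_zero h5 c)
    exact h4 d
  have := mul_mem (h4 ((c + 1) / 2)) (inv_mem (h4 ((c - 1) / 2)))
  rw [h.sg_inv hyp.Qe (by simp [h1]), h.sg_mul hyp.Qe (by simp [h1]) (by simp [h1]), ← neg_smul,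
    ← add_smul] at this
  convert this using 3
  field_simp; ring

theorem _root_.H10.Form.Rf.map (hx : Rf L x) {g : φ.Isom} (hg : g ∈ L) : Rf L (g.1 x) :=
  ⟨by simpa using hx.1, h.refl_conj g x ▸ mul_mem (mul_mem hg hx.2) (inv_mem hg)⟩

theorem _root_.H10.Form.Rf.smul (hx : Rf L x) {c : F} (hc : c ≠ 0) : Rf L (c • x) :=
  ⟨by simp [h.Q_smul, hc, hx.1], (h.refl_smul hc x).symm ▸ hx.2⟩

theorem smul_of_commute (h2 : (2 : F) ≠ 0) (hx : φ.Q x ≠ 0) {g : φ.Isom}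
    (hg : g * φ.refl x = φ.refl x * g) : g.1 x = x ∨ g.1 x = -x := by
  have h1 := congrArg (fun k : φ.Isom => k.1 x) hg
  simp only [Isom.mul_apply, h.refl_self hx, map_neg, h.refl_apply] at h1
  obtain ⟨c, hc⟩ : ∃ c : F, g.1 x = c • x := ⟨(φ.Q x)⁻¹ * φ.B x (g.1 x) / 2, by
    rw [div_eq_inv_mul, mul_smul, eq_inv_smul_iff₀ h2]
    linear_combination (norm := module) -h1⟩
  have h3 := Isom.Q_map g x
  rw [hc, h.Q_smul, mul_eq_right₀ hx, mul_self_eq_one_iff] at h3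
  rcases h3 with rfl | rfl
  · exact Or.inl (by simpa using hc)
  · exact Or.inr (by simpa using hc)

theorem dihedral [Finite F] (h2 : (2 : F) ≠ 0) {W : Submodule F V} (hW : φ.NondegOn W) {z : φ.Isom}
    (hz : Neg z W) (hzL : z ∈ L) {u v : V} (hu : u ∈ W) (hv : v ∈ φ.perp W) (h3 : φ.Q u ≠ 0)
    (h4 : φ.Q v ≠ 0) (hx : Rf L (u + v)) :
    φ.refl u ∈ L ∨ ∃ y ∈ L, ∀ x ∈ φ.perp W, y.1 x = (φ.refl v).1 x := by
  have : Finite V := Module.finite_of_finite F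
  have huv : φ.B u v = 0 := hv u hu
  set η := z * φ.refl u with hη
  set ρ := φ.refl u * φ.refl (u + v) with hρ
  have c1 : Commute z (φ.refl u) := by
    have := h.refl_conj z u
    rw [hz.1 u hu, ← neg_one_smul F u, h.refl_smul (by simp)] at this
    exact mul_inv_eq_iff_eq_mul.1 this
  have c2 : Commute η (φ.refl (u + v)) := by
    have := h.refl_conj η (u + v)
    rw [show η.1 (u + v) = u + v by
      simp [hη, Isom.mul_apply, h.refl_self h3, h.refl_of_orth huv, hz.1 u hu, hz.2 v hv]] at this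
    exact mul_inv_eq_iff_eq_mul.1 this
  have c3 : Commute η ρ := (c1.mul_left (Commute.refl _)).mul_right c2
  have e1 : η * η = 1 := by
    rw [hη, mul_assoc, ← mul_assoc (φ.refl u), ← c1.eq, mul_assoc, h.refl_mul_self, mul_one, hz.mul_self hW]
  have m1 : ∀ n, η ^ n * ρ ^ n ∈ L := fun n => by
    rw [← c3.mul_pow, hη, hρ, mul_assoc, ← mul_assoc (φ.refl u), h.refl_mul_self, one_mul]
    exact pow_mem (mul_mem hzL hx.2) n
  obtain ⟨j, hj | hj⟩ := Nat.even_or_odd' (orderOf ρ)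
  swap
  · have := m1 (2 * j + 1)
    rw [← hj, pow_orderOf_eq_one, mul_one, hj, pow_succ, pow_mul, sq, e1, one_pow, one_mul] at this
    exact Or.inl ((mul_mem_cancel_left hzL).1 this)
  have t1 : ρ ^ j * ρ ^ j = 1 := by rw [← pow_add, ← two_mul, ← hj, pow_orderOf_eq_one]
  have t2 : ρ ^ j ≠ 1 := pow_ne_one_of_lt_orderOf (by have := orderOf_pos ρ; omega)
    (by have := orderOf_pos ρ; omega)
  have t3 : ∀ r : φ.Isom, r * ρ * r⁻¹ = ρ⁻¹ → ρ ^ j * r = r * ρ ^ j := fun r hr => by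
    have := congrArg (· ^ j) hr
    simp only [conj_pow, inv_pow, inv_eq_of_mul_eq_one_right t1] at this
    exact (mul_inv_eq_iff_eq_mul.1 this).symm
  have t4 := h.smul_of_commute h2 h3 (t3 _ (by
    rw [hρ, ← mul_assoc, h.refl_mul_self, one_mul, mul_inv_rev, h.refl_inv (u + v)]))
  have t5 := h.smul_of_commute h2 hx.1 (t3 _ (by
    rw [hρ, mul_inv_rev, h.refl_inv, h.refl_inv, mul_assoc, mul_assoc, h.refl_mul_self, mul_one]))
  have t6 : ∀ x, φ.B u x = 0 → φ.B v x = 0 → (ρ ^ j).1 x = x := fun x a b =>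
    ((φ.fix (F ∙ x)).pow_mem (φ.mem_fix_span.2 (by
      simp [hρ, Isom.mul_apply, h.refl_of_orth a, h.refl_of_orth (v := u + v) (x := x) (by simp [a, b])])) j)
      x (Submodule.mem_span_singleton_self x)
  have b1 := h.B_self_ne_zero h2 h3
  have b2 := h.B_self_ne_zero h2 h4
  have t7 : ∀ x, x = (φ.B u x / φ.B u u) • u + (φ.B v x / φ.B v v) • v +
      (x - (φ.B u x / φ.B u u) • u - (φ.B v x / φ.B v v) • v) := fun x => by abel
  have t8 : ∀ x, (ρ ^ j).1 (x - (φ.B u x / φ.B u u) • u - (φ.B v x / φ.B v v) • v) =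
      x - (φ.B u x / φ.B u u) • u - (φ.B v x / φ.B v v) • v := fun x =>
    t6 _ (by simp [huv, b1]) (by simp [φ.B_symm_zero huv, b2])
  have t9 := Isom.B_map (ρ ^ j) u (u + v)
  rw [map_add] at t5
  rcases t4 with t4 | t4 <;> rcases t5 with t5 | t5 <;> rw [map_add _ u v, t5, t4] at t9
  · refine absurd (Isom.ext fun x => ?_) t2
    rw [t7 x, map_add, map_add, t8, map_smul, map_smul, t4, add_left_cancel (t4 ▸ t5 :), Isom.one_apply]
  · simp only [map_neg, map_add, huv, add_zero] at t9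
    exact absurd (by linear_combination -t9) (mul_ne_zero h2 b1)
  · simp only [map_neg, map_add, huv, add_zero, LinearMap.neg_apply] at t9
    exact absurd (by linear_combination -t9) (mul_ne_zero h2 b1)
  refine Or.inr ⟨_, m1 j, fun x hx => ?_⟩
  have t10 : (ρ ^ j).1 v = -v := by rw [t4, neg_add] at t5; exact add_left_cancel t5
  have t11 : (ρ ^ j).1 x = (φ.refl v).1 x := by
    rw [h.refl_apply]
    conv_lhs => rw [t7 x, map_add, map_add, t8, map_smul, map_smul, t4, t10, hx u hu, h.B_self v]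
    match_scalars <;> field_simp <;> ring
  have t12 := (φ.stab_le_stab_perp W (φ.fix_le_stab W (φ.perp_perp W ▸ h.refl_mem_fix hv)) x).1 hx
  rw [Isom.mul_apply, t11]
  exact (φ.fix (φ.perp W)).pow_mem (mul_mem hz.2 (h.refl_mem_fix hu)) j _ t12

theorem deg {u v a : V} (huv : φ.B u v = 0) (h3 : φ.Q u ≠ 0) (h4 : φ.Q v = 0) (ha : φ.B v a = 0) :
    (φ.refl (u + v) * φ.refl (-u + v)).1 a = a + (2 * φ.B u a / φ.Q u) • v := by
  have h5 := φ.B_symm_zero huv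
  simp only [Isom.mul_apply, h.refl_apply, h.Q_add, map_add, map_neg, map_smul, LinearMap.add_apply,
    LinearMap.neg_apply, huv, h5, h4, ha, Q_neg, h.B_self, smul_eq_mul, add_zero, neg_zero]
  match_scalars <;> field_simp <;> ring

/-- support reduction -/
theorem shrink [Finite F] (h2 : (2 : F) ≠ 0) {W : Submodule F V} (hW : φ.NondegOn W) {z : φ.Isom}
    (hz : Neg z W) (hzL : z ∈ L) {u v a b : V} (hu : u ∈ W) (hv : v ∈ φ.perp W) (hx : Rf L (u + v))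
    (ha : a ∈ W) (hb : b ∈ φ.perp W) (ha' : Rf L a) (hb' : Rf L b) (h5 : φ.B u a ≠ 0) (h6 : φ.B v b ≠ 0) :
    Rf L u ∨ ∃ c : F, c ≠ 0 ∧ (Rf L (b + c • v) ∨ Rf L (a + c • v) ∨ Rf L (b + c • u)) := by
  have huv : φ.B u v = 0 := hv u hu
  have h7 := hx.map h hzL
  rw [map_add, hz.1 u hu, hz.2 v hv] at h7
  have h8 := hx.1
  rw [φ.Q_add_of_orth huv] at h8
  by_cases h4 : φ.Q v = 0
  · have h3 : φ.Q u ≠ 0 := by simpa [h4] using h8
    have := ha'.map h (mul_mem hx.2 h7.2)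
    rw [h.deg huv h3 h4 (φ.mem_perp'.1 hv a ha)] at this
    exact Or.inr ⟨_, by simp [h2, h3, h5], Or.inr (Or.inl this)⟩
  by_cases h3 : φ.Q u = 0
  · have h9 := h7.smul h (c := -1) (by simp)
    have := hb'.map h (mul_mem hx.2 h9.2)
    rw [add_comm u v, show (-1 : F) • (-u + v) = -v + u by module,
      h.deg (φ.B_symm_zero huv) h4 h3 (hb u hu)] at this
    exact Or.inr ⟨_, by simp [h2, h4, h6], Or.inr (Or.inr this)⟩
  rcases h.dihedral h2 hW hz hzL hu hv h3 h4 hx with h9 | ⟨y, hy, h9⟩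
  · exact Or.inl ⟨h3, h9⟩
  have := hb'.map h hy
  rw [h9 b hb, h.refl_apply] at this
  exact Or.inr ⟨_, by simp [h4, h6], Or.inl this⟩

theorem commutator_le_three (hn : finrank F V = 3) {e f : V} (hyp : φ.IsHyp e f) :
    commutator φ.Isom ≤ φ.E := by
  have h1 := hyp.finrank_perp
  obtain ⟨w, hw, hw0⟩ := Submodule.exists_mem_ne_zero_of_ne_bot (p := φ.perp (Submodule.span F {e, f}))
    (fun h0 => by rw [h0, finrank_bot] at h1; omega)
  have h2 : ∀ x ∈ φ.perp (Submodule.span F {e, f}), ∃ c : F, c • w = x := fun x hx => by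
    simpa using (finrank_eq_one_iff_of_nonzero' (K := F) (⟨w, hw⟩ : φ.perp (Submodule.span F {e, f}))
      (by simpa using hw0)).1 (by omega) ⟨x, hx⟩
  have h3 : φ.Q w ≠ 0 := fun h0 => hw0 (hyp.nondegOn.perp w hw fun y hy => by
    obtain ⟨c, rfl⟩ := h2 y hy; simp [φ.B_self_eq_zero h0])
  obtain ⟨w1, w2⟩ := φ.mem_perp_pair.1 hw
  have h4 : ∀ g k : φ.Isom, g.1 e = k.1 e → g.1 f = k.1 f → g.1 w = k.1 w → g = k := fun g k a b c =>
    Isom.ext fun x => by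
      obtain ⟨d, hd⟩ := h2 _ (hyp.proj_mem x)
      rw [show x = d • w + (φ.ε * φ.B f x) • e + φ.B e x • f by rw [hd]; abel]
      simp [a, b, c]
  have key : ∀ g : φ.Isom, ∃ c : F, c ≠ 0 ∧ ∃ k ∈ φ.E, g = k * φ.rot e f c ∨
      g = k * (φ.rot e f c * φ.refl w) := fun g => by
    obtain ⟨k, hk, c, hc, h5⟩ := Conn.exists_E_map_point (φ := φ) (Or.inr hn.ge) (p := g.1 e)
      (by simpa using hyp.Qe) (by simpa using hyp.e_ne_zero) hyp.Qe hyp.e_ne_zero
    set g1 := (φ.rot e f c)⁻¹ * k * g with hg1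
    have h6 : g1.1 e = e := by
      rw [hg1, Isom.mul_apply, Isom.mul_apply, h5, Isom.inv_apply_eq, φ.rot_apply_e hyp hc]
    obtain ⟨s, h7, h8, h9⟩ := exists_siegel_map (φ := φ) (y := g1.1 f) (z := f) hyp.Qe (by simp)
      (by rw [← h6, Isom.B_map, h6]) (by rw [← h6, Isom.B_map, hyp.Bef]; simp)
    set t := φ.siegel e ((φ.ε / φ.B e (g1.1 f)) • (g1.1 f - f)) s
    have ht : t ∈ φ.E := φ.siegel_mem_E hyp.Qe h7 h8
    have h10 : (t * g1).1 e = e := by rw [Isom.mul_apply, h6, siegel_apply_self hyp.Qe h7 h8]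
    have h11 : (t * g1).1 f = f := h9
    obtain ⟨d, hd⟩ := h2 ((t * g1).1 w) (φ.mem_perp_pair.2 ⟨by rw [← h10, Isom.B_map, w1],
      by rw [← h11, Isom.B_map, w2]⟩)
    have h12 := Isom.Q_map (t * g1) w
    rw [← hd, h.Q_smul, mul_eq_right₀ h3, mul_self_eq_one_iff] at h12
    have h13 := φ.E_normal.conj_mem _ ht (φ.rot e f c)
    refine ⟨c, hc, _, inv_mem (mul_mem h13 hk), ?_⟩
    rcases h12 with rfl | rfl
    · left
      have := h4 _ 1 h10 h11 (by simpa using hd.symm)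
      rw [eq_inv_mul_iff_mul_eq]
      conv_rhs => rw [← mul_one (φ.rot e f c), ← this, hg1]
      group
    · right
      have := h4 _ (φ.refl w) (by rw [h10, h.refl_of_orth (φ.B_symm_zero w1)])
        (by rw [h11, h.refl_of_orth (φ.B_symm_zero w2)]) (by rw [← hd, h.refl_self h3]; simp)
      rw [eq_inv_mul_iff_mul_eq, ← this, hg1]; group
  have c1 : ∀ c d : F, c ≠ 0 → d ≠ 0 → Commute (φ.rot e f c) (φ.rot e f d) := fun c d hc hd => by
    rw [Commute, SemiconjBy, φ.rot_mul hyp hc hd, φ.rot_mul hyp hd hc, mul_comm]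
  have c2 : ∀ c : F, c ≠ 0 → Commute (φ.rot e f c) (φ.refl w) := fun c hc => by
    have := h.refl_conj (φ.rot e f c) w
    rw [φ.rot_apply_of_orth hyp hc w1 w2] at this
    exact mul_inv_eq_iff_eq_mul.1 this
  rw [commutator_def, Subgroup.commutator_le]
  intro a _ b _
  rw [← QuotientGroup.eq_one_iff, ← QuotientGroup.mk'_apply, map_commutatorElement,
    commutatorElement_eq_one_iff_commute]
  obtain ⟨c, hc, k, hk, ha⟩ := key a
  obtain ⟨d, hd, l, hl, hb⟩ := key b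
  have e1 : QuotientGroup.mk' φ.E k = 1 := (QuotientGroup.eq_one_iff k).2 hk
  have e2 : QuotientGroup.mk' φ.E l = 1 := (QuotientGroup.eq_one_iff l).2 hl
  rcases ha with rfl | rfl <;> rcases hb with rfl | rfl <;>
    rw [map_mul _ k, map_mul _ l, e1, e2, one_mul, one_mul] <;> apply Commute.map
  · exact c1 c d hc hd
  · exact (c1 c d hc hd).mul_right (c2 c hc)
  · exact (c1 c d hc hd).mul_left (c2 d hd).symm
  · exact ((c1 c d hc hd).mul_right (c2 c hc)).mul_left ((c2 d hd).symm.mul_right (Commute.refl _))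

theorem extHom_sg {U : Submodule F V} (hU : φ.NondegOn U) {p w : U} (hp : φ.Q p = 0) (hw : φ.B p w = 0) :
    extHom hU ((φ.restrict U).sg p w) = φ.sg p w := Isom.ext fun x => by
  have := hU.nondeg
  obtain ⟨a, b, rfl⟩ := exists_add_of_isCompl hU.isCompl_perp x
  rw [map_add, map_add, extHom_left, extHom_right _ _ b.2, h.sg_mem_fix hp hw p.2 w.2 _ b.2,
    (h.restrict U).sg_apply hp hw, h.sg_apply hp hw]
  simp

/-- a full root group and an element moving its centre give `Ω₃` -/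
theorem refl_mem_three {U : Submodule F V} (hU : φ.NondegOn U) (h3 : finrank F U = 3) (hp : φ.Q p = 0)
    (hpU : p ∈ U) (h1 : ∀ w ∈ U, φ.B p w = 0 → φ.sg p w ∈ L) {g : φ.Isom} (hg : g ∈ L)
    (hg' : g ∈ φ.fix (φ.perp U)) (h0 : φ.B p (g.1 p) ≠ 0) {x y : V} (hx : x ∈ U) (hy : y ∈ U)
    (hQ : φ.Q x ≠ 0) {c : F} (hc : c ≠ 0) (hxy : φ.Q x = c * c * φ.Q y) : φ.refl x * φ.refl y ∈ L := by
  have := hU.nondeg
  obtain ⟨k, rfl⟩ : g ∈ (extHom hU).range := range_extHom hU ▸ hg'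
  have h4 : (φ.restrict U).Full (L.comap (extHom hU)) ⟨p, hpU⟩ := fun w s h5 h6 => by
    rw [(h.restrict U).T_eq] at h6
    subst h6
    have := h1 w w.2 h5
    rwa [← h.extHom_sg hU (p := ⟨p, hpU⟩) hp h5] at this
  have h5 := h4.E_le hp (g := k) hg (by rwa [restrict_B, ← extHom_left hU])
  obtain ⟨f, hyp⟩ := (φ.restrict U).exists_hyp (u := ⟨p, hpU⟩) hp (by
    intro h6; apply h0; rw [show p = 0 from congrArg Subtype.val h6]; simp)
  have h6 := h5 ((h.restrict U).commutator_le_three h3 hyp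
    ((h.restrict U).refl_mul_refl_mem (v := ⟨x, hx⟩) (w := ⟨y, hy⟩) hQ hc hxy))
  rwa [Subgroup.mem_comap, map_mul, h.extHom_refl, h.extHom_refl] at h6

end IsQuad
end Form
end H10
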