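import Mathlib
import Cfsg.Agent.H10.DcA

/-!
# Orthogonal decompositions into isometric blocks, I
* `Form.Blk φ D k`, `Form.IR`, `Blk.lemB` (a new Siegel element gives `Ω`), `Blk.localise`, `om3`
-/

namespace H10

open Module
open scoped commutatorElement

theorem exists_not_root {F : Type*} [Field F] [Finite F] (P : Polynomial F) (h0 : P ≠ 0)
    (h : P.natDegree < Nat.card F) : ∃ x, P.eval x ≠ 0 := by
  by_contra! h1
  have := Fintype.ofFinite F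
  exact h0 (P.eq_zero_of_natDegree_lt_card_of_eval_eq_zero Function.injective_id h1
    (by rwa [← Nat.card_eq_fintype_card]))

theorem exists_sq_ne {F : Type*} [Field F] [Finite F] (h : 4 ≤ Nat.card F) {a : F} (ha : a ≠ 0) (b : F) :
    ∃ x : F, x ≠ 0 ∧ a + x * x * b ≠ 0 := by
  obtain ⟨x, hx⟩ := exists_not_root (.X * (.C a + .X * .X * .C b))
    (mul_ne_zero Polynomial.X_ne_zero fun h => ha (by simpa using congrArg (Polynomial.eval 0) h))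
    (lt_of_le_of_lt (by compute_degree) (by omega : 3 < _))
  exact ⟨x, by simpa using hx⟩

namespace Form
variable {F V : Type*} [Field F] [AddCommGroup V] [Module F V] {φ : Form F V}

variable (φ) in
/-- vectors of a given norm do not lie in two orthogonal proper subspaces -/
def IR (W : Submodule F V) : Prop := ∀ c : F, c ≠ 0 → ∀ A A' : Submodule F V, A' ≤ φ.perp A →
  (∀ x ∈ W, φ.Q x = c → x ∈ A ∨ x ∈ A') → W ≤ A ∨ W ≤ A'

theorem IR.span {W A : Submodule F V} (h : φ.IR W) {c : F} (hc : c ≠ 0)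
    (hA : ∀ x ∈ W, φ.Q x = c → x ∈ A) : W ≤ A :=
  (h c hc A ⊥ bot_le fun x hx e => Or.inl (hA x hx e)).elim id fun h => h.trans bot_le

theorem IR.wc {W A : Submodule F V} (h : φ.IR W) (hW : φ.NondegOn W) (hA : φ.WittClosed A W) {x : V}
    (hx : x ∈ W) (hxA : x ∈ A) (hx0 : x ≠ 0) : W ≤ A := by
  by_cases hQ : φ.Q x = 0
  · exact hA.le_of_sing hW hx hxA hx0 hQ
  · exact h.span hQ fun y hy e => hA x hx hxA hx0 y hy (by rintro rfl; exact hQ (by simpa using e.symm)) e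

theorem IR.ex [FiniteDimensional F V] {W : Submodule F V} (h : φ.IR W) (hW : φ.NondegOn W)
    (h2 : 2 ≤ finrank F W) {y : V} (hy : y ∈ W) (hy0 : y ≠ 0) {c : F} (hc : c ≠ 0) :
    ∃ a ∈ W, φ.Q a = c ∧ φ.B y a ≠ 0 ∧ a ∉ F ∙ y := by
  by_contra! h0
  rcases h c hc (F ∙ y) _ le_rfl fun x hx e => (em _).imp_right fun h1 =>
    φ.mem_perp_singleton.2 (not_not.1 fun h3 => h1 (h0 x hx e h3)) with h1 | h1
  · have := (Submodule.finrank_mono h1).trans (finrank_span_singleton_le y); omega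
  · exact hy0 (hW y hy fun x hx => φ.mem_perp_singleton.1 (h1 hx))

variable (φ) in
/-- orthogonal decomposition into isometric blocks -/
structure Blk {κ : Type*} (D : κ → Submodule F V) (k : ℕ) : Prop where
  q : φ.IsQuad
  od : φ.ODec D
  rk : ∀ i, finrank F (D i) = k
  iso : ∀ i j, ∃ e, IsEquiv (φ.restrict (D i)) (φ.restrict (D j)) e
  n5 : 5 ≤ finrank F V

variable [φ.Nondeg] [FiniteDimensional F V] {κ : Type*} {D : κ → Submodule F V} {k : ℕ}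

theorem NondegOn.split {W : Submodule F V} (h : φ.NondegOn W) (x : V) :
    ∃ u ∈ W, ∃ y ∈ φ.perp W, x = u + y := by
  obtain ⟨a, b, rfl⟩ := exists_add_of_isCompl h.isCompl_perp x
  exact ⟨a, a.2, b, b.2, rfl⟩

omit [φ.Nondeg] [FiniteDimensional F V] in
theorem NondegOn.sup {W W' : Submodule F V} (h : φ.NondegOn W) (h' : φ.NondegOn W')
    (ho : W' ≤ φ.perp W) : φ.NondegOn (W ⊔ W') := fun x hx h0 => by
  obtain ⟨a, ha, b, hb, rfl⟩ := Submodule.mem_sup.1 hx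
  rw [h a ha fun y hy => by simpa [φ.mem_perp'.1 (ho hb) y hy] using h0 y (Submodule.mem_sup_left hy),
    h' b hb fun y hy => by simpa [ho hy a ha] using h0 y (Submodule.mem_sup_right hy), add_zero]

namespace ODec
variable (h : φ.ODec D)
include h

omit [φ.Nondeg] [FiniteDimensional F V] in
theorem nb {x : V} {i j : κ} (hij : i ≠ j) (h1 : x ∉ φ.perp (D i)) (h2 : x ∉ φ.perp (D j)) (l : κ) :
    x ∉ D l := fun hl => by
  by_cases e : i = l
  · exact h2 (h.orth j l (e ▸ hij.symm) hl)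
  · exact h1 (h.orth i l e hl)

theorem exists_nonsing [Finite κ] {v : V} (hv : φ.Q v ≠ 0) :
    ∃ i, ∃ u ∈ D i, ∃ y ∈ φ.perp (D i), v = u + y ∧ φ.Q u ≠ 0 := by
  by_contra! h0
  refine hv (h.induction (P := fun x => (∀ i, ∀ u ∈ D i, ∀ y ∈ φ.perp (D i), x = u + y → φ.Q u = 0) →
    φ.Q x = 0) (fun _ => by simp) (fun a u hu x hx ih H => ?_) v h0)
  rw [φ.Q_add_of_orth (hx u hu), H a u hu x hx rfl, ih fun i u' hu' y hy e => ?_, add_zero]
  by_cases hi : i = a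
  · subst hi
    rw [h.nondeg i u' hu' fun z hz => φ.B_symm_zero (by simpa [e, hy z hz] using hx z hz), Q_zero]
  · exact H i u' hu' (u + y) (add_mem (h.orth i a hi hu) hy) (by rw [e]; abel)

end ODec

namespace Blk
variable [Finite F] (h : φ.Blk D k) {L : Subgroup φ.Isom}
include h

theorem good : φ.Good := h.q.good_of_finrank (by have := h.n5; omega)

theorem std : φ.Std := h.q.std h.n5

theorem mem_E {g : φ.Isom} : g ∈ φ.E ↔ φ.dickson g = 1 ∧ φ.spinor g = 1 := by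
  have := h.n5
  rw [h.q.E_eq_commutator h.good (by omega), h.q.mem_commutator_iff h.good (by omega)]

theorem refl_mem {i : κ} {a : V} (ha : a ∈ D i) : φ.refl a ∈ φ.dstab D :=
  h.od.fix_perp_le i (h.q.refl_mem_fix ha)

theorem rr_mem {a b : V} (ha : φ.Q a ≠ 0) (hb : φ.Q b ≠ 0) (e : chi (φ.Q a) = chi (φ.Q b)) :
    φ.refl a * φ.refl b ∈ φ.E := by
  simp [h.mem_E, h.q.dickson_refl h.good ha, h.q.dickson_refl h.good hb, h.q.spinor_refl h.good ha,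
    h.q.spinor_refl h.good hb, e]

theorem refl_not_mem {a : V} (ha : φ.Q a ≠ 0) : φ.refl a ∉ φ.E := by
  simp [h.mem_E, h.q.dickson_refl h.good ha]

theorem rf (hL : φ.E ⊓ φ.dstab D ≤ L) {a b : V} (ha : Rf L a) (ha' : φ.refl a ∈ φ.dstab D)
    (hb : φ.refl b ∈ φ.dstab D) (h0 : φ.Q b ≠ 0) (e : chi (φ.Q a) = chi (φ.Q b)) : Rf L b :=
  ⟨h0, (L.mul_mem_cancel_left ha.2).1 (hL ⟨h.rr_mem ha.1 h0 e, mul_mem ha' hb⟩)⟩

omit [φ.Nondeg] [FiniteDimensional F V] [Finite F] in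
theorem exists_eq {i : κ} {a : V} (ha : a ∈ D i) (h0 : a ≠ 0) (j : κ) :
    ∃ b ∈ D j, b ≠ 0 ∧ φ.Q b = φ.Q a := by
  obtain ⟨e, he⟩ := h.iso i j
  exact ⟨e ⟨a, ha⟩, (e _).2, by simpa using h0, he.Q ⟨a, ha⟩⟩

theorem rot_mem {e f : V} (hyp : φ.IsHyp e f) {i : κ} (he : e ∈ D i) (hf : f ∈ D i) {c : F} (hc : c ≠ 0) :
    φ.rot e f (c * c) ∈ φ.E ⊓ φ.fix (φ.perp (D i)) :=
  ⟨by simp [h.mem_E, h.q.dickson_rot h.good hyp (mul_ne_zero hc hc), chi_mul_self,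
    h.q.spinor_rot h.good hyp (mul_ne_zero hc hc)],
    fun x hx => φ.rot_apply_of_orth hyp (mul_ne_zero hc hc) (hx e he) (hx f hf)⟩

theorem exists_swap {i j : κ} (hij : i ≠ j) : ∃ g ∈ φ.dstab D, (D i).map (g.1 : V →ₗ[F] V) = D j ∧
    ∀ z ∈ φ.perp (D i), z ∈ φ.perp (D j) → g.1 z = z := by
  classical
  obtain ⟨e, he⟩ := h.iso i j
  obtain ⟨g, h1, -, -, h2⟩ := h.od.exists_swap hij he
  exact ⟨g, ⟨_, h1⟩, by simpa using h1 i, h2⟩

theorem exists_neg {i j : κ} (hij : i ≠ j) : ∃ z ∈ φ.E ⊓ φ.dstab D, Neg z (D i ⊔ D j) := by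
  obtain ⟨z, hz⟩ := Form.exists_neg (h.od.nondeg i)
  obtain ⟨g, h1, h2, -⟩ := h.exists_swap hij
  have h3 := h.od.fix_perp_le i hz.2
  have h4 := h.n5
  refine ⟨z * (g * z * g⁻¹), Subgroup.mem_inf.2 ⟨?_, mul_mem h3 (mul_mem (mul_mem h1 h3) (inv_mem h1))⟩,
    hz.mul (h2 ▸ hz.conj g) (h.od.orth i j hij)⟩
  rw [h.q.E_eq_commutator h.good (by omega), show z * (g * z * g⁻¹) = ⁅z, g⁆ by
    rw [commutatorElement_def, inv_eq_of_mul_eq_one_right (hz.mul_self (h.od.nondeg i))]; group]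
  exact Subgroup.commutator_mem_commutator trivial trivial

variable (hk : 2 ≤ k)
include hk

theorem exists_swapE {i j : κ} (hij : i ≠ j) : ∃ g ∈ φ.E ⊓ φ.dstab D,
    (D i).map (g.1 : V →ₗ[F] V) = D j ∧ ∀ z ∈ φ.perp (D i), z ∈ φ.perp (D j) → g.1 z = z := by
  obtain ⟨g, h1, h2, h3⟩ := h.exists_swap hij
  obtain ⟨r, h4, h5⟩ := h.std.adj _ (h.od.nondeg j) (by rwa [h.rk]) g
  refine ⟨g * r, ⟨h5, mul_mem h1 (h.od.fix_perp_le j h4)⟩, ?_, fun z a b => by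
    rw [Isom.mul_apply, h4 z b, h3 z a b]⟩
  conv_rhs => rw [← h2, ← φ.mem_stab_iff_map.1 (φ.fix_le_stab _ (φ.fix_anti (h.od.orth j i hij.symm) h4)),
    ← Submodule.map_comp]
  rfl

variable (ir : ∀ i, φ.IR (D i))
include ir

theorem exB {i : κ} {x : V} (hx : x ∉ φ.perp (D i)) {c : F} (hc : c ≠ 0) :
    ∃ a ∈ D i, φ.Q a = c ∧ φ.B x a ≠ 0 ∧ ∀ d : F, a + d • x ∉ φ.perp (D i) := by
  obtain ⟨u, hu, y, hy, rfl⟩ := (h.od.nondeg i).split x
  obtain ⟨a, h1, h2, h3, h4⟩ := (ir i).ex (h.od.nondeg i) (by rwa [h.rk]) hu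
    (by rintro rfl; simp [hy] at hx) hc
  refine ⟨a, h1, h2, by simpa [φ.mem_perp'.1 hy a h1] using h3, fun d hd => h4 ?_⟩
  rw [smul_add, ← add_assoc, add_mem_cancel_right (Submodule.smul_mem _ d hy)] at hd
  have := h.od.nondeg i _ (add_mem h1 ((D i).smul_mem d hu)) (φ.mem_perp'.1 hd)
  exact Submodule.mem_span_singleton.2 ⟨-d, by rw [neg_smul, neg_eq_iff_add_eq_zero, add_comm, this]⟩

theorem le_ss (hL : φ.E ⊓ φ.dstab D ≤ L) {p : V} {hp : φ.Q p = 0} {j l : κ} (h1 : p ∈ φ.perp (D j))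
    (h2 : p ∈ φ.perp (D l)) (h3 : D j ≤ h.q.ss L hp) : D l ≤ h.q.ss L hp := by
  by_cases e : j = l
  · exact e ▸ h3
  obtain ⟨g, h4, h5, h6⟩ := h.exists_swapE hk e
  rw [← h5]
  rintro _ ⟨x, hx, rfl⟩
  exact h.q.ss_map (hL h4) (h6 p h1 h2) (h3 hx)

/-- a new Siegel element with centre in a block -/
theorem lemB [Finite κ] (ht : 4 ≤ k ∨ ∀ i j : κ, ∃ l, l ≠ i ∧ l ≠ j) (hL : φ.E ⊓ φ.dstab D ≤ L) {i : κ}
    {p x : V} (hpi : p ∈ D i) (hp0 : p ≠ 0) {hp : φ.Q p = 0} (hx : x ∈ h.q.ss L hp) (hx' : x ∉ D i) :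
    φ.E ≤ L := by
  have hF : ∀ j, φ.E ⊓ φ.fix (φ.perp (D j)) ≤ L := fun j =>
    (inf_le_inf_left _ (h.od.fix_perp_le j)).trans hL
  have h1 : ∀ u ∈ D i, ∀ y ∈ φ.perp (D i), φ.B p (u + y) = 0 → u ∈ h.q.ss L hp := fun u hu y hy e =>
    h.q.mem_ss_of_fix (hF i) hpi hu (by simpa [hy p hpi] using e)
  obtain ⟨u, hu, y, hy, rfl⟩ := (h.od.nondeg i).split x
  replace hx := (add_mem_cancel_left (h1 u hu y hy hx.1)).1 hx
  obtain ⟨j, hj⟩ : ∃ j, y ∉ φ.perp (D j) := by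
    by_contra! h0; exact hx' (by simpa [h.od.eq_zero h0])
  have hij : i ≠ j := by rintro rfl; exact hj hy
  have hpj := h.od.orth j i hij.symm hpi
  obtain ⟨f, hf, hyp⟩ := exists_hyp_mem (h.od.nondeg i) hpi hp0 hp
  obtain ⟨c, -, hc⟩ := h.q.exists_Q_eq (h.od.nondeg j) (by rwa [h.rk]) 1
  obtain ⟨a, ha, h2, h3, -⟩ := h.exB hk ir hj one_ne_zero
  obtain ⟨b, hb, h4, -, h5⟩ := (ir j).ex (h.od.nondeg j) (by rwa [h.rk]) ha
    (by rintro rfl; simp at h2) one_ne_zero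
  have h6 := sub_mem (h.q.ss_map (hL ⟨h.rr_mem (by simp [h2]) (by simp [h4]) (by rw [h2, h4]),
    mul_mem (h.refl_mem ha) (h.refl_mem hb)⟩) (by
      rw [Isom.mul_apply, h.q.refl_of_orth (hpj b hb), h.q.refl_of_orth (hpj a ha)]) hx) hx
  have h7 : (φ.refl a * φ.refl b).1 y - y ∈ D j := by
    simp only [Isom.mul_apply, h.q.refl_apply, add_assoc, add_sub_cancel_left]
    exact add_mem ((D j).smul_mem _ hb) ((D j).smul_mem _ ha)
  have h8 : (φ.refl a * φ.refl b).1 y - y ≠ 0 := fun e => by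
    rw [sub_eq_zero, ← h.q.refl_inv a, Isom.mul_apply, Isom.inv_apply_eq, h.q.refl_apply,
      h.q.refl_apply, add_right_inj, h2, h4] at e
    by_cases h9 : φ.B b y = 0
    · simp [h9, h.q.B_comm a y, h3] at e; simp [e] at h2
    · exact h5 ((Submodule.smul_mem_iff _ (by simpa using h9)).1
        (e ▸ Submodule.smul_mem _ _ (Submodule.mem_span_singleton_self a)))
  obtain ⟨W, w1, w2, w3, w4, w5⟩ : ∃ W, φ.NondegOn W ∧ 2 ≤ finrank F W ∧ p ∈ φ.perp W ∧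
      D j ≤ φ.perp W ∧ φ.fix (φ.perp W) ≤ φ.dstab D := by
    rcases ht with ht | ht
    · have hP : Submodule.span F {p, f} ≤ D i := by
        rw [Submodule.span_le]; rintro y (rfl | rfl) <;> assumption
      have := finrank_le_inf_perp (φ := φ) (D i) (Submodule.span F {p, f})
      rw [hyp.finrank_span, h.rk] at this
      exact ⟨_, (h.od.nondeg i).inf_perp hyp.nondegOn hP, by omega,
        fun z hz => φ.B_symm_zero (φ.mem_perp_pair.1 hz.2).1,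
        (h.od.orth i j hij).trans (φ.perp_anti inf_le_left),
        (φ.fix_anti (φ.perp_anti inf_le_left)).trans (h.od.fix_perp_le i)⟩
    · obtain ⟨l, a, b⟩ := ht i j
      exact ⟨D l, h.od.nondeg l, by rwa [h.rk], h.od.orth l i a hpi, h.od.orth l j b, h.od.fix_perp_le l⟩
  have h9 : D j ≤ h.q.ss L hp := (ir j).wc (h.od.nondeg j) (fun s hs hs' hs0 t ht ht0 e => by
    obtain ⟨g, g1, g2⟩ := (h.od.nondeg j).exists_fix_map hs ht hs0 ht0 e.symm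
    obtain ⟨r, r1, r2⟩ := h.std.adj W w1 w2 g
    have := h.q.ss_map (hL ⟨r2, mul_mem (h.od.fix_perp_le j g1) (w5 r1)⟩)
      (by rw [Isom.mul_apply, r1 p w3, g1 p hpj]) hs'
    rwa [Isom.mul_apply, r1 s (w4 hs), g2] at this) h7 h6 h8
  obtain ⟨g, g1, g2⟩ := (h.od.nondeg i).exists_fix_map hpi hf hp0 hyp.f_ne_zero (by rw [hp, hyp.Qf])
  obtain ⟨r, r1, r2⟩ := h.std.adj _ (h.od.nondeg j) (by rwa [h.rk]) g
  refine h.q.ss_E_le (hp := hp) (fun w hw => ?_) (hL ⟨r2, mul_mem (h.od.fix_perp_le i g1)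
    (h.od.fix_perp_le j r1)⟩) (by rw [Isom.mul_apply, r1 p hpj, g2, hyp.Bef]; simp)
  have h10 : iSup D ≤ D i ⊔ h.q.ss L hp := iSup_le fun l => by
    by_cases e : l = i
    · exact e ▸ le_sup_left
    · exact (h.le_ss hk ir hL hpj (h.od.orth l i e hpi) h9).trans le_sup_right
  obtain ⟨u, hu, z, hz, rfl⟩ := Submodule.mem_sup.1 (h10 (h.od.sup ▸ trivial : w ∈ iSup D))
  exact add_mem (h.q.mem_ss_of_fix (hF i) hpi hu (by simpa [hz.1] using hw)) hz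

/-- localisation: all isometries of the relevant blocks are available -/
theorem localise (ht : ∀ i j l : κ, ∃ m, m ≠ i ∧ m ≠ j ∧ m ≠ l) (hL : φ.E ⊓ φ.dstab D ≤ L) {i : κ} {a v : V}
    (ha : a ∈ D i) (ha' : Rf L a) (hE : ∀ g ∈ L, g ∈ φ.E ∨ g * φ.refl a ∈ φ.E) (hv : Rf L v)
    (hv' : ∀ i, v ∉ D i) : ∃ (K : Subgroup φ.Isom) (x : V), K ⊓ φ.E ≤ L ∧ Rf K x ∧ (∀ i, x ∉ D i) ∧
      ∀ j, x ∉ φ.perp (D j) → φ.fix (φ.perp (D j)) ≤ K := by
  have h1 : ∀ j, ∀ b ∈ D j, φ.Q b = φ.Q a → Rf L b := fun j b hb e =>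
    h.rf hL ha' (h.refl_mem ha) (h.refl_mem hb) (e ▸ ha'.1) (by rw [e])
  by_cases h2 : (2 : F) = 0
  · refine ⟨L, v, inf_le_left, hv, hv', fun j _ g hg => ?_⟩
    have h3 := h.od.fix_perp_le j hg
    rcases Int.units_eq_one_or (φ.dickson g) with e | e
    · exact hL ⟨by simp [h.mem_E, e, h.q.spinor_eq_one h.good h2], h3⟩
    · exact (L.mul_mem_cancel_right ha'.2).1 (hL ⟨by simp [h.mem_E, e, h.q.spinor_eq_one h.good h2,
        h.q.dickson_refl h.good ha'.1], mul_mem h3 (h.refl_mem ha)⟩)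
  suffices H : ∃ x m, Rf L x ∧ (∀ i, x ∉ D i) ∧ x ∈ φ.perp (D m) by
    obtain ⟨x, m, h3, h4, h5⟩ := H
    refine ⟨loc L (φ.dstab D) (h.od.nondeg m), x, loc_inf_E _ hL ha'.2 (h.refl_mem ha) hE,
      ⟨h3.1, fun y hy => h.q.refl_of_orth (φ.mem_perp'.1 h5 y hy), 1, one_mem _, one_mem _,
        by simpa using h3.2⟩, h4, fun j hj g hg => ?_⟩
    obtain ⟨r, r1, r2⟩ := h.std.adj _ (h.od.nondeg m) (by rwa [h.rk]) g
    exact ⟨φ.fix_anti (h.od.orth j m (by rintro rfl; exact hj h5)) hg, r, r1, h.od.fix_perp_le m r1,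
      hL ⟨r2, mul_mem (h.od.fix_perp_le j hg) (h.od.fix_perp_le m r1)⟩⟩
  by_contra! h0
  obtain ⟨j, j1, -⟩ := ht i i i
  obtain ⟨l, l1, l2, -⟩ := ht i j j
  obtain ⟨m, m1, m2, m3⟩ := ht i j l
  obtain ⟨z, z1, z2⟩ := h.exists_neg j1.symm
  have hW := (h.od.nondeg i).sup (h.od.nondeg j) (h.od.orth i j j1.symm)
  obtain ⟨u, hu, y, hy, rfl⟩ := hW.split v
  have o : ∀ l, l ≠ i → l ≠ j → D i ⊔ D j ≤ φ.perp (D l) := fun l a b =>
    sup_le (h.od.orth l i a) (h.od.orth l j b)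
  have hy' := φ.perp_sup _ _ ▸ hy
  have u1 : u ∉ φ.perp (D i) := fun e => h0 _ i hv hv' (add_mem e hy'.1)
  have u2 : u ∉ φ.perp (D j) := fun e => h0 _ j hv hv' (add_mem e hy'.2)
  have y1 : y ∉ φ.perp (D l) := fun e => h0 _ l hv hv' (add_mem (o l l1 l2 hu) e)
  have y2 : y ∉ φ.perp (D m) := fun e => h0 _ m hv hv' (add_mem (o m m1 m2 hu) e)
  obtain ⟨s, s1, s2, s3, -⟩ := h.exB hk ir u1 ha'.1
  obtain ⟨b, b1, b2, b3, b4⟩ := h.exB hk ir y1 ha'.1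
  have b5 := φ.le_perp_comm.1 (o l l1 l2) b1
  have b6 := φ.perp_sup _ _ ▸ b5
  have n : ∀ {n : κ} {s y : V} {c : F}, c ≠ 0 → s ∈ φ.perp (D n) → y ∉ φ.perp (D n) →
      s + c • y ∉ φ.perp (D n) := fun hc a b e =>
    b ((Submodule.smul_mem_iff _ hc).1 ((add_mem_cancel_left a).1 e))
  rcases h.q.shrink h2 hW z2 (hL z1) hu hy hv (Submodule.mem_sup_left s1) b5 (h1 i s s1 s2) (h1 l b b1 b2)
    s3 b3 with e | ⟨c, hc, e | e | e⟩
  · exact h0 _ l e (h.od.nb j1.symm u1 u2) (o l l1 l2 hu)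
  · exact h0 _ i e (h.od.nb m3 (n hc (h.od.orth m l m3 b1) y2) (b4 c))
      (add_mem b6.1 (Submodule.smul_mem _ _ hy'.1))
  · exact h0 _ j e (h.od.nb m3 (n hc (h.od.orth m i m1 s1) y2) (n hc (h.od.orth l i l1 s1) y1))
      (add_mem (h.od.orth j i j1 s1) (Submodule.smul_mem _ _ hy'.2))
  · exact h0 _ m e (h.od.nb j1.symm (n hc b6.1 u1) (n hc b6.2 u2))
      (add_mem (h.od.orth m l m3 b1) (Submodule.smul_mem _ _ (o m m1 m2 hu)))

omit hk ir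

theorem a1 {K : Subgroup φ.Isom} {i : κ} (hK : φ.E ⊓ φ.fix (φ.perp (D i)) ≤ K) {p u y : V} (hpi : p ∈ D i)
    (hp : φ.Q p = 0) (hu : u ∈ D i) (hy : y ∈ φ.perp (D i)) (hx : Rf K (u + y)) (h1 : φ.B u p = 0)
    (h2 : u ∉ F ∙ p) : u + y ∈ h.q.ss K hp := by
  obtain ⟨w, h3, h4⟩ := φ.exists_sep (W := (F ∙ p) ⊔ φ.perp (D i)) (u := u) fun e => by
    obtain ⟨a, ha, b, hb, e⟩ := Submodule.mem_sup.1 e
    have h5 := (Submodule.span_singleton_le_iff_mem p _).2 hpi ha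
    rw [h.od.nondeg i b (by simpa [← e] using sub_mem hu h5) (φ.mem_perp'.1 hb), add_zero] at e
    exact h2 (e ▸ ha)
  have hw : w ∈ D i := φ.perp_perp (D i) ▸ φ.mem_perp'.2 fun z hz => h3 z (Submodule.mem_sup_right hz)
  exact h.q.ss_refl hx (by simp [h1, φ.mem_perp'.1 hy p hpi]) (h.q.mem_ss_of_fix hK hpi hw
    (φ.B_symm_zero (h3 p (Submodule.mem_sup_left (Submodule.mem_span_singleton_self p)))))
    (by simp [φ.mem_perp'.1 hy w hw, h.q.B_comm u w, h4])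

theorem a2 (hq : 4 ≤ Nat.card F) {K : Subgroup φ.Isom} {i : κ} (hK : φ.E ⊓ φ.fix (φ.perp (D i)) ≤ K)
    {p y : V} (hpi : p ∈ D i) (hp0 : p ≠ 0) (hp : φ.Q p = 0) (hy : y ∈ φ.perp (D i))
    (hx : Rf K (p + y)) : y ∈ h.q.ss K hp := by
  obtain ⟨f, hf, hyp⟩ := exists_hyp_mem (h.od.nondeg i) hpi hp0 hp
  obtain ⟨c, hc, hc'⟩ := exists_sq_ne hq (a := (-1 : F)) (by simp) 1
  have h1 := fun c hc => hK (h.rot_mem hyp hpi hf (c := c) hc)
  have h2 := hx.map h.q (h1 c hc)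
  have h3 : φ.B p (p + y) = 0 := by simp [φ.B_self_eq_zero hp, hy p hpi]
  rw [map_add, φ.rot_apply_e hyp (mul_ne_zero hc hc), (h.rot_mem hyp hpi hf hc).2 y hy,
    show (c * c) • p + y = p + y + (-1 + c * c * 1) • p by module] at h2
  have h4 := mul_mem hx.2 h2.2
  rw [h.q.refl_refl hp h3 hx.1, smul_add, add_comm (_ • p), h.q.sg_add_self hp (by simp [hy p hpi])] at h4
  exact (Submodule.smul_mem_iff _ (div_ne_zero (neg_ne_zero.2 hc') hx.1)).1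
    (h.q.ss_of_rot hyp h1 (by simp [hy p hpi]) (by simp [hy f hf]) h4)

omit [Finite F] in
theorem a3 {K : Subgroup φ.Isom} {i : κ} (hK : φ.fix (φ.perp (D i)) ≤ K) {v y u : V} {μ : F}
    (hv : v ∈ D i) (hy : y ∈ φ.perp (D i)) (hu : u ∈ D i) (hx : Rf K (v + y))
    (h1 : μ * (φ.Q v - φ.Q y) = φ.B v u) (h2 : φ.Q (u + μ • y) ≠ 0) : Rf K (u + μ • y) := by
  have h3 := hx.1
  have h4 : (φ.refl (v + y)).1 (u + μ • y) = u - μ • v := by
    rw [φ.Q_add_of_orth (hy v hv)] at h3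
    simp only [h.q.refl_apply, φ.Q_add_of_orth (hy v hv), map_add, map_smul, LinearMap.add_apply, hy v hv,
      φ.mem_perp'.1 hy u hu, h.q.B_self, ← h1, smul_eq_mul]
    match_scalars <;> field_simp <;> ring
  have h5 : Rf K (u - μ • v) := ⟨by rwa [← h4, Isom.Q_map],
    hK (h.q.refl_mem_fix (sub_mem hu ((D i).smul_mem _ hv)))⟩
  have := h5.map h.q hx.2
  rwa [← h4, ← Isom.mul_apply, h.q.refl_mul_self] at this

end Blk
end Form
end H10
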