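import Mathlib
import Cfsg.Agent.H10.DcB

/-!
# Orthogonal decompositions into isometric blocks, II: planes
* `IsQuad.om3` (an anisotropic plane and one more reflection generate `O₃`), `Blk.plus`, `Blk.minus`,
  `Blk.two`
-/

namespace H10

open Module

namespace Form
variable {F V : Type*} [Field F] [AddCommGroup V] [Module F V] {φ : Form F V}
variable [φ.Nondeg] [FiniteDimensional F V] {κ : Type*} {D : κ → Submodule F V} {k : ℕ}

omit [φ.Nondeg] in
theorem plane_mem {P : Submodule F V} (h2 : finrank F P = 2) {w a x : V} (hw : w ∉ φ.perp P) (ha : a ∈ P)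
    (ha0 : a ≠ 0) (h1 : φ.B w a = 0) (hx : x ∈ P) (h3 : φ.B w x = 0) : ∃ c : F, c • a = x := by
  have h4 : P ⊓ φ.perp (F ∙ w) < P := lt_of_le_of_ne inf_le_left fun e => hw (φ.mem_perp'.2 fun y hy =>
    φ.mem_perp_singleton.1 ((inf_eq_left.1 e) hy))
  have h5 := Submodule.finrank_lt_finrank_of_lt h4
  have h6 : F ∙ a = P ⊓ φ.perp (F ∙ w) := Submodule.eq_of_le_of_finrank_le
    ((Submodule.span_singleton_le_iff_mem _ _).2 ⟨ha, φ.mem_perp_singleton.2 h1⟩)
    (by rw [finrank_span_singleton ha0]; omega)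
  exact Submodule.mem_span_singleton.1 (h6 ▸ ⟨hx, φ.mem_perp_singleton.2 h3⟩)

theorem exists_orth_plane {P : Submodule F V} (h2 : 2 ≤ finrank F P) (w : V) :
    ∃ a ∈ P, a ≠ 0 ∧ φ.B w a = 0 := by
  simpa using φ.exists_orth P ⊥ [w] (by simp; omega)

omit [φ.Nondeg] [FiniteDimensional F V] in
theorem not_mem_perp {P : Submodule F V} (hP : φ.NondegOn P) {w : V} (hw : w ∈ P) (h0 : w ≠ 0) :
    w ∉ φ.perp P := fun e => h0 (hP w hw (φ.mem_perp'.1 e))

omit [φ.Nondeg] [FiniteDimensional F V] in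
theorem mem_sup_one {P : Submodule F V} {x y : V} : x ∈ P ⊔ F ∙ y ↔ ∃ u ∈ P, ∃ c : F, x = u + c • y := by
  simp only [Submodule.mem_sup, Submodule.mem_span_singleton]
  exact ⟨fun ⟨u, a, _, ⟨c, rfl⟩, e⟩ => ⟨u, a, c, e.symm⟩, fun ⟨u, a, c, e⟩ => ⟨u, a, _, ⟨c, rfl⟩, e.symm⟩⟩

namespace IsQuad
variable (h : φ.IsQuad) [Finite F] {K : Subgroup φ.Isom} {P : Submodule F V} (hP : φ.NondegOn P)
  (h2 : finrank F P = 2) (ha : ∀ x ∈ P, φ.Q x = 0 → x = 0) (hK : φ.fix (φ.perp P) ≤ K)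
  {y : V} (hy : y ∈ φ.perp P) (hQ : φ.Q y ≠ 0)
include h hP h2 ha hK hy hQ

theorem om3_sg {w a : V} (hw : w ∈ P) (hp : φ.Q (w + y) = 0) (haP : a ∈ P) (h1 : φ.B w a = 0)
    (h3 : a - φ.Q a • w ≠ 0) (h4 : φ.sg (w + y) a ∈ K) (c : F) : φ.sg (w + y) (c • a) ∈ K := by
  classical
  have : Finite V := Module.finite_of_finite F
  have q : ∀ x ∈ P, ∀ c : F, φ.Q (x + c • y) = φ.Q x + c * c * φ.Q y := fun x hx c => by
    rw [φ.Q_add_of_orth (by simp [hy x hx]), h.Q_smul]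
  have hw1 : φ.Q w = -φ.Q y := by rw [φ.Q_add_of_orth (hy w hw)] at hp; linear_combination hp
  have hw0 : ∀ x, φ.Q x = φ.Q w → x ≠ 0 := by rintro _ e rfl; simp [hw1, hQ] at e
  have ha0 : a ≠ 0 := by rintro rfl; simp at h3
  have h5 : φ.B (w + y) a = 0 := by simp [h1, φ.mem_perp'.1 hy a haP]
  have h5' : ∀ c : F, φ.B (w + y) (c • a) = 0 := fun c => by rw [map_smul, h5, smul_zero]
  let Λ : AddSubgroup F :=
    { carrier := {c | φ.sg (w + y) (c • a) ∈ K}
      add_mem' := fun {c d} hc hd => by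
        have := K.mul_mem hc hd
        rwa [h.sg_mul hp (h5' c) (h5' d), ← add_smul] at this
      zero_mem' := by
        change φ.sg _ _ ∈ K
        rw [zero_smul, ← zero_smul F (w + y), h.sg_self hp]; exact one_mem K
      neg_mem' := fun {c} hc => by
        have := K.inv_mem hc
        rwa [h.sg_inv hp (h5' c), ← neg_smul] at this }
  let θ : V → F := fun x => 1 + φ.B a x - φ.Q a * φ.B (w + y) (x + y)
  have hU := φ.fix_anti (φ.perp_anti (le_sup_left : P ≤ P ⊔ F ∙ y))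
  have h6 : ∀ x ∈ P, φ.Q x = φ.Q w → θ x ∈ Λ := fun x hx e => by
    obtain ⟨ρ, r1, r2⟩ := hP.exists_fix_map hw hx (hw0 w rfl) (hw0 x e) e.symm
    obtain ⟨u, hu, e1⟩ : ∃ u ∈ P, (φ.sg (w + y) a).1 (x + y) = u + θ x • y :=
      ⟨x + (φ.B a x - φ.Q a * φ.B (w + y) (x + y)) • w - φ.B (w + y) (x + y) • a,
        sub_mem (add_mem hx (P.smul_mem _ hw)) (P.smul_mem _ haP), by
        rw [h.sg_apply hp h5, map_add (φ.B a), hy a haP]; simp only [θ]; module⟩
    have e2 : φ.Q u + θ x * θ x * φ.Q y = 0 := by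
      rw [← q u hu, ← e1, Isom.Q_map, φ.Q_add_of_orth (hy x hx), e, hw1, neg_add_cancel]
    have e3 : θ x ≠ 0 := fun e4 => by
      rw [e4, zero_smul, add_zero, ha u hu (by simpa [e4] using e2), EmbeddingLike.map_eq_zero_iff] at e1
      exact not_mem_perp hP hx (hw0 x e) (eq_neg_of_add_eq_zero_left e1 ▸ neg_mem hy)
    have e4 : φ.Q ((θ x)⁻¹ • u) = φ.Q w := by rw [h.Q_smul, hw1]; field_simp; linear_combination e2
    obtain ⟨σ, s1, s2⟩ := hP.exists_fix_map (P.smul_mem _ hu) hw (hw0 _ e4) (hw0 w rfl) e4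
    set g := σ * φ.sg (w + y) a * ρ with hg
    have g1 : g.1 (w + y) = θ x • (w + y) := by
      rw [hg, Isom.mul_apply, Isom.mul_apply, map_add, r2, r1 y hy, e1, map_add, map_smul, s1 y hy, smul_add,
        ← s2, map_smul, smul_inv_smul₀ e3]
    obtain ⟨v, hv, ν, g2⟩ := mem_sup_one.1 ((fix_perp_le_stab _ (mul_mem (mul_mem (hU s1) (h.sg_mem_fix hp h5
      (mem_sup_one.2 ⟨w, hw, 1, by simp⟩) (Submodule.mem_sup_left haP))) (hU r1)) a).1
        (Submodule.mem_sup_left haP))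
    have g3 : φ.B (w + y) (g.1 a) = 0 := by
      have := Isom.B_map g (w + y) a
      rwa [g1, h.B_smul_left, h5, mul_eq_zero_iff_left e3] at this
    obtain ⟨d, hd⟩ := plane_mem h2 (not_mem_perp hP hw (hw0 w rfl)) haP ha0 h1 (sub_mem hv (P.smul_mem ν hw))
      (by
        have e5 : φ.B (w + y) (g.1 a - ν • (w + y)) = 0 := by
          rw [map_sub, g3, map_smul, φ.B_self_eq_zero hp]; simp
        rwa [g2, show v + ν • y - ν • (w + y) = v - ν • w by module, map_add, LinearMap.add_apply,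
          φ.mem_perp'.1 hy _ (sub_mem hv (P.smul_mem ν hw)), add_zero] at e5)
    have g4 : g.1 a = d • a + ν • (w + y) := by rw [g2, hd]; module
    have g5 := Isom.Q_map g a
    rw [g4, φ.Q_add_of_orth (by rw [map_smul, φ.B_symm_zero (h5' d), smul_zero]), φ.Q_smul_of_sing hp,
      add_zero, h.Q_smul, mul_eq_right₀ (mt (ha a haP) ha0), mul_self_eq_one_iff] at g5
    have g6 := mul_mem (mul_mem (mul_mem (mul_mem (hK s1) h4) (hK r1)) h4)
      (inv_mem (mul_mem (mul_mem (hK s1) h4) (hK r1)))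
    rw [h.sg_conj hp h5, g1, h.sg_smul hp g3, g4, smul_add, smul_smul, smul_smul,
      h.sg_add_self hp (h5' _)] at g6
    rcases g5 with rfl | rfl
    · exact mul_one (θ x) ▸ g6
    · simpa using Λ.neg_mem (x := θ x * -1) g6
  have := hP.nondeg
  have h7 := (h.restrict P).cnt_of_aniso_two h2 (fun v e => Subtype.ext (ha v v.2 e)) (c := φ.Q w)
    (by simp [hw1, hQ])
  have := Fintype.ofFinite {v : P // φ.Q v = φ.Q w}
  have := Fintype.ofFinite Λ
  obtain ⟨n, n1, n2, n3⟩ := exists_orth_plane (φ := φ) h2.ge (a - φ.Q a • w)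
  have h8 := Finset.card_le_mul_card_image_of_maps_to (s := Finset.univ) (t := Finset.univ)
    (f := fun v : {v : P // φ.Q v = φ.Q w} => (⟨θ v.1, h6 _ v.1.2 v.2⟩ : Λ)) (by simp) 2 fun b _ => by
      by_contra h9
      obtain ⟨x1, x2, x3, a1, a2, a3, b1, b2, b3⟩ := Finset.two_lt_card_iff.1 (not_le.1 h9)
      simp only [Finset.mem_filter, Finset.mem_univ, true_and] at a1 a2 a3
      have key : ∀ x : {v : P // φ.Q v = φ.Q w}, θ x.1 = θ x1.1 → x1 ≠ x →
          (x.1 : V) = x1.1 + (-φ.B x1.1 n / φ.Q n) • n := fun x e b => by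
        obtain ⟨l, hl⟩ := plane_mem h2 (not_mem_perp hP (sub_mem haP (P.smul_mem _ hw)) h3) n1 n2 n3
          (sub_mem x.1.2 x1.1.2) (by
            simp only [θ, map_add, LinearMap.add_apply, φ.mem_perp'.1 hy _ x.1.2, φ.mem_perp'.1 hy _ x1.1.2] at e
            simp only [map_sub, LinearMap.sub_apply, h.B_smul_left]
            linear_combination e)
        have e1 : (x.1 : V) = x1.1 + l • n := by rw [hl]; abel
        have e2 := x.2
        have e3 : l ≠ 0 := by rintro rfl; exact b (Subtype.ext (Subtype.ext (by simpa using e1.symm)))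
        rw [e1, h.Q_add, x1.2, h.Q_smul, map_smul, smul_eq_mul] at e2
        have e4 : l = -φ.B x1.1 n / φ.Q n :=
          (eq_div_iff (mt (ha n n1) n2)).2 (mul_left_cancel₀ e3 (by linear_combination e2))
        rw [e1, e4]
      exact b3 (Subtype.ext (Subtype.ext ((key x2 (congrArg Subtype.val (a2.trans a1.symm)) b1).trans
        (key x3 (congrArg Subtype.val (a3.trans a1.symm)) b2).symm)))
  rw [Finset.card_univ, Finset.card_univ, ← Nat.card_eq_fintype_card, ← Nat.card_eq_fintype_card] at h8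
  have h9 := Λ.card_mul_index
  have h10 : Λ.index = 1 := by
    have : Λ.index ≠ 0 := AddSubgroup.index_ne_zero_of_finite
    change Nat.card {v : P // φ.Q v = φ.Q w} = _ at h7
    by_contra h11
    have := Nat.mul_le_mul_left (Nat.card Λ) (by omega : 2 ≤ Λ.index)
    omega
  exact (AddSubgroup.index_eq_one.1 h10 ▸ AddSubgroup.mem_top c : c ∈ Λ)

theorem om3 {u : V} (hu : u ∈ P) (hu0 : u ≠ 0) (hv : Rf K (u + y)) {x : V} (hx : x ∈ P) {μ : F}
    (h0 : φ.Q (x + μ • y) ≠ 0) : Rf K (x + μ • y) := by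
  have hR : ∀ x ∈ P, x ≠ 0 → Rf K x := fun x hx h0 => ⟨mt (ha x hx) h0, hK (h.refl_mem_fix hx)⟩
  have hs : ∀ w ∈ P, φ.Q w = -φ.Q y → φ.Q (w + y) = 0 := fun w hw e => by
    rw [φ.Q_add_of_orth (hy w hw), e, neg_add_cancel]
  have hsq : (2 : F) = 0 → ∀ x ∈ P, x ≠ 0 → ∃ c : F, φ.Q (c • x) = -φ.Q y := fun e x hx hx0 => by
    obtain ⟨c, hc⟩ := chi_eq_one_iff.1 (chi_eq_one_of_two_eq_zero e (-φ.Q y / φ.Q x))
    exact ⟨c, by rw [h.Q_smul, ← hc, div_mul_cancel₀ _ (mt (ha x hx) hx0)]⟩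
  obtain ⟨w, hw, w1, s, hs', ν, hν, s0, s1, s2⟩ : ∃ w ∈ P, φ.Q w = -φ.Q y ∧ ∃ s ∈ P, ∃ ν : F, ν ≠ 0 ∧ s ≠ 0 ∧
      φ.B (w + y) (s + ν • y) = 0 ∧ Rf K (s + ν • y) := by
    by_cases e : (2 : F) = 0
    · obtain ⟨c, hc⟩ := hsq e u hu hu0
      exact ⟨_, P.smul_mem c hu, hc, u, hu, 1, one_ne_zero, hu0, by
        simp [h.B_smul_left, h.B_self, e, hy u hu, φ.mem_perp'.1 hy u hu], by simpa using hv⟩
    obtain ⟨w, hw, w1, w2⟩ : ∃ w ∈ P, φ.Q w = -φ.Q y ∧ w ∉ F ∙ u := by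
      by_contra! H
      obtain ⟨w, hw, w1⟩ := h.exists_Q_eq hP h2.ge (-φ.Q y)
      have := Submodule.finrank_mono (h.le_of_norm hP (fun e => by
        obtain ⟨v, a, b⟩ := hasTS_one_iff.1 e.2.1
        exact a (Subtype.ext (ha v v.2 b))) hw (by simp [w1, hQ]) fun z hz e => H z hz (e.trans w1))
      have := finrank_span_singleton_le (F := F) u
      omega
    have w0 : w ≠ 0 := by rintro rfl; simp at w2
    obtain ⟨a, a1, a2, a3⟩ := exists_orth_plane (φ := φ) h2.ge w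
    have a4 : φ.B u a ≠ 0 := fun e => by
      obtain ⟨c, hc⟩ := plane_mem h2 (not_mem_perp hP a1 a2) hu hu0 (φ.B_symm_zero e) hw (φ.B_symm_zero a3)
      exact w2 (Submodule.mem_span_singleton.2 ⟨c, hc⟩)
    obtain ⟨t, ht, θ, e1⟩ : ∃ t ∈ P, ∃ θ : F, (φ.refl (u + y)).1 (w + y) = t + θ • y :=
      ⟨w + (-(φ.Q (u + y))⁻¹ * φ.B (u + y) (w + y)) • u, add_mem hw (P.smul_mem _ hu),
        1 + -(φ.Q (u + y))⁻¹ * φ.B (u + y) (w + y), by rw [h.refl_apply, smul_add, add_smul, one_smul]; abel⟩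
    have e2 : φ.Q t + θ * θ * φ.Q y = 0 := by
      rw [← h.Q_smul, ← φ.Q_add_of_orth (by simp [hy t ht]), ← e1, Isom.Q_map, hs w hw w1]
    have e3 : θ ≠ 0 := fun e4 => by
      rw [e4, zero_smul, add_zero, ha t ht (by simpa [e4] using e2), EmbeddingLike.map_eq_zero_iff] at e1
      exact not_mem_perp hP hw w0 (eq_neg_of_add_eq_zero_left e1 ▸ neg_mem hy)
    have e4 := Isom.B_map (φ.refl (u + y)) (w + y) a
    have e5 := (hR a a1 a2).map h hv.2
    rw [h.refl_apply _ a, smul_add, ← add_assoc] at e4 e5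
    rw [e1, ← smul_inv_smul₀ e3 t, ← smul_add, h.B_smul_left, map_add φ.B w, LinearMap.add_apply, a3,
      φ.mem_perp'.1 hy a a1, add_zero] at e4
    have e6 := (mul_eq_zero_iff_left e3).1 e4
    have e7 : -(φ.Q (u + y))⁻¹ * φ.B (u + y) a ≠ 0 := by simp [hv.1, a4, φ.mem_perp'.1 hy a a1]
    refine ⟨_, P.smul_mem _ ht, by rw [h.Q_smul]; field_simp; linear_combination e2, _,
      add_mem a1 (P.smul_mem _ hu), _, e7, fun e8 => ?_, e6, e5⟩
    rw [e8, zero_add, map_smul, map_add φ.B (θ⁻¹ • t), LinearMap.add_apply, hy _ (P.smul_mem _ ht),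
      h.B_self, zero_add] at e6
    exact mul_ne_zero e7 (mul_ne_zero e hQ) e6
  have hp := hs w hw w1
  have w0 : w ≠ 0 := by rintro rfl; simp [hQ] at w1
  have b1 := sub_mem hs' (P.smul_mem ν hw)
  have b2 : s + ν • y = s - ν • w + ν • (w + y) := by module
  have b3 : φ.B (w + y) (s - ν • w) = 0 := by
    rwa [b2, map_add, map_smul, φ.B_self_eq_zero hp, smul_zero, add_zero] at s1
  have b4 : s - ν • w ≠ 0 := fun e => s2.1 (by rw [b2, e, zero_add, φ.Q_smul_of_sing hp])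
  have b5 : φ.B w (s - ν • w) = 0 := by simpa [-map_sub, φ.mem_perp'.1 hy _ b1] using b3
  have b6 := mul_mem (hR _ b1 b4).2 s2.2
  have b7 := (hR _ b1 b4).1
  rw [b2, h.refl_refl hp b3 b7] at b6
  have b8 : ∀ c : F, φ.sg (w + y) (c • (s - ν • w)) ∈ K := fun c => by
    have := h.om3_sg hP h2 ha hK hy hQ hw hp (P.smul_mem _ b1) (by rw [map_smul, b5, smul_zero]) (by
      rw [h.Q_smul, show ∀ c : F, c • (s - ν • w) - (c * c * φ.Q (s - ν • w)) • w =
        c • (s - (ν + c * φ.Q (s - ν • w)) • w) from fun c => by module, div_mul_cancel₀ _ b7]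
      simp [hν, b7, s0]) b6 (c / (-ν / φ.Q (s - ν • w)))
    rwa [smul_smul, div_mul_cancel₀ _ (by simp [hν, b7])] at this
  by_cases e : (2 : F) = 0
  · obtain ⟨t, ht, t1, d, t2⟩ : ∃ t ∈ P, φ.Q t = -φ.Q y ∧ ∃ d : F, x - μ • t = d • t := by
      by_cases hx0 : x = 0
      · exact ⟨w, hw, w1, -μ, by simp [hx0]⟩
      obtain ⟨c, hc⟩ := hsq e x hx hx0
      have : c ≠ 0 := by rintro rfl; simp [hQ] at hc
      exact ⟨_, P.smul_mem c hx, hc, c⁻¹ - μ, by rw [sub_smul, inv_smul_smul₀ this]⟩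
    obtain ⟨ρ, r1, r2⟩ := hP.exists_fix_map hw ht w0 (by rintro rfl; simp [hQ] at t1) (w1.trans t1.symm)
    obtain ⟨c, hc⟩ := plane_mem h2 (not_mem_perp hP hw w0) b1 b4 b5 hw (by simp [h.B_self, e])
    have c1 : x + μ • y = d • t + μ • (t + y) := by rw [← t2]; module
    have c2 := hs t ht t1
    have c3 : d • t ≠ 0 := fun e => h0 (by rw [c1, e, zero_add, φ.Q_smul_of_sing c2])
    have c4 := hR _ (P.smul_mem d ht) c3
    refine ⟨h0, (K.mul_mem_cancel_left c4.2).1 ?_⟩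
    have c5 := mul_mem (mul_mem (hK r1) (b8 (-μ / φ.Q (d • t) * d * c))) (inv_mem (hK r1))
    rw [h.sg_conj hp (by rw [map_smul, b3, smul_zero]), mul_smul _ c, hc, map_smul, map_add, r2, r1 y hy] at c5
    rwa [c1, h.refl_refl c2 (by simp [h.B_self, e, φ.mem_perp'.1 hy t ht]) c4.1, smul_smul]
  obtain ⟨z, hz⟩ := exists_neg hP
  obtain ⟨t, ht, t1⟩ := h.exists_Q_eq hP h2.ge (φ.Q (x + μ • y))
  have y0 : y ∉ P := fun e => hQ (by rw [hP y e (φ.mem_perp'.1 hy), Q_zero])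
  refine ⟨h0, (K.mul_mem_cancel_right (hR t ht (by rintro rfl; exact h0 (by simpa using t1.symm))).2).1
    (h.refl_mem_three (hP.sup (φ.nondegOn_singleton (h.B_self_ne_zero e hQ))
      ((Submodule.span_singleton_le_iff_mem _ _).2 hy)) (by rw [finrank_sup_singleton y0, h2]) hp
      (mem_sup_one.2 ⟨w, hw, 1, by simp⟩) (fun v hv h3 => ?_) (hK hz.2)
      (φ.fix_anti (φ.perp_anti le_sup_left) hz.2) ?_ (mem_sup_one.2 ⟨x, hx, μ, rfl⟩)
      (Submodule.mem_sup_left ht) h0 one_ne_zero (by simp [t1]))⟩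
  · replace hv := mem_sup_one.1 hv
    obtain ⟨v, hv, d, rfl⟩ := hv
    have c1 : v + d • y = v - d • w + d • (w + y) := by module
    rw [c1, map_add, map_smul, φ.B_self_eq_zero hp, smul_zero, add_zero] at h3
    obtain ⟨c, hc⟩ := plane_mem h2 (not_mem_perp hP hw w0) b1 b4 b5 (sub_mem hv (P.smul_mem d hw))
      (by simpa [-map_sub, φ.mem_perp'.1 hy _ (sub_mem hv (P.smul_mem d hw))] using h3)
    rw [c1, h.sg_add_self hp h3, ← hc]
    exact b8 c
  · simp only [map_add, hz.1 w hw, hz.2 y hy, map_neg, LinearMap.add_apply, h.B_self, w1, hy w hw,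
      φ.mem_perp'.1 hy w hw]
    convert mul_ne_zero e (mul_ne_zero e hQ) using 1; ring

end IsQuad
end Form
end H10
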