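import Mathlib
import Cfsg.Agent.H10.DcC

/-!
# Orthogonal decompositions into isometric blocks, III: a new reflection gives `Ω`
* `Blk.big`, `Blk.three`, `Blk.plus`, `Blk.minus`, `Blk.two`, `Blk.Ok`, `Blk.thmG`
-/

namespace H10

open Module Polynomial

namespace Form
variable {F V : Type*} [Field F] [AddCommGroup V] [Module F V] {φ : Form F V}
variable [φ.Nondeg] [FiniteDimensional F V] {κ : Type*} {D : κ → Submodule F V} {k : ℕ}

omit [φ.Nondeg] in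
theorem finrank_sup_orth {W W' : Submodule F V} (h : φ.NondegOn W) (ho : W' ≤ φ.perp W) :
    finrank F ↥(W ⊔ W') = finrank F W + finrank F W' := by
  rw [← Submodule.finrank_sup_add_finrank_inf_eq,
    ((φ.nondegOn_iff_disjoint.1 h).mono_right ho).eq_bot, finrank_bot, add_zero]

namespace IsQuad
variable (h : φ.IsQuad) {L : Subgroup φ.Isom} {W : Submodule F V} (hW : φ.NondegOn W)
include h hW

omit [φ.Nondeg] [FiniteDimensional F V] in
theorem exists_Q_ne (h0 : W ≠ ⊥) : ∃ w ∈ W, φ.Q w ≠ 0 := by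
  obtain ⟨x, hx, hx0⟩ := Submodule.exists_mem_ne_zero_of_ne_bot h0
  by_contra! H
  exact hx0 (hW x hx fun y hy => by simpa [h.Q_add, H x hx, H y hy] using H _ (add_mem hx hy))

theorem exists_orth_hyp {e f : V} (hyp : φ.IsHyp e f) (he : e ∈ W) (hf : f ∈ W) (h3 : 3 ≤ finrank F W) :
    ∃ w ∈ W, φ.Q w ≠ 0 ∧ φ.B e w = 0 ∧ φ.B f w = 0 := by
  have hP : Submodule.span F {e, f} ≤ W := by
    rw [Submodule.span_le]; rintro y (rfl | rfl) <;> assumption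
  have := finrank_le_inf_perp (φ := φ) W (Submodule.span F {e, f})
  obtain ⟨w, hw, h1⟩ := h.exists_Q_ne (hW.inf_perp hyp.nondegOn hP) fun e => by
    rw [hyp.finrank_span, e, finrank_bot] at this; omega
  exact ⟨w, hw.1, h1, φ.mem_perp_pair.1 hw.2⟩

theorem fix_le_of_rf (hg : (φ.restrict W).Good) (hL : ∀ x ∈ W, φ.Q x ≠ 0 → Rf L x) : φ.fix (φ.perp W) ≤ L := by
  have := hW.nondeg
  rw [← range_extHom hW]
  rintro _ ⟨g, rfl⟩
  exact ((h.restrict W).eq_top_of_refl hg (K := L.comap (extHom hW)) fun v hv => by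
    rw [Subgroup.mem_comap, h.extHom_refl]; exact (hL v v.2 hv).2).ge (Subgroup.mem_top g)

variable (hL : φ.E ⊓ φ.fix (φ.perp W) ≤ L) {p : V} (hpW : p ∈ W) {hp : φ.Q p = 0}
include hL hpW

theorem ss_new {u y b : V} (hu : u ∈ W) (hy : y ∈ φ.perp W) (hb : b ∈ φ.perp W) (h0 : φ.Q (u + y) ≠ 0)
    (hx : φ.refl (u + y) * φ.refl b ∈ L) (h1 : φ.B u p = 0) (h2 : u ∉ F ∙ p) : y ∈ h.ss L hp := by
  obtain ⟨w, h3, h4⟩ := φ.exists_sep (W := (F ∙ p) ⊔ φ.perp W) (u := u) fun e => by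
    obtain ⟨a, ha, b, hb, e⟩ := Submodule.mem_sup.1 e
    have h5 := (Submodule.span_singleton_le_iff_mem p _).2 hpW ha
    rw [hW b (by simpa [← e] using sub_mem hu h5) (φ.mem_perp'.1 hb), add_zero] at e
    exact h2 (e ▸ ha)
  have hw : w ∈ W := φ.perp_perp W ▸ φ.mem_perp'.2 fun z hz => h3 z (Submodule.mem_sup_right hz)
  exact (add_mem_cancel_left (h.mem_ss_of_fix hL hpW hu (φ.B_symm_zero h1))).1 (h.ss_refl₂ h0 hx
    (by simp [h1, φ.mem_perp'.1 hy p hpW]) (φ.mem_perp'.1 hb p hpW) (h.mem_ss_of_fix hL hpW hw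
    (φ.B_symm_zero (h3 p (Submodule.mem_sup_left (Submodule.mem_span_singleton_self p)))))
    (φ.mem_perp'.1 hb w hw) (by simp [φ.mem_perp'.1 hy w hw, h.B_comm u w, h4]))

theorem finish (h3 : 3 ≤ finrank F W) (hp0 : p ≠ 0) (h1 : ⊤ ≤ W ⊔ h.ss L hp) : φ.E ≤ L := by
  obtain ⟨f, hf, hyp⟩ := exists_hyp_mem hW hpW hp0 hp
  obtain ⟨w, hw, w1, w2, w3⟩ := h.exists_orth_hyp hW hyp hpW hf h3
  refine h.ss_E_le (hp := hp) (fun x hx => ?_) (hL ⟨h.sg_mem_E hyp.Qf w3, h.sg_mem_fix hyp.Qf w3 hf hw⟩)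
    (by simp [h.sg_apply hyp.Qf w3, hyp.Bee, hyp.Bef, hyp.Bfe, w1, w2, φ.B_symm_zero w2, φ.ε_ne_zero])
  obtain ⟨u, hu, z, hz, rfl⟩ := Submodule.mem_sup.1 (h1 (Submodule.mem_top (x := x)))
  exact add_mem (h.mem_ss_of_fix hL hpW hu (by simpa [hz.1] using hx)) hz

end IsQuad

namespace Blk
variable [Finite F] [Finite κ] (h : φ.Blk D k) {L K : Subgroup φ.Isom} (hk : 2 ≤ k) (ir : ∀ i, φ.IR (D i))
  (hL : φ.E ⊓ φ.dstab D ≤ L)
include h

omit [φ.Nondeg] [FiniteDimensional F V] [Finite F] [Finite κ] in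
theorem exists_sing_B {i : κ} {e v : V} (he : e ∈ D i) (he0 : e ≠ 0) (hQ : φ.Q e = 0) (hv : v ∈ D i)
    (hv0 : v ≠ 0) : ∃ p ∈ D i, φ.Q p = 0 ∧ φ.B v p ≠ 0 := by
  obtain ⟨f, hf, hyp⟩ := exists_hyp_mem (h.od.nondeg i) he he0 hQ
  by_contra! H
  exact hv0 (h.od.nondeg i v hv fun y hy => φ.mem_perp_singleton.1
    (le_of_sing_mem (A := φ.perp (F ∙ v)) hyp he hf (fun w hw _ e => φ.mem_perp_singleton.2 (H w hw e)) hy))

include hk ir hL

theorem big (h4 : 4 ≤ k) {x : V} (hx : Rf L x) (hx' : ∀ i, x ∉ D i) : φ.E ≤ L := by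
  obtain ⟨i, u, hu, y, hy, rfl, h1⟩ := h.od.exists_nonsing hx.1
  obtain ⟨p, hp, hp0, hQ, h2⟩ := h.std.exists_sing_orth (D i) ⊥ [u] (by simpa [h.rk] using h4)
  exact h.lemB hk ir (Or.inl h4) hL hp (by simpa using hp0) (h.a1 ((inf_le_inf_left _
    (h.od.fix_perp_le i)).trans hL) hp hQ hu hy hx (by simpa using h2) fun e => by
      obtain ⟨c, rfl⟩ := Submodule.mem_span_singleton.1 e
      exact h1 (φ.Q_smul_of_sing hQ c)) (hx' i)

variable (ht : ∀ i j : κ, ∃ l, l ≠ i ∧ l ≠ j) (hKL : K ⊓ φ.E ≤ L) {x : V} (hx : Rf K x) (hx' : ∀ i, x ∉ D i)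
  (hK : ∀ j, x ∉ φ.perp (D j) → φ.fix (φ.perp (D j)) ≤ K)
include ht hKL hx hx' hK

theorem three [Nonempty κ] (h3 : 3 ≤ k) (hq : 4 ≤ Nat.card F) : φ.E ≤ L := by
  obtain ⟨i, -, -, hi, -⟩ := h.od.exists_two hx'
  obtain ⟨v, hv, y, hy, rfl⟩ := (h.od.nondeg i).split x
  obtain ⟨e, he, he0, hQ⟩ := h.std.sing (D i) (by rwa [h.rk])
  obtain ⟨p, hp, p1, p2⟩ := h.exists_sing_B he he0 hQ hv (by rintro rfl; simp [hy] at hi)
  have hp0 : p ≠ 0 := by rintro rfl; simp at p2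
  obtain ⟨f, hf, hyp⟩ := exists_hyp_mem (h.od.nondeg i) hp hp0 p1
  obtain ⟨w, hw, w1, w2, -⟩ := h.q.exists_orth_hyp (h.od.nondeg i) hyp hp hf (by rwa [h.rk])
  obtain ⟨μ, h1, h2⟩ := exists_sq_ne hq w1 (φ.Q y)
  set c := (μ * (φ.Q v - φ.Q y) - φ.B v w) / φ.B v p with hc
  have h4 := add_mem hw ((D i).smul_mem c hp)
  have h5 : φ.Q (w + c • p) = φ.Q w := by simp [h.q.Q_add, h.q.Q_smul, p1, φ.B_symm_zero w2]
  have h6 := h.a3 (hK i hi) hv hy h4 hx (μ := μ) (by simp [hc, p2]) (by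
    rwa [φ.Q_add_of_orth (by rw [map_smul, hy _ h4, smul_zero]), h5, h.q.Q_smul])
  refine h.lemB hk ir (Or.inr ht) hL hp hp0 (h.q.ss_mono hKL (h.a1 (inf_le_right.trans (hK i hi)) hp p1 h4
    (Submodule.smul_mem _ μ hy) h6 (by simp [h.q.B_smul_left, hyp.Bee, φ.B_symm_zero w2]) fun e => ?_))
    fun e => hx' i (add_mem hv ((Submodule.smul_mem_iff _ h1).1 ((add_mem_cancel_left h4).1 e)))
  obtain ⟨d, hd⟩ := Submodule.mem_span_singleton.1 e
  exact w1 (by rw [← h5, ← hd, φ.Q_smul_of_sing p1])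

theorem plus [Nonempty κ] (hs : ∀ i, ∃ e ∈ D i, e ≠ 0 ∧ φ.Q e = 0) (hq : 7 ≤ Nat.card F) : φ.E ≤ L := by
  have key : ∀ i, φ.fix (φ.perp (D i)) ≤ K → ∀ v ∈ D i, ∀ y ∈ φ.perp (D i), v ≠ 0 → Rf K (v + y) →
      φ.Q y ≠ 0 → φ.Q y ≠ φ.Q v → φ.E ≤ L := fun i hi v hv y hy h0 h1 h2 h3 => by
    obtain ⟨e, he, he0, hQ⟩ := hs i
    obtain ⟨p, hp, p1, p2⟩ := h.exists_sing_B he he0 hQ hv h0
    have hp0 : p ≠ 0 := by rintro rfl; simp at p2
    have h4 := sub_ne_zero.2 h3.symm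
    have h5 := div_ne_zero p2 h4
    have h6 := Submodule.smul_mem _ (φ.B v p / (φ.Q v - φ.Q y)) hy
    refine h.lemB hk ir (Or.inr ht) hL hp hp0 (h.q.ss_mono hKL (h.a2 (by omega) (inf_le_right.trans hi) hp hp0 p1
      h6 (h.a3 hi hv hy hp h1 (div_mul_cancel₀ _ h4) (by
        rw [φ.Q_add_of_orth (h6 p hp), p1, h.q.Q_smul]; simp [p2, h4, h2])))) fun e => h2 ?_
    rw [h.od.nondeg i y ((Submodule.smul_mem_iff _ h5).1 e) (φ.mem_perp'.1 hy), Q_zero]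
  obtain ⟨i, j, hij, hi, hj⟩ := h.od.exists_two hx'
  obtain ⟨v, hv, y, hy, e1⟩ := (h.od.nondeg i).split x
  obtain ⟨u, hu, z, hz, e2⟩ := (h.od.nondeg j).split x
  have v0 : v ≠ 0 := by rintro rfl; simp [e1, hy] at hi
  have u0 : u ≠ 0 := by rintro rfl; simp [e2, hz] at hj
  by_contra H
  have hN := hx.1
  have bad : ∀ i, x ∉ φ.perp (D i) → ∀ v ∈ D i, ∀ y ∈ φ.perp (D i), x = v + y → v ≠ 0 →
      φ.Q v = φ.Q x ∨ 2 * φ.Q v = φ.Q x := fun i hi v hv y hy e h0 => by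
    rw [e, φ.Q_add_of_orth (hy v hv)]
    by_contra! h1
    exact H (key i (hK i hi) v hv y hy h0 (e ▸ hx) (fun e => h1.1 (by simp [e]))
      fun e => h1.2 (by rw [e, two_mul]))
  have v1 : φ.Q v ≠ 0 := fun e => by simpa [e, hN.symm] using bad i hi v hv y hy e1 v0
  have u1 := bad j hj u hu z hz e2 u0
  obtain ⟨e, he, he0, hQ⟩ := hs i
  obtain ⟨p, hp, p1, p2⟩ := h.exists_sing_B he he0 hQ hv v0
  set c := φ.Q v * φ.Q u / (φ.Q x * φ.Q x) with hc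
  have n : ∀ c : F, (X - C c * (1 + X) ^ 2 : F[X]) ≠ 0 := fun c e => by simpa using congrArg (eval (-1)) e
  obtain ⟨ξ, hξ⟩ := exists_not_root (X * (1 + X) * (X - C c * (1 + X) ^ 2) * (X - C (2 * c) * (1 + X) ^ 2))
    (mul_ne_zero (mul_ne_zero (mul_ne_zero X_ne_zero fun e => by simpa using congrArg (eval 0) e) (n _)) (n _))
    (lt_of_le_of_lt (by compute_degree) (by omega : 6 < _))
  simp only [eval_mul, eval_add, eval_sub, eval_pow, eval_X, eval_one, eval_C, mul_ne_zero_iff] at hξ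
  obtain ⟨⟨⟨x1, x2⟩, x3⟩, x4⟩ := hξ
  set a := v + ((ξ - 1) * φ.Q v / φ.B v p) • p with ha
  have a1 : a ∈ D i := add_mem hv ((D i).smul_mem _ hp)
  have a2 : φ.Q a = ξ * φ.Q v := by simp [ha, h.q.Q_add, h.q.Q_smul, p1, p2]; ring
  have a3 : φ.B x a = (1 + ξ) * φ.Q v := by
    rw [e1, map_add φ.B, LinearMap.add_apply, φ.mem_perp'.1 hy a a1]; simp [ha, h.q.B_self, p2]; ring
  have a4 : Rf K a := ⟨by simp [a2, x1, v1], hK i hi (h.q.refl_mem_fix a1)⟩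
  have a5 := a4.map h.q hx.2
  have a6 := Isom.Q_map (φ.refl x) a
  set β := -(φ.Q x)⁻¹ * ((1 + ξ) * φ.Q v) with hβ
  have a7 : (φ.refl x).1 a = β • u + (a + β • z) := by rw [h.q.refl_apply, a3, ← hβ, e2]; module
  have a8 := add_mem (h.od.orth j i hij.symm a1) (Submodule.smul_mem _ β hz)
  rw [a7] at a5 a6
  rw [φ.Q_add_of_orth (a8 _ ((D j).smul_mem β hu)), a2, h.q.Q_smul] at a6
  have a9 : β * β * φ.Q u = c * (1 + ξ) ^ 2 * φ.Q v := by rw [hβ, hc]; field_simp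
  refine H (key j (hK j hj) _ ((D j).smul_mem β hu) _ a8 (smul_ne_zero (by simp [hβ, hN, x2, v1]) u0) a5
    (fun e => mul_ne_zero x3 v1 ?_) fun e => mul_ne_zero x4 v1 ?_)
  · linear_combination e - a6 + a9
  · rw [h.q.Q_smul] at e; linear_combination e - a6 + 2 * a9

omit hx hx' hK ht hKL hL in
theorem minus_good [Nonempty κ] (ha : ∀ i, ∀ v ∈ D i, φ.Q v = 0 → v = 0) (hq : 4 ≤ Nat.card F) {x : V} (hx : Rf K x)
    (hx' : ∀ i, x ∉ D i) (hK : ∀ j, x ∉ φ.perp (D j) → φ.fix (φ.perp (D j)) ≤ K) :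
    ∃ i, ∃ u ∈ D i, ∃ y ∈ φ.perp (D i), u ≠ 0 ∧ φ.Q y ≠ 0 ∧ Rf K (u + y) ∧
      ∀ j, x ∈ φ.perp (D j) → u + y ∈ φ.perp (D j) := by
  by_contra! H
  obtain ⟨i, j, hij, hi, hj⟩ := h.od.exists_two hx'
  obtain ⟨v, hv, y, hy, e1⟩ := (h.od.nondeg i).split x
  obtain ⟨u, hu, z, hz, e2⟩ := (h.od.nondeg j).split x
  have bad : ∀ i, x ∉ φ.perp (D i) → ∀ v ∈ D i, ∀ y ∈ φ.perp (D i), x = v + y → φ.Q v = φ.Q x :=
    fun i hi v hv y hy e => by
      by_contra h1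
      obtain ⟨j, h2, h3⟩ := H i v hv y hy (by rintro rfl; simp [e, hy] at hi)
        (fun e' => h1 (by rw [e, φ.Q_add_of_orth (hy v hv), e', add_zero])) (e ▸ hx)
      exact h3 (e ▸ h2)
  have v1 := bad i hi v hv y hy e1
  have u1 := bad j hj u hu z hz e2
  have hN := hx.1
  obtain ⟨c, c1, c2, c3, c4⟩ := (ir i).ex (h.od.nondeg i) (by rwa [h.rk]) hv
    (by rintro rfl; simp [e1, hy] at hi) one_ne_zero
  obtain ⟨t, ht⟩ := exists_not_root ((C (2 * φ.Q x) * X + C (φ.B v c)) * (C (3 * φ.Q x ^ 2) * X ^ 2 +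
    C (3 * φ.Q x * φ.B v c) * X + C (φ.B v c ^ 2 - φ.Q x))) (mul_ne_zero
      (fun e => c3 (by simpa using congrArg (eval 0) e)) fun e => by
        have e3 : 3 * φ.Q x ^ 2 = 0 := by simpa [-map_mul, -map_sub, -map_pow] using congrArg (coeff · 2) e
        have e4 : φ.B v c ^ 2 - φ.Q x = 0 := by simpa using congrArg (eval 0) e
        have e5 : (3 : F) = 0 := by simpa [hN] using e3
        have e6 := ha i ((2 * φ.Q x) • c + (-φ.B v c) • v) (add_mem ((D i).smul_mem _ c1) ((D i).smul_mem _ hv))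
          (by rw [h.q.Q_comb, c2, v1, h.q.B_comm c v]; linear_combination φ.Q x ^ 2 * e5 - φ.Q x * e4)
        refine c4 ((Submodule.smul_mem_iff _ (mul_ne_zero (fun e => one_ne_zero (α := F) ?_) hN)).1
          (eq_neg_of_add_eq_zero_left e6 ▸ neg_mem (Submodule.smul_mem _ _ (Submodule.mem_span_singleton_self v))))
        linear_combination e5 - e)
    (lt_of_le_of_lt (by compute_degree) (by omega : 3 < _))
  simp only [eval_mul, eval_add, eval_pow, eval_X, eval_C, mul_ne_zero_iff] at ht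
  set a := t • v + c with ha'
  have a1 : a ∈ D i := add_mem ((D i).smul_mem _ hv) c1
  have a2 : φ.Q a = t * t * φ.Q x + 1 + t * φ.B v c := by
    rw [ha', h.q.Q_add, h.q.Q_smul, h.q.B_smul_left, c2, v1]
  have a3 : φ.B x a = 2 * φ.Q x * t + φ.B v c := by
    rw [e1, map_add φ.B, LinearMap.add_apply, φ.mem_perp'.1 hy a a1, ← e1]; simp [ha', h.q.B_self, v1]; ring
  have a4 : Rf K a := ⟨fun e => c4 (eq_neg_of_add_eq_zero_right (ha i a a1 e) ▸ neg_mem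
    (Submodule.smul_mem _ _ (Submodule.mem_span_singleton_self v))), hK i hi (h.q.refl_mem_fix a1)⟩
  have a5 := a4.map h.q hx.2
  have a6 := Isom.Q_map (φ.refl x) a
  set β := -(φ.Q x)⁻¹ * (2 * φ.Q x * t + φ.B v c) with hβ
  have a7 : (φ.refl x).1 a = β • u + (a + β • z) := by rw [h.q.refl_apply, a3, ← hβ, e2]; module
  have a8 := add_mem (h.od.orth j i hij.symm a1) (Submodule.smul_mem _ β hz)
  rw [a7] at a5 a6
  rw [φ.Q_add_of_orth (a8 _ ((D j).smul_mem β hu)), a2, h.q.Q_smul, u1] at a6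
  have a9 : β * β * φ.Q x * φ.Q x = (2 * φ.Q x * t + φ.B v c) ^ 2 := by rw [hβ]; field_simp
  obtain ⟨l, l1, l2⟩ := H j _ ((D j).smul_mem β hu) _ a8 (smul_ne_zero (by simp [hβ, hN, ht.1])
    (by rintro rfl; simp [e2, hz] at hj)) (fun e => ht.2 (by linear_combination φ.Q x * (a6 - e) - a9)) a5
  rw [← a7, h.q.refl_apply] at l2
  exact l2 (add_mem (h.od.orth l i (by rintro rfl; exact hi l1) a1) (Submodule.smul_mem _ _ l1))

omit hx hx' hK ht hKL hL in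
theorem minus_two [Nonempty κ] (h2 : k = 2) (ha : ∀ i, ∀ v ∈ D i, φ.Q v = 0 → v = 0) (hq : 4 ≤ Nat.card F) {x : V}
    (hx : Rf K x) (hx' : ∀ i, x ∉ D i) (hK : ∀ j, x ∉ φ.perp (D j) → φ.fix (φ.perp (D j)) ≤ K) :
    ∃ i j, i ≠ j ∧ φ.fix (φ.perp (D i ⊔ D j)) ≤ K := by
  classical
  have := Fintype.ofFinite κ
  induction e : (Finset.univ.filter fun j => x ∉ φ.perp (D j)).card using Nat.strong_induction_on
    generalizing x with
  | _ n ih =>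
  obtain ⟨i, u, hu, y, hy, u0, y0, h1, h3⟩ := h.minus_good hk ir ha hq hx hx' hK
  have h4 : x ∉ φ.perp (D i) := fun e =>
    not_mem_perp (h.od.nondeg i) hu u0 ((add_mem_cancel_right hy).1 (h3 i e))
  have o := fun {x μ} => h.q.om3 (x := x) (μ := μ) (h.od.nondeg i) (h2 ▸ h.rk i) (ha i) (hK i h4) hy y0 hu u0 h1
  have h5 : ∀ j, y ∉ φ.perp (D j) → x ∉ φ.perp (D j) := fun j a b =>
    a ((add_mem_cancel_left (h.od.orth j i (by rintro rfl; exact h4 b) hu)).1 (h3 j b))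
  by_cases h6 : ∀ j, y ∉ D j
  · refine ih _ (e ▸ Finset.card_lt_card ⟨fun j => by simpa using h5 j, fun H => ?_⟩)
      (by simpa using o (μ := 1) (zero_mem _) (by simpa using y0)) h6 (fun j a => hK j (h5 j a)) rfl
    simpa [hy] using H (Finset.mem_filter.2 ⟨Finset.mem_univ i, h4⟩)
  push Not at h6
  obtain ⟨j, hj⟩ := h6
  have y1 : y ≠ 0 := by rintro rfl; simp at y0
  have h7 := hK j (h5 j (not_mem_perp (h.od.nondeg j) hj y1))
  have hij : i ≠ j := by rintro rfl; exact not_mem_perp (h.od.nondeg i) hj y1 hy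
  have hW := (h.od.nondeg i).sup (h.od.nondeg j) (h.od.orth i j hij)
  have := hW.nondeg
  refine ⟨i, j, hij, h.q.fix_le_of_rf hW ((h.q.restrict _).good_of_card (by omega)) fun z hz z0 => ?_⟩
  obtain ⟨a, a1, b, b1, rfl⟩ := Submodule.mem_sup.1 hz
  by_cases a0 : a = 0
  · exact ⟨z0, h7 (h.q.refl_mem_fix (by simpa [a0] using b1))⟩
  have a2 := mt (ha i a a1) a0
  obtain ⟨μ, m1, m2⟩ := exists_sq_ne hq a2 (φ.Q y)
  have a3 := o (μ := μ) a1 (by rwa [φ.Q_add_of_orth (by simp [hy a a1]), h.q.Q_smul])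
  simpa [add_comm] using h.q.om3 (μ := 1) (h.od.nondeg j) (h2 ▸ h.rk j) (ha j) h7 (h.od.orth j i hij.symm a1) a2
    ((D j).smul_mem μ hj) (smul_ne_zero m1 y1) (add_comm a _ ▸ a3) b1 (by simpa [add_comm] using z0)

theorem minus [Nonempty κ] (h2 : k = 2) (ha : ∀ i, ∀ v ∈ D i, φ.Q v = 0 → v = 0) (hq : 4 ≤ Nat.card F) :
    φ.E ≤ L := by
  obtain ⟨i, j, hij, h1⟩ := h.minus_two hk ir h2 ha hq hx hx' hK
  have hW := (h.od.nondeg i).sup (h.od.nondeg j) (h.od.orth i j hij)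
  have h3 : φ.E ⊓ φ.fix (φ.perp (D i ⊔ D j)) ≤ L := fun g hg => hKL ⟨h1 hg.2, hg.1⟩
  obtain ⟨w, hw, w1⟩ := h.q.exists_Q_eq (h.od.nondeg i) (by rwa [h.rk]) 1
  obtain ⟨z, hz, z1⟩ := h.q.exists_Q_eq (h.od.nondeg j) (by rwa [h.rk]) (-1)
  have hp : φ.Q (w + z) = 0 := by rw [φ.Q_add_of_orth (h.od.orth i j hij hz w hw), w1, z1, add_neg_cancel]
  have z0 : z ≠ 0 := by rintro rfl; simp at z1
  have n : ∀ c : F, c • (w + z) ∈ D i → c = 0 := fun c e => by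
    rw [smul_add, add_mem_cancel_left ((D i).smul_mem c hw)] at e
    simpa [z0] using h.od.eq_zero_of_mem hij e ((D j).smul_mem c hz)
  have hpW := Submodule.add_mem_sup hw hz
  refine h.q.finish hW h3 hpW (hp := hp) (by rw [finrank_sup_orth (h.od.nondeg i) (h.od.orth i j hij), h.rk, h.rk]; omega)
    (fun e => one_ne_zero (n 1 (by simp [e]))) (h.od.sup ▸ iSup_le fun l => ?_)
  by_cases li : l = i
  · exact li ▸ le_sup_left.trans le_sup_left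
  by_cases lj : l = j
  · exact lj ▸ le_sup_right.trans le_sup_left
  refine fun b hb => Submodule.mem_sup_right ?_
  obtain ⟨a, a1, a2, a3⟩ := exists_orth_plane (φ := φ) (P := D i) (by rwa [h.rk]) w
  obtain ⟨μ, m1, m2⟩ := exists_sq_ne hq (mt (ha i a a1) a2) (φ.Q b)
  obtain ⟨g, g1, g2, g3⟩ := h.exists_swapE hk (Ne.symm lj)
  obtain ⟨b, hb', rfl⟩ : ∃ c ∈ D j, g.1 c = b := g2.ge hb
  have o := φ.le_perp_comm.1 (sup_le (h.od.orth l i li) (h.od.orth l j lj))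
  have b1 := hb
  replace hb := hb'
  have b2 : φ.Q (a + μ • b) ≠ 0 := by
    rwa [φ.Q_add_of_orth (by simp [h.od.orth i j hij hb a a1]), h.q.Q_smul, ← Isom.Q_map g b]
  obtain ⟨c, c1, c2⟩ := h.q.exists_Q_eq (h.od.nondeg j) (by rwa [h.rk]) (φ.Q (a + μ • b))
  have c3 := mul_mem (mul_mem (hL g1) (h3 ⟨h.rr_mem b2 (c2 ▸ b2) (by rw [c2]), mul_mem (h.q.refl_mem_fix
    (Submodule.add_mem_sup a1 ((D j).smul_mem μ hb))) (h.q.refl_mem_fix (Submodule.mem_sup_right c1))⟩))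
    (inv_mem (hL g1))
  have g4 := g3 a (h.od.orth j i hij.symm a1) (h.od.orth l i li a1)
  rw [← conj_mul, h.q.refl_conj, h.q.refl_conj, map_add, map_smul, g4] at c3
  refine (Submodule.smul_mem_iff _ m1).1 (h.q.ss_new hW h3 hpW (Submodule.mem_sup_left a1)
    (Submodule.smul_mem _ _ (o b1)) (o (g2 ▸ ⟨c, c1, rfl⟩)) (by rwa [← g4, ← map_smul, ← map_add, Isom.Q_map]) c3
    (by simp [φ.B_symm_zero a3, h.od.orth i j hij hz a a1]) fun e => ?_)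
  obtain ⟨d, hd⟩ := Submodule.mem_span_singleton.1 e
  exact a2 (by simp [← hd, n d (hd ▸ a1)])

theorem two [Nonempty κ] (ha : ∀ i, ∀ v ∈ D i, φ.Q v = 0 → v = 0) (hq : Nat.card F = 2) : φ.E ≤ L := by
  have f1 : ∀ c : F, c ≠ 0 → c = 1 := fun c hc => by
    obtain ⟨y, -, hy⟩ := (Nat.card_eq_two_iff' (0 : F)).1 hq
    rw [hy c hc, hy 1 one_ne_zero]
  have f2 : (2 : F) = 0 := by
    by_contra e; exact one_ne_zero (α := F) (by linear_combination f1 2 e)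
  have f3 : ∀ i, ∀ v ∈ D i, v ≠ 0 → φ.Q v = 1 := fun i v hv h0 => f1 _ (mt (ha i v hv) h0)
  obtain ⟨i, j, hij, hi, hj⟩ := h.od.exists_two hx'
  obtain ⟨l, li, lj, hl⟩ : ∃ l, l ≠ i ∧ l ≠ j ∧ x ∉ φ.perp (D l) := by
    by_contra! H
    obtain ⟨v, hv, y, hy, rfl⟩ := (h.od.nondeg i).split x
    have : y ∈ D j := h.od.mem_of_perp fun l e => by
      by_cases e' : l = i
      · exact e' ▸ hy
      · exact (add_mem_cancel_left (h.od.orth l i e' hv)).1 (H l e' e)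
    exact hx.1 (by rw [φ.Q_add_of_orth (hy v hv), f3 i v hv (by rintro rfl; simp [hy] at hi),
      f3 j y this (by rintro rfl; simp [h.od.orth j i hij.symm hv] at hj), one_add_one_eq_two, f2])
  obtain ⟨a, a1, a2, a3, -⟩ := h.exB hk ir hi one_ne_zero
  obtain ⟨b, b1, b2, b3, -⟩ := h.exB hk ir hj one_ne_zero
  obtain ⟨c, c1, c2, c3, -⟩ := h.exB hk ir hl one_ne_zero
  have oij := h.od.orth i j hij
  have oji := h.od.orth j i hij.symm
  have oil := h.od.orth i l li.symm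
  have oli := h.od.orth l i li
  have ojl := h.od.orth j l lj.symm
  have olj := h.od.orth l j lj
  have h1 : Rf K (a + b + c) := by
    have := (((hx.map h.q (hK l hl (h.q.refl_mem_fix c1))).map h.q (hK j hj (h.q.refl_mem_fix b1))).map h.q
      (hK i hi (h.q.refl_mem_fix a1))).map h.q hx.2
    convert this using 1
    simp only [h.q.refl_apply, map_add, map_smul, a2, b2, c2, h.q.B_comm a x, h.q.B_comm b x, h.q.B_comm c x,
      f1 _ a3, f1 _ b3, f1 _ c3, oij b1 a a1, oil c1 a a1, ojl c1 b b1, h.q.B_self, f2, f1 _ hx.1, smul_eq_mul]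
    match_scalars <;> simp <;> grind
  have hW := ((h.od.nondeg i).sup (h.od.nondeg j) oij).sup (h.od.nondeg l) (φ.perp_sup _ _ ▸ le_inf oil ojl)
  have hr : finrank F ↥(D i ⊔ D j ⊔ D l) = k + k + k := by
    rw [finrank_sup_orth ((h.od.nondeg i).sup (h.od.nondeg j) oij) (φ.perp_sup _ _ ▸ le_inf oil ojl),
      finrank_sup_orth (h.od.nondeg i) oij, h.rk, h.rk, h.rk]
  have := hW.nondeg
  have h3 := h.q.fix_le_of_rf (L := K) hW ((h.q.restrict _).good_of_finrank (by omega)) fun z hz z0 => by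
    obtain ⟨_, hz', w, w1, rfl⟩ := Submodule.mem_sup.1 hz
    obtain ⟨u, u1, v, v1, rfl⟩ := Submodule.mem_sup.1 hz'
    have e := z0
    rw [φ.Q_add_of_orth (by simp [oil w1 u u1, ojl w1 v v1]), φ.Q_add_of_orth (oij v1 u u1)] at e
    by_cases u0 : u = 0 <;> by_cases v0 : v = 0 <;> by_cases w0 : w = 0
    · simp [u0, v0, w0] at e
    · exact ⟨z0, hK l hl (h.q.refl_mem_fix (by simpa [u0, v0]))⟩
    · exact ⟨z0, hK j hj (h.q.refl_mem_fix (by simpa [u0, w0]))⟩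
    · simp [u0, f3 j v v1 v0, f3 l w w1 w0, one_add_one_eq_two, f2] at e
    · exact ⟨z0, hK i hi (h.q.refl_mem_fix (by simpa [v0, w0]))⟩
    · simp [v0, f3 i u u1 u0, f3 l w w1 w0, one_add_one_eq_two, f2] at e
    · simp [w0, f3 j v v1 v0, f3 i u u1 u0, one_add_one_eq_two, f2] at e
    obtain ⟨r, r1, r2⟩ := (h.od.nondeg i).exists_fix_map a1 u1 (by rintro rfl; simp at a2) u0 (by rw [a2, f3 i u u1 u0])
    obtain ⟨s, s1, s2⟩ := (h.od.nondeg j).exists_fix_map b1 v1 (by rintro rfl; simp at b2) v0 (by rw [b2, f3 j v v1 v0])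
    obtain ⟨t, t1, t2⟩ := (h.od.nondeg l).exists_fix_map c1 w1 (by rintro rfl; simp at c2) w0 (by rw [c2, f3 l w w1 w0])
    simpa [r2, s2, t2, r1 b (oij b1), r1 c (oil c1), s1 u (oji u1), s1 c (ojl c1), t1 u (oli u1), t1 v (olj v1)]
      using ((h1.map h.q (hK i hi r1)).map h.q (hK j hj s1)).map h.q (hK l hl t1)
  have h4 : φ.E ⊓ φ.fix (φ.perp (D i ⊔ D j ⊔ D l)) ≤ L := fun g hg => hKL ⟨h3 hg.2, hg.1⟩
  have hp : φ.Q (a + b) = 0 := by rw [φ.Q_add_of_orth (oij b1 a a1), a2, b2, one_add_one_eq_two, f2]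
  have hpW : a + b ∈ D i ⊔ D j ⊔ D l := Submodule.mem_sup_left (Submodule.add_mem_sup a1 b1)
  refine h.q.finish hW h4 hpW (hp := hp) (by omega) (fun e => ?_) (h.od.sup ▸ iSup_le fun m => ?_)
  · rw [h.od.eq_zero_of_mem hij a1 (eq_neg_of_add_eq_zero_left e ▸ neg_mem b1)] at a2; simp at a2
  by_cases mi : m = i
  · exact mi ▸ le_sup_left.trans (le_sup_left.trans le_sup_left)
  by_cases mj : m = j
  · exact mj ▸ le_sup_right.trans (le_sup_left.trans le_sup_left)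
  exact (h.le_ss hk ir hL (add_mem (oli a1) (olj b1)) (add_mem (h.od.orth m i mi a1) (h.od.orth m j mj b1))
    fun z hz => h.q.mem_ss_of_fix h4 hpW (Submodule.mem_sup_right hz)
      (by simp [oil hz a a1, ojl hz b b1])).trans le_sup_right

end Blk

variable (φ) in
/-- the admissible block types -/
def Ok (D : κ → Submodule F V) (k : ℕ) : Prop :=
  (4 ≤ k ∧ (5 ≤ k ∨ ∀ i j : κ, ∃ l, l ≠ i ∧ l ≠ j)) ∨ (∀ i j l : κ, ∃ m, m ≠ i ∧ m ≠ j ∧ m ≠ l) ∧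
    ((k = 3 ∧ 4 ≤ Nat.card F) ∨ k = 2 ∧ (((∀ i, ∃ e ∈ D i, e ≠ 0 ∧ φ.Q e = 0) ∧ 7 ≤ Nat.card F) ∨
      (∀ i, ∀ v ∈ D i, φ.Q v = 0 → v = 0) ∧ Nat.card F ≠ 3))

theorem Blk.thmG [Finite F] [Finite κ] (h : φ.Blk D k) (ir : ∀ i, φ.IR (D i)) (ok : φ.Ok D k)
    {L : Subgroup φ.Isom} (hL : φ.E ⊓ φ.dstab D ≤ L) {i : κ} {a v : V} (ha : a ∈ D i) (ha' : Rf L a)
    (hE : ∀ g ∈ L, g ∈ φ.E ∨ g * φ.refl a ∈ φ.E) (hv : Rf L v) (hv' : ∀ i, v ∉ D i) : φ.E ≤ L := by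
  have : Nonempty κ := ⟨i⟩
  rcases ok with ⟨h4, -⟩ | ⟨ht, ok⟩
  · exact h.big (by omega) ir hL h4 hv hv'
  have hk : 2 ≤ k := by omega
  obtain ⟨K, x, h1, h2, h3, h4⟩ := h.localise hk ir ht hL ha ha' hE hv hv'
  have ht' : ∀ i j : κ, ∃ l, l ≠ i ∧ l ≠ j := fun i j => (ht i j j).imp fun l e => ⟨e.1, e.2.1⟩
  rcases ok with ⟨h5, h6⟩ | ⟨h5, ⟨h6, h7⟩ | ⟨h6, h7⟩⟩
  · exact h.three hk ir hL ht' h1 h2 h3 h4 h5.ge h6
  · exact h.plus hk ir hL ht' h1 h2 h3 h4 h6 h7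
  by_cases h8 : Nat.card F = 2
  · exact h.two hk ir hL ht' h1 h2 h3 h4 h6 h8
  · exact h.minus hk ir hL ht' h1 h2 h3 h4 h5 h6 (by have := Finite.one_lt_card (α := F); omega)

end Form
end H10
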