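import Mathlib
import Cfsg.Agent.H10.DcD
import Cfsg.Agent.H10.MaxC

/-!
# Orthogonal decompositions into isometric blocks, IV: maximality for blocks of dimension `≥ 2`
* `IsQuad.ir`, `ODec.rank_two`, `Blk.star`, `Blk.E_le`, `isMaximalIn_dec_quad`
-/

namespace H10

open Module Polynomial

theorem exists_sq_ne₂ {F : Type*} [Field F] [Finite F] (h : 6 ≤ Nat.card F) {c : F} (hc : c ≠ 0) (a b : F) :
    ∃ l : F, l ≠ 0 ∧ c + l * l * a ≠ 0 ∧ c + l * l * b ≠ 0 := by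
  have n : ∀ d : F, (C c + X * X * C d : F[X]) ≠ 0 := fun d e => hc (by simpa using congrArg (eval 0) e)
  obtain ⟨l, hl⟩ := exists_not_root (X * (C c + X * X * C a) * (C c + X * X * C b))
    (mul_ne_zero (mul_ne_zero X_ne_zero (n _)) (n _)) (lt_of_le_of_lt (by compute_degree) (by omega : 5 < _))
  exact ⟨l, by simpa [and_assoc] using hl⟩

namespace Form
variable {F V : Type*} [Field F] [AddCommGroup V] [Module F V] {φ : Form F V}
variable [φ.Nondeg] [FiniteDimensional F V] {κ : Type*} {D : κ → Submodule F V} {k : ℕ}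

namespace IsQuad
variable (h : φ.IsQuad)
include h

omit [φ.Nondeg] in
theorem ir [Finite F] {W : Submodule F V} (hW : φ.NondegOn W)
    (ok : (4 ≤ finrank F W ∧ ¬ (finrank F W = 4 ∧ Nat.card F = 2 ∧ (φ.restrict W).HasTS 2)) ∨
      (finrank F W = 3 ∧ 4 ≤ Nat.card F) ∨ finrank F W = 2 ∧ (7 ≤ Nat.card F ∨
        (∀ v ∈ W, φ.Q v = 0 → v = 0) ∧ Nat.card F ≠ 3)) : φ.IR W := by
  intro c hc A A' ho hA
  have hq := Finite.one_lt_card (α := F)
  obtain ⟨x, hx, x1⟩ := h.exists_Q_eq hW (by omega) c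
  have h1 : W ≤ (W ⊓ A) ⊔ (W ⊓ A') := h.le_of_norm hW (by
      rintro ⟨a, b, c⟩
      obtain ⟨v, v0, v1⟩ := hasTS_one_iff.1 b
      rcases ok with e | e | ⟨-, e | e⟩ <;> try omega
      exact v0 (Subtype.ext (e.1 v v.2 v1))) hx (x1 ▸ hc) fun y hy e =>
    (hA y hy (e.trans x1)).elim (fun a => Submodule.mem_sup_left ⟨hy, a⟩) fun a => Submodule.mem_sup_right ⟨hy, a⟩
  suffices H : ∀ X Y : Submodule F V, X ≤ W → Y ≤ W → W ≤ X ⊔ Y → Y ≤ φ.perp X →
      (∀ x ∈ W, φ.Q x = c → x ∈ X ∨ x ∈ Y) → x ∈ X → Y = ⊥ by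
    have o : W ⊓ A' ≤ φ.perp (W ⊓ A) := inf_le_right.trans (ho.trans (φ.perp_anti inf_le_right))
    have o' := fun x hx e => (hA x hx e).imp (fun a => Submodule.mem_inf.2 ⟨hx, a⟩) fun a => Submodule.mem_inf.2 ⟨hx, a⟩
    rcases hA x hx x1 with e | e
    · rw [H _ _ inf_le_left inf_le_left h1 o o' ⟨hx, e⟩, sup_bot_eq] at h1
      exact Or.inl (h1.trans inf_le_right)
    · rw [H _ _ inf_le_left inf_le_left (sup_comm (W ⊓ A) _ ▸ h1) (φ.le_perp_comm.1 o)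
        (fun x hx e => (o' x hx e).symm) ⟨hx, e⟩, bot_sup_eq] at h1
      exact Or.inr (h1.trans inf_le_right)
  intro X Y hX hY h2 o hA xX
  by_contra Y0
  have nd : ∀ X Y : Submodule F V, W ≤ X ⊔ Y → X ≤ W → Y ≤ φ.perp X → φ.NondegOn X := fun X Y a b c z hz e =>
    hW z (b hz) fun y hy => by
      obtain ⟨u, hu, v, hv, rfl⟩ := Submodule.mem_sup.1 (a hy)
      simp [e u hu, c hv z hz]
  have nX := nd X Y h2 hX o
  have nY := nd Y X (sup_comm X Y ▸ h2) hY (φ.le_perp_comm.1 o)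
  have hr := finrank_sup_orth nX o
  rw [le_antisymm (sup_le hX hY) h2] at hr
  have key : ∀ x ∈ X, ∀ y ∈ Y, x ≠ 0 → y ≠ 0 → φ.Q x + φ.Q y ≠ c := fun x hx y hy x0 y0 e => by
    rcases hA _ (add_mem (hX hx) (hY hy)) (by rw [φ.Q_add_of_orth (o hy x hx), e]) with a | a
    · exact not_mem_perp nX ((add_mem_cancel_left hx).1 a) y0 (o hy)
    · exact not_mem_perp nY ((add_mem_cancel_right hy).1 a) x0 (φ.le_perp_comm.1 o hx)
  have x0 : x ≠ 0 := by rintro rfl; simp [hc.symm] at x1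
  obtain ⟨y, hy, y1⟩ := h.exists_Q_ne nY Y0
  have y0 : y ≠ 0 := by rintro rfl; simp at y1
  have pX := Submodule.finrank_mono ((Submodule.span_singleton_le_iff_mem _ _).2 xX)
  have pY := Submodule.finrank_mono ((Submodule.span_singleton_le_iff_mem _ _).2 hy)
  rw [finrank_span_singleton x0] at pX
  rw [finrank_span_singleton y0] at pY
  have S : ∀ X Y : Submodule F V, φ.NondegOn X → 2 ≤ finrank F X → (∀ x ∈ X, ∀ y ∈ Y, x ≠ 0 → y ≠ 0 →
      φ.Q x + φ.Q y ≠ c) → (∃ y ∈ Y, y ≠ 0) → (∀ y ∈ Y, y ≠ 0 → φ.Q y = c) ∧ finrank F X = 2 ∧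
        finrank F Y ≤ 2 ∧ Nat.card F ≤ 3 := fun X Y nX a key ⟨y, hy, y0⟩ => by
    have s1 : ∀ y ∈ Y, y ≠ 0 → φ.Q y = c := fun y hy y0 => by
      by_contra e
      obtain ⟨x, hx, x1⟩ := h.exists_Q_eq nX a (c - φ.Q y)
      exact key x hx y hy (by rintro rfl; exact e (by rw [Q_zero] at x1; linear_combination x1)) y0 (by simp [x1])
    refine ⟨s1, le_antisymm (not_lt.1 fun e => ?_) a, not_lt.1 fun e => ?_, not_lt.1 fun e => ?_⟩
    · obtain ⟨x, hx, x0, x1⟩ := h.exists_singular e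
      exact key x hx y hy x0 y0 (by simp [x1, s1 y hy y0])
    · obtain ⟨x, hx, x0, x1⟩ := h.exists_singular e
      exact hc (by rw [← s1 x hx x0, x1])
    · obtain ⟨μ, m1, m2⟩ := exists_sq_ne e (neg_ne_zero.2 hc) c
      have := s1 _ (Y.smul_mem μ hy) (smul_ne_zero m1 y0)
      rw [h.Q_smul, s1 y hy y0] at this
      exact m2 (by rw [this, neg_add_cancel])
  have key' : ∀ y ∈ Y, ∀ x ∈ X, y ≠ 0 → x ≠ 0 → φ.Q y + φ.Q x ≠ c := fun y a x b c d =>
    add_comm (φ.Q x) _ ▸ key x b y a d c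
  by_cases dX : 2 ≤ finrank F X <;> by_cases dY : 2 ≤ finrank F Y
  · obtain ⟨s1, s2, -, -⟩ := S X Y nX dX key ⟨y, hy, y0⟩
    obtain ⟨s3, s4, -, -⟩ := S Y X nY dY key' ⟨x, xX, x0⟩
    have f1 : ∀ d : F, d ≠ 0 → d = c := fun d hd => by
      obtain ⟨z, a, b⟩ := h.exists_Q_eq nY dY d
      rw [← b, s1 z a (by rintro rfl; simp [hd.symm] at b)]
    have f2 : (2 : F) = 0 := by
      by_contra e; exact hc (by linear_combination f1 _ (mul_ne_zero e hc))
    have pr : ∀ X : Submodule F V, 2 ≤ finrank F X → (∀ y ∈ X, y ≠ 0 → φ.Q y = c) → ∀ x ∈ X, x ≠ 0 →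
        ∃ z ∈ X, z ∉ F ∙ x ∧ φ.Q z = c ∧ φ.B x z = c := fun X a b x hx x0 => by
      obtain ⟨z, z1, z2⟩ : ∃ z ∈ X, z ∉ F ∙ x := SetLike.not_le_iff_exists.1 fun e => by
        have := (Submodule.finrank_mono e).trans (finrank_span_singleton_le x); omega
      have z3 := b z z1 (by rintro rfl; simp at z2)
      have := b _ (add_mem hx z1) fun e => z2 (eq_neg_of_add_eq_zero_right e ▸ neg_mem
        (Submodule.mem_span_singleton_self x))
      rw [h.Q_add, b x hx x0, z3] at this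
      exact ⟨z, z1, z2, z3, by linear_combination this - c * f2⟩
    obtain ⟨u, u1, u2, u3, u4⟩ := pr X dX s3 x xX x0
    obtain ⟨v, v1, -, v3, v4⟩ := pr Y dY s1 y hy y0
    rcases ok with ⟨-, e⟩ | e | e <;> try omega
    refine e ⟨by omega, (Nat.card_eq_two_iff' (0 : F)).2 ⟨c, hc, f1⟩, hasTS_restrict_iff.2
      ⟨Submodule.span F {x + y, u + v}, ?_, h.ts fun z hz => ?_, finrank_span_pair_of_li ?_⟩⟩
    · rw [Submodule.span_le]; rintro _ (rfl | rfl)
      exacts [add_mem hx (hY hy), add_mem (hX u1) (hY v1)]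
    · obtain ⟨a, b, rfl⟩ := Submodule.mem_span_pair.1 hz
      simp only [h.Q_comb, h.Q_add, map_add, LinearMap.add_apply, x1, s1 y hy y0, u3, u4, v3, v4, o hy x xX,
        o v1 u u1, o v1 x xX, φ.mem_perp'.1 (o hy) u u1]
      linear_combination (a ^ 2 * c + b ^ 2 * c + a * b * c) * f2
    · refine LinearIndependent.pair_iff.2 fun a b e => ?_
      have e1 : a • x + b • u = -(a • y + b • v) := by linear_combination (norm := module) e
      have e2 := nX _ (add_mem (X.smul_mem a xX) (X.smul_mem b u1))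
        (φ.mem_perp'.1 (e1 ▸ neg_mem (o (add_mem (Y.smul_mem a hy) (Y.smul_mem b v1)))))
      have e3 : b = 0 := by
        by_contra e3
        exact u2 ((Submodule.smul_mem_iff _ e3).1 (eq_neg_of_add_eq_zero_right e2 ▸ neg_mem
          (Submodule.smul_mem _ _ (Submodule.mem_span_singleton_self x))))
      exact ⟨by simpa [e3, x0] using e2, e3⟩
  · have := S X Y nX dX key ⟨y, hy, y0⟩; omega
  · have := S Y X nY dY key' ⟨x, xX, x0⟩; omega
  have := nX.nondeg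
  have h2 := (h.restrict X).two_ne_zero_of_odd (by rw [show finrank F X = 1 by omega]; exact odd_one)
  obtain ⟨l, l1, l2, l3⟩ : ∃ l : F, l ≠ 0 ∧ c + l * l * φ.Q y ≠ 0 ∧ c + l * l * -φ.Q y ≠ 0 := by
    rcases ok with e | e | ⟨-, e | e⟩ <;> try omega
    · exact exists_sq_ne₂ (by omega) hc _ _
    · obtain ⟨r, hr'⟩ := odd_card_iff.2 h2
      obtain ⟨l, l1, l2⟩ := exists_sq_ne (by have := e.2; omega) hc (-φ.Q y)
      refine ⟨l, l1, fun e' => not_mem_perp nX xX x0 ?_, l2⟩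
      rw [eq_neg_of_add_eq_zero_left (e.1 _ (add_mem hx (W.smul_mem l (hY hy)))
        (by rw [φ.Q_add_of_orth (by simp [o hy x xX]), h.Q_smul, x1, e']))]
      exact neg_mem (o (Y.smul_mem l hy))
  refine key _ (X.smul_mem ((c + l * l * -φ.Q y) / (c + l * l * φ.Q y)) xX) _
    (Y.smul_mem (2 * c * l / (c + l * l * φ.Q y)) hy) (smul_ne_zero (div_ne_zero l3 l2) x0)
    (smul_ne_zero (by simp [h2, hc, l1, l2]) y0) ?_
  rw [h.Q_smul, h.Q_smul, x1, div_mul_div_comm, div_mul_div_comm, div_mul_eq_mul_div, div_mul_eq_mul_div,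
    ← add_div, div_eq_iff (mul_ne_zero l2 l2)]
  ring

omit [φ.Nondeg] [FiniteDimensional F V] in
theorem neg_of_line {P : Submodule F V} (hP : φ.NondegOn P) {g : φ.Isom} {u w : V} (hu : u ∈ P) (hw : w ∈ P)
    (h0 : w ≠ 0) (h1 : g.1 u = u + w) (h2 : ∀ v ∈ P, ∃ c : F, g.1 v = v + c • w) : g.1 w = -w := by
  have h3 : ∀ v c, g.1 v = v + c • w → c = 0 ∨ c * φ.Q w + φ.B v w = 0 := fun v c e => by
    have := Isom.Q_map g v
    rw [e, h.Q_add, h.Q_smul, map_smul, smul_eq_mul] at this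
    exact mul_eq_zero.1 (by linear_combination this)
  by_cases hQ : φ.Q w = 0
  · obtain ⟨v, hv, h4⟩ : ∃ v ∈ P, φ.B v w ≠ 0 := by
      by_contra! H; exact h0 (hP w hw fun y hy => φ.B_symm_zero (H y hy))
    have h5 : φ.B u w = 0 := by simpa [hQ] using h3 u 1 (by simpa using h1)
    obtain ⟨c, hc⟩ := h2 v hv
    have h6 := h3 v c hc
    have h7 := h3 (u + v) (1 + c) (by rw [map_add, h1, hc]; module)
    simp_all
  obtain ⟨c, hc⟩ := h2 w hw
  rcases h3 w c hc with rfl | e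
  · have := Isom.B_map g u w
    rw [h1, hc, zero_smul, add_zero, map_add, LinearMap.add_apply, add_eq_left, h.B_self, mul_eq_zero_iff_right hQ] at this
    rw [hc, zero_smul, add_zero, eq_neg_iff_add_eq_zero, ← two_smul F, this, zero_smul]
  · rw [h.B_self, ← add_mul, mul_eq_zero_iff_right hQ] at e
    rw [hc, eq_neg_of_add_eq_zero_left e]; module

theorem exists_pair [Finite F] {W : Submodule F V} (hW : φ.NondegOn W) (h3 : 3 ≤ finrank F W) :
    ∃ b ∈ W, ∃ c ∈ W, φ.Q b ≠ 0 ∧ φ.Q c = φ.Q b ∧ φ.B b c ≠ 0 ∧ c ∉ F ∙ b := by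
  obtain ⟨e, he, he0, hQ⟩ := h.exists_singular h3
  obtain ⟨f, hf, hyp⟩ := exists_hyp_mem hW he he0 hQ
  obtain ⟨w, hw, w1, w2, w3⟩ := h.exists_orth_hyp hW hyp he hf h3
  by_cases h2 : (2 : F) = 0
  · by_contra! H
    refine not_mem_perp hW hw (by rintro rfl; simp at w1) (φ.le_perp_comm.1 (h.le_of_norm (A := φ.perp (F ∙ w)) hW
      (by omega) hw w1 fun y hy e => φ.mem_perp_singleton.2 (by_contra fun e' => ?_))
      (Submodule.mem_span_singleton_self w))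
    obtain ⟨c, rfl⟩ := Submodule.mem_span_singleton.1 (H w hw y hy w1 e e')
    simp [h.B_self, h2] at e'
  refine ⟨w, hw, w + e, add_mem hw he, w1, by simp [h.Q_add, hQ, φ.B_symm_zero w2],
    by simp [h.B_self, φ.B_symm_zero w2, h2, w1], fun e => ?_⟩
  obtain ⟨c, hc⟩ := Submodule.mem_span_singleton.1 e
  simpa [w3, hyp.Bfe, φ.ε_ne_zero.symm] using congrArg (φ.B f) hc

theorem exists_perp_ns [Finite F] {W : Submodule F V} (hW : φ.NondegOn W) (h2 : 2 ≤ finrank F W) {x : V}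
    (hx : 3 ≤ finrank F W ∨ ∀ u ∈ W, ∀ y ∈ φ.perp W, x = u + y → u ≠ 0 → φ.Q u ≠ 0) :
    ∃ b ∈ W, φ.Q b ≠ 0 ∧ φ.B x b = 0 := by
  obtain ⟨u, hu, y, hy, rfl⟩ := hW.split x
  suffices H : ∃ b ∈ W, φ.Q b ≠ 0 ∧ φ.B u b = 0 by
    obtain ⟨b, a1, a2, a3⟩ := H
    exact ⟨b, a1, a2, by simp [a3, φ.mem_perp'.1 hy b a1]⟩
  by_cases u0 : u = 0
  · simpa [u0] using h.exists_Q_ne hW (by rintro rfl; simp at h2)
  by_cases hQ : φ.Q u = 0
  · obtain ⟨f, hf, hyp⟩ := exists_hyp_mem hW hu u0 hQ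
    obtain ⟨w, hw, w1, w2, -⟩ := h.exists_orth_hyp hW hyp hu hf (hx.resolve_right fun e => e u hu y hy rfl u0 hQ)
    exact ⟨w, hw, w1, w2⟩
  by_cases e : φ.B u u = 0
  · exact ⟨u, hu, hQ, e⟩
  have := finrank_le_inf_perp (φ := φ) W (F ∙ u)
  obtain ⟨w, hw, h1⟩ := h.exists_Q_ne (hW.inf_perp (φ.nondegOn_singleton e)
    ((Submodule.span_singleton_le_iff_mem _ _).2 hu)) fun e => by
      rw [finrank_span_singleton u0, e, finrank_bot] at this; omega
  exact ⟨w, hw.1, h1, φ.mem_perp_singleton.1 hw.2⟩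

end IsQuad

/-- products of two reflections permuting the blocks -/
theorem Blk.rank_two (h : φ.Blk D k) (hk : 2 ≤ k) {b c : V} (hb : φ.Q b ≠ 0) (hc : φ.Q c ≠ 0)
    (hx : φ.refl b * φ.refl c ∈ φ.dstab D) (hbc : c ∉ F ∙ b) :
    (∃ i, b ∈ D i) ∨ φ.B b c = 0 ∧ ∃ i j, ∀ m, m ≠ i → m ≠ j → b ∈ φ.perp (D m) := by
  obtain ⟨σ, hσ⟩ := hx
  set x := φ.refl b * φ.refl c with hx
  set W := Submodule.span F {b, c}
  have m1 : ∀ i, ∀ u ∈ D i, x.1 u ∈ D (σ i) := fun i u hu => hσ i ▸ ⟨u, hu, rfl⟩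
  have bW : b ∈ W := Submodule.subset_span (by simp)
  have cW : c ∈ W := Submodule.subset_span (by simp)
  have m2 : ∀ u, x.1 u - u ∈ W := fun u => by
    simp only [hx, Isom.mul_apply, h.q.refl_apply, add_assoc, add_sub_cancel_left]
    exact add_mem (W.smul_mem _ cW) (W.smul_mem _ bW)
  have m3 : ∀ u, x.1 u = u → φ.B b u = 0 := fun u e => by
    rw [hx, ← h.q.refl_inv b, Isom.mul_apply, Isom.inv_apply_eq, h.q.refl_apply, h.q.refl_apply,
      add_right_inj] at e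
    by_cases h1 : φ.B c u = 0
    · simpa [h1, hb, show b ≠ 0 by rintro rfl; simp at hb] using e
    · exact absurd ((Submodule.smul_mem_iff _ (by simp [hc, h1])).1
        (e ▸ Submodule.smul_mem _ _ (Submodule.mem_span_singleton_self b))) hbc
  have m4 : x.1 c = -c → φ.B b c = 0 := fun e => by
    rw [hx, Isom.mul_apply, h.q.refl_self hc, map_neg, neg_inj, h.q.refl_apply] at e
    simpa [hb, show b ≠ 0 by rintro rfl; simp at hb] using e
  have hW : finrank F W ≤ 2 := finrank_span_pair_le b c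
  have o : ∀ {i j m}, m ≠ i → m ≠ j → D i ⊔ D j ≤ φ.perp (D m) := fun a b =>
    sup_le (h.od.orth _ _ a) (h.od.orth _ _ b)
  by_cases H : ∃ j, σ j ≠ j
  · obtain ⟨j, hj⟩ := H
    let f : D j →ₗ[F] W := (((x.1 : V →ₗ[F] V) - LinearMap.id) ∘ₗ (D j).subtype).codRestrict W fun u => m2 u
    have f1 : ∀ u ∈ D j, x.1 u - u ∈ D j → u = 0 := fun u hu e => by
      simpa using h.od.eq_zero_of_mem hj (m1 j u hu) ((D j).sub_mem_iff_left hu |>.1 e)
    have f2 : Function.Injective f := (injective_iff_map_eq_zero f).2 fun u e =>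
      Subtype.ext (f1 u u.2 (by rw [show x.1 u - u = 0 from congrArg Subtype.val e]; exact zero_mem _))
    have f3 : ∀ w ∈ W, ∃ u ∈ D j, x.1 u - u = w := fun w hw => by
      obtain ⟨u, hu⟩ := (LinearMap.injective_iff_surjective_of_finrank_eq_finrank (le_antisymm
        (LinearMap.finrank_le_finrank_of_injective f2) (by rw [h.rk]; omega))).1 f2 ⟨w, hw⟩
      exact ⟨u, u.2, congrArg Subtype.val hu⟩
    have f4 : W ≤ D j ⊔ D (σ j) := fun w hw => by
      obtain ⟨u, hu, rfl⟩ := f3 w hw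
      exact sub_mem (Submodule.mem_sup_right (m1 j u hu)) (Submodule.mem_sup_left hu)
    refine Or.inr ⟨m4 ?_, j, σ j, fun m a b => o a b (f4 bW)⟩
    obtain ⟨u, hu, e⟩ := f3 c cW
    have f5 : x.1 (x.1 u) - u ∈ W := by simpa using add_mem (m2 (x.1 u)) (m2 u)
    have f6 := m1 _ _ (m1 j u hu)
    by_cases e' : σ (σ j) = j
    · obtain ⟨v, hv, e''⟩ := f3 _ f5
      rw [f1 v hv (e'' ▸ sub_mem (e' ▸ f6) hu), map_zero, sub_self, eq_comm, sub_eq_zero] at e''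
      rw [← e, map_sub, e'', neg_sub]
    · have := not_mem_perp (h.od.nondeg _) f6 (by
        rintro e3; simp only [EmbeddingLike.map_eq_zero_iff] at e3; simp [← e, e3] at hc)
      exact absurd ((Submodule.sub_mem_iff_left _ (h.od.orth _ _ e' hu)).1
        (o e' (σ.injective.ne hj) (f4 f5))) this
  push Not at H
  by_cases hS : ∃ i j, i ≠ j ∧ b ∉ φ.perp (D i) ∧ b ∉ φ.perp (D j)
  swap
  · push Not at hS
    obtain ⟨i, hi⟩ : ∃ i, b ∉ φ.perp (D i) := by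
      by_contra! e; simp [h.od.eq_zero e] at hb
    exact Or.inl ⟨i, h.od.mem_of_perp fun j e => hS i j e.symm hi⟩
  obtain ⟨i, j, hij, hi, hj⟩ := hS
  have s : ∀ i, b ∉ φ.perp (D i) → ∃ u ∈ D i, x.1 u - u ∈ D i ∧ x.1 u - u ≠ 0 := fun i hi => by
    rw [mem_perp'] at hi
    push Not at hi
    obtain ⟨u, hu, e⟩ := hi
    exact ⟨u, hu, sub_mem (H i ▸ m1 i u hu) hu, fun e' => e (m3 u (sub_eq_zero.1 e'))⟩
  obtain ⟨u, u1, u2, u3⟩ := s i hi
  obtain ⟨v, v1, v2, v3⟩ := s j hj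
  have li : ∀ {i j} {u v : V}, i ≠ j → u ∈ D i → v ∈ D j → v ≠ 0 → ∀ a b : F, a • u + b • v ∈ D i → b = 0 :=
    fun hij hu hv v0 a b e => by
      simpa [v0] using h.od.eq_zero_of_mem hij ((add_mem_cancel_left ((D _).smul_mem a hu)).1 e) ((D _).smul_mem b hv)
  have e1 : Submodule.span F {x.1 u - u, x.1 v - v} = W := Submodule.eq_of_le_of_finrank_le
    (by rw [Submodule.span_le]; rintro _ (rfl | rfl) <;> exact m2 _)
    (by
      refine hW.trans (finrank_span_pair_of_li (LinearIndependent.pair_iff.2 fun a b e => ?_)).ge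
      have := li hij u2 v2 v3 a b (e ▸ zero_mem _)
      exact ⟨by simpa [this, u3] using e, this⟩)
  have e2 := h.q.neg_of_line (h.od.nondeg i) (g := x) u1 u2 u3 (by simp) fun z hz => by
    obtain ⟨a, b, e⟩ := Submodule.mem_span_pair.1 (e1 ▸ m2 z)
    rw [li hij u2 v2 v3 a b (e ▸ sub_mem (H i ▸ m1 i z hz) hz), zero_smul, add_zero] at e
    exact ⟨a, by rw [e]; abel⟩
  have e3 := h.q.neg_of_line (h.od.nondeg j) (g := x) v1 v2 v3 (by simp) fun z hz => by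
    obtain ⟨a, b, e⟩ := Submodule.mem_span_pair.1 (e1 ▸ m2 z)
    rw [li hij.symm v2 u2 u3 b a (by rw [add_comm, e]; exact sub_mem (H j ▸ m1 j z hz) hz), zero_smul, zero_add] at e
    exact ⟨b, by rw [e]; abel⟩
  refine Or.inr ⟨m4 ?_, i, j, fun m a b => o a b ?_⟩
  · obtain ⟨a, b, e⟩ := Submodule.mem_span_pair.1 (e1 ▸ cW)
    rw [← e, map_add, map_smul, map_smul, e2, e3]; module
  · obtain ⟨a, b, e⟩ := Submodule.mem_span_pair.1 (e1 ▸ bW)
    exact e ▸ Submodule.add_mem_sup ((D i).smul_mem a u2) ((D j).smul_mem b v2)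

namespace Blk
variable [Finite F] [Finite κ] (h : φ.Blk D k) (ir : ∀ i, φ.IR (D i)) (ok : φ.Ok D k) {M : Subgroup φ.Isom}
  (hM : φ.E ⊓ φ.dstab D ≤ M) (hM' : M ≤ φ.E) (hE : ¬ φ.E ≤ M)
include h ir ok hM hM' hE

omit h ir hM hM' hE [φ.Nondeg] [FiniteDimensional F V] [Finite F] [Finite κ] in
theorem _root_.H10.Form.Ok.two_le : 2 ≤ k := by rcases ok with e | ⟨-, e | e⟩ <;> omega

theorem star {g : φ.Isom} (hg : g ∈ M) {i j : κ} {a : V} (ha : a ∈ D i) (hQ : φ.Q a ≠ 0) (hj : g.1 a ∈ D j) :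
    g ∈ φ.dstab D := by
  have r1 := h.q.refl_mul_self a
  have r2 := h.refl_mem ha
  set L := rex M _ r1
  have h1 : φ.E ⊓ φ.dstab D ≤ L := fun x hx => Or.inl ⟨hM hx, hM ⟨by
    simpa [h.q.refl_inv] using φ.E_normal.conj_mem x hx.1 (φ.refl a), mul_mem (mul_mem r2 hx.2) r2⟩⟩
  have h2 : Rf L a := ⟨hQ, Or.inr (by simp [r1])⟩
  have h3 : ∀ g ∈ L, g ∈ φ.E ∨ g * φ.refl a ∈ φ.E := fun g hg => hg.imp (fun e => hM' e.1) fun e => hM' e.1
  have h4 : g ∈ L := Or.inl ⟨hg, by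
    have := mul_mem (hM ⟨h.rr_mem (b := g.1 a) hQ (by simpa) (by simp), mul_mem r2 (h.refl_mem hj)⟩) hg
    rwa [← h.q.refl_conj, ← mul_assoc, ← mul_assoc, inv_mul_cancel_right] at this⟩
  have h5 : ¬ φ.E ≤ L := fun e => hE fun x hx => (e hx).elim And.left fun e =>
    (h.refl_not_mem hQ ((φ.E.mul_mem_cancel_left hx).1 (hM' e.1))).elim
  have h6 : ∀ l, ∀ b ∈ D l, φ.Q b = φ.Q a → ∃ m, g.1 b ∈ D m := fun l b hb e => by
    by_contra! H
    exact h5 (h.thmG ir ok h1 ha h2 h3 ((h.rf h1 h2 r2 (h.refl_mem hb) (e ▸ hQ) (by rw [e])).map h.q h4) H)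
  refine h.od.mem_dstab_of_le h.rk (by have := ok.two_le; omega) fun l => ?_
  obtain ⟨b, hb, b0, b1⟩ := h.exists_eq ha (by rintro rfl; simp at hQ) l
  obtain ⟨m, hm⟩ := h6 l b hb b1
  rcases ir l _ hQ ((D m).comap (g.1 : V →ₗ[F] V)) ((φ.perp (D m)).comap (g.1 : V →ₗ[F] V))
    (fun y hy x hx => by rw [← Isom.B_map g]; exact hy _ hx) fun x hx e => by
      obtain ⟨n, hn⟩ := h6 l x hx e
      by_cases e : m = n
      · exact Or.inl (e ▸ hn)
      · exact Or.inr (h.od.orth m n e hn) with e | e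
  · exact ⟨m, Submodule.map_le_iff_le_comap.2 e⟩
  · exact absurd (e hb) (not_mem_perp (h.od.nondeg m) hm (by simpa using b0))

theorem star' (h2 : k = 2) (hq : 4 ≤ Nat.card F) (ht : ∀ i j : κ, ∃ l, l ≠ i ∧ l ≠ j) {g : φ.Isom} (hg : g ∈ M)
    {i : κ} {p : V} (hp : p ∈ D i) (hp0 : p ≠ 0) (hgp : g.1 p = p) : g ∈ φ.dstab D := by
  by_cases hQ : φ.Q p = 0
  swap; · exact h.star ir ok hM hM' hE hg hp hQ (hgp.symm ▸ hp)
  obtain ⟨f, hf, hyp⟩ := exists_hyp_mem (h.od.nondeg i) hp hp0 hQ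
  obtain ⟨s, s1, s2, s3⟩ := exists_siegel_map (φ := φ) (y := f) (z := g.1 f) hQ (by simp)
    (by rw [← hgp, Isom.B_map, hgp]) (by simp [hyp.Bef])
  rw [h.q.T_eq] at s2
  obtain ⟨u, hu, z, hz, e⟩ := (h.od.nondeg i).split ((φ.ε / φ.B p f) • (f - g.1 f))
  rw [s2, e] at s3
  rw [e, map_add, hz p hp, add_zero] at s1
  obtain ⟨d, rfl⟩ := plane_mem (h2 ▸ h.rk i) (not_mem_perp (h.od.nondeg i) hp hp0) hp hp0 hyp.Bee hu s1
  rw [← sg, add_comm, h.q.sg_add_self hQ (hz p hp)] at s3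
  obtain ⟨c, hc, hc'⟩ := exists_sq_ne hq (one_ne_zero (α := F)) (-1)
  have hF : φ.E ⊓ φ.fix (φ.perp (D i)) ≤ M := (inf_le_inf_left _ (h.od.fix_perp_le i)).trans hM
  have r := fun c hc => hF (h.rot_mem hyp hp hf (c := c) hc)
  have c2 := mul_ne_zero hc hc
  have h1 := mul_mem (mul_mem (mul_mem hg (r c hc)) (inv_mem hg)) (inv_mem (r c hc))
  have h3 := φ.rot_conj (φ.sg p z) hyp c2
  rw [s3, show (φ.sg p z).1 p = p from siegel_apply_self hQ (hz p hp) (h.q.T_eq _)] at h3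
  rw [φ.rot_conj g hyp c2, hgp, ← h3, h.q.sg_inv hQ (hz p hp), mul_assoc, mul_assoc, ← mul_assoc (φ.rot _ _ _),
    h.q.sg_conj hQ (by simp [hz p hp]), φ.rot_apply_e hyp c2, (h.rot_mem hyp hp hf hc).2 _ (neg_mem hz),
    h.q.sg_smul hQ (by simp [hz p hp]), h.q.sg_mul hQ (hz p hp) (by simp [hz p hp]),
    show z + (c * c) • -z = (1 + c * c * -1) • z by module] at h1
  have h4 := (Submodule.smul_mem_iff _ hc').1 (h.q.ss_of_rot hyp r (by simp [hz p hp]) (by simp [hz f hf]) h1)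
  have h5 : z = 0 := h.od.nondeg i z (by_contra fun e => hE (h.lemB ok.two_le ir (Or.inr ht) hM hp hp0 h4 e))
    (φ.mem_perp'.1 hz)
  rw [h5, ← zero_smul F p, h.q.sg_self hQ, Isom.one_apply] at s3
  exact h.star ir ok hM hM' hE hg (add_mem hp hf) (by simp [h.q.Q_add, hQ, hyp.Qf, hyp.Bef])
    (by rw [map_add, hgp, ← s3]; exact add_mem hp hf)

theorem two_refl {g : φ.Isom} (hg : g ∈ M) (hg' : g ∉ φ.dstab D) {a : V}
    (ha : ∀ x ∈ M, x.1 a = a → x ∈ φ.dstab D) {i j : κ} {b c : V} (hb : b ∈ D i) (hc : c ∈ D j)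
    (b1 : φ.Q b ≠ 0) (c1 : φ.Q c ≠ 0) (e : chi (φ.Q b) = chi (φ.Q c)) (hbc : c ∉ F ∙ b)
    (b2 : φ.B (g.1 a) b = 0) (c2 : φ.B (g.1 a) c = 0) :
    φ.B b c = 0 ∧ ∃ i j, ∀ m, m ≠ i → m ≠ j → (g⁻¹).1 b ∈ φ.perp (D m) := by
  have h1 := ha _ (mul_mem (mul_mem (inv_mem hg) (hM ⟨h.rr_mem b1 c1 e, mul_mem (h.refl_mem hb) (h.refl_mem hc)⟩)) hg)
    (by simp only [Isom.mul_apply, h.q.refl_of_orth (φ.B_symm_zero b2), h.q.refl_of_orth (φ.B_symm_zero c2),
      Isom.inv_apply_apply])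
  rw [show ∀ x y : φ.Isom, g⁻¹ * (x * y) * g = g⁻¹ * x * g⁻¹⁻¹ * (g⁻¹ * y * g⁻¹⁻¹) from fun x y => by group,
    h.q.refl_conj, h.q.refl_conj] at h1
  rcases h.rank_two ok.two_le (by rwa [Isom.Q_map]) (by rwa [Isom.Q_map]) h1 fun e => hbc (by
    obtain ⟨d, hd⟩ := Submodule.mem_span_singleton.1 e
    exact Submodule.mem_span_singleton.2 ⟨d, (g⁻¹).1.injective (by rwa [map_smul])⟩) with ⟨m, e⟩ | e
  · exact absurd (inv_mem (h.star ir ok hM hM' hE (inv_mem hg) hb b1 e)) (by simpa using hg')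
  · rwa [Isom.B_map] at e

theorem not_perp {g : φ.Isom} (hg : g ∈ M) (hg' : g ∉ φ.dstab D) {a : V}
    (ha : ∀ x ∈ M, x.1 a = a → x ∈ φ.dstab D) (m : κ) : g.1 a ∉ φ.perp (D m) := fun e => by
  have := ok.two_le
  obtain ⟨b, hb, b1⟩ := h.q.exists_Q_eq (h.od.nondeg m) (by rwa [h.rk]) 1
  obtain ⟨c, hc, c1, c2, c3⟩ := (ir m).ex (h.od.nondeg m) (by rwa [h.rk]) hb (by rintro rfl; simp at b1) one_ne_zero
  exact c2 (h.two_refl ir ok hM hM' hE hg hg' ha hb hc (by simp [b1]) (by simp [c1]) (by rw [b1, c1]) c3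
    (φ.mem_perp'.1 e b hb) (φ.mem_perp'.1 e c hc)).1

theorem le_dstab [Nonempty κ] : M ≤ φ.dstab D := fun g hg => by
  by_contra hg'
  have hk := ok.two_le
  have fx : ∀ i, ∀ a ∈ D i, φ.Q a ≠ 0 → ∀ x ∈ M, x.1 a = a → x ∈ φ.dstab D := fun i a ha a1 x hx e =>
    h.star ir ok hM hM' hE hx ha a1 (e.symm ▸ ha)
  obtain ⟨i⟩ := ‹Nonempty κ›
  obtain ⟨a, ha, a1⟩ := h.q.exists_Q_eq (h.od.nondeg i) (by rwa [h.rk]) 1
  have key : (∀ i j : κ, ∃ l, l ≠ i ∧ l ≠ j) → ∀ a, (∀ x ∈ M, x.1 a = a → x ∈ φ.dstab D) → ∀ i j l : κ, i ≠ j → i ≠ l →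
      j ≠ l → (∀ m, m = i ∨ m = j ∨ m = l → ∃ b ∈ D m, φ.Q b ≠ 0 ∧ φ.B (g.1 a) b = 0) → False :=
    fun ht a ha i j l e1 e2 e3 H => by
      have : ∀ i j, i ≠ j → ∀ b ∈ D i, ∀ c ∈ D j, φ.Q b ≠ 0 → φ.Q c ≠ 0 → φ.B (g.1 a) b = 0 → φ.B (g.1 a) c = 0 →
          chi (φ.Q b) ≠ chi (φ.Q c) := fun i j hij b hb c hc b1 c1 b2 c2 e => by
        obtain ⟨-, r, s, H⟩ := h.two_refl ir ok hM hM' hE hg hg' ha hb hc b1 c1 e (fun e => c1 (by
          rw [h.od.eq_zero_of_mem hij ((Submodule.span_singleton_le_iff_mem _ _).2 hb e) hc, Q_zero])) b2 c2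
        obtain ⟨m, m1, m2⟩ := ht r s
        exact h.not_perp ir ok hM hM' hE (inv_mem hg) (by simpa using hg') (fx i b hb b1) m (H m m1 m2)
      obtain ⟨b, b1, b2, b3⟩ := H i (by simp)
      obtain ⟨c, c1, c2, c3⟩ := H j (by simp)
      obtain ⟨d, d1, d2, d3⟩ := H l (by simp)
      have t1 := this i j e1 b b1 c c1 b2 c2 b3 c3
      have t2 := this i l e2 b b1 d d1 b2 d2 b3 d3
      have t3 := this j l e3 c c1 d d1 c2 d2 c3 d3
      rcases Int.units_eq_one_or (chi (φ.Q b)) with e | e <;> rcases Int.units_eq_one_or (chi (φ.Q c)) with e' | e' <;>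
        rcases Int.units_eq_one_or (chi (φ.Q d)) with e'' | e'' <;> simp_all
  have key' : (∀ i j : κ, ∃ l, l ≠ i ∧ l ≠ j) → (3 ≤ k ∨ ∀ i, ∀ v ∈ D i, φ.Q v = 0 → v = 0) → False := fun ht H => by
    obtain ⟨j, j1, -⟩ := ht i i
    obtain ⟨l, l1, l2⟩ := ht i j
    exact key ht a (fx i a ha (by simp [a1])) i j l j1.symm l1.symm l2.symm fun m _ =>
      h.q.exists_perp_ns (h.od.nondeg m) (by rwa [h.rk]) (H.imp (by rw [h.rk]; exact id)
        fun H u hu _ _ _ u0 => mt (H m u hu) u0)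
  rcases id ok with ⟨h4, h5 | ht⟩ | ⟨ht, e⟩
  · obtain ⟨u, hu, y, hy, e⟩ := (h.od.nondeg i).split (g.1 a)
    obtain ⟨P, p1, p2, p3, p4⟩ : ∃ P, φ.NondegOn P ∧ P ≤ D i ∧ u ∈ P ∧ finrank F P ≤ 2 := by
      by_cases u0 : u = 0
      · exact ⟨⊥, fun x hx _ => hx, bot_le, u0, by simp⟩
      by_cases u1 : φ.B u u = 0
      · obtain ⟨z, hz, z1⟩ : ∃ z ∈ D i, φ.B u z ≠ 0 := by
          by_contra! H; exact u0 (h.od.nondeg i u hu H)
        exact ⟨_, φ.nondegOn_pair (e := u) (f := z) (by simp [u1, z1, h.q.B_comm z u]), by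
          rw [Submodule.span_le]; rintro y (rfl | rfl) <;> assumption, Submodule.subset_span (by simp),
          finrank_span_pair_le _ _⟩
      · exact ⟨_, φ.nondegOn_singleton u1, (Submodule.span_singleton_le_iff_mem _ _).2 hu,
          Submodule.mem_span_singleton_self u, (finrank_span_singleton_le u).trans one_le_two⟩
    have := finrank_le_inf_perp (φ := φ) (D i) P
    obtain ⟨b, hb, c, hc, b1, b2, b3, b4⟩ := h.q.exists_pair ((h.od.nondeg i).inf_perp p1 p2) (by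
      rw [h.rk] at this; omega)
    exact b3 (h.two_refl ir ok hM hM' hE hg hg' (fx i a ha (by simp [a1])) hb.1 hc.1 b1 (b2 ▸ b1) (by rw [b2]) b4
      (by simp [e, hb.2 u p3, φ.mem_perp'.1 hy b hb.1]) (by simp [e, hc.2 u p3, φ.mem_perp'.1 hy c hc.1])).1
  · exact key' ht (Or.inl (by omega))
  have ht' : ∀ i j : κ, ∃ l, l ≠ i ∧ l ≠ j := fun i j => (ht i j j).imp fun l e => ⟨e.1, e.2.1⟩
  rcases e with e | ⟨h2, ⟨hs, hq⟩ | e⟩
  · exact key' ht' (Or.inl e.1.ge)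
  swap; · exact key' ht' (Or.inr e.1)
  have fx' : ∀ a ∈ D i, a ≠ 0 → ∀ x ∈ M, x.1 a = a → x ∈ φ.dstab D := fun a ha a0 x hx e =>
    h.star' ir ok hM hM' hE h2 (by omega) ht' hx ha a0 e
  obtain ⟨e, he, he0, hQ⟩ := hs i
  obtain ⟨f, hf, hyp⟩ := exists_hyp_mem (h.od.nondeg i) he he0 hQ
  have n0 : ∀ s t : F, s • e + t • f = 0 → s = 0 ∧ t = 0 := LinearIndependent.pair_iff.1 hyp.li
  have pol : ∀ m, ∃ P : F[X], P ≠ 0 ∧ P.natDegree ≤ 2 ∧ ∀ t : F, P.eval t ≠ 0 → ∀ u ∈ D m, ∀ y ∈ φ.perp (D m),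
      g.1 (e + t • f) = u + y → φ.Q u ≠ 0 := fun m => by
    obtain ⟨u, hu, y, hy, e1⟩ := (h.od.nondeg m).split (g.1 e)
    obtain ⟨v, hv, z, hz, e2⟩ := (h.od.nondeg m).split (g.1 f)
    refine ⟨C (φ.Q v) * X ^ 2 + C (φ.B u v) * X + C (φ.Q u), fun e3 => ?_, by compute_degree,
      fun t ht w hw x hx e3 e4 => ht ?_⟩
    · have li : LinearIndependent F ![u, v] := LinearIndependent.pair_iff.2 fun s t e4 => by
        by_contra e5
        refine h.not_perp ir ok hM hM' hE hg hg' (fx' _ (add_mem ((D i).smul_mem s he) ((D i).smul_mem t hf))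
          fun e => e5 (n0 s t e)) m ?_
        rw [map_add, map_smul, map_smul, e1, e2, show s • (u + y) + t • (v + z) = s • u + t • v + (s • y + t • z) by
          module, e4, zero_add]
        exact add_mem (Submodule.smul_mem _ _ hy) (Submodule.smul_mem _ _ hz)
      have e4 : Submodule.span F {u, v} = D m := Submodule.eq_of_le_of_finrank_le (by
        rw [Submodule.span_le]; rintro y (rfl | rfl) <;> assumption) (by rw [finrank_span_pair_of_li li, h.rk, h2])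
      have q1 : φ.Q u = 0 := by simpa using congrArg (coeff · 0) e3
      have q2 : φ.B u v = 0 := by simpa using congrArg (coeff · 1) e3
      refine li.ne_zero 0 (h.od.nondeg m u hu fun x hx => ?_)
      obtain ⟨s, t, rfl⟩ := Submodule.mem_span_pair.1 (e4 ▸ hx)
      simp [q2, φ.B_self_eq_zero q1]
    · rw [map_add, map_smul, e1, e2] at e3
      have e5 : w - (u + t • v) = y + t • z - x := by linear_combination (norm := module) -e3
      have e6 := h.od.nondeg m _ (sub_mem hw (add_mem hu ((D m).smul_mem t hv))) (φ.mem_perp'.1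
        (e5 ▸ sub_mem (add_mem hy (Submodule.smul_mem _ t hz)) hx))
      rw [sub_eq_zero.1 e6, h.q.Q_add, h.q.Q_smul, map_smul, smul_eq_mul] at e4
      simp only [eval_add, eval_mul, eval_C, eval_pow, eval_X]
      linear_combination e4
  obtain ⟨j, j1, -⟩ := ht' i i
  obtain ⟨l, l1, l2⟩ := ht' i j
  choose P P0 P1 P2 using pol
  obtain ⟨t, ht⟩ := exists_not_root (P i * P j * P l) (by simp [P0]) (by
    have := P1 i; have := P1 j; have := P1 l
    rw [natDegree_mul (by simp [P0]) (P0 l), natDegree_mul (P0 i) (P0 j)]; omega)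
  simp only [eval_mul, mul_ne_zero_iff] at ht
  refine key ht' _ (fx' _ (add_mem he ((D i).smul_mem t hf)) fun e => one_ne_zero (n0 1 t (by simpa)).1) i j l
    j1.symm l1.symm l2.symm fun m hm => h.q.exists_perp_ns (h.od.nondeg m) (by rwa [h.rk])
      (Or.inr fun u hu y hy e _ => P2 m t ?_ u hu y hy e)
  rcases hm with rfl | rfl | rfl
  exacts [ht.1.1, ht.1.2, ht.2]

end Blk
end Form

section gl
open Matrix Cfsg Cfsg.Geo
variable {ι : Type} [Fintype ι] [DecidableEq ι] {F : Type*} [Field F] [Finite F]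
  {Q : QuadraticForm F (ι → F)} [(Form.ofQuad Q).Nondeg] {t k : ℕ} {D : Fin t → Submodule F (ι → F)}

omit [Finite F] [(Form.ofQuad Q).Nondeg] in
theorem blk_of (hn : 5 ≤ Fintype.card ι) (hD : IsOrthogonalMDecomposition Q k D) : (Form.ofQuad Q).Blk D k :=
  ⟨Form.isQuad_ofQuad Q, oDec_of (fun _ _ => Or.inl rfl) (fun _ _ => (Form.ofQuad Q).B_eq_zero_comm) hD.decomp,
    hD.decomp.decomp.finrank_eq, fun i j => (hD.isometric i j).imp fun _ he =>
      ((Form.isQuad_ofQuad Q).restrict _).isEquiv ((Form.isQuad_ofQuad Q).restrict _) he, by simpa⟩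

omit [Finite F] [(Form.ofQuad Q).Nondeg] [DecidableEq ι] in
theorem card_eq_of_dec {D : Fin t → Submodule F (ι → F)} (hD : IsMDecomposition k D) : Fintype.card ι = t * k := by
  classical
  have := (DirectSum.isInternal_submodule_of_iSupIndep_of_iSup_eq_top hD.indep hD.iSup_eq_top)
  have h := (LinearEquiv.ofBijective (DirectSum.coeLinearMap D) this).finrank_eq
  simp [finrank_directSum, hD.finrank_eq] at h
  exact h.symm

theorem isMaximalIn_dec_quad (hn : 5 ≤ Fintype.card ι) (hD : IsOrthogonalMDecomposition Q k D)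
    (ir : ∀ i, (Form.ofQuad Q).IR (D i)) (ok : (Form.ofQuad Q).Ok D k) :
    IsMaximalIn (omegaGL Q) (decompositionStabilizer D ⊓ omegaGL Q) := by
  have h := blk_of hn hD
  have ht := hD.decomp.decomp.two_le
  have : Nonempty (Fin t) := ⟨⟨0, by omega⟩⟩
  have hk := ok.two_le
  rw [omegaGL_eq_E _ hn]
  refine isMaximalIn_map _ ?_ fun M hM g hg hg1 hg2 => ?_
  · rw [comap_decompositionStabilizer]
    obtain ⟨i, j, hij⟩ : ∃ i j : Fin t, i ≠ j := ⟨⟨0, by omega⟩, ⟨1, by omega⟩, by simp⟩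
    obtain ⟨u, hu, u1⟩ := h.q.exists_Q_eq (h.od.nondeg i) (by rwa [h.rk]) 1
    have u0 : u ≠ 0 := by rintro rfl; simp at u1
    obtain ⟨v, hv, v0, y, y1, y2, e⟩ : ∃ v ∈ D j, v ≠ 0 ∧ ∃ y ∈ (Form.ofQuad Q).perp (D i),
        y ∈ (Form.ofQuad Q).perp (D j) ∧ (Form.ofQuad Q).Q v + (Form.ofQuad Q).Q y = 0 := by
      by_cases h3 : 3 ≤ k
      · obtain ⟨v, hv, v0, e⟩ := h.q.exists_singular (W := D j) (by rwa [h.rk])
        exact ⟨v, hv, v0, 0, zero_mem _, zero_mem _, by rw [e, Form.Q_zero, add_zero]⟩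
      obtain ⟨l, l1, l2, -⟩ := (ok.resolve_left fun e => h3 (by omega)).1 i j j
      obtain ⟨v, hv, v0, -⟩ := h.exists_eq hu u0 j
      obtain ⟨y, hy, e⟩ := h.q.exists_Q_eq (h.od.nondeg l) (by rwa [h.rk]) (-(Form.ofQuad Q).Q v)
      exact ⟨v, hv, v0, y, h.od.orth _ _ l1.symm hy, h.od.orth _ _ l2.symm hy, by rw [e, add_neg_cancel]⟩
    have a1 := add_mem (h.od.orth _ _ hij hv) y1
    have a2 := add_mem (h.od.orth _ _ hij.symm hu) y2
    have h1 : ∀ m, u + (v + y) ∉ D m := fun m hm => by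
      by_cases e : i = m
      · exact Form.not_mem_perp (h.od.nondeg j) hv v0 ((add_mem_cancel_left a2).1
          (by simpa [add_comm, add_left_comm] using h.od.orth j m (e ▸ hij.symm) hm))
      · exact Form.not_mem_perp (h.od.nondeg i) hu u0 ((add_mem_cancel_right a1).1 (h.od.orth i m e hm))
    obtain ⟨g, hg, hg'⟩ := h.std.exists_E_map h.n5 u0 (v := u + (v + y)) (fun e => h1 i (e ▸ zero_mem _)) (by
      rw [Form.Q_add_of_orth _ (a1 u hu), Form.Q_add_of_orth _ (y2 v hv), e, add_zero])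
    intro h0
    obtain ⟨σ, hσ⟩ := h0 hg
    exact h1 _ (hg' ▸ (hσ i).le (Submodule.mem_map_of_mem hu))
  · rw [comap_decompositionStabilizer] at hM
    by_contra hE
    exact hg2 ((comap_decompositionStabilizer D).ge (h.le_dstab ir ok (M := M ⊓ (Form.ofQuad Q).E)
      (le_inf hM inf_le_left) inf_le_right (fun e => hE (e.trans inf_le_left)) ⟨hg, hg1⟩))

omit [(Form.ofQuad Q).Nondeg] in
/-- stabilisers of isometric orthogonal decompositions with blocks of dimension `≥ 2` -/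
theorem isMaximalIn_dec_om {Q : (ι → F) → F} (hQ : IsNondegenerateQuadraticForm Q) (hn : 10 ≤ Fintype.card ι)
    (hk : 2 ≤ k) (hD : IsOrthogonalMDecomposition Q k D)
    (hex : ¬ ((k = 2 ∧ (Nat.card F = 3 ∨ (∀ i, IsPlusTypeOn Q (D i)) ∧ (Nat.card F = 2 ∨ Nat.card F = 4 ∨
      Nat.card F = 5))) ∨ (k = 3 ∧ Nat.card F = 3) ∨ (k = 4 ∧ Nat.card F = 2 ∧ ∀ i, IsPlusTypeOn Q (D i)))) :
    IsMaximalIn (omegaGL Q) (decompositionStabilizer D ⊓ omegaGL Q) := by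
  obtain ⟨Q, rfl, _⟩ := exists_ofQuad hQ
  have h := blk_of (by omega) hD
  have ht := hD.decomp.decomp.two_le
  have hc := card_eq_of_dec hD.decomp.decomp
  have hq := Finite.one_lt_card (α := F)
  have pl : ∀ a, k = 2 * a → ∀ i, ((Form.ofQuad Q).restrict (D i)).HasTS a → ∀ j, IsPlusTypeOn Q (D j) :=
    fun a e i H j => (isPlusTypeOn_iff ((h.rk j).trans e)).2 ((h.iso i j).elim fun _ he => he.hasTS H)
  have c3 : k = 3 → 4 ≤ Nat.card F := fun e => by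
    obtain ⟨i⟩ : Nonempty (Fin t) := ⟨⟨0, by omega⟩⟩
    have := (h.od.nondeg i).nondeg
    obtain ⟨r, hr⟩ := odd_card_iff.2 ((h.q.restrict (D i)).two_ne_zero_of_odd (by rw [h.rk, e]; decide))
    have : Nat.card F ≠ 3 := fun a => hex (Or.inr (Or.inl ⟨e, a⟩))
    omega
  have c2 : k = 2 → ((∀ i, ∃ v ∈ D i, v ≠ 0 ∧ (Form.ofQuad Q).Q v = 0) ∧ 7 ≤ Nat.card F) ∨
      (∀ i, ∀ v ∈ D i, (Form.ofQuad Q).Q v = 0 → v = 0) ∧ Nat.card F ≠ 3 := fun e => by
    by_cases H : ∀ i, ∀ v ∈ D i, (Form.ofQuad Q).Q v = 0 → v = 0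
    · exact Or.inr ⟨H, fun a => hex (Or.inl ⟨e, Or.inl a⟩)⟩
    push Not at H
    obtain ⟨i, v, hv, v1, v0⟩ := H
    have p := pl 1 e i (Form.hasTS_one_iff.2 ⟨⟨v, hv⟩, fun e => v0 (congrArg Subtype.val e), v1⟩)
    have := Fintype.ofFinite F
    have h6 : Nat.card F ≠ 6 := fun e => absurd (FiniteField.isPrimePow_card F) (by
      rw [← Nat.card_eq_fintype_card, e]; decide)
    refine Or.inl ⟨fun j => ?_, by
      by_contra a; exact hex (Or.inl ⟨e, by by_cases b : Nat.card F = 3 <;> [exact Or.inl b; exact Or.inr ⟨p, by omega⟩]⟩)⟩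
    obtain ⟨w, w0, w1⟩ := Form.hasTS_one_iff.1 ((isPlusTypeOn_iff (k := 1) ((h.rk j).trans e)).1 (p j))
    exact ⟨w, w.2, fun e => w0 (Subtype.ext e), w1⟩
  have a3 : 3 ≤ t → ∀ i j : Fin t, ∃ l, l ≠ i ∧ l ≠ j := fun e i j => by
    by_contra! H
    have := Finset.card_le_card (s := Finset.univ) (t := {i, j}) fun l _ => by have := H l; simp; tauto
    have := Finset.card_le_two (a := i) (b := j)
    simp at *; omega
  have a4 : 4 ≤ t → ∀ i j l : Fin t, ∃ m, m ≠ i ∧ m ≠ j ∧ m ≠ l := fun e i j m => by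
    by_contra! H
    have := Finset.card_le_card (s := Finset.univ) (t := {i, j, m}) fun l _ => by
      have := H l; simp; tauto
    have := Finset.card_le_three (a := i) (b := j) (c := m)
    simp at *; omega
  refine isMaximalIn_dec_quad (by omega) hD (fun i => h.q.ir (h.od.nondeg i) ?_) ?_
  · rw [h.rk]
    rcases (by omega : k = 2 ∨ k = 3 ∨ 4 ≤ k) with e | e | e
    · exact Or.inr (Or.inr ⟨e, (c2 e).imp And.right fun e => ⟨e.1 i, e.2⟩⟩)
    · exact Or.inr (Or.inl ⟨e, c3 e⟩)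
    · exact Or.inl ⟨e, fun e => hex (Or.inr (Or.inr ⟨e.1, e.2.1, pl 2 e.1 i e.2.2⟩))⟩
  rcases (by omega : k = 2 ∨ k = 3 ∨ k = 4 ∨ 5 ≤ k) with e | e | e | e
  · exact Or.inr ⟨a4 (by subst e; omega), Or.inr ⟨e, c2 e⟩⟩
  · exact Or.inr ⟨a4 (by subst e; omega), Or.inl ⟨e, c3 e⟩⟩
  · exact Or.inl ⟨e.ge, Or.inr (a3 (by subst e; omega))⟩
  · exact Or.inl ⟨by omega, Or.inl e⟩

omit [DecidableEq ι] [Fintype ι] [Finite F] [(Form.ofQuad Q).Nondeg] in
theorem quadFormOdd_nondeg {m : ℕ} (h2 : (2 : F) ≠ 0) : IsNondegenerateQuadraticForm (quadFormOdd m F) := by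
  have := qOdd_nondeg (m := m) h2
  refine ⟨fun c v => by rw [← coe_qOdd, QuadraticMap.map_smul, sq, smul_eq_mul], coe_qOdd m F ▸
    ⟨fun x y z => QuadraticMap.polar_add_left _ x y z, fun c x y => QuadraticMap.polar_smul_left _ c x y,
      fun x y z => QuadraticMap.polar_add_right _ x y z, fun c x y => QuadraticMap.polar_smul_right _ c x y⟩,
    fun v hv => ?_⟩
  obtain ⟨y, hy⟩ := (Form.ofQuad (qOdd m F)).exists_B_ne_zero hv
  exact ⟨⟨y, by rwa [QuadraticMap.polar_comm]⟩, y, hy⟩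

end gl
end H10
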