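import Mathlib
import Cfsg.Agent.H10.DcE

/-! # Orthogonal decompositions into three isometric 3-spaces -/

namespace H10

open Module Polynomial

theorem conic {F : Type*} [Field F] [Finite F] (h2 : (2 : F) ≠ 0) {a b : F} (ha : a ≠ 0) (hb : b ≠ 0) {c : F} (hc : c ≠ 0)
    (h : 5 ≤ Nat.card F) : ∃ t m s : F, m ≠ 0 ∧ s ≠ 0 ∧ t * t * a + m * m * b = s * s * c ∧ (7 ≤ Nat.card F → t ≠ 0) := by
  have := Fintype.ofFinite F
  obtain ⟨x, y, e⟩ := FiniteField.exists_root_sum_quadratic (f := C a * X ^ 2) (g := C b * X ^ 2 - C c)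
    (by compute_degree!) (by compute_degree!) (by rw [← Nat.card_eq_fintype_card]; exact Nat.odd_iff.1 (odd_card_iff.2 h2))
  simp only [eval_mul, eval_C, eval_pow, eval_X, eval_sub] at e
  have n : ∀ {u v w : F}, (u ≠ 0 ∨ v ≠ 0) → (C w * X ^ 2 + C v * X + C u : F[X]) ≠ 0 := fun h e =>
    h.elim (· (by simpa using congrArg (coeff · 0) e)) (· (by simpa using congrArg (coeff · 1) e))
  have o : x ≠ 0 ∨ y ≠ 0 := by by_contra! H; simp [H, hc] at e
  have n1 := n (u := a) (v := 0) (w := b) (.inl ha)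
  have n2 := n (u := a * y) (v := -2 * a * x) (w := -b * y) (by simpa [ha, h2] using o.symm)
  have n3 := n (u := -a * x) (v := -2 * b * y) (w := b * x) (by simpa [ha, hb, h2] using o)
  have key : ∀ l : F, (b * x * l ^ 2 + -2 * b * y * l + -a * x) * (b * x * l ^ 2 + -2 * b * y * l + -a * x) * a +
      (-b * y * l ^ 2 + -2 * a * x * l + a * y) * (-b * y * l ^ 2 + -2 * a * x * l + a * y) * b =
      (b * l ^ 2 + 0 * l + a) * (b * l ^ 2 + 0 * l + a) * c := fun l => by linear_combination (b * l ^ 2 + a) ^ 2 * e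
  by_cases h7 : 7 ≤ Nat.card F
  · obtain ⟨l, hl⟩ := exists_not_root _ (mul_ne_zero (mul_ne_zero n1 n2) n3) (lt_of_le_of_lt (by compute_degree) (by omega : 6 < _))
    simp only [eval_mul, eval_add, eval_C, eval_pow, eval_X, mul_ne_zero_iff] at hl
    exact ⟨_, _, _, hl.1.2, hl.1.1, key l, fun _ => hl.2⟩
  · obtain ⟨l, hl⟩ := exists_not_root _ (mul_ne_zero n1 n2) (lt_of_le_of_lt (by compute_degree) (by omega : 4 < _))
    simp only [eval_mul, eval_add, eval_C, eval_pow, eval_X, mul_ne_zero_iff] at hl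
    exact ⟨_, _, _, hl.2, hl.1, key l, fun e => absurd e h7⟩

theorem seven_le {F : Type*} [Field F] [Finite F] (h2 : (2 : F) ≠ 0) (h : 5 ≤ Nat.card F) {x : F} (e : x * x = 2) :
    7 ≤ Nat.card F := by
  have := Fintype.ofFinite F
  obtain ⟨c, o⟩ := odd_card_iff.2 h2
  by_contra! H
  have a : Fintype.card F = 5 := by rw [← Nat.card_eq_fintype_card]; omega
  have b := FiniteField.pow_card_sub_one_eq_one x (by rintro rfl; simp [h2.symm] at e)
  have d := FiniteField.cast_card_eq_zero F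
  rw [a] at b d
  exact h2 (by push_cast at d; linear_combination d - b + (x * x + 2) * e)

namespace Form.Blk
variable {F V : Type*} [Field F] [AddCommGroup V] [Module F V] {φ : Form F V}
  [φ.Nondeg] [FiniteDimensional F V] {D : Fin 3 → Submodule F V} [Finite F] (h : φ.Blk D 3) (hq : 5 ≤ Nat.card F)
include h

theorem t23 : (2 : F) ≠ 0 := by
  have := (h.od.nondeg 0).nondeg
  exact (h.q.restrict (D 0)).two_ne_zero_of_odd (by rw [h.rk]; decide)

theorem ex3 {x : V} (hx : ∀ i, x ∉ D i) (h0 : φ.Q x ≠ 0) :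
    ∃ i, ∃ v ∈ D i, ∃ y ∈ φ.perp (D i), x = v + y ∧ v ≠ 0 ∧ φ.Q y ≠ 0 := by
  obtain ⟨a, ha, y, hy, rfl⟩ := (h.od.nondeg 0).split x
  obtain ⟨b, hb, z, hz, rfl⟩ := (h.od.nondeg 1).split y
  obtain ⟨c, hc, w, hw, rfl⟩ := (h.od.nondeg 2).split z
  have o := h.od.orth
  obtain rfl : w = 0 := h.od.eq_zero fun i => by
    fin_cases i
    exacts [(add_mem_cancel_left (o 0 2 (by decide) hc)).1 ((add_mem_cancel_left (o 0 1 (by decide) hb)).1 hy),
      (add_mem_cancel_left (o 1 2 (by decide) hc)).1 hz, hw]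
  simp only [add_zero] at *
  have ab := o 0 1 (by decide) hb a ha
  have ac := o 0 2 (by decide) hc a ha
  have bc := o 1 2 (by decide) hc b hb
  by_contra! H
  have p := H 0 a ha _ hy rfl
  have q := H 1 b hb (a + c) (add_mem (o 1 0 (by decide) ha) hz) (by abel)
  have r := H 2 c hc (a + b) (add_mem (o 2 0 (by decide) ha) (o 2 1 (by decide) hb)) (by abel)
  simp only [h.q.Q_add, ab, ac, bc, map_add, add_zero] at p q r h0
  by_cases a0 : a = 0
  · by_cases b0 : b = 0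
    · exact hx 2 (by simpa [a0, b0] using hc)
    · have := q b0; have := r (by rintro rfl; exact hx 1 (by simpa [a0] using hb)); simp_all
  by_cases b0 : b = 0
  · have := p a0; have := r (by rintro rfl; exact hx 0 (by simpa [b0] using ha)); simp_all
  by_cases c0 : c = 0
  · have := p a0; have := q b0; simp_all
  exact h0 (mul_left_cancel₀ h.t23 (by linear_combination p a0 + q b0 + r c0))

include hq
theorem ir3 (i : Fin 3) : φ.IR (D i) := h.q.ir (h.od.nondeg i) (.inr (.inl ⟨h.rk i, by omega⟩))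

omit h hq [φ.Nondeg] [FiniteDimensional F V] [Finite F] in
theorem ht3 : ∀ i j : Fin 3, ∃ l, l ≠ i ∧ l ≠ j := by decide

theorem thm3 {L : Subgroup φ.Isom} (hL : φ.E ⊓ φ.dstab D ≤ L) {j : Fin 3} {a x : V} (ha : a ∈ D j) (ha' : Rf L a)
    (hx : Rf L x) (e : φ.Q x = φ.Q a) (hx' : ∀ i, x ∉ D i) : φ.E ≤ L := by
  obtain ⟨i, v, hv, y, hy, rfl, v0, y0⟩ := h.ex3 hx' hx.1
  obtain ⟨e', he, he0, hQ⟩ := h.std.sing (D i) (by rw [h.rk])
  obtain ⟨p, hp, p1, p2⟩ := h.exists_sing_B he he0 hQ hv v0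
  have hp0 : p ≠ 0 := by rintro rfl; simp at p2
  obtain ⟨f, hf, hyp⟩ := exists_hyp_mem (h.od.nondeg i) hp hp0 p1
  obtain ⟨w, hw, w1, w2, -⟩ := h.q.exists_orth_hyp (h.od.nondeg i) hyp hp hf (by rw [h.rk])
  obtain ⟨t, μ, s, h1, s0, h2, h7⟩ := conic h.t23 w1 y0 ha'.1 hq
  set c := (μ * (φ.Q v - φ.Q y) - t * φ.B v w) / φ.B v p with hc
  have h4 := add_mem ((D i).smul_mem t hw) ((D i).smul_mem c hp)
  have h5 : φ.Q (t • w + c • p) = t * t * φ.Q w := by
    simp [h.q.Q_add, h.q.Q_smul, h.q.B_smul_left, p1, φ.B_symm_zero w2]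
  set u := t • w + c • p with hu
  have h3 : φ.Q (u + μ • y) = s * s * φ.Q a := by
    rw [φ.Q_add_of_orth (by rw [map_smul, hy _ h4, smul_zero]), h5, h.q.Q_smul, h2]
  have hF := (inf_le_inf_left _ (h.od.fix_perp_le i)).trans hL
  have h6 : Rf L (u + μ • y) := by
    have h8 := hx.1
    have h9 : (φ.refl (v + y)).1 (u + μ • y) = u - μ • v := by
      rw [φ.Q_add_of_orth (hy v hv)] at h8
      simp only [h.q.refl_apply, φ.Q_add_of_orth (hy v hv), map_add, map_smul, LinearMap.add_apply, hy v hv,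
        φ.mem_perp'.1 hy u h4, h.q.B_self, show φ.B v u = μ * (φ.Q v - φ.Q y) by simp [hu, hc, p2], smul_eq_mul]
      match_scalars <;> field_simp <;> ring
    have h10 : φ.Q (u - μ • v) = s * s * φ.Q a := by rw [← h9, Isom.Q_map, h3]
    have := (h.rf hL ha' (h.refl_mem ha) (h.refl_mem (sub_mem h4 ((D i).smul_mem μ hv))) (by simp [h10, s0, ha'.1])
      (by rw [h10, chi_mul (mul_ne_zero s0 s0) ha'.1, chi_mul_self, one_mul])).map h.q hx.2
    rwa [← h9, ← Isom.mul_apply, h.q.refl_mul_self] at this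
  have n : ∀ u ∈ D i, u + μ • y ∉ D i := fun u h4 e =>
    hx' i (add_mem hv ((Submodule.smul_mem_iff _ h1).1 ((add_mem_cancel_left h4).1 e)))
  by_cases t0 : t = 0
  · have c0 : c ≠ 0 := fun c0 => absurd t0 (h7 (seven_le h.t23 hq (x := μ / s) (by
      rw [φ.Q_add_of_orth (hy v hv), show φ.Q v = φ.Q y by simpa [hc, t0, p2, h1, sub_eq_zero] using c0] at e
      rw [← e, t0] at h2
      field_simp; exact mul_right_cancel₀ y0 (by linear_combination h2))))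
    rw [hu, t0, zero_smul, zero_add] at h6
    exact h.lemB (by omega) (h.ir3 hq) (.inr ht3) hL ((D i).smul_mem c hp) (smul_ne_zero c0 hp0)
      (h.a2 (by omega) hF ((D i).smul_mem c hp) (smul_ne_zero c0 hp0) (φ.Q_smul_of_sing p1 c) (Submodule.smul_mem _ μ hy) h6)
      (by simpa using n 0 (zero_mem _))
  refine h.lemB (by omega) (h.ir3 hq) (.inr ht3) hL hp hp0 (h.a1 hF hp p1 h4
    (Submodule.smul_mem _ μ hy) h6 (by simp [hu, h.q.B_smul_left, hyp.Bee, φ.B_symm_zero w2]) fun e => ?_) (n u h4)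
  obtain ⟨d, hd⟩ := Submodule.mem_span_singleton.1 e
  rw [← hd, φ.Q_smul_of_sing p1] at h5
  simp [t0, w1] at h5

variable {M : Subgroup φ.Isom} (hM : φ.E ⊓ φ.dstab D ≤ M) (hM' : M ≤ φ.E) (hE : ¬ φ.E ≤ M)
include hM hM' hE

theorem star3 {g : φ.Isom} (hg : g ∈ M) {i j : Fin 3} {a : V} (ha : a ∈ D i) (hQ : φ.Q a ≠ 0) (hj : g.1 a ∈ D j) :
    g ∈ φ.dstab D := by
  have r1 := h.q.refl_mul_self a
  have r2 := h.refl_mem ha
  set L := rex M _ r1
  have h1 : φ.E ⊓ φ.dstab D ≤ L := fun x hx => Or.inl ⟨hM hx, hM ⟨by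
    simpa [h.q.refl_inv] using φ.E_normal.conj_mem x hx.1 (φ.refl a), mul_mem (mul_mem r2 hx.2) r2⟩⟩
  have h2 : Rf L a := ⟨hQ, Or.inr (by simp [r1])⟩
  have h4 : g ∈ L := Or.inl ⟨hg, by
    have := mul_mem (hM ⟨h.rr_mem (b := g.1 a) hQ (by simpa) (by simp), mul_mem r2 (h.refl_mem hj)⟩) hg
    rwa [← h.q.refl_conj, ← mul_assoc, ← mul_assoc, inv_mul_cancel_right] at this⟩
  have h5 : ¬ φ.E ≤ L := fun e => hE fun x hx => (e hx).elim And.left fun e =>
    (h.refl_not_mem hQ ((φ.E.mul_mem_cancel_left hx).1 (hM' e.1))).elim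
  have h6 : ∀ l, ∀ b ∈ D l, φ.Q b = φ.Q a → ∃ m, g.1 b ∈ D m := fun l b hb e => by
    by_contra! H
    exact h5 (h.thm3 hq h1 ha h2 ((h.rf h1 h2 r2 (h.refl_mem hb) (e ▸ hQ) (by rw [e])).map h.q h4) (by simp [e]) H)
  refine h.od.mem_dstab_of_le h.rk (by omega) fun l => ?_
  obtain ⟨b, hb, b0, b1⟩ := h.exists_eq ha (by rintro rfl; simp at hQ) l
  obtain ⟨m, hm⟩ := h6 l b hb b1
  rcases h.ir3 hq l _ hQ ((D m).comap (g.1 : V →ₗ[F] V)) ((φ.perp (D m)).comap (g.1 : V →ₗ[F] V))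
    (fun y hy x hx => by rw [← Isom.B_map g]; exact hy _ hx) fun x hx e => by
      obtain ⟨n, hn⟩ := h6 l x hx e
      by_cases e : m = n
      · exact Or.inl (e ▸ hn)
      · exact Or.inr (h.od.orth m n e hn) with e | e
  · exact ⟨m, Submodule.map_le_iff_le_comap.2 e⟩
  · exact absurd (e hb) (not_mem_perp (h.od.nondeg m) hm (by simpa using b0))

theorem two_refl3 {g : φ.Isom} (hg : g ∈ M) (hg' : g ∉ φ.dstab D) {a : V}
    (ha : ∀ x ∈ M, x.1 a = a → x ∈ φ.dstab D) {i j : Fin 3} {b c : V} (hb : b ∈ D i) (hc : c ∈ D j)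
    (b1 : φ.Q b ≠ 0) (c1 : φ.Q c ≠ 0) (e : chi (φ.Q b) = chi (φ.Q c)) (hbc : c ∉ F ∙ b)
    (b2 : φ.B (g.1 a) b = 0) (c2 : φ.B (g.1 a) c = 0) :
    φ.B b c = 0 ∧ ∃ i j, ∀ m, m ≠ i → m ≠ j → (g⁻¹).1 b ∈ φ.perp (D m) := by
  have h1 := ha _ (mul_mem (mul_mem (inv_mem hg) (hM ⟨h.rr_mem b1 c1 e, mul_mem (h.refl_mem hb) (h.refl_mem hc)⟩)) hg)
    (by simp only [Isom.mul_apply, h.q.refl_of_orth (φ.B_symm_zero b2), h.q.refl_of_orth (φ.B_symm_zero c2),
      Isom.inv_apply_apply])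
  rw [show ∀ x y : φ.Isom, g⁻¹ * (x * y) * g = g⁻¹ * x * g⁻¹⁻¹ * (g⁻¹ * y * g⁻¹⁻¹) from fun x y => by group,
    h.q.refl_conj, h.q.refl_conj] at h1
  rcases h.rank_two (by omega) (by rwa [Isom.Q_map]) (by rwa [Isom.Q_map]) h1 fun e => hbc (by
    obtain ⟨d, hd⟩ := Submodule.mem_span_singleton.1 e
    exact Submodule.mem_span_singleton.2 ⟨d, (g⁻¹).1.injective (by rwa [map_smul])⟩) with ⟨m, e⟩ | e
  · exact absurd (inv_mem (h.star3 hq hM hM' hE (inv_mem hg) hb b1 e)) (by simpa using hg')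
  · rwa [Isom.B_map] at e

theorem not_perp3 {g : φ.Isom} (hg : g ∈ M) (hg' : g ∉ φ.dstab D) {a : V}
    (ha : ∀ x ∈ M, x.1 a = a → x ∈ φ.dstab D) (m : Fin 3) : g.1 a ∉ φ.perp (D m) := fun e => by
  obtain ⟨b, hb, b1⟩ := h.q.exists_Q_eq (h.od.nondeg m) (by rw [h.rk]; omega) 1
  obtain ⟨c, hc, c1, c2, c3⟩ := (h.ir3 hq m).ex (h.od.nondeg m) (by rw [h.rk]; omega) hb (by rintro rfl; simp at b1) one_ne_zero
  exact c2 (h.two_refl3 hq hM hM' hE hg hg' ha hb hc (by simp [b1]) (by simp [c1]) (by rw [b1, c1]) c3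
    (φ.mem_perp'.1 e b hb) (φ.mem_perp'.1 e c hc)).1

theorem le_dstab3 : M ≤ φ.dstab D := fun g hg => by
  by_contra hg'
  have fx : ∀ i, ∀ a ∈ D i, φ.Q a ≠ 0 → ∀ x ∈ M, x.1 a = a → x ∈ φ.dstab D := fun i a ha a1 x hx e =>
    h.star3 hq hM hM' hE hx ha a1 (e.symm ▸ ha)
  obtain ⟨a, ha, a1⟩ := h.q.exists_Q_eq (h.od.nondeg 0) (by rw [h.rk]; omega) 1
  have : ∀ i j, i ≠ j → ∀ b ∈ D i, ∀ c ∈ D j, φ.Q b ≠ 0 → φ.Q c ≠ 0 → φ.B (g.1 a) b = 0 → φ.B (g.1 a) c = 0 →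
      chi (φ.Q b) ≠ chi (φ.Q c) := fun i j hij b hb c hc b1 c1 b2 c2 e => by
    obtain ⟨-, r, s, H⟩ := h.two_refl3 hq hM hM' hE hg hg' (fx 0 a ha (by simp [a1])) hb hc b1 c1 e (fun e => c1 (by
      rw [h.od.eq_zero_of_mem hij ((Submodule.span_singleton_le_iff_mem _ _).2 hb e) hc, Q_zero])) b2 c2
    obtain ⟨m, m1, m2⟩ := ht3 r s
    exact h.not_perp3 hq hM hM' hE (inv_mem hg) (by simpa using hg') (fx i b hb b1) m (H m m1 m2)
  have H := fun m => h.q.exists_perp_ns (h.od.nondeg m) (x := g.1 a) (by rw [h.rk]; omega) (.inl (h.rk m).ge)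
  obtain ⟨b, b1, b2, b3⟩ := H 0
  obtain ⟨c, c1, c2, c3⟩ := H 1
  obtain ⟨d, d1, d2, d3⟩ := H 2
  have t1 := this 0 1 (by decide) b b1 c c1 b2 c2 b3 c3
  have t2 := this 0 2 (by decide) b b1 d d1 b2 d2 b3 d3
  have t3 := this 1 2 (by decide) c c1 d d1 c2 d2 c3 d3
  revert t1 t2 t3
  generalize chi (φ.Q b) = a, chi (φ.Q c) = b, chi (φ.Q d) = c
  revert a b c; decide

end Form.Blk

open Matrix Cfsg Cfsg.Geo in
theorem isMaximalIn_dec33 {ι : Type} [Fintype ι] [DecidableEq ι] {F : Type*} [Field F] [Finite F]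
    {D : Fin 3 → Submodule F (ι → F)} {Q : (ι → F) → F} (hQ : IsNondegenerateQuadraticForm Q) (hq : 5 ≤ Nat.card F)
    (hD : IsOrthogonalMDecomposition Q 3 D) : IsMaximalIn (omegaGL Q) (decompositionStabilizer D ⊓ omegaGL Q) := by
  obtain ⟨Q, rfl, _⟩ := exists_ofQuad hQ
  have hn : 5 ≤ Fintype.card ι := by have := card_eq_of_dec hD.decomp.decomp; omega
  have h := blk_of hn hD
  rw [omegaGL_eq_E _ hn]
  refine isMaximalIn_map _ ?_ fun M hM g hg hg1 hg2 => ?_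
  · rw [comap_decompositionStabilizer]
    obtain ⟨u, hu, u1⟩ := h.q.exists_Q_eq (h.od.nondeg 0) (by rw [h.rk]; omega) 1
    have u0 : u ≠ 0 := by rintro rfl; simp at u1
    obtain ⟨v, hv, v0, e⟩ := h.q.exists_singular (W := D 1) (by rw [h.rk])
    have a1 := h.od.orth 0 1 (by decide) hv
    have a2 := h.od.orth 1 0 (by decide) hu
    have h1 := h.od.nb (x := u + v) (i := 0) (j := 1) (by decide)
      (fun e => Form.not_mem_perp (h.od.nondeg 0) hu u0 ((add_mem_cancel_right a1).1 e))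
      (fun e => Form.not_mem_perp (h.od.nondeg 1) hv v0 ((add_mem_cancel_left a2).1 e))
    obtain ⟨g, hg, hg'⟩ := h.std.exists_E_map h.n5 u0 (v := u + v) (fun e => h1 0 (e ▸ zero_mem _)) (by
      rw [Form.Q_add_of_orth _ (a1 u hu), e, add_zero])
    intro h0
    obtain ⟨σ, hσ⟩ := h0 hg
    exact h1 _ (hg' ▸ (hσ 0).le (Submodule.mem_map_of_mem hu))
  · rw [comap_decompositionStabilizer] at hM
    by_contra hE
    exact hg2 ((comap_decompositionStabilizer D).ge (h.le_dstab3 hq (M := M ⊓ (Form.ofQuad Q).E)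
      (le_inf hM inf_le_left) inf_le_right (fun e => hE (e.trans inf_le_left)) ⟨hg, hg1⟩))

end H10
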