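import Mathlib
import Cfsg.Agent.H10.DcE
import Cfsg.Agent.H10.Iso
import Cfsg.Agent.L.DicksonF

/-!
# Reflection subgroups of `O₃(p)` containing the Weyl group of type `B₂`
* `pgl_comm`, `IsQuad.exists_basis3`, `IsQuad.comm3`, `IsQuad.full3`, `IsQuad.dk3`, `IsQuad.dick`
-/

namespace H10

open Module Matrix
open scoped MatrixGroups commutatorElement

theorem pgl_comm {F : Type*} [Field F] [Fintype F] (p : ℕ) [Fact p.Prime] [CharP F p] (h2 : p ≠ 2)
    (H : Subgroup PGL(2, F)) (hp : ∀ g ∈ H, g ^ p = 1 → g = 1) (c g : H) (h4 : c ^ 4 = 1) :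
    Commute (c ^ 2) (g * c ^ 2 * g⁻¹) := by
  have pp : p.Prime := Fact.out
  have h1 : ¬ p ∣ Nat.card H := fun e => by
    obtain ⟨x, hx⟩ := exists_prime_orderOf_dvd_card' p e
    rw [show x = 1 from Subtype.ext (hp x x.2 (by rw [← Subgroup.coe_pow, ← hx, pow_orderOf_eq_one]; rfl)),
      orderOf_one] at hx
    exact pp.one_lt.ne hx
  have tr : ∀ {G : Type} [Group G], (H ≃* G) → (∀ c g : G, c ^ 4 = 1 → Commute (c ^ 2) (g * c ^ 2 * g⁻¹)) →
      Commute (c ^ 2) (g * c ^ 2 * g⁻¹) := fun e he => e.injective (by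
    simpa using (he (e c) (e g) (by rw [← map_pow, h4, map_one])).eq)
  have cy : IsCyclic H → Commute (c ^ 2) (g * c ^ 2 * g⁻¹) := fun h => h.commutative.is_comm.comm _ _
  have ps : ∀ (K : Type) [Field K] [Fintype K] (m : ℕ), Fintype.card K ^ m = Fintype.card F →
      p ∣ Nat.card PSL(2, K) := fun K _ _ m hm => by
    have a := pp.dvd_of_dvd_pow (hm ▸ L.Dk.char_dvd_card (F := F) p)
    refine (pp.dvd_mul.1 (L.Dk.card_psl (F := K) ▸ a.mul_right _)).resolve_left fun e => h2 ?_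
    exact (Nat.prime_dvd_prime_iff_eq pp Nat.prime_two).1 (e.trans (Nat.gcd_dvd_left _ _))
  rcases L.Dk.clsF p H with ⟨x, h⟩ | ⟨h, -⟩ | ⟨C, h, -, hi, hs⟩ | ⟨⟨e⟩⟩ | ⟨⟨e⟩⟩ | ⟨⟨e⟩⟩ | ⟨K, _, _, m, -, hK, ⟨e⟩⟩ |
    ⟨K, _, _, m, -, hK, ⟨e⟩⟩
  · exact cy (L.Dk.isCyclic_of_fix p H (fun g hg => h ⟨g, hg⟩) h1)
  · exact cy h
  · by_cases hc : c ∈ C
    · exact congrArg Subtype.val (h.commutative.is_comm.comm (⟨_, pow_mem hc 2⟩ : C)
        ⟨_, (Subgroup.normal_of_index_eq_two hi).conj_mem _ (pow_mem hc 2) g⟩)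
    · rw [sq, hs c hc]; exact Commute.one_left _
  · exact tr e fun c g h => Subtype.ext ((by decide +kernel : ∀ c g : Equiv.Perm (Fin 4), c ^ 4 = 1 →
      c ^ 2 * (g * c ^ 2 * g⁻¹) = g * c ^ 2 * g⁻¹ * c ^ 2) c g (congrArg Subtype.val h))
  · exact tr e (by decide +kernel : ∀ c g : Equiv.Perm (Fin 4), c ^ 4 = 1 →
      c ^ 2 * (g * c ^ 2 * g⁻¹) = g * c ^ 2 * g⁻¹ * c ^ 2)
  · refine tr e fun c g h => ?_
    rw [show c ^ 2 = 1 from Subtype.ext ((by decide +kernel : ∀ c : Equiv.Perm (Fin 5), Equiv.Perm.sign c = 1 →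
      c ^ 4 = 1 → c ^ 2 = 1) c c.2 (congrArg Subtype.val h))]
    exact Commute.one_left _
  · exact absurd (Nat.card_congr e.toEquiv ▸ (ps K m hK).trans (Subgroup.card_dvd_of_injective _
      ProjectiveSpecialLinearGroup.toPGL_injective)) h1
  · exact absurd (Nat.card_congr e.toEquiv ▸ ps K m hK) h1

namespace Form
variable {F V : Type*} [Field F] [AddCommGroup V] [Module F V] {φ : Form F V}
variable [φ.Nondeg] [FiniteDimensional F V]

namespace IsQuad
variable (h : φ.IsQuad) (h3 : finrank F V = 3) {G : Subgroup φ.Isom}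
include h h3

theorem exists_basis3 {e f : V} (hyp : φ.IsHyp e f) : ∃ w, φ.Q w ≠ 0 ∧ φ.B e w = 0 ∧ φ.B f w = 0 ∧
    ∀ x, ∃ d : F, x = φ.B f x • e + φ.B e x • f + d • w := by
  have h1 := hyp.finrank_perp
  obtain ⟨w, hw, hw0⟩ := Submodule.exists_mem_ne_zero_of_ne_bot (p := φ.perp (Submodule.span F {e, f}))
    (fun h0 => by rw [h0, finrank_bot] at h1; omega)
  have h2 : ∀ x ∈ φ.perp (Submodule.span F {e, f}), ∃ c : F, c • w = x := fun x hx => by
    simpa using (finrank_eq_one_iff_of_nonzero' (K := F) (⟨w, hw⟩ : φ.perp (Submodule.span F {e, f}))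
      (by simpa using hw0)).1 (by omega) ⟨x, hx⟩
  refine ⟨w, fun h0 => hw0 (hyp.nondegOn.perp w hw fun y hy => by
    obtain ⟨c, rfl⟩ := h2 y hy; simp [φ.B_self_eq_zero h0]), (φ.mem_perp_pair.1 hw).1, (φ.mem_perp_pair.1 hw).2,
    fun x => (h2 _ (hyp.proj_mem x)).imp fun d hd => ?_⟩
  rw [hd, h.ε_eq, one_mul]; abel

theorem comm3 [Finite F] (p : ℕ) [Fact p.Prime] [CharP F p] (h2 : (2 : F) ≠ 0) (hp : ∀ g ∈ G, g ^ p = 1 → g = 1)
    {a b x : V} (ha : Rf G a) (hb : Rf G b) (hx : Rf G x) (h4 : (φ.refl a * φ.refl b) ^ 4 = 1) :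
    Commute ((φ.refl a * φ.refl b) ^ 2) (φ.refl x * (φ.refl a * φ.refl b) ^ 2 * (φ.refl x)⁻¹) := by
  have := Fintype.ofFinite F
  have p2 : p ≠ 2 := by rintro rfl; exact h2 (CharP.cast_eq_zero F 2)
  obtain ⟨e, -, he0, hQ⟩ := h.exists_singular (W := ⊤) (by simp [h3])
  obtain ⟨f, hyp⟩ := φ.exists_hyp hQ he0
  obtain ⟨w, w0, w1, w2, hw⟩ := h.exists_basis3 h3 hyp
  have w3 := φ.B_symm_zero w1
  have w4 := φ.B_symm_zero w2
  let X : V → Matrix (Fin 2) (Fin 2) F := fun x =>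
    !![φ.B w x / (2 * φ.Q w), φ.B f x / φ.Q w; φ.B e x, -(φ.B w x / (2 * φ.Q w))]
  let Y : Matrix (Fin 2) (Fin 2) F → V := fun m => (φ.Q w * m 0 1) • e + m 1 0 • f + m 0 0 • w
  have hX : ∀ a b c : F, X (a • e + b • f + c • w) = !![c, a / φ.Q w; b, -c] := fun a b c => by
    simp [X, hyp.Bee, hyp.Bff, hyp.Bef, hyp.Bfe, h.ε_eq, w1, w2, w3, w4, h.B_self, h2, w0]
  have hQ' : ∀ a b c : F, φ.Q (a • e + b • f + c • w) = a * b + c * c * φ.Q w := fun a b c => by
    simp [h.Q_add, h.Q_smul, hyp.Qe, hyp.Qf, hyp.Bef, w1, w2, mul_comm, h.σ_eq]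
  have ex : ∀ x, ∃ a b c : F, x = a • e + b • f + c • w := fun x => (hw x).elim fun d hd => ⟨_, _, d, hd⟩
  have YX : ∀ x, Y (X x) = x := fun x => by
    obtain ⟨a, b, c, rfl⟩ := ex x
    simp [hX, Y, mul_div_cancel₀ _ w0]
  have XY : ∀ m : Matrix (Fin 2) (Fin 2) F, m.trace = 0 → X (Y m) = m := fun m hm => by
    rw [trace_fin_two] at hm
    rw [hX]; ext i j; fin_cases i <;> fin_cases j <;> simp [w0, eq_neg_of_add_eq_zero_right hm]
  have QX : ∀ x, φ.Q x = -φ.Q w * (X x).det := fun x => by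
    obtain ⟨a, b, c, rfl⟩ := ex x
    rw [hX, hQ', det_fin_two_of]; field_simp; ring
  have cl : ∀ x y, X x * X y + X y * X x = (φ.B x y / φ.Q w) • (1 : Matrix (Fin 2) (Fin 2) F) := fun x y => by
    obtain ⟨a, b, c, rfl⟩ := ex x
    obtain ⟨a', b', c', rfl⟩ := ex y
    rw [hX, hX]
    ext i j; fin_cases i <;> fin_cases j <;>
      simp [hyp.Bee, hyp.Bff, hyp.Bef, hyp.Bfe, h.ε_eq, w1, w2, w3, w4, h.B_self, h.σ_eq] <;> field_simp <;> ring
  have tX : ∀ (A : GL (Fin 2) F) x, (A.1 * X x * (A⁻¹).1).trace = 0 := fun A x => by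
    rw [trace_units_conj]; simp [X]
  have Xa : ∀ x y, X (x + y) = X x + X y := fun x y => by
    ext i j; fin_cases i <;> fin_cases j <;> simp [X, add_div, add_comm]
  have Xs : ∀ (c : F) x, X (c • x) = c • X x := fun c x => by
    ext i j; fin_cases i <;> fin_cases j <;> simp [X, mul_div_assoc]
  have hl : ∀ A : GL (Fin 2) F, IsLinearMap F fun x => Y (A.1 * X x * (A⁻¹).1) := fun A =>
    ⟨fun x y => by simp only [Xa, mul_add, add_mul, Y, Matrix.add_apply]; module,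
      fun c x => by simp only [Xs, Matrix.mul_smul, Matrix.smul_mul, Y, Matrix.smul_apply, smul_eq_mul]; module⟩
  let ρ : GL (Fin 2) F →* φ.Isom := homOfFun (fun A x => Y (A.1 * X x * (A⁻¹).1)) hl
    (fun A B x => by rw [XY _ (tX B x)]; simp [mul_assoc])
    fun A => h.isIsom (g := (hl A).mk' _) fun x => by
      rw [IsLinearMap.mk'_apply, QX, XY _ (tX A x), det_units_conj, ← QX]
  have hρ : ∀ A x, (ρ A).1 x = Y (A.1 * X x * (A⁻¹).1) := fun A x => homOfFun_apply ..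
  have k : ∀ A, ρ A = 1 ↔ ProjGenLinGroup.mk A = 1 := fun A => by
    rw [ProjGenLinGroup.mk_eq_one, Subgroup.mem_center_iff]
    refine ⟨fun e B => Units.ext ?_, fun e => Isom.ext fun x => ?_⟩
    · have t : (B.1 - (B.1.trace / 2) • (1 : Matrix (Fin 2) (Fin 2) F)).trace = 0 := by simp [h2]
      have := congrArg X (hρ A (Y (B.1 - (B.1.trace / 2) • 1)))
      rw [e, Isom.one_apply, XY _ (tX _ _), XY _ t, Units.eq_mul_inv_iff_mul_eq] at this
      simpa [sub_mul, mul_sub] using this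
    · obtain ⟨u, rfl⟩ : A ∈ (GeneralLinearGroup.scalar (Fin 2)).range := by
        rw [← GeneralLinearGroup.center_eq_range_scalar]; exact Subgroup.mem_center_iff.2 e
      rw [hρ, Isom.one_apply, (Units.mul_inv_eq_iff_eq_mul _).2 (scalar_commute u.1 (fun _ => Commute.all _ _) _).eq, YX]
  obtain ⟨z, z1, z2, z3⟩ : ∃ z : φ.Isom, (∀ x, z.1 x = -x) ∧ z * z = 1 ∧ ∀ g, Commute z g :=
    ⟨φ.scalar (-1), φ.neg_one_apply, Isom.ext fun x => by simp [Isom.mul_apply, neg_one_apply],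
      fun g => Isom.ext fun x => by simp [Isom.mul_apply, neg_one_apply]⟩
  let H := ((rex G z z2).comap ρ).map ProjGenLinGroup.mk
  have r : ∀ x, Rf G x → ∃ A, ρ A = φ.refl x * z ∧ ProjGenLinGroup.mk A ∈ H := fun x hx => by
    have d : (X x).det ≠ 0 := fun e => hx.1 (by rw [QX, e, mul_zero])
    have : ρ (GeneralLinearGroup.mkOfDetNeZero _ d) = φ.refl x * z := Isom.ext fun y => by
      rw [hρ, ← YX ((φ.refl x * z).1 y)]
      congr 1
      rw [Units.mul_inv_eq_iff_eq_mul, Isom.mul_apply, z1, h.refl_apply, Xa, Xs, ← neg_one_smul F y, Xs]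
      change X x * X y = _ * X x
      have e := cl x x
      rw [← two_smul F, h.B_self, mul_div_assoc, mul_smul, smul_right_inj h2] at e
      rw [add_mul, smul_mul_assoc, smul_mul_assoc, e, smul_smul, eq_sub_of_add_eq (cl x y), map_smul, smul_eq_mul,
        show -(φ.Q x)⁻¹ * (-1 * φ.B x y) * (φ.Q x / φ.Q w) = φ.B x y / φ.Q w by have := hx.1; field_simp]
      module
    exact ⟨_, this, _, Or.inr ⟨by simpa [this, mul_assoc, z2] using hx.2,
      by simpa [this, ← (z3 _).eq, ← mul_assoc, z2] using hx.2⟩, rfl⟩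
  obtain ⟨A, a1, a2⟩ := r a ha
  obtain ⟨B, b1, b2⟩ := r b hb
  obtain ⟨C, c1, c2⟩ := r x hx
  have e1 : ρ (A * B) = φ.refl a * φ.refl b := by
    rw [map_mul, a1, b1, mul_assoc, ← mul_assoc z, (z3 _).eq, mul_assoc, z2, mul_one]
  have := pgl_comm p p2 H ?_ ⟨_, mul_mem a2 b2⟩ ⟨_, c2⟩ (Subtype.ext (by
    simpa [← map_mul, ← map_pow, -ProjGenLinGroup.mk_eq_one, ← k] using by rwa [← e1, ← map_pow] at h4))
  · rw [← commutatorElement_eq_one_iff_commute] at this ⊢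
    have e2 := (k ⁅(A * B) ^ 2, C * (A * B) ^ 2 * C⁻¹⁆).2 (by
      simpa [commutatorElement_def, -ProjGenLinGroup.mk_eq_one] using congrArg Subtype.val this)
    rwa [map_commutatorElement, map_mul, map_mul, map_inv, map_pow, e1, c1, mul_assoc (φ.refl x), (z3 _).eq,
      _root_.mul_inv_rev, mul_assoc, mul_assoc, mul_inv_cancel_left, ← mul_assoc] at e2
  rintro _ ⟨A, hA, rfl⟩ e
  rw [← map_pow, ← k, map_pow] at e
  have e2 : ρ A ^ 2 = 1 := hp _ (by
    rcases hA with hA | hA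
    · exact pow_mem hA.1 2
    · simpa [(z3 _).symm.mul_pow, sq z, z2] using pow_mem hA.1 2) (by rw [← pow_mul, mul_comm, pow_mul, e, one_pow])
  obtain ⟨j, rfl⟩ := (Fact.out : p.Prime).odd_of_ne_two p2
  rwa [pow_succ, pow_mul, e2, one_pow, one_mul, k] at e

omit h3 [φ.Nondeg] [FiniteDimensional F V] in
theorem exists_fixed_sing (p : ℕ) [Fact p.Prime] [CharP F p] (h2 : (2 : F) ≠ 0) {g : φ.Isom} (hg : g ^ p = 1)
    (h1 : g ≠ 1) : ∃ y, y ≠ 0 ∧ φ.Q y = 0 ∧ g.1 y = y := by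
  have : Nontrivial V := by
    by_contra e; exact h1 (Isom.ext fun x => (not_nontrivial_iff_subsingleton.1 e).elim _ _)
  have : CharP (Module.End F V) p := charP_of_injective_algebraMap (algebraMap F _).injective p
  set N : Module.End F V := (g.1 : V →ₗ[F] V) - 1 with hN
  have h4 : N ^ p = 0 := by
    rw [hN, sub_pow_char_of_commute _ (Commute.one_right _), one_pow, sub_eq_zero]
    have := congrArg (LinearEquiv.automorphismGroup.toLinearMapMonoidHom.comp φ.Isom.subtype) hg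
    rwa [map_pow, map_one] at this
  by_contra! H
  have h5 : ∀ x, N (N x) = 0 → N x = 0 := fun x e => by
    have e' : g.1 (N x) = N x := sub_eq_zero.1 e
    by_contra e0
    refine H _ e0 ((mul_eq_zero.1 ?_).resolve_left h2) e'
    rw [← h.B_self]
    nth_rw 1 [show N x = g.1 x - x from rfl]
    rw [map_sub, LinearMap.sub_apply, ← Isom.B_map g x, e', sub_self]
  have h6 : ∀ n x, (N ^ (n + 1)) x = 0 → N x = 0 := fun n => by
    induction n with
    | zero => simp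
    | succ n ih => exact fun x e => h5 x (ih (N x) (by rwa [pow_succ] at e))
  exact h1 (Isom.ext fun x => sub_eq_zero.1 (h6 p x (by simp [pow_succ, h4])))

theorem full3 (p : ℕ) [Fact p.Prime] [CharP F p] (h2 : (2 : F) ≠ 0) (hF : ∀ c : F, ∃ n : ℕ, c = n) {g : φ.Isom}
    (hG : g ∈ G) (hg : g ^ p = 1) (h1 : g ≠ 1) : ∃ y, y ≠ 0 ∧ φ.Q y = 0 ∧ ∀ w, φ.B y w = 0 → φ.sg y w ∈ G := by
  obtain ⟨e, e0, hQ, e1⟩ := h.exists_fixed_sing p h2 hg h1
  obtain ⟨f, hyp⟩ := φ.exists_hyp hQ e0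
  obtain ⟨w, w0, w1, w2, hw⟩ := h.exists_basis3 h3 hyp
  obtain ⟨s, s1, s2, s3⟩ := exists_siegel_map (φ := φ) (y := f) (z := g.1 f) hQ (by simp)
    (by rw [← e1, Isom.B_map, e1]) (by simp [hyp.Bef])
  rw [h.T_eq] at s2
  rw [s2, ← sg] at s3
  obtain ⟨d, hd⟩ := hw ((φ.ε / φ.B e f) • (f - g.1 f))
  rw [hd, s1, zero_smul, add_zero, add_comm, h.sg_add_self hQ (by simp [w1])] at s3
  have s4 : (φ.sg e (d • w)).1 e = e := siegel_apply_self hQ (by simp [w1]) (h.T_eq _)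
  have ex : ∀ k : φ.Isom, k.1 e = e → k.1 f = f → k.1 w = w → k = 1 := fun k a b c => Isom.ext fun x => by
    obtain ⟨d, hd⟩ := hw x
    rw [hd]; simp [a, b, c]
  set k := (φ.sg e (d • w))⁻¹ * g with hk
  have k1 : k.1 e = e := by rw [hk, Isom.mul_apply, e1, Isom.inv_apply_eq, s4]
  have k2 : k.1 f = f := by rw [hk, Isom.mul_apply, Isom.inv_apply_eq, s3]
  obtain ⟨c, hc⟩ := hw (k.1 w)
  rw [← k1, ← k2, Isom.B_map, Isom.B_map, w1, w2, zero_smul, zero_smul, zero_add, zero_add] at hc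
  have k3 := Isom.Q_map k w
  rw [hc, h.Q_smul, mul_eq_right₀ w0, mul_self_eq_one_iff] at k3
  have r1 := h.refl_of_orth (φ.B_symm_zero w1)
  have k4 : g = φ.sg e (d • w) := by
    rcases k3 with rfl | rfl
    · exact (inv_mul_eq_one.1 (ex k k1 k2 (by simpa using hc))).symm
    have := ex (k * φ.refl w) (by rw [Isom.mul_apply, r1, k1])
      (by rw [Isom.mul_apply, h.refl_of_orth (φ.B_symm_zero w2), k2]) (by simp [Isom.mul_apply, h.refl_self w0, hc])
    rw [hk, mul_assoc, inv_mul_eq_one, ← mul_inv_eq_iff_eq_mul] at this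
    have e2 : g ^ 2 = 1 := by
      rw [← this, sq, mul_assoc, ← mul_assoc _ (φ.sg _ _)]
      nth_rw 1 [h.refl_inv]
      rw [h.sg_conj hQ (by simp [w1]), r1, map_smul, h.refl_self w0, smul_neg, ← h.sg_inv hQ (by simp [w1]),
        mul_inv_cancel]
    obtain ⟨j, rfl⟩ := (Fact.out : p.Prime).odd_of_ne_two (by rintro rfl; exact h2 (CharP.cast_eq_zero F 2))
    exact absurd (by rwa [pow_succ, pow_mul, e2, one_pow, one_mul] at hg) h1
  have d0 : d ≠ 0 := by rintro rfl; exact h1 (by rw [k4, zero_smul, ← zero_smul F e, h.sg_self hQ])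
  refine ⟨e, e0, hQ, fun x hx => ?_⟩
  obtain ⟨c, hc⟩ := hw x
  obtain ⟨n, hn⟩ := hF (c / d)
  rw [hc, hx, zero_smul, add_zero, add_comm, h.sg_add_self hQ (by simp [w1]), ← div_mul_cancel₀ c d0, hn, mul_smul]
  clear hn
  induction n with
  | zero => rw [Nat.cast_zero, zero_smul, ← zero_smul F e, h.sg_self hQ]; exact one_mem _
  | succ n ih =>
    rw [Nat.cast_succ, add_smul, one_smul, ← h.sg_mul hQ (by simp [w1]) (by simp [w1])]
    exact mul_mem ih (k4 ▸ hG)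

theorem dk3 [Finite F] (p : ℕ) [Fact p.Prime] [CharP F p] (h2 : (2 : F) ≠ 0) (hF : ∀ c : F, ∃ n : ℕ, c = n)
    {a b u v : V} (ha : Rf G a) (hb : Rf G (a - b)) (e : φ.Q b = φ.Q a) (ab : φ.B a b = 0) (av : φ.B a v = 0)
    (bv : φ.B b v = 0) (hu : u ∈ Submodule.span F {a, b}) (u0 : u ≠ 0) (v0 : φ.Q v ≠ 0) (hx : Rf G (u + v))
    (h1 : 2 * φ.Q u ≠ φ.Q (u + v)) : φ.E ≤ G := by
  have q : φ.Q (a - b) = 2 * φ.Q a := by rw [sub_eq_add_neg, h.Q_add]; simp [e, ab, two_mul]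
  have a0 := ha.1
  have ba := φ.B_symm_zero ab
  have r1 : (φ.refl (a - b)).1 a = b := by
    rw [h.refl_apply, q]; simp only [map_sub, LinearMap.sub_apply, h.B_self, ba]
    rw [sub_zero, neg_mul, inv_mul_cancel₀ (mul_ne_zero h2 a0)]; module
  have r2 : (φ.refl (a - b)).1 b = a := by
    rw [← h.refl_inv, Isom.inv_apply_eq, r1]
  have hb' : Rf G b := r1 ▸ ha.map h hb.2
  obtain ⟨w, w1, w2⟩ : ∃ w, φ.Q w = 0 ∧ w ≠ 0 := by
    obtain ⟨w, -, a, b⟩ := h.exists_singular (W := ⊤) (by simp [h3]); exact ⟨w, b, a⟩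
  have ex : ∀ y, φ.B a y = 0 → φ.B b y = 0 → ∃ c : F, y = c • v := fun y y1 y2 => by
    have nd := φ.nondegOn_pair (e := a) (f := b) (by simp [ab, h.B_self, h2, e, a0])
    have := finrank_le_inf_perp (φ := φ) ⊤ (Submodule.span F {a, b})
    have r := φ.finrank_perp (Submodule.span F {a, b})
    rw [finrank_span_pair_of_li (LinearIndependent.pair_iff.2 fun s t e' => by
      have e1 := congrArg (φ.B a) e'
      have e2 := congrArg (φ.B b) e'
      simp only [map_add, map_smul, h.B_self, ab, ba, e, map_zero, smul_eq_mul] at e1 e2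
      exact ⟨by simpa [h2, a0] using e1, by simpa [h2, a0] using e2⟩), h3] at r
    simpa [eq_comm] using (finrank_eq_one_iff_of_nonzero' (K := F) (⟨v, φ.mem_perp_pair.2 ⟨av, bv⟩⟩ :
      φ.perp (Submodule.span F {a, b})) (by rintro e; rw [Subtype.ext_iff] at e; simp_all)).1 (by omega)
        ⟨y, φ.mem_perp_pair.2 ⟨y1, y2⟩⟩
  by_cases H : ∀ g ∈ G, g ^ p = 1 → g = 1
  swap
  · push Not at H
    obtain ⟨g, g1, g2, g3⟩ := H
    obtain ⟨y, y0, y1, y2⟩ := h.full3 h3 p h2 hF g1 g2 g3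
    have fu : φ.Full G y := fun w s a b => by rw [h.T_eq] at b; exact b ▸ y2 w a
    have : ∀ a, Rf G a → φ.B a y ≠ 0 → φ.E ≤ G := fun a ha e => fu.E_le y1 ha.2 (by
      simp [h.refl_apply, φ.B_self_eq_zero y1, ha.1, e, h.B_comm y a])
    by_contra hE
    obtain ⟨c, rfl⟩ := ex y (by_contra fun e => hE (this a ha e)) (by_contra fun e => hE (this b hb' e))
    rw [h.Q_smul, mul_eq_zero_iff_right v0, mul_self_eq_zero] at y1
    simp [y1] at y0
  set c := φ.refl a * φ.refl (a - b) with hc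
  have c1 : (c ^ 2).1 a = -a := by
    simp [hc, sq, Isom.mul_apply, r1, r2, h.refl_of_orth ab, h.refl_self a0]
  have c2 : (c ^ 2).1 b = -b := by
    simp [hc, sq, Isom.mul_apply, r1, r2, h.refl_of_orth ab, h.refl_self a0]
  have c3 : (c ^ 2).1 v = v := by
    simp [hc, sq, Isom.mul_apply, h.refl_of_orth av, h.refl_of_orth (v := a - b) (x := v) (by simp [av, bv])]
  have c4 : ∀ y ∈ Submodule.span F {a, b}, (c ^ 2).1 y = -y := fun y hy => by
    obtain ⟨s, t, rfl⟩ := Submodule.mem_span_pair.1 hy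
    rw [map_add, map_smul, map_smul, c1, c2]; module
  have uv : φ.B u v = 0 := by obtain ⟨s, t, rfl⟩ := Submodule.mem_span_pair.1 hu; simp [av, bv]
  have c5 : c ^ 4 = 1 := Isom.ext fun y => by
    obtain ⟨d, hd⟩ := ex (y - (φ.B a y / (2 * φ.Q a)) • a - (φ.B b y / (2 * φ.Q a)) • b)
      (by simp [h.B_self, ab, h2, a0]) (by simp [h.B_self, ba, h2, a0, e])
    rw [sub_sub, sub_eq_iff_eq_add] at hd
    rw [hd, show 4 = 2 + 2 from rfl, pow_add, Isom.mul_apply]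
    simp only [map_add, map_smul, c1, c2, c3, map_neg, neg_neg, Isom.one_apply]
  have := congrArg (·.1 v) (h.comm3 h3 p h2 H ha hb hx c5).eq
  simp only [← hc, Isom.mul_apply, h.refl_inv, h.refl_apply, map_add, map_smul, c3, c4 u hu, map_neg,
    LinearMap.add_apply, uv, φ.B_symm_zero uv, h.B_self, smul_eq_mul] at this
  have x0 := hx.1
  have e2 : (2 ^ 3 * (φ.Q (u + v))⁻¹ ^ 2 * φ.Q v * (φ.Q v - φ.Q u)) • u = 0 := by
    linear_combination (norm := module) -this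
  simp only [smul_eq_zero, mul_eq_zero, h2, v0, u0, x0, sub_eq_zero, pow_eq_zero_iff', inv_eq_zero, false_and,
    false_or, or_false] at e2
  exact absurd (by rw [φ.Q_add_of_orth uv, e2, two_mul]) h1

omit h3 in
/-- `W(B₂)` and one more reflection give `Ω₃` -/
theorem dick [Finite F] (p : ℕ) [Fact p.Prime] [CharP F p] (h2 : (2 : F) ≠ 0) (hF : ∀ c : F, ∃ n : ℕ, c = n)
    {a b u v : V} (ha : Rf G a) (hb : Rf G (a - b)) (e : φ.Q b = φ.Q a) (ab : φ.B a b = 0) (av : φ.B a v = 0)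
    (bv : φ.B b v = 0) (hu : u ∈ Submodule.span F {a, b}) (u0 : u ≠ 0) (v0 : φ.Q v ≠ 0) (hx : Rf G (u + v))
    (h1 : 2 * φ.Q u ≠ φ.Q (u + v)) {x y : V} (hx' : x ∈ Submodule.span F {a, b} ⊔ F ∙ v)
    (hy : y ∈ Submodule.span F {a, b} ⊔ F ∙ v) (hQ : φ.Q x ≠ 0) {c : F} (hc : c ≠ 0) (hxy : φ.Q x = c * c * φ.Q y) :
    φ.refl x * φ.refl y ∈ G := by
  have a0 := ha.1
  have nd := φ.nondegOn_pair (e := a) (f := b) (by simp [ab, h.B_self, h2, e, a0])
  have o : F ∙ v ≤ φ.perp (Submodule.span F {a, b}) :=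
    (Submodule.span_singleton_le_iff_mem _ _).2 (φ.mem_perp_pair.2 ⟨av, bv⟩)
  have hU := nd.sup (φ.nondegOn_singleton (h.B_self_ne_zero h2 v0)) o
  have h3 := finrank_sup_orth nd o
  rw [finrank_span_singleton (by rintro rfl; simp at v0), finrank_span_pair_of_li (LinearIndependent.pair_iff.2
    fun s t e' => by
      have e1 := congrArg (φ.B a) e'
      have e2 := congrArg (φ.B b) e'
      simp only [map_add, map_smul, h.B_self, ab, φ.B_symm_zero ab, e, map_zero, smul_eq_mul] at e1 e2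
      exact ⟨by simpa [h2, a0] using e1, by simpa [h2, a0] using e2⟩)] at h3
  set U := Submodule.span F {a, b} ⊔ F ∙ v
  have := hU.nondeg
  have aU : a ∈ U := Submodule.mem_sup_left (Submodule.subset_span (by simp))
  have bU : b ∈ U := Submodule.mem_sup_left (Submodule.subset_span (by simp))
  have vU : v ∈ U := Submodule.mem_sup_right (Submodule.mem_span_singleton_self v)
  have rf : ∀ x : U, Rf G x → Rf (G.comap (extHom hU)) x := fun x hx =>
    ⟨hx.1, by rw [Subgroup.mem_comap, h.extHom_refl]; exact hx.2⟩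
  have h5 := (h.restrict U).dk3 h3 p h2 hF (a := ⟨a, aU⟩) (b := ⟨b, bU⟩) (u := ⟨u, Submodule.mem_sup_left hu⟩)
    (v := ⟨v, vU⟩) (rf _ ha) (rf _ hb) e ab av bv (by
      obtain ⟨s, t, rfl⟩ := Submodule.mem_span_pair.1 hu
      exact Submodule.mem_span_pair.2 ⟨s, t, rfl⟩) (fun e => u0 (congrArg Subtype.val e)) v0 (rf _ hx) h1
  obtain ⟨w, -, w0, w1⟩ := (h.restrict U).exists_singular (W := ⊤) (by simp [h3])
  obtain ⟨f, hyp⟩ := (φ.restrict U).exists_hyp w1 w0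
  have h6 := h5 ((h.restrict U).commutator_le_three h3 hyp
    ((h.restrict U).refl_mul_refl_mem (v := ⟨x, hx'⟩) (w := ⟨y, hy⟩) hQ hc hxy))
  rwa [Subgroup.mem_comap, map_mul, h.extHom_refl, h.extHom_refl] at h6

end IsQuad
end Form
end H10
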