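import Mathlib
import Cfsg.Agent.H10.FrD

/-! # Orthogonal frames in dimension seven: `isMaximalIn_frame7` -/

namespace H10

open Module

namespace Form
variable {F V : Type*} [Field F] [AddCommGroup V] [Module F V] {φ : Form F V} {κ : Type*} [Fintype κ] [DecidableEq κ]

variable (φ) in
/-- orthogonal basis of vectors of norm `N` -/
structure Fr7 (e : κ → V) (N : F) : Prop where
  q : φ.IsQuad
  h2 : (2 : F) ≠ 0
  N0 : N ≠ 0
  Qe : ∀ i, φ.Q (e i) = N
  orth : ∀ i j, i ≠ j → φ.B (e i) (e j) = 0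
  tot : ∀ x, (∀ i, φ.B (e i) x = 0) → x = 0
  n10 : 7 ≤ Fintype.card κ

open Fr (e_mem)

namespace Fr7
variable {e : κ → V} {N : F} (h : φ.Fr7 e N) {T : Finset κ} {x y : V} {i j : κ}
include h

omit [DecidableEq κ] in
theorem ex (l : List κ) (hl : l.length < 7) : ∃ i, i ∉ l := by
  classical exact (ex_not ∅ l (by have := h.n10; simp; omega)).imp fun _ a => a.2

omit [DecidableEq κ] in
theorem Bee (i : κ) : φ.B (e i) (e i) = 2 * N := by rw [h.q.B_self, h.Qe]

theorem Bij (i j : κ) : φ.B (e i) (e j) = if i = j then 2 * N else 0 := by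
  split_ifs with a
  exacts [a ▸ h.Bee i, h.orth i j a]

theorem expand (x : V) : x = ∑ i, (φ.B (e i) x / (2 * N)) • e i :=
  sub_eq_zero.1 (h.tot _ fun j => by simp [h.Bij, h.h2, h.N0])

theorem mem_co : x ∈ co F e T ↔ ∀ i ∉ T, φ.B (e i) x = 0 := by
  refine ⟨fun hx i hi => ?_, fun hx => ?_⟩
  · induction hx using Submodule.span_induction with
    | mem x hx => obtain ⟨j, hj, rfl⟩ := hx; exact h.orth i j (by rintro rfl; exact hi hj)
    | _ => simp_all
  · rw [h.expand x]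
    exact sum_mem fun i _ => by by_cases a : i ∈ T <;> simp [Submodule.smul_mem, e_mem, a, hx i]

theorem mem_ln : x ∈ ln F e i ↔ ∀ j, j ≠ i → φ.B (e j) x = 0 := by
  simpa [co] using h.mem_co (x := x) (T := {i})

theorem mem_pair : x ∈ Submodule.span F {e i, e j} ↔ ∀ k, k ≠ i → k ≠ j → φ.B (e k) x = 0 := by
  simpa [co, Set.image_insert_eq] using h.mem_co (x := x) (T := {i, j})

theorem perp_co : φ.perp (co F e T) = co F e Tᶜ := by
  ext x; rw [h.mem_co, co, mem_perp_span]; simp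

theorem perp_of (hx : x ∈ co F e Tᶜ) : x ∈ φ.perp (co F e T) := by rwa [h.perp_co]

theorem nd (T : Finset κ) : φ.NondegOn (co F e T) := fun x hx H => h.tot x fun i => by
  by_cases a : i ∈ T
  exacts [φ.B_symm_zero (H _ (e_mem a)), h.mem_co.1 hx i a]

theorem split (T : Finset κ) (x : V) : ∃ u ∈ co F e T, ∃ w ∈ co F e Tᶜ, x = u + w := by
  refine ⟨∑ i ∈ T, (φ.B (e i) x / (2 * N)) • e i, sum_mem fun i a => Submodule.smul_mem _ _ (e_mem a),
    ∑ i ∈ Tᶜ, (φ.B (e i) x / (2 * N)) • e i, sum_mem fun i a => Submodule.smul_mem _ _ (e_mem a), ?_⟩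
  rw [Finset.sum_add_sum_compl, ← h.expand]

theorem li : LinearIndependent F e := Fintype.linearIndependent_iff.2 fun c hc i => by
  simpa [h.Bij, h.h2, h.N0] using congrArg (φ.B (e i)) hc

theorem finrank_co (T : Finset κ) : finrank F (co F e T) = T.card := by
  rw [co, Set.image_eq_range, finrank_span_eq_card (b := fun x : (T : Set κ) => e x)
    (h.li.comp _ Subtype.val_injective)]; simp

theorem finrank_eq : finrank F V = Fintype.card κ := by
  rw [← finrank_top, ← show co F e Finset.univ = ⊤ from eq_top_iff.2 fun x _ => h.mem_co.2 (by simp), h.finrank_co,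
    Finset.card_univ]

omit [DecidableEq κ] in
theorem ne0 (i : κ) : e i ≠ 0 := fun a => h.N0 (by rw [← h.Qe i, a, Q_zero])

variable [φ.Nondeg] [FiniteDimensional F V]

omit [φ.Nondeg] [FiniteDimensional F V] in
theorem blk : φ.Blk (ln F e) 1 :=
  ⟨h.q, ⟨fun i => φ.nondegOn_singleton (by simp [h.Bee, h.h2, h.N0]), fun i j a =>
    (Submodule.span_singleton_le_iff_mem _ _).2 (φ.mem_perp_singleton.2 (h.orth i j a)), eq_top_iff.2 fun x _ => by
      rw [h.expand x]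
      exact sum_mem fun i _ => Submodule.mem_iSup_of_mem i (Submodule.smul_mem _ _
        (Submodule.mem_span_singleton_self _))⟩, fun i => finrank_span_singleton (h.ne0 i),
    fun i j => isEquiv_singleton (fun _ => rfl) (fun _ => rfl) rfl (h.ne0 i) (h.ne0 j) (by rw [h.Qe, h.Qe]), by have := h.n10; rw [h.finrank_eq]; omega⟩

omit [φ.Nondeg] in
theorem mem_dstab {g : φ.Isom} : g ∈ φ.dstab (ln F e) ↔ ∀ i, ∃ j, g.1 (e i) ∈ ln F e j :=
  ⟨fun ⟨σ, a⟩ i => ⟨σ i, a i ▸ ⟨_, Submodule.mem_span_singleton_self _, rfl⟩⟩, fun a =>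
    h.blk.od.mem_dstab_of_le h.blk.rk one_pos fun i => (a i).imp fun j b => by
      rwa [Submodule.map_span, Set.image_singleton, Submodule.span_singleton_le_iff_mem]⟩

theorem root {u w : V} (hij : i ≠ j) (hu : u ∈ ln F e i) (hw : w ∈ ln F e j) (h0 : φ.Q u ≠ 0) (h1 : φ.Q w = φ.Q u) :
    φ.Q (u + w) = 2 * φ.Q u ∧ φ.Rt e (u + w) ∧ (φ.refl (u + w)).1 u = -w := by
  have o : φ.B u w = 0 := h.blk.od.orth i j hij hw u hu
  have q : φ.Q (u + w) = 2 * φ.Q u := by rw [φ.Q_add_of_orth o, h1, two_mul]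
  have q0 := mul_ne_zero h.h2 h0
  have r1 : (φ.refl (u + w)).1 u = -w := by
    rw [h.q.refl_apply, q, map_add, LinearMap.add_apply, h.q.B_self, φ.B_symm_zero o, add_zero, neg_mul,
      inv_mul_cancel₀ q0]; module
  have r2 : (φ.refl (u + w)).1 w = -u := by rw [← h.q.refl_inv, Isom.inv_apply_eq, map_neg, r1, neg_neg]
  refine ⟨q, ⟨q ▸ q0, h.mem_dstab.2 fun k => ?_⟩, r1⟩
  have a : ∀ {i j u w}, u ∈ ln F e i → φ.Q u ≠ 0 → w ∈ ln F e j → ∀ r : φ.Isom, r.1 u = -w →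
      r.1 (e i) ∈ ln F e j := fun hu h0 hw r hr => by
    obtain ⟨c, rfl⟩ := Submodule.mem_span_singleton.1 hu
    exact (Submodule.smul_mem_iff _ (by rintro rfl; simp at h0)).1 (map_smul r.1 c _ ▸ hr ▸ neg_mem hw)
  by_cases a1 : k = i
  · exact ⟨j, a1 ▸ a hu h0 hw _ r1⟩
  by_cases a2 : k = j
  · exact ⟨i, a2 ▸ a hw (h1 ▸ h0) hu _ r2⟩
  exact ⟨k, by
    rw [h.q.refl_of_orth (φ.B_symm_zero (by simp [h.mem_ln.1 hu k a1, h.mem_ln.1 hw k a2]))]
    exact Submodule.mem_span_singleton_self _⟩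

variable [Finite F]

theorem rt_ln (hx : x ∈ ln F e i) (h0 : x ≠ 0) : φ.Rt e x := by
  refine ⟨?_, h.blk.refl_mem hx⟩
  obtain ⟨c, rfl⟩ := Submodule.mem_span_singleton.1 hx
  simpa [h.q.Q_smul, h.Qe, h.N0, h.ne0] using h0

theorem rt_e (i : κ) : φ.Rt e (e i) := h.rt_ln (Submodule.mem_span_singleton_self _) (h.ne0 i)

theorem rt_sub (hij : i ≠ j) : φ.Q (e i - e j) = 2 * N ∧ φ.Rt e (e i - e j) ∧ (φ.refl (e i - e j)).1 (e i) = e j := by
  simpa [h.Qe, ← sub_eq_add_neg] using h.root hij (Submodule.mem_span_singleton_self _)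
    (neg_mem (Submodule.mem_span_singleton_self _)) (h.rt_e i).1 (by simp [h.Qe])

theorem rt_add (hij : i ≠ j) : φ.Q (e i + e j) = 2 * N ∧ φ.Rt e (e i + e j) := by
  have := h.root hij (Submodule.mem_span_singleton_self _) (Submodule.mem_span_singleton_self _) (h.rt_e i).1
    (by simp [h.Qe])
  exact ⟨h.Qe i ▸ this.1, this.2.1⟩

theorem rt_diff {w : V} (hw : w ∈ ln F e j) (h1 : φ.Q w = N) (h0 : e i + w ≠ 0) : φ.Rt e (e i + w) := by
  by_cases a : i = j
  · exact h.rt_ln (add_mem (Submodule.mem_span_singleton_self _) (a ▸ hw)) h0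
  · exact (h.root a (Submodule.mem_span_singleton_self _) hw (h.rt_e i).1 (by rw [h1, h.Qe])).2.1

theorem root_cls (hx : φ.Rt e x) (hi : φ.B (e i) x ≠ 0) : x ∈ ln F e i ∧ chi (φ.Q x) = chi N ∨
    ∃ j, j ≠ i ∧ x ∈ Submodule.span F {e i, e j} ∧ chi (φ.Q x) = chi (2 * N) := by
  obtain ⟨j, hj⟩ := h.mem_dstab.1 hx.2 i
  have q := Isom.Q_map (φ.refl x) (e i)
  have c0 : (φ.Q x)⁻¹ * φ.B x (e i) ≠ 0 := by simp [hx.1, h.q.B_comm x, hi]
  have e1 : ((φ.Q x)⁻¹ * φ.B x (e i)) • x = e i + -(φ.refl x).1 (e i) := by rw [h.q.refl_apply]; module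
  by_cases a : j = i
  · have := (Submodule.smul_mem_iff _ c0).1
      (e1 ▸ add_mem (Submodule.mem_span_singleton_self _) (neg_mem (a ▸ hj)) : _ ∈ ln F e i)
    refine Or.inl ⟨this, ?_⟩
    obtain ⟨c, rfl⟩ := Submodule.mem_span_singleton.1 this
    rw [h.q.Q_smul, h.Qe, chi_mul (by simp_all) h.N0, chi_mul_self, one_mul]
  refine Or.inr ⟨j, a, (Submodule.smul_mem_iff _ c0).1 (e1 ▸ add_mem (Submodule.subset_span (by simp))
    (neg_mem (Submodule.span_mono (by simp) hj))), ?_⟩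
  have := (h.root (Ne.symm a) (Submodule.mem_span_singleton_self _) (neg_mem hj) (h.rt_e i).1 (by simp)).1
  rw [← e1, h.q.Q_smul, h.Qe] at this
  rw [← this, chi_mul (mul_ne_zero c0 c0) hx.1, chi_mul_self, one_mul]

theorem root_ex (hx : φ.Rt e x) : ∃ i, φ.B (e i) x ≠ 0 := by
  by_contra! H; exact hx.1 (by rw [h.tot x H, Q_zero])

theorem root_chi (hx : φ.Rt e x) : chi (φ.Q x) = chi N ∨ chi (φ.Q x) = chi (2 * N) :=
  (h.root_ex hx).elim fun _ a => (h.root_cls hx a).imp And.right fun ⟨_, a⟩ => a.2.2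

theorem root_at (hx : φ.Rt e x) (hi : φ.B (e i) x ≠ 0) : ∃ j, j ≠ i ∧ x ∈ Submodule.span F {e i, e j} := by
  rcases h.root_cls hx hi with a | ⟨j, a⟩
  · obtain ⟨j, hj⟩ := h.ex [i] (by simp)
    exact ⟨j, by simpa using hj, Submodule.span_mono (by simp) a.1⟩
  · exact ⟨j, a.1, a.2.1⟩

theorem root_supp (hx : φ.Rt e x) : (φ.supp e x).card ≤ 2 := by
  obtain ⟨i, hi⟩ := h.root_ex hx
  obtain ⟨j, -, hj⟩ := h.root_at hx hi
  exact (Finset.card_le_card fun k hk => by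
    by_contra a; simp only [Finset.mem_insert, Finset.mem_singleton, not_or] at a
    exact mem_supp.1 hk (h.mem_pair.1 hj k a.1 a.2)).trans (Finset.card_le_two (a := i) (b := j))

theorem three_of (h0 : φ.Q x ≠ 0) (hx : ¬ φ.Rt e x) (H : ∀ i j, i ≠ j → φ.B (e i) x ≠ 0 → φ.B (e j) x ≠ 0 →
    φ.B (e i) x * φ.B (e i) x = φ.B (e j) x * φ.B (e j) x) : 3 ≤ (φ.supp e x).card := by
  by_contra! a
  have x0 : x ≠ 0 := by rintro rfl; simp at h0
  obtain ⟨i, hi⟩ : ∃ i, φ.B (e i) x ≠ 0 := by by_contra! H; exact x0 (h.tot x H)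
  obtain ⟨j, hj, hj'⟩ : ∃ j, j ≠ i ∧ φ.B (e j) x ≠ 0 := by by_contra! H; exact hx (h.rt_ln (h.mem_ln.2 H) x0)
  obtain ⟨s, t, rfl⟩ := Submodule.mem_span_pair.1 (h.mem_pair (i := i) (j := j).2 fun k k1 k2 => by
    by_contra b
    exact absurd (Finset.two_lt_card_iff.2 ⟨i, j, k, mem_supp.2 hi, mem_supp.2 hj', mem_supp.2 b, hj.symm, k1.symm,
      k2.symm⟩) (by omega))
  have := H i j hj.symm hi hj'
  simp only [map_add, map_smul, h.Bij, hj, hj.symm, smul_eq_mul, if_true, if_false] at this hi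
  refine hx (h.root hj.symm (Submodule.smul_mem _ s (Submodule.mem_span_singleton_self _))
    (Submodule.smul_mem _ t (Submodule.mem_span_singleton_self _)) (by simp_all [h.q.Q_smul, h.Qe, h.N0]) ?_).2.1
  rw [h.q.Q_smul, h.q.Q_smul, h.Qe, h.Qe]
  exact mul_left_cancel₀ (mul_ne_zero (mul_ne_zero h.h2 h.h2) h.N0) (by linear_combination -this)

theorem neg (T : Finset κ) : ∃ z, Neg z (co F e T) ∧ z ∈ φ.dstab (ln F e) ∧ (Even T.card → z ∈ φ.E) ∧
    ∀ K : Subgroup φ.Isom, (∀ i ∈ T, φ.refl (e i) ∈ K) → z ∈ K := by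
  suffices H : ∃ z, Neg z (co F e T) ∧ φ.dickson z = (-1) ^ T.card ∧ φ.spinor z = chi N ^ T.card ∧
      ∀ K : Subgroup φ.Isom, (∀ i ∈ T, φ.refl (e i) ∈ K) → z ∈ K by
    obtain ⟨z, a, b, c, d⟩ := H
    exact ⟨z, a, d _ fun i _ => (h.rt_e i).2, fun e => h.blk.mem_E.2 ⟨by rw [b, e.neg_one_pow], by
      obtain ⟨k, hk⟩ := e; rw [c, hk, pow_add, Int.units_mul_self]⟩, d⟩
  induction T using Finset.induction_on with
  | empty => exact ⟨1, ⟨fun x hx => by simp_all [co], fun _ _ => rfl⟩, by simp, by simp, fun K _ => one_mem K⟩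
  | insert i T hi ih =>
    obtain ⟨z, a, b, c, d⟩ := ih
    have r := (h.rt_e i).1
    refine ⟨φ.refl (e i) * z, ?_, by simp [b, hi, pow_succ', h.q.dickson_refl h.blk.good r],
      by simp [c, hi, pow_succ', h.q.spinor_refl h.blk.good r, h.Qe], fun K hK =>
        mul_mem (hK i (by simp)) (d K fun j hj => hK j (by simp [hj]))⟩
    rw [co, Finset.coe_insert, Set.image_insert_eq, Submodule.span_insert]
    refine Neg.mul ⟨fun x hx => ?_, fun x hx => h.q.refl_of_orth (φ.mem_perp_singleton.1 hx)⟩ a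
      fun x hx => φ.mem_perp_singleton.2 (h.mem_co.1 hx i hi)
    obtain ⟨c, rfl⟩ := Submodule.mem_span_singleton.1 hx
    simp [h.q.refl_self r]

omit [φ.Nondeg] [FiniteDimensional F V] [Finite F] in
theorem supp_add {A : Finset κ} {a : V} (ha : a ∈ co F e A) {c : F} (hc : c ≠ 0) (y : V) :
    φ.supp e y \ A ⊆ φ.supp e (a + c • y) ∧ φ.supp e (a + c • y) ⊆ A ∪ φ.supp e y := by
  constructor <;> intro k hk <;> by_cases b : k ∈ A <;> have := h.mem_co.1 ha k <;> simp_all [mem_supp]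

theorem red {K : Subgroup φ.Isom} (hK : ∀ i, Rf K (e i)) {v : V} (hv : Rf K v) (hT : T ⊆ φ.supp e v) (h2 : 2 ≤ T.card)
    (h3 : T.card + 3 ≤ (φ.supp e v).card) (hr : ∀ u ∈ co F e T, (∀ k ∈ T, φ.B (e k) u = φ.B (e k) v) → ¬ φ.Rt e u) :
    ∃ x, Rf K x ∧ ¬ φ.Rt e x ∧ (φ.supp e x).card < (φ.supp e v).card := by
  obtain ⟨z, hz, -, -, zK⟩ := h.neg T
  replace zK := zK K fun i _ => (hK i).2
  obtain ⟨u, hu, w, hw, rfl⟩ := h.split T v
  set S := φ.supp e (u + w) with hS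
  have s1 : φ.supp e u = T := Finset.ext fun k => by
    have := h.mem_co.1 hu k; have := h.mem_co.1 hw k; have := @hT k
    by_cases b : k ∈ T <;> simp_all [mem_supp]
  have s2 : φ.supp e w = S \ T := Finset.ext fun k => by
    have := h.mem_co.1 hu k; have := h.mem_co.1 hw k
    by_cases b : k ∈ T <;> simp_all [mem_supp]
  have c2 := Finset.card_sdiff_add_card_eq_card hT
  have key : ∀ {i y} {c : F}, c ≠ 0 → Rf K (e i + c • y) → (4 ≤ (φ.supp e y).card ∨ φ.B (e i) (e i + c • y) ≠ 0 ∧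
      3 ≤ (insert i (φ.supp e y)).card) → (φ.supp e y).card + 2 ≤ S.card → ∃ x, Rf K x ∧ ¬ φ.Rt e x ∧
        (φ.supp e x).card < S.card := fun {i y c} a4 a5 a7 a8 => by
    obtain ⟨t1, t2⟩ := h.supp_add (A := {i}) (e_mem (i := i) (by simp)) a4 y
    have := (Finset.card_le_card t2).trans (Finset.card_union_le _ _)
    refine ⟨_, a5, fun r => ?_, by simp at this; omega⟩
    have := h.root_supp r
    have := Finset.card_le_card t1
    have := Finset.le_card_sdiff {i} (φ.supp e y)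
    rcases a7 with a | ⟨a, b⟩
    · simp at *; omega
    have := Finset.card_le_card (show insert i (φ.supp e y) ⊆ φ.supp e (e i + c • y) from fun k hk => by
      by_cases d : k = i
      exacts [by rw [d]; exact mem_supp.2 a, t1 (by simpa [d] using hk)])
    omega
  obtain ⟨i, hi⟩ := Finset.card_pos.1 (by omega : 0 < T.card)
  obtain ⟨j, hj⟩ := Finset.card_pos.1 (by omega : 0 < (S \ T).card)
  have hw' := h.perp_of hw
  have huv : φ.B u w = 0 := hw' u hu
  have h7 := hv.map h.q zK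
  rw [map_add, hz.1 u hu, hz.2 w hw'] at h7
  have h8 := hv.1
  have i1 := h.mem_co.1 hw i (by simpa)
  have j1 := h.mem_co.1 hu j (Finset.mem_sdiff.1 hj).2
  rw [φ.Q_add_of_orth huv] at h8
  by_cases h4 : φ.Q w = 0
  · have h3 : φ.Q u ≠ 0 := by simpa [h4] using h8
    have := (hK i).map h.q (mul_mem hv.2 h7.2)
    rw [h.q.deg huv h3 h4 (φ.B_symm_zero i1)] at this
    exact key (by simpa [h.h2, h3, h.q.B_comm u] using mem_supp.1 (s1 ▸ hi)) this (.inr ⟨by simp [i1, h.Bee, h.h2, h.N0],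
      (by rw [s2]; omega : 3 ≤ (φ.supp e w).card).trans (Finset.card_le_card (Finset.subset_insert _ _))⟩) (by rw [s2]; omega)
  by_cases h5 : φ.Q u = 0
  · have := (hK j).map h.q (mul_mem hv.2 (h7.smul h.q (c := -1) (by simp)).2)
    rw [add_comm u w, show (-1 : F) • (-u + w) = -w + u by module, h.q.deg (φ.B_symm_zero huv) h4 h5 (φ.B_symm_zero j1)] at this
    exact key (by simpa [h.h2, h4, h.q.B_comm w] using mem_supp.1 (s2 ▸ hj)) this (.inr ⟨by simp [j1, h.Bee, h.h2, h.N0], by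
      rw [s1, Finset.card_insert_of_notMem (Finset.mem_sdiff.1 hj).2]; omega⟩) (by rw [s1]; omega)
  rcases h.q.dihedral h.h2 (h.nd T) hz zK hu hw' h5 h4 hv with h9 | ⟨y, hy, h9⟩
  · exact ⟨u, ⟨h5, h9⟩, hr u hu fun k a => by simp [h.mem_co.1 hw k (by simpa)], by rw [s1]; omega⟩
  have A : ∀ j ∈ φ.supp e w, Rf K (e j + (-(φ.Q w)⁻¹ * φ.B w (e j)) • w) := fun j a => by
    have := (hK j).map h.q hy
    rwa [h9 _ (h.perp_of (e_mem (by simpa using (Finset.mem_sdiff.1 (s2 ▸ a)).2))), h.q.refl_apply] at this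
  have c0 : ∀ j ∈ φ.supp e w, -(φ.Q w)⁻¹ * φ.B w (e j) ≠ 0 := fun j a => by simpa [h4, h.q.B_comm w] using mem_supp.1 a
  by_cases b : 4 ≤ (φ.supp e w).card
  · exact key (c0 j (s2 ▸ hj)) (A j (s2 ▸ hj)) (.inl b) (by rw [s2]; omega)
  have b' : (φ.supp e w).card = 3 := by rw [s2] at b ⊢; omega
  by_contra H
  have := congrArg (φ.B · w) (h.expand w)
  simp only [map_sum, LinearMap.sum_apply, h.q.B_smul_left, h.q.B_self] at this
  rw [← Finset.sum_subset (φ.supp e w).subset_univ fun k _ a => by simp [not_not.1 (mt mem_supp.2 a)],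
    Finset.sum_congr rfl (g := fun _ => φ.Q w) fun k a => by
      have := not_not.1 fun d => H (key (c0 k a) (A k a) (.inr ⟨d, b'.ge.trans (Finset.card_le_card (Finset.subset_insert _ _))⟩)
        (by rw [s2]; omega))
      simp only [map_add, map_smul, h.Bee, h.q.B_comm w, smul_eq_mul] at this
      have := h.h2; have := h.N0
      field_simp at *
      linear_combination -‹_ + _ = _›, Finset.sum_const, b'] at this
  exact h4 (by rw [nsmul_eq_mul, Nat.cast_ofNat] at this; linear_combination -this)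

theorem small {K : Subgroup φ.Isom} (hK : ∀ i, Rf K (e i)) : ∀ n {v : V}, Rf K v → ¬ φ.Rt e v → (φ.supp e v).card ≤ n →
    ∃ x, Rf K x ∧ ¬ φ.Rt e x ∧ (φ.supp e x).card ≤ 4 := by
  have nr : ∀ x, 3 ≤ (φ.supp e x).card → ¬ φ.Rt e x := fun x a b => by have := h.root_supp b; omega
  intro n
  induction n with
  | zero => exact fun a b c => ⟨_, a, b, by omega⟩
  | succ n ih =>
    intro v hv hv' hn
    have R : (∃ x, Rf K x ∧ ¬ φ.Rt e x ∧ (φ.supp e x).card < (φ.supp e v).card) →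
      ∃ x, Rf K x ∧ ¬ φ.Rt e x ∧ (φ.supp e x).card ≤ 4 := fun ⟨x, a, b, c⟩ => ih a b (by omega)
    by_cases a : (φ.supp e v).card ≤ 4
    · exact ⟨v, hv, hv', a⟩
    by_cases b : 6 ≤ (φ.supp e v).card
    · obtain ⟨T, t1, t2⟩ := Finset.exists_subset_card_eq (s := φ.supp e v) (n := 3) (by omega)
      exact R (h.red hK hv t1 (by omega) (by omega) fun u _ c => nr u (t2.ge.trans (Finset.card_le_card fun k d =>
        mem_supp.2 (c k d ▸ mem_supp.1 (t1 d)))))
    have A : ∀ x, Rf K x → (φ.supp e x).card = 5 → ∀ i ∈ φ.supp e x, ∀ j ∈ φ.supp e x, φ.B (e i) x ^ 2 ≠ φ.B (e j) x ^ 2 →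
        ∃ y, Rf K y ∧ ¬ φ.Rt e y ∧ (φ.supp e y).card < (φ.supp e v).card := fun x x1 x2 i hi j hj c => by
      have ij : i ≠ j := by rintro rfl; exact c rfl
      obtain ⟨y, y1, y2, y3⟩ := h.red hK x1 (T := {i, j}) (by simp [Finset.insert_subset_iff, hi, hj])
        (by rw [Finset.card_pair ij]) (by rw [Finset.card_pair ij]; omega) fun u u1 u2 r => by
          have e1 := u2 i (by simp)
          have e2 := u2 j (by simp)
          obtain ⟨s, t, rfl⟩ := Submodule.mem_span_pair.1 (h.mem_pair (i := i) (j := j).2 fun k a b =>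
            h.mem_co.1 u1 k (by simp [a, b]))
          obtain ⟨k, hk⟩ := h.mem_dstab.1 r.2 i
          rw [h.mem_ln] at hk
          have q := r.1
          rw [mem_supp, ← e1] at hi
          rw [mem_supp, ← e2] at hj
          rw [← e1, ← e2] at c
          by_cases d : k = i
          · have := hk j (d ▸ ij.symm)
            rw [h.q.refl_apply, map_add, map_smul, h.q.B_comm (s • e i + t • e j)] at this
            simp [h.orth j i ij.symm, hi, hj, q, -map_add, -map_smul] at this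
          have := hk i (Ne.symm d)
          rw [h.q.refl_apply, map_add, map_smul, h.q.B_comm (s • e i + t • e j), h.q.Q_comb] at this
          rw [h.q.Q_comb] at q
          simp only [map_add, map_smul, h.Bij, h.Qe, ij, ij.symm, if_true, if_false, smul_eq_mul] at this c q
          simp only [mul_zero, add_zero, zero_add] at this c q
          exact c (by linear_combination (-(s * s * N + t * t * N) * 2) * this - (8 * s ^ 2 * N ^ 2) * mul_inv_cancel₀ q)
      exact ⟨y, y1, y2, by omega⟩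
    by_contra H
    obtain ⟨i, hi, j, hj, ij⟩ := Finset.one_lt_card.1 (by omega : 1 < (φ.supp e v).card)
    have E : ∀ k ∈ φ.supp e v, φ.B (e k) v ^ 2 = φ.B (e i) v ^ 2 := fun k d => by_contra fun c => H (R (A v hv (by omega) k d i hi c))
    have q := congrArg (φ.B · v) (h.expand v)
    simp only [map_sum, LinearMap.sum_apply, h.q.B_smul_left, h.q.B_self] at q
    rw [← Finset.sum_subset (φ.supp e v).subset_univ fun k _ a => by simp [not_not.1 (mt mem_supp.2 a)],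
      Finset.sum_congr rfl (g := fun _ => φ.B (e i) v ^ 2 / (2 * N)) fun k a => by rw [← E k a]; ring, Finset.sum_const,
      show (φ.supp e v).card = 5 by omega] at q
    have r := (hK i).map h.q hv.2
    rw [h.q.refl_apply] at r
    have c0 : -(φ.Q v)⁻¹ * φ.B v (e i) ≠ 0 := by simpa [hv.1, h.q.B_comm v] using mem_supp.1 hi
    obtain ⟨t1, t2⟩ := h.supp_add (A := {i}) (e_mem (i := i) (by simp)) c0 v
    rw [← Finset.insert_eq, Finset.insert_eq_of_mem hi] at t2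
    have := Finset.card_le_card t1
    have := Finset.le_card_sdiff {i} (φ.supp e v)
    have := Finset.card_le_card t2
    rw [Finset.card_singleton] at *
    by_cases d : (φ.supp e (e i + (-(φ.Q v)⁻¹ * φ.B v (e i)) • v)).card = 5
    swap
    · exact H ⟨_, r, nr _ (by omega), by omega⟩
    have t3 := Finset.eq_of_subset_of_card_le t2 (by omega)
    refine H (R (A _ r d i (t3 ▸ hi) j (t3 ▸ hj) fun c => ?_))
    simp only [map_add, map_smul, h.Bij, ij.symm, if_true, if_false, smul_eq_mul, h.q.B_comm v, zero_add, mul_pow, E j hj] at c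
    have := h.h2; have := h.N0; have := hv.1; have := mem_supp.1 hi
    have q' : φ.B (e i) v ^ 2 * 5 = 2 * 2 * N * φ.Q v := by simp at q; field_simp at q; linear_combination -q
    field_simp at c
    exact mul_ne_zero (mul_ne_zero (mul_ne_zero h.h2 h.N0) hv.1) (pow_ne_zero 2 this)
      (by linear_combination 2 * N * φ.Q v * q' + 2 * c)

section
variable {L : Subgroup φ.Isom} (hL : φ.E ⊓ φ.dstab (ln F e) ≤ L)
include hL

theorem rr (hx : φ.Rt e x) (hy : φ.Rt e y) (a : chi (φ.Q x) = chi (φ.Q y)) : φ.refl x * φ.refl y ∈ L :=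
  hL ⟨h.blk.rr_mem hx.1 hy.1 a, mul_mem hx.2 hy.2⟩

/-- localisation at two coordinates -/
theorem exK {a : V} (ha : Rf L a) (ha' : φ.Rt e a) (hE : ∀ g ∈ L, g ∈ φ.E ∨ g * φ.refl a ∈ φ.E) {m m' : κ}
    (hm : m ≠ m') : ∃ K : Subgroup φ.Isom, K ⊓ φ.E ≤ L ∧ (∀ g ∈ L, g.1 (e m) = e m → g.1 (e m') = e m' → g ∈ K) ∧
      ∀ x, φ.Rt e x → φ.B (e m) x = 0 → φ.B (e m') x = 0 → Rf K x := by
  have f : ∀ g : φ.Isom, g.1 (e m) = e m → g.1 (e m') = e m' → g ∈ φ.fix (co F e {m, m'}) := fun g a b => by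
    rw [co, mem_fix_span]; simp [a, b, or_imp, forall_and]
  refine ⟨loc L _ (h.nd {m, m'}), loc_inf_E _ hL ha.2 ha'.2 hE, fun g a b c =>
    ⟨f g b c, 1, one_mem _, one_mem _, by simpa⟩, fun x a b c => ⟨a.1,
      f _ (h.q.refl_of_orth (φ.B_symm_zero b)) (h.q.refl_of_orth (φ.B_symm_zero c)), ?_⟩⟩
  rcases h.root_chi a with d | d
  · exact ⟨_, h.q.refl_mem_fix (e_mem (by simp)), (h.rt_e m).2, h.rr hL a (h.rt_e m) (by rw [d, h.Qe])⟩
  · exact ⟨_, h.q.refl_mem_fix (sub_mem (e_mem (by simp)) (e_mem (by simp))), (h.rt_sub hm).2.1.2,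
      h.rr hL a (h.rt_sub hm).2.1 (by rw [d, (h.rt_sub hm).1])⟩

/-- final step -/
theorem ff (hT : T.card + 3 ≤ Fintype.card κ) {p : V} (hpT : p ∈ co F e T) {hp : φ.Q p = 0} (p0 : p ≠ 0)
    (h1 : ∀ w ∈ co F e T, φ.B p w = 0 → w ∈ h.q.ss L hp) (hy : y ∈ h.q.ss L hp) (hy' : y ∉ co F e T) : φ.E ≤ L := by
  have o : ∀ i ∉ T, φ.B (e i) p = 0 := h.mem_co.1 hpT
  have sp : ∀ x, φ.B p x = 0 → ∃ u ∈ co F e T, ∃ w ∈ co F e Tᶜ, x = u + w ∧ u ∈ h.q.ss L hp := fun x hx => by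
    obtain ⟨u, hu, w, hw, rfl⟩ := h.split T x
    exact ⟨u, hu, w, hw, rfl, h1 u hu (by simpa [h.perp_of hw p hpT] using hx)⟩
  obtain ⟨u, hu, w, hw, rfl, h2⟩ := sp y (h.q.mem_ss.1 hy).1
  replace h2 := (add_mem_cancel_left h2).1 hy
  obtain ⟨l, l1, l2⟩ : ∃ l ∉ T, φ.B (e l) w ≠ 0 := by
    by_contra! H; exact hy' (add_mem hu (h.mem_co.2 H))
  have z : ∀ i j, φ.refl (e i) * φ.refl (e j) ∈ L := fun i j => h.rr hL (h.rt_e i) (h.rt_e j) (by rw [h.Qe, h.Qe])
  have h3 : e l ∈ h.q.ss L hp := by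
    obtain ⟨m, m1, m2⟩ := ex_not T [l] (by simp; omega)
    obtain ⟨k, k1, k2⟩ := ex_not T [l, m] (by simp; omega)
    simp only [List.mem_cons, List.not_mem_nil, or_false, not_or] at m2 k2
    have := sub_mem (h.q.ss_map (z l m) (by
      rw [Isom.mul_apply, h.q.refl_of_orth (o m m1), h.q.refl_of_orth (o l l1)]) h2) h2
    refine h.q.ss_refl₂ (h.rt_e l).1 (z l k) (o l l1) (o k k1) this ?_ ?_ <;>
      simp [Isom.mul_apply, h.q.refl_apply, h.Bij, k2, m2, Ne.symm m2, h.Qe, h.N0, l2, h.h2]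
  have h4 : co F e Tᶜ ≤ h.q.ss L hp := Submodule.span_le.2 (by
    rintro _ ⟨m, m1, rfl⟩
    replace m1 : m ∉ T := by simpa using m1
    by_cases a : l = m
    · exact a ▸ h3
    obtain ⟨k, k1, k2⟩ := ex_not T [l, m] (by simp; omega)
    simp only [List.mem_cons, List.not_mem_nil, or_false, not_or] at k2
    have r1 := h.rt_sub a
    have r2 := h.rt_sub (Ne.symm k2.2)
    exact (Submodule.sub_mem_iff_right _ h3).1 (h.q.ss_refl₂ r1.2.1.1 (h.rr hL r1.2.1 r2.2.1 (by rw [r1.1, r2.1]))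
      (by simp [o, l1, m1]) (by simp [o, k1, m1]) h3 (by simp [h.Bij, k2, Ne.symm a])
      (by simp [h.Bij, Ne.symm a, h.h2, h.N0])))
  obtain ⟨i, hi⟩ : ∃ i, φ.B (e i) p ≠ 0 := by by_contra! H; exact p0 (h.tot p H)
  refine h.q.ss_E_le (hp := hp) (fun x hx => ?_) (z i l) ?_
  · obtain ⟨u, -, w, hw, rfl, a⟩ := sp x hx
    exact add_mem a (h4 hw)
  · simp [Isom.mul_apply, h.q.refl_of_orth (o l l1), h.q.refl_apply, φ.B_self_eq_zero hp, h.Qe, h.N0, hi,
      h.q.B_comm p]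

end
end Fr7

variable [φ.Nondeg] [FiniteDimensional F V] [Finite F]
namespace Fr7
open Fr (e_mem)
section
variable {e : κ → V} {N : F} (h : φ.Fr7 e N) {L : Subgroup φ.Isom} (hF : ∀ c : F, ∃ n : ℕ, c = n) (hL : φ.E ⊓ φ.dstab (ln F e) ≤ L)
include h hF hL

theorem gf3 (h3 : (3 : F) = 0) {v : V} (hv : Rf L v) (hv' : ¬ φ.Rt e v) {j : κ} (hj : φ.B (e j) v = 0) : φ.E ≤ L := by
  have s : ∀ c : F, c ≠ 0 → c * c = 1 := fun c hc => by
    obtain ⟨n, rfl⟩ := hF c
    rw [← Nat.div_add_mod n 3] at hc ⊢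
    have : n % 3 = 0 ∨ n % 3 = 1 ∨ n % 3 = 2 := by omega
    rcases this with a | a | a <;> simp only [a, Nat.cast_add, Nat.cast_mul, Nat.cast_ofNat, h3] at hc ⊢
    · simp at hc
    · simp
    · linear_combination h3
  obtain ⟨i, k, l, hi, hk, hl, ik, il, kl⟩ := Finset.two_lt_card_iff.1
    (h.three_of hv.1 hv' fun i j _ a b => by rw [s _ a, s _ b])
  rw [mem_supp] at hi hk hl
  have n : ∀ i, φ.B (e i) v ≠ 0 → i ≠ j := by rintro i a rfl; exact a hj
  have ij := n i hi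
  have kj := n k hk
  have s1 := s _ hi
  have s2 := s _ hk
  set x := φ.B (e i) v with hx
  set y := φ.B (e k) v with hy
  have m : ∀ (c : F) i, c • e i ∈ ln F e i := fun c i => Submodule.smul_mem _ c (Submodule.mem_span_singleton_self _)
  have r1 := h.root ik (m x i) (m y k) (by simp [h.q.Q_smul, s1, h.Qe, h.N0]) (by simp [h.q.Q_smul, s1, s2, h.Qe])
  have r2 := h.root ij (m (-x) i) (m 1 j) (by simp [h.q.Q_smul, s1, h.Qe, h.N0]) (by simp [h.q.Q_smul, s1, h.Qe])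
  have hp : φ.Q (x • e i - y • e k + e j) = 0 := by
    simp only [sub_eq_add_neg, h.q.Q_add, Q_neg, h.q.Q_smul, s1, s2, h.Qe]
    simp [h.Bij, ik, ij, kj]; linear_combination N * h3
  have h1 : x • e i + y • e k ∈ h.q.ss L hp := h.q.ss_of_rr hF (by simp [h.Bij, ik, ik.symm, ij.symm, kj.symm, h.q.σ_eq, ← mul_assoc, mul_right_comm, s1, s2])
    r1.2.1.1 (by
      convert h.rr hL r1.2.1 r2.2.1 (by rw [r1.1, r2.1]; simp [h.q.Q_smul, s1, h.Qe]) using 3
      linear_combination (norm := module) (x * h3) • e i)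
  refine h.ff hL (T := {i, k, j}) (by have := h.n10; have := Finset.card_le_three (a := i) (b := k) (c := j); omega)
    (hp := hp) (y := v) (h.mem_co.2 fun a b => by simp_all [h.Bij]) (fun a => ?_) (fun w a b => ?_)
    (h.q.ss_refl hv ?_ h1 ?_) fun a => hl (h.mem_co.1 a l (by simp [il.symm, kl.symm, n l hl]))
  · simpa [h.Bij, ij.symm, kj.symm, h.h2, h.N0] using congrArg (φ.B (e j)) a
  · simp only [co, Finset.coe_insert, Finset.coe_singleton, Set.image_insert_eq, Set.image_singleton,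
      Submodule.mem_span_triple] at a
    obtain ⟨a, c, d, rfl⟩ := a
    have : a * x - c * y + d = 0 := mul_left_cancel₀ (mul_ne_zero h.h2 h.N0) (by
      simp [h.Bij, ik, ik.symm, ij, ij.symm, kj, kj.symm, h.q.σ_eq] at b; linear_combination b)
    convert add_mem (Submodule.smul_mem _ d h.q.self_mem_ss) (Submodule.smul_mem _ (a * x - d) h1) using 1
    match_scalars
    · linear_combination (-a) * s1
    · linear_combination (-y) * this - c * s2 + d * y * h3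
    · ring
  · simp [h.q.B_comm v (e _), ← hx, ← hy, s1, s2, hj]
  · simp only [map_add, map_smul, h.q.B_comm v (e _), ← hx, ← hy, smul_eq_mul, s1, s2, one_add_one_eq_two]; exact h.h2

omit hF hL in
theorem good (h3 : (3 : F) ≠ 0) {K : Subgroup φ.Isom} {v : V} (hv : Rf K v) (hv' : ¬ φ.Rt e v) {f : κ}
    (hf : φ.B (e f) v = 0) (hK : ∀ i, φ.B (e i) v ≠ 0 → Rf K (e i)) : ∃ i j, i ≠ j ∧ φ.B (e i) v ≠ 0 ∧
      (j = f ∨ φ.B (e j) v ≠ 0) ∧ ∃ u ∈ Submodule.span F {e i, e j}, ∃ w, u ≠ 0 ∧ φ.Q w ≠ 0 ∧ φ.B (e i) w = 0 ∧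
        φ.B (e j) w = 0 ∧ Rf K (u + w) ∧ 2 * φ.Q u ≠ φ.Q (u + w) ∧ ∀ k, k ≠ f → φ.B (e k) v = 0 → φ.B (e k) w = 0 := by
  by_contra! H
  have N0 := h.N0
  have h2 := h.h2
  have key : ∀ x, Rf K x → (∀ k, φ.B (e k) v = 0 → φ.B (e k) x = 0) → ∀ i j, i ≠ j → φ.B (e i) x ≠ 0 →
      (j = f ∨ φ.B (e j) v ≠ 0) → φ.B (e i) x ^ 2 + φ.B (e j) x ^ 2 = 2 * 2 * N * φ.Q x ∨
        φ.B (e i) x ^ 2 + φ.B (e j) x ^ 2 = 2 * N * φ.Q x := fun x x1 x2 i j a b c => by
    by_contra! d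
    set u := (φ.B (e i) x / (2 * N)) • e i + (φ.B (e j) x / (2 * N)) • e j with hu
    have u1 : φ.B (e i) (x - u) = 0 := by simp [hu, h.Bij, a, h2, N0]
    have u2 : φ.B (e j) (x - u) = 0 := by simp [hu, h.Bij, a.symm, h2, N0]
    have u3 : φ.Q u = (φ.B (e i) x ^ 2 + φ.B (e j) x ^ 2) / (2 * 2 * N) := by
      simp only [hu, h.q.Q_comb, h.Qe, h.orth i j a]; field_simp; ring
    have u4 := φ.Q_add_of_orth (show φ.B u (x - u) = 0 by
      generalize x - u = y at u1 u2; simp [hu, u1, u2])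
    rw [add_sub_cancel] at u4
    obtain ⟨k, k1, k2, k3⟩ := H i j a (mt (x2 i) b) c u (Submodule.mem_span_pair.2 ⟨_, _, rfl⟩) (x - u)
      (fun e => b (by simpa [e] using u1)) (fun e => d.1 (by rw [u4, e, u3]; field_simp; ring)) u1 u2 (by simpa)
      fun e => d.2 (by rw [add_sub_cancel] at e; rw [← e, u3]; field_simp)
    have k4 : k ≠ i := by rintro rfl; exact b (x2 k k2)
    have k5 : k ≠ j := by rintro rfl; exact c.elim k1 fun a => a k2
    simp [hu, h.Bij, k4, k5, x2 k k2] at k3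
  have q0 := mul_ne_zero (mul_ne_zero h2 N0) hv.1
  have n : ∀ i, φ.B (e i) v ≠ 0 → i ≠ f := by rintro i a rfl; exact a hf
  have k1 : ∀ i j, i ≠ j → φ.B (e i) v ≠ 0 → φ.B (e j) v ≠ 0 → φ.B (e i) v ^ 2 = 2 * N * φ.Q v := fun i j a b c => by
    have e1 := key v hv (fun _ => id) i f (n i b) b (Or.inl rfl)
    have e2 := key v hv (fun _ => id) j f (n j c) c (Or.inl rfl)
    have e3 := key v hv (fun _ => id) i j a b (Or.inr c)
    rw [hf] at e1 e2
    refine (e1.resolve_left fun e1 => ?_).symm ▸ by ring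
    rcases e2 with e2 | e2 <;> rcases e3 with e3 | e3
    · exact mul_ne_zero h2 q0 (by linear_combination e3 - e1 - e2)
    · exact mul_ne_zero h3 q0 (by linear_combination e3 - e1 - e2)
    · exact q0 (by linear_combination e3 - e1 - e2)
    · exact mul_ne_zero h2 q0 (by linear_combination e3 - e1 - e2)
  obtain ⟨i, j, l, hi, hj, hl, ij, il, jl⟩ := Finset.two_lt_card_iff.1
    (h.three_of hv.1 hv' fun i j a b c => by rw [← sq, ← sq, k1 i j a b c, k1 j i a.symm c b])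
  rw [mem_supp] at hi hj hl
  have e1 : ∀ k, k ≠ i → φ.B (e k) ((φ.refl v).1 (e i)) = -(φ.Q v)⁻¹ * φ.B (e i) v * φ.B (e k) v := fun k a => by
    simp [h.q.refl_apply, h.orth k i a, h.q.B_comm v]
  have e2 := key _ ((hK i hi).map h.q hv.2) (fun k a => by
    rw [e1 k (by rintro rfl; exact hi a), a, mul_zero]) j l jl (by simp [e1 j ij.symm, hi, hj, hv.1]) (Or.inr hl)
  have e3 : ∀ k, k ≠ i → φ.B (e k) v ≠ 0 → φ.B (e k) ((φ.refl v).1 (e i)) ^ 2 = (2 * N) ^ 2 := fun k a b => by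
    have v0 := hv.1
    rw [e1 k a, mul_pow, mul_pow, k1 i k a.symm hi b, k1 k i a b hi]; field_simp
  rw [e3 j ij.symm hj, e3 l il.symm hl, Isom.Q_map, h.Qe] at e2
  rcases e2 with e2 | e2
  · exact pow_ne_zero 2 (mul_ne_zero h2 N0) (by linear_combination e2)
  · exact mul_ne_zero (mul_ne_zero h3 h2) (pow_ne_zero 2 N0) (by linear_combination e2)

variable {i j : κ} (ij : i ≠ j) {w : V} (w0 : φ.Q w ≠ 0) (w1 : φ.B (e i) w = 0) (w2 : φ.B (e j) w = 0)
  (hU : Om L (Submodule.span F {e i, e j} ⊔ F ∙ w))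
include ij w0 w1 w2 hU

theorem fin5 (h5 : (5 : F) = 0) : φ.E ≤ L := by
  have hp : φ.Q (e i + (2 : F) • e j) = 0 := by
    simp [h.q.Q_add, h.q.Q_smul, h.Qe, h.orth i j ij]; linear_combination N * h5
  have a := Submodule.mem_sup_right (S := Submodule.span F {e i, e j}) (Submodule.mem_span_singleton_self (R := F) w)
  refine h.ff hL (T := {i, j}) (by have := h.n10; have := Finset.card_le_two (a := i) (b := j); omega) (hp := hp)
    (y := w) (h.mem_co.2 fun a b => by simp_all [h.Bij]) (fun a => ?_) (fun x a b => ?_)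
    (h.q.ss_of_om h.h2 hF hU (Submodule.mem_sup_left (Submodule.mem_span_pair.2 ⟨1, 2, by simp⟩)) a
      (by simp [w1, w2]) w0 w a (by simp [w1, w2])) fun a => w0 (by
        rw [h.tot w fun k => by by_cases b : k ∈ ({i, j} : Finset κ) <;> [simp at b; exact h.mem_co.1 a k b]; aesop,
          Q_zero])
  · simpa [h.Bij, ij, h.h2, h.N0] using congrArg (φ.B (e i)) a
  · exact h.q.ss_of_om h.h2 hF hU (Submodule.mem_sup_left (Submodule.mem_span_pair.2 ⟨1, 2, by simp⟩))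
      (Submodule.mem_sup_right (Submodule.mem_span_singleton_self _)) (by simp [w1, w2]) w0 x
      (Submodule.mem_sup_left (by simpa [co, Set.image_insert_eq] using a)) b

omit ij w0 w1 w2 hU hL in
theorem om (p : ℕ) [Fact p.Prime] [CharP F p] {K : Subgroup φ.Isom} (hK : K ⊓ φ.E ≤ L) {i j : κ} (ij : i ≠ j)
    (hi : Rf K (e i)) (hj : Rf K (e i - e j)) {u w : V} (hu : u ∈ Submodule.span F {e i, e j}) (u0 : u ≠ 0)
    (w0 : φ.Q w ≠ 0) (w1 : φ.B (e i) w = 0) (w2 : φ.B (e j) w = 0) (hx : Rf K (u + w))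
    (h1 : 2 * φ.Q u ≠ φ.Q (u + w)) : Om L (Submodule.span F {e i, e j} ⊔ F ∙ w) := fun x a y b c d f g =>
  have y0 : φ.Q y ≠ 0 := fun e => c (by rw [g, e, mul_zero])
  hK ⟨h.q.dick p h.h2 hF hi hj (by rw [h.Qe, h.Qe]) (h.orth i j ij) w1 w2 hu u0 w0 hx h1 a b c f g,
    h.blk.rr_mem c y0 (by rw [g, chi_mul (mul_ne_zero f f) y0, chi_mul_self, one_mul])⟩

theorem fin7 (p : ℕ) [Fact p.Prime] [CharP F p] (h3 : (3 : F) ≠ 0) (h5 : (5 : F) ≠ 0) {a : V} (ha : Rf L a)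
    (ha' : φ.Rt e a) (hE : ∀ g ∈ L, g ∈ φ.E ∨ g * φ.refl a ∈ φ.E) {m m' : κ} (mm : m ≠ m') (im : i ≠ m) (im' : i ≠ m')
    (jm : j ≠ m) (jm' : j ≠ m') (w3 : φ.B (e m) w = 0) (w4 : φ.B (e m') w = 0) : φ.E ≤ L := by
  have N0 := h.N0
  have h2 := h.h2
  have h4 : (4 : F) ≠ 0 := by rw [show (4 : F) = 2 * 2 by norm_num]; exact mul_ne_zero h2 h2
  have nj := φ.nondegOn_singleton (h.q.B_self_ne_zero h2 (h.rt_e j).1)
  have ow : F ∙ w ≤ φ.perp (F ∙ e j) := (Submodule.span_singleton_le_iff_mem _ _).2 (φ.mem_perp_singleton.2 w2)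
  set y := (3 / 5 : F) • e i + (4 / 5 : F) • e j with hy
  have q1 : φ.Q (e i - y) = 4 / 5 * N := by
    rw [show e i - y = (2 / 5 : F) • e i + (-4 / 5 : F) • e j by rw [hy]; match_scalars <;> field_simp; ring,
      h.q.Q_comb, h.Qe, h.Qe, h.orth i j ij]; field_simp; ring
  obtain ⟨x, x1, x2⟩ := h.q.exists_Q_eq (nj.sup (φ.nondegOn_singleton (h.q.B_self_ne_zero h2 w0)) ow) (by
    rw [finrank_sup_orth nj ow, finrank_span_singleton (h.ne0 j), finrank_span_singleton (by rintro rfl; simp at w0)])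
    (φ.Q (e i - y))
  have x3 : ∀ k, k ≠ j → φ.B (e k) w = 0 → φ.B (e k) x = 0 := fun k a b => by
    obtain ⟨u, hu, c, rfl⟩ := mem_sup_one.1 x1
    simp [b, h.mem_ln.1 hu k a]
  have k1 := hU (e i - y) (Submodule.mem_sup_left (Submodule.mem_span_pair.2 ⟨2 / 5, -4 / 5, by
    rw [hy]; match_scalars <;> field_simp; ring⟩)) x (SetLike.le_def.1 (sup_le_sup_right (Submodule.span_mono (by simp)) _) x1)
    (by simp [q1, h4, h5, N0]) 1 one_ne_zero (by simp [x2])
  set k := φ.refl (e i - y) * φ.refl x with hk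
  have k2 : k.1 (e i) = y := by
    rw [hk, Isom.mul_apply, h.q.refl_of_orth (φ.B_symm_zero (x3 i ij w1)), h.q.refl_apply, q1]
    simp only [hy, map_sub, map_add, map_smulₛₗ, LinearMap.sub_apply, LinearMap.add_apply, LinearMap.smul_apply, h.Bij,
      ij.symm, h.q.σ_eq, if_true, if_false, smul_eq_mul]
    match_scalars <;> field_simp <;> ring
  have k3 : ∀ l, i ≠ l → j ≠ l → φ.B (e l) w = 0 → k.1 (e l) = e l := fun l a b c => by
    rw [hk, Isom.mul_apply, h.q.refl_of_orth (φ.B_symm_zero (x3 l b.symm c)), h.q.refl_of_orth (by simp [hy, h.Bij, a, b])]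
  have r1 := h.rt_sub im
  have r2 := h.rt_sub mm
  have k4 := mul_mem (mul_mem k1 (h.rr hL r1.2.1 r2.2.1 (by rw [r1.1, r2.1]))) (inv_mem k1)
  rw [← conj_mul, h.q.refl_conj, h.q.refl_conj, map_sub, map_sub, k2, k3 m im jm w3, k3 m' im' jm' w4] at k4
  obtain ⟨l, hl⟩ := h.ex [i, j, m, m'] (by simp)
  obtain ⟨l', hl'⟩ := h.ex [i, j, m, m', l] (by simp)
  simp only [List.mem_cons, List.not_mem_nil, or_false, not_or] at hl hl'
  obtain ⟨K, K1, K2, K3⟩ := h.exK hL ha ha' hE (Ne.symm hl'.2.2.2.2)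
  have f : ∀ l, l ≠ i → l ≠ j → l ≠ m → l ≠ m' → (φ.refl (y - e m) * φ.refl (e m - e m')).1 (e l) = e l :=
    fun l a b c d => by
      rw [Isom.mul_apply, h.q.refl_of_orth (v := e m - e m') (by simp [h.Bij, c.symm, d.symm]),
        h.q.refl_of_orth (by simp [hy, h.Bij, a.symm, b.symm, c.symm])]
  have k5 := (K.mul_mem_cancel_right (K3 _ r2.2.1 (by simp [h.Bij, hl]) (by simp [h.Bij, hl'])).2).1
    (K2 _ k4 (f l hl.1 hl.2.1 hl.2.2.1 hl.2.2.2) (f l' hl'.1 hl'.2.1 hl'.2.2.1 hl'.2.2.2.1))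
  have q2 : φ.Q (y - e m) = 2 * N := by rw [← k2, ← k3 m im jm w3, ← map_sub, Isom.Q_map, r1.1]
  have e1 : y - e m = ((3 / 5 : F) • e i + (-1 : F) • e m) + (4 / 5 : F) • e j := by rw [hy]; module
  have hT := h.om hF p K1 im (K3 _ (h.rt_e i) (by simp [h.Bij, hl]) (by simp [h.Bij, hl']))
    (K3 _ r1.2.1 (by simp [h.Bij, hl]) (by simp [h.Bij, hl'])) (Submodule.mem_span_pair.2 ⟨3 / 5, -1, rfl⟩)
    (fun a => by simpa [h.Bij, im, h2, h3, h5, N0] using congrArg (φ.B (e i)) a) (w := (4 / 5 : F) • e j)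
    (by simp [h.q.Q_smul, h.Qe, h4, h5, N0]) (by simp [h.Bij, ij]) (by simp [h.Bij, jm.symm])
    (by rw [← e1]; exact ⟨q2 ▸ mul_ne_zero h2 N0, k5⟩) (by
      rw [← e1, q2, h.q.Q_comb, h.Qe, h.Qe, h.orth i m im]
      intro a; field_simp at a
      exact mul_ne_zero (mul_ne_zero h3 h3) N0 (by linear_combination a))
  rw [Submodule.span_singleton_smul_eq (by simp [h4, h5])] at hT
  have cT : co F e {i, j, m} ≤ Submodule.span F {e i, e m} ⊔ F ∙ e j := by
    rw [← Submodule.span_union]; exact Submodule.span_mono (by simp [Set.image_insert_eq, Set.insert_subset_iff])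
  have nd := h.nd {i, j}
  obtain ⟨u, u1, u2⟩ := h.q.exists_Q_eq (h.nd {i, j}) (by rw [h.finrank_co, Finset.card_pair ij]) (-N)
  simp only [co, Finset.coe_insert, Finset.coe_singleton, Set.image_insert_eq, Set.image_singleton,
    Submodule.mem_span_pair] at u1
  obtain ⟨s, t, rfl⟩ := u1
  rw [h.q.Q_comb, h.Qe, h.Qe, h.orth i j ij] at u2
  have hp : φ.Q (s • e i + t • e j + e m) = 0 := by
    rw [h.q.Q_add, h.q.Q_comb]; simp [h.Qe, h.Bij, ij, im, jm]; linear_combination u2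
  have q3 : φ.Q (t • e i + (-s) • e j) = -N := by rw [h.q.Q_comb, h.Qe, h.Qe, h.orth i j ij]; linear_combination u2
  have pT : s • e i + t • e j + e m ∈ co F e {i, j, m} := h.mem_co.2 fun a b => by simp_all [h.Bij]
  have uT : t • e i + (-s) • e j ∈ co F e {i, j, m} := h.mem_co.2 fun a b => by simp_all [h.Bij]
  have b1 : φ.B (s • e i + t • e j + e m) (t • e i + (-s) • e j) = 0 := by
    simp [h.Bij, ij, ij.symm, im.symm, jm.symm, h.q.σ_eq]; ring
  have p0 : φ.B (e m) (s • e i + t • e j + e m) ≠ 0 := by simp [h.Bij, im.symm, jm.symm, h2, N0]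
  have r3 := h.rt_sub (Ne.symm hl.2.2.1)
  have r4 := h.rt_sub (Ne.symm hl'.2.2.2.2)
  have t1 := h.rr hL r3.2.1 r4.2.1 (by rw [r3.1, r4.1])
  set t0 := φ.refl (e m - e l) * φ.refl (e l - e l') with ht
  have t2 : t0.1 (e m) = e l := by
    rw [ht, Isom.mul_apply, h.q.refl_of_orth (v := e l - e l') (by simp [h.Bij, hl, hl']), r3.2.2]
  have t3 : ∀ k, m ≠ k → l ≠ k → l' ≠ k → t0.1 (e k) = e k := fun k a b c => by
    rw [ht, Isom.mul_apply, h.q.refl_of_orth (v := e l - e l') (by simp [h.Bij, b, c]),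
      h.q.refl_of_orth (by simp [h.Bij, a, b])]
  have t5 : t0.1 (t • e i + (-s) • e j) = t • e i + (-s) • e j := by
    simp only [map_add, map_smul, t3 i im.symm hl.1 hl'.1, t3 j jm.symm hl.2.1 hl'.2.1]
  have b2 : φ.B (e m) (t • e i + (-s) • e j) = 0 := by simp [h.Bij, im.symm, jm.symm]
  have lT : l ∉ ({i, j, m} : Finset κ) := by simp [hl]
  generalize t • e i + (-s) • e j = u at *
  generalize s • e i + t • e j + e m = y at *
  have S := h.q.ss_of_om h2 hF hT (hp := hp) (cT pT) (cT uT) b1 (by simp [q3, N0])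
  have q4 : φ.Q ((4 : F) • u + (5 : F) • e m) = 3 * 3 * φ.Q (e m) := by
    rw [h.q.Q_comb, q3, h.Qe, φ.B_symm_zero b2]; ring
  have t4 := mul_mem (mul_mem t1 (hT _ (add_mem (Submodule.smul_mem _ _ (cT uT)) (Submodule.smul_mem _ _
    (cT (e_mem (by simp))))) _ (cT (e_mem (by simp))) (by simp [q4, h.Qe, h3, N0]) 3 h3 q4)) (inv_mem t1)
  have q5 := Isom.Q_map t0 ((4 : F) • u + (5 : F) • e m)
  rw [← conj_mul, h.q.refl_conj, h.q.refl_conj] at t4
  simp only [map_add, map_smul, t2, t5] at t4 q5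
  have b3 := h.mem_co.1 pT l lT
  have b4 := h.mem_co.1 uT l lT
  refine h.ff hL (T := {i, j, m}) (by have := h.n10; have := Finset.card_le_three (a := i) (b := j) (c := m); omega)
    pT (fun a => p0 (by simp [a])) (fun w a b => S w (cT a) b) (h.q.ss_refl₂ (by simp [q5, q4, h.Qe, h3, N0]) t4
      (by simp [φ.B_symm_zero b1, b3]) b3 (S _ (cT uT) b1) b4 (by simp [b4, h.q.B_self, q3, h2, h4, N0, h.q.σ_eq]))
    fun a => by simpa [h.Bij, b4, h2, h5, N0] using h.mem_co.1 a l lT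

omit ij w0 w1 w2 hU in
theorem gf {a v : V} (hK : ∀ i, Rf L (e i)) (ha : Rf L a) (ha' : φ.Rt e a) (hE : ∀ g ∈ L, g ∈ φ.E ∨ g * φ.refl a ∈ φ.E) (hv : Rf L v)
    (hv' : ¬ φ.Rt e v) : φ.E ≤ L := by
  have n := h.n10
  obtain ⟨x, x1, x2, x3⟩ := h.small hK _ hv hv' le_rfl
  obtain ⟨m, m1, -⟩ := ex_not (φ.supp e x) [] (by simp; omega)
  obtain ⟨m', m2, mm⟩ := ex_not (φ.supp e x) [m] (by simp; omega)
  simp only [mem_supp, not_not, List.mem_singleton] at m1 m2 mm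
  by_cases h3 : (3 : F) = 0
  · exact h.gf3 hF hL h3 x1 x2 m1
  obtain ⟨K, K1, K2, K3⟩ := h.exK hL ha ha' hE mm
  have n1 : ∀ i, φ.B (e i) x ≠ 0 → m' ≠ i ∧ m ≠ i := fun i a => ⟨by rintro rfl; exact a m2, by rintro rfl; exact a m1⟩
  have K4 : ∀ i, m' ≠ i → m ≠ i → Rf K (e i) := fun i a b => K3 _ (h.rt_e i) (h.orth _ _ a) (h.orth _ _ b)
  replace x1 : Rf K x := ⟨x1.1, K2 _ x1.2 (h.q.refl_of_orth (φ.B_symm_zero m2)) (h.q.refl_of_orth (φ.B_symm_zero m1))⟩
  obtain ⟨y, y1, y2, y3, f, f1, f2, f3⟩ : ∃ y, Rf K y ∧ ¬ φ.Rt e y ∧ φ.supp e y ⊆ φ.supp e x ∧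
      ∃ f, φ.B (e f) y = 0 ∧ m' ≠ f ∧ m ≠ f := by
    obtain ⟨f, f1, f2⟩ := ex_not (φ.supp e x) [m, m'] (by simp; omega)
    simp only [mem_supp, not_not, List.mem_cons, List.not_mem_nil, or_false, not_or] at f1 f2
    exact ⟨x, x1, x2, subset_rfl, f, f1, Ne.symm f2.2, Ne.symm f2.1⟩
  have n2 : ∀ i, φ.B (e i) y ≠ 0 → m' ≠ i ∧ m ≠ i := fun i a => n1 i (mem_supp.1 (y3 (mem_supp.2 a)))
  obtain ⟨i, j, ij, i1, j1, u, u1, w, u0, w0, w1, w2, r, q, w3⟩ := h.good h3 y1 y2 f1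
    fun i a => K4 i (n2 i a).1 (n2 i a).2
  have i2 := n2 i i1
  have j2 : m' ≠ j ∧ m ≠ j := j1.elim (fun a => a ▸ ⟨f2, f3⟩) (n2 j)
  obtain ⟨p, _, -, hp, -⟩ := @FiniteField.card' F _ (Fintype.ofFinite F)
  have := Fact.mk hp
  have hU := h.om hF p K1 ij (K4 i i2.1 i2.2) (K3 _ (h.rt_sub ij).2.1 (by simp [h.Bij, i2, j2])
    (by simp [h.Bij, i2, j2])) u1 u0 w0 w1 w2 r q
  by_cases h5 : (5 : F) = 0
  · exact h.fin5 hF hL ij w0 w1 w2 hU h5
  exact h.fin7 hF hL ij w0 w1 w2 hU p h3 h5 ha ha' hE mm i2.1.symm i2.2.symm j2.1.symm j2.2.symm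
    (w3 _ f2 (by_contra fun a => (n2 _ a).1 rfl)) (w3 _ f3 (by_contra fun a => (n2 _ a).2 rfl))

end

variable {e : κ → V} {N : F} (h : φ.Fr7 e N)
include h

theorem fr {g : φ.Isom} {a : V} (ha : φ.Rt e a) (hg : ∀ b, φ.Rt e b → chi (φ.Q a) = chi (φ.Q b) → φ.Rt e (g.1 b)) :
    g ∈ φ.dstab (ln F e) := h.mem_dstab.2 fun i => by
  by_cases c : chi (φ.Q a) = chi (2 * N)
  swap
  · have c' := (h.root_chi ha).resolve_right c
    have r := hg _ (h.rt_e i) (by rw [c', h.Qe])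
    obtain ⟨j, hj⟩ := h.root_ex r
    exact ⟨j, ((h.root_cls r hj).resolve_right fun ⟨_, _, _, d⟩ => c (by rw [c', ← d, Isom.Q_map, h.Qe])).1⟩
  have r1 : ∀ j, j ≠ i → φ.Rt e (g.1 (e j) + g.1 (e i)) := fun j a => map_add g.1 _ _ ▸
    hg _ (h.rt_add a).2 (by rw [c, (h.rt_add a).1])
  have r2 : ∀ j, j ≠ i → φ.Rt e (g.1 (e j) - g.1 (e i)) := fun j a => map_sub g.1 _ _ ▸
    hg _ (h.rt_sub a).2.1 (by rw [c, (h.rt_sub a).1])
  obtain ⟨j, hj⟩ := h.ex [i] (by simp)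
  obtain ⟨k, hk, -⟩ := ex_not (φ.supp e (g.1 (e j) + g.1 (e i)) ∪ φ.supp e (g.1 (e j) - g.1 (e i))) [] (by
    have := h.root_supp (r1 j (by simpa using hj)); have := h.root_supp (r2 j (by simpa using hj))
    have := Finset.card_union_le (φ.supp e (g.1 (e j) + g.1 (e i))) (φ.supp e (g.1 (e j) - g.1 (e i)))
    have := h.n10; simp only [List.length_nil]; omega)
  simp only [Finset.mem_union, mem_supp, not_or, not_not, map_add, map_sub] at hk
  replace hk : φ.B (e k) (g.1 (e i)) = 0 := mul_left_cancel₀ h.h2 (by linear_combination hk.1 - hk.2)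
  clear hj j
  obtain ⟨j, hj⟩ : ∃ j, φ.B (e k) (g.1 (e j)) ≠ 0 := by
    by_contra! H
    exact h.ne0 k (by simpa using (h.tot ((g⁻¹).1 (e k)) fun j => by
      rw [← Isom.B_map g, Isom.apply_inv_apply, h.q.B_comm, H]))
  have ji : j ≠ i := by rintro rfl; exact hj hk
  obtain ⟨l, l1, l2⟩ := h.root_at (i := k) (r1 j ji) (by simpa [hk])
  obtain ⟨m, m1, m2⟩ := h.root_at (i := k) (r2 j ji) (by simpa [hk])
  obtain rfl : l = m := by
    by_contra a
    obtain ⟨s, t, hs⟩ := Submodule.mem_span_pair.1 l2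
    have a1 : φ.B (g.1 (e j) + g.1 (e i)) (g.1 (e j) - g.1 (e i)) = 0 := by simp [h.Bij, ji, ji.symm]
    have a2 := congrArg (φ.B (e k)) hs
    rw [← hs] at a1
    simp only [map_add, map_smulₛₗ, LinearMap.add_apply, LinearMap.smul_apply, h.mem_pair.1 m2 l l1 a] at a1
    simp only [map_add, map_smul, h.Bee, h.orth k l l1.symm, hk, map_sub, smul_eq_mul, h.q.σ_eq] at a1 a2
    exact hj (by rw [show s = 0 by simpa [hj] using a1] at a2; simpa using a2.symm)
  refine ⟨l, h.mem_ln.2 fun n a => ?_⟩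
  by_cases b : n = k
  · rw [b, hk]
  have a1 := h.mem_pair.1 l2 n b a
  have a2 := h.mem_pair.1 m2 n b a
  rw [map_add] at a1; rw [map_sub] at a2
  exact mul_left_cancel₀ h.h2 (by linear_combination a1 - a2)

theorem le_dstab (hF : ∀ c : F, ∃ n : ℕ, c = n) (h7 : Fintype.card κ = 7) {M : Subgroup φ.Isom}
    (hM : φ.E ⊓ φ.dstab (ln F e) ≤ M) (hM' : M ≤ φ.E) (hE : ¬ φ.E ≤ M) {g : φ.Isom} (hg : g ∈ M) : g ∈ φ.dstab (ln F e) := by
  obtain ⟨i, -⟩ := h.ex [] (by simp)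
  have ha := h.rt_e i
  obtain ⟨t, t1, t2, t3, -⟩ := h.neg {i}ᶜ
  have t4 := hM ⟨t3 (by rw [Finset.card_compl, h7, Finset.card_singleton]; decide), t2⟩
  have t5 : ∀ x, (φ.refl (e i)).1 x = -t.1 x := fun x => by
    obtain ⟨u, a, w, b, rfl⟩ := h.split {i}ᶜ x
    obtain ⟨c, rfl⟩ := Submodule.mem_span_singleton.1 (h.mem_ln (i := i).2 (by simpa using h.mem_co.1 b))
    rw [map_add, map_add, t1.1 u a, t1.2 _ (h.perp_of b), h.q.refl_of_orth (h.mem_co.1 a i (by simp)), map_smul,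
      h.q.refl_self ha.1]; module
  have r1 := h.q.refl_mul_self (e i)
  have t6 : ∀ g ∈ M, g ∈ rex M _ r1 := fun g hg => .inl ⟨hg, by
    convert mul_mem (mul_mem t4 hg) t4 using 1
    exact Isom.ext fun x => by simp [Isom.mul_apply, t5]⟩
  set L := rex M _ r1
  have h1 : φ.E ⊓ φ.dstab (ln F e) ≤ L := fun x hx => t6 x (hM hx)
  have h2 : Rf L (e i) := ⟨ha.1, Or.inr (by simp [r1])⟩
  have h3 : ∀ g ∈ L, g ∈ φ.E ∨ g * φ.refl (e i) ∈ φ.E := fun g hg => hg.imp (fun e => hM' e.1) fun e => hM' e.1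
  have h5 : ¬ φ.E ≤ L := fun e => hE fun x hx => (e hx).elim And.left fun e =>
    (h.blk.refl_not_mem ha.1 ((φ.E.mul_mem_cancel_left hx).1 (hM' e.1))).elim
  exact h.fr ha fun b b1 b2 => by_contra fun c => h5 (h.gf hF h1 (fun j => h.blk.rf h1 h2 ha.2 (h.rt_e j).2 (h.rt_e j).1
    (by rw [h.Qe, h.Qe])) h2 ha h3 ((h.blk.rf h1 h2 ha.2 b1.2 b1.1 b2).map h.q (t6 g hg)) c)

theorem not_E_le : ¬ φ.E ≤ φ.dstab (ln F e) := fun H => by
  have n := h.n10
  obtain ⟨i, -⟩ := h.ex [] (by simp)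
  obtain ⟨p, p1, p0, p2⟩ := h.q.exists_singular (W := co F e {i}ᶜ) (by rw [h.finrank_co, Finset.card_compl]; simp; omega)
  have p3 := h.mem_co.1 p1 i (by simp)
  obtain ⟨g, g1, g2⟩ := h.blk.std.exists_E_map h.blk.n5 (h.ne0 i) (v := e i + p)
    (fun a => by simpa [p3, h.Bee, h.h2, h.N0] using congrArg (φ.B (e i)) a) (by simp [φ.Q_add_of_orth p3, p2])
  obtain ⟨j, hj⟩ := h.mem_dstab.1 (H g1) i
  rw [g2, h.mem_ln] at hj
  obtain rfl : i = j := by_contra fun a => by simpa [p3, h.Bee, h.h2, h.N0] using hj i a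
  exact p0 (h.tot p fun k => by
    by_cases a : k = i
    · rw [a, p3]
    · simpa [h.orth k i a] using hj k a)

end Fr7
end Form

section gl
open Matrix Cfsg Cfsg.Geo

/-- stabilisers of orthogonal frames over prime fields -/
theorem isMaximalIn_frame7 {ι : Type} [Fintype ι] [DecidableEq ι] {F : Type*} [Field F] [Fintype F]
    {Q : (ι → F) → F} (hQ : IsNondegenerateQuadraticForm Q) (hn : Fintype.card ι = 7)
    (hp : (Fintype.card F).Prime) {t : ℕ} {D : Fin t → Submodule F (ι → F)} (hD : IsOrthogonalMDecomposition Q 1 D) :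
    IsMaximalIn (omegaGL Q) (decompositionStabilizer D ⊓ omegaGL Q) := by
  obtain ⟨Q, rfl, _⟩ := exists_ofQuad hQ
  have h := blk_of (by omega) hD
  have hc := card_eq_of_dec hD.decomp.decomp
  have hF : ∀ c : F, ∃ n : ℕ, c = n := fun c => by
    have := Fact.mk hp
    obtain ⟨x, rfl⟩ := (ZMod.ringEquivOfPrime F hp rfl).surjective c
    exact ⟨x.val, by rw [← map_natCast (ZMod.ringEquivOfPrime F hp rfl), ZMod.natCast_zmod_val]⟩
  obtain ⟨i⟩ : Nonempty (Fin t) := ⟨⟨0, by omega⟩⟩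
  have := (h.od.nondeg i).nondeg
  have h2 := (h.q.restrict (D i)).two_ne_zero_of_odd (by rw [h.rk]; exact odd_one)
  obtain ⟨a, ha, a0⟩ := h.q.exists_Q_ne (h.od.nondeg i) fun e => by have := h.rk i; rw [e, finrank_bot] at this; omega
  choose e e1 e2 e3 using h.exists_eq ha (by rintro rfl; simp at a0)
  obtain rfl : D = Form.ln F e := funext fun j => (Submodule.eq_of_le_of_finrank_le
    ((Submodule.span_singleton_le_iff_mem _ _).2 (e1 j)) (by rw [h.rk, finrank_span_singleton (e2 j)])).symm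
  have f : (Form.ofQuad Q).Fr7 e _ := ⟨h.q, h2, a0, e3, fun i j a => h.od.orth i j a (e1 j) _ (e1 i),
    fun x a => h.od.eq_zero fun i => (Form.ofQuad Q).mem_perp_singleton.2 (a i), by simp; omega⟩
  rw [omegaGL_eq_E _ (by omega)]
  refine isMaximalIn_map _ (by rw [comap_decompositionStabilizer]; exact f.not_E_le) fun M hM g hg hg1 hg2 => ?_
  rw [comap_decompositionStabilizer] at hM
  by_contra hE
  exact hg2 ((comap_decompositionStabilizer _).ge (f.le_dstab hF (by simp; omega) (M := M ⊓ (Form.ofQuad Q).E)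
    (le_inf hM inf_le_left) inf_le_right (fun e => hE (e.trans inf_le_left)) ⟨hg, hg1⟩))

end gl
end H10
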