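import Cfsg.Agent.H10.JH
import Cfsg.Agent.H23.K0
import Cfsg.Agent.S1604
import Cfsg.Agent.S5394

/-! Part H2 of S5567: more facts on the hexad subgroup of `M₂₂`. -/

set_option autoImplicit false

namespace H10.KH

open Subgroup H10.JH Cfsg MulAction H14 BG
open scoped Pointwise

theorem base {o : Finset GolayPt} (ho : o ∈ octads) (o1 : none ∈ o) (o2 : some 0 ∈ o) :
    ∃ K Y : Subgroup Spor.M22, Cfsg.Agent.H06.J.Hx 1 K Y ∧ K.index = 77 ∧ K = stabilizer Spor.M22 o ∧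
      (∀ g : Spor.M22, g ∈ Y ↔ ∀ x ∈ o, g.1 x = x) ∧ ∃ φ : K →* A6, Function.Surjective φ ∧ φ.ker = Y.subgroupOf K := by
  classical
  let S := M24 ⊓ stabilizer (Equiv.Perm GolayPt) o
  let K0 := S ⊓ stabilizer (Equiv.Perm GolayPt) (none : GolayPt) ⊓ stabilizer (Equiv.Perm GolayPt) (some 0 : GolayPt)
  let Y0 := M24 ⊓ fixingSubgroup (Equiv.Perm GolayPt) (o : Set GolayPt)
  have o8 : 5 ≤ (o ∩ o).card := by rw [Finset.inter_self, ho.2]; norm_num
  have YK : Y0 ≤ K0 := fun g hg => ⟨⟨⟨hg.1, smul_octad_eq_of_fix hg.1 ho (fun x hx => hg.2 ⟨x, hx⟩) o8⟩, hg.2 ⟨_, o1⟩⟩, hg.2 ⟨_, o2⟩⟩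
  have KM : K0 ≤ Spor.M22 := fun g hg => ⟨⟨hg.1.1.1, hg.1.2⟩, hg.2⟩
  have cM : Nat.card Spor.M22 = 443520 := by
    rw [← card_stab_pt2 (p := none) (q := some 0) (by decide)]
    exact Nat.card_congr
      { toFun x := ⟨⟨x.1, x.2.1.1⟩, x.2.1.2, x.2.2⟩
        invFun x := ⟨x.1.1, ⟨x.1.2, x.2.1⟩, x.2.2⟩
        left_inv _ := rfl
        right_inv _ := rfl }
  have cS : Nat.card S = 322560 := by
    rw [← card_stab_octad ho]
    exact Nat.card_congr
      { toFun x := ⟨⟨x.1, x.2.1⟩, x.2.2⟩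
        invFun x := ⟨x.1.1, x.1.2, x.2⟩
        left_inv _ := rfl
        right_inv _ := rfl }
  have c1 := card_eq_mul_stab S none (o : Set GolayPt) (fun g hg => (mem_iff_of_smul_eq hg.2 _).2 o1) fun q hq => by
    obtain ⟨g, hg, a, b⟩ := octad_pt_trans ho ho (s := {none}) (by simpa using o1) (by simp) (fun _ => q) (by simp) fun _ _ => hq
    exact ⟨g, ⟨hg, a⟩, b _ (by simp)⟩
  have c2 := card_eq_mul_stab (S ⊓ stabilizer (Equiv.Perm GolayPt) (none : GolayPt)) (some 0 : GolayPt) (o.erase none : Set GolayPt)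
    (fun g hg => Finset.mem_coe.2 (Finset.mem_erase.2 ⟨fun e => absurd (g.injective (e.trans hg.2.symm)) (by decide),
      (mem_iff_of_smul_eq hg.1.2 _).2 o2⟩)) fun q hq => by
    have hq' := Finset.mem_erase.1 (Finset.mem_coe.1 hq)
    obtain ⟨g, hg, a, b⟩ := octad_pt_trans ho ho (s := {none, some 0}) (by simp [Finset.insert_subset_iff, o1, o2]) (by simp)
      (fun x => if x = none then none else q) (by simp [Set.InjOn, hq'.1, hq'.1.symm]) fun x _ => by
        split_ifs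
        · exact o1
        · exact hq'.2
    exact ⟨g, ⟨⟨hg, a⟩, by simpa using b none (by simp)⟩, by simpa using b (some 0) (by simp)⟩
  rw [cS, Set.ncard_coe_finset, ho.2] at c1
  rw [Set.ncard_coe_finset, Finset.card_erase_of_mem o1, ho.2] at c2
  have cK0 : Nat.card K0 = 5760 := by change Nat.card _ = _ * Nat.card K0 at c2; omega
  have cK : Nat.card (K0.subgroupOf Spor.M22) = 5760 := (Nat.card_congr (subgroupOfEquivOfLe KM).toEquiv).trans cK0
  have cY : Nat.card (Y0.subgroupOf Spor.M22) = 16 :=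
    (Nat.card_congr (subgroupOfEquivOfLe (YK.trans KM)).toEquiv).trans (card_fix_octad ho)
  have YK' : Y0.subgroupOf Spor.M22 ≤ K0.subgroupOf Spor.M22 := fun g hg => YK hg
  let t := (o.erase none).erase (some 0)
  have t6 : t.card = 6 := by
    rw [Finset.card_erase_of_mem (Finset.mem_erase.2 ⟨by decide, o2⟩), Finset.card_erase_of_mem o1, ho.2]
  have pr : ∀ g ∈ K0, ∀ x, g x ∈ t ↔ x ∈ t := fun g hg x => by
    have a : g none = none := hg.1.2
    have b : g (some 0) = some 0 := hg.2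
    simp only [t, Finset.mem_erase, mem_iff_of_smul_eq hg.1.1.2]
    conv_lhs => rw [← a, ← b]
    simp only [ne_eq, g.apply_eq_iff_eq]
  let ψ : K0.subgroupOf Spor.M22 →* Equiv.Perm t :=
    { toFun g := g.1.1.subtypePerm (pr _ g.2)
      map_one' := rfl
      map_mul' _ _ := rfl }
  have kψ : ψ.ker = (Y0.subgroupOf Spor.M22).subgroupOf _ := Subgroup.ext fun g => ⟨fun hg => ⟨g.2.1.1.1, fun x => by
      by_cases a : x.1 = none
      · change g.1.1 x.1 = x.1
        rw [a]; exact g.2.1.2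
      by_cases b : x.1 = some 0
      · change g.1.1 x.1 = x.1
        rw [b]; exact g.2.2
      exact congrArg Subtype.val (Equiv.congr_fun (MonoidHom.mem_ker.1 hg) ⟨x.1, Finset.mem_erase.2 ⟨b, Finset.mem_erase.2 ⟨a, x.2⟩⟩⟩)⟩,
    fun hg => MonoidHom.mem_ker.2 (Equiv.ext fun x => Subtype.ext
      (hg.2 ⟨x.1, Finset.mem_of_mem_erase (Finset.mem_of_mem_erase x.2)⟩))⟩
  have h2 := ψ.ker.card_mul_index
  have h3 := ψ.range.card_mul_index
  rw [index_ker, cK, kψ, Nat.card_congr (subgroupOfEquivOfLe YK').toEquiv, cY] at h2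
  rw [Nat.card_perm, Nat.card_eq_fintype_card (α := t), Fintype.card_coe, t6, show Nat.card ψ.range = 360 by omega] at h3
  have ra : ψ.range = alternatingGroup t :=
    Equiv.Perm.eq_alternatingGroup_of_index_eq_two (by norm_num [Nat.factorial] at h3; omega)
  let e : ψ.range ≃* A6 := (MulEquiv.subgroupCongr ra).trans (t.equivFinOfCardEq t6).altCongrHom
  have ke : (e.toMonoidHom.comp ψ.rangeRestrict).ker = (Y0.subgroupOf Spor.M22).subgroupOf _ := by
    rw [← kψ, ← ψ.ker_rangeRestrict]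
    exact Subgroup.ext fun g => by simp [MonoidHom.mem_ker]
  refine ⟨K0.subgroupOf _, Y0.subgroupOf _, hx _ _ (e.toMonoidHom.comp ψ.rangeRestrict)
    (e.surjective.comp ψ.rangeRestrict_surjective) YK' ke cY
    (fun y hy => Subtype.ext (sq_eq_one_of_fix_octad hy.1 ho fun x hx => hy.2 ⟨x, hx⟩)) ?_, ?_,
    Subgroup.ext fun g => ⟨fun hg => hg.1.1.2, fun hg => ⟨⟨⟨g.2.1.1, hg⟩, g.2.1.2⟩, g.2.2⟩⟩,
    fun g => ⟨fun hg x hx => hg.2 ⟨x, hx⟩, fun hg => ⟨g.2.1.1, fun x => hg x x.2⟩⟩,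
    _, e.surjective.comp ψ.rangeRestrict_surjective, ke⟩
  · by_contra! k
    have ex : ∀ s : Finset GolayPt, s.card < 24 → ∃ p, p ∉ s := fun s hs => by
      by_contra! q
      rw [Finset.eq_univ_iff_forall.2 q, Finset.card_univ, card_pt] at hs
      omega
    obtain ⟨p, hp⟩ := ex o (by rw [ho.2]; norm_num)
    obtain ⟨o', ho', a1, a2, a3⟩ := oc p (fun e => hp (e ▸ o1)) fun e => hp (e ▸ o2)
    obtain ⟨p', hp'⟩ := ex (o ∪ o') ((Finset.card_union_le _ _).trans_lt (by rw [ho.2, ho'.2]; norm_num))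
    rw [Finset.mem_union, not_or] at hp'
    have i4 : (o' ∩ o).card ≤ 4 := by
      by_contra q
      exact hp (octad_eq_of_five ho' ho (by omega) ▸ a3)
    have s6 : 6 ≤ (insert none (insert (some 0) (o' \ o))).card := by
      rw [Finset.card_insert_of_notMem (by simp [o1]), Finset.card_insert_of_notMem (by simp [o2])]
      have := Finset.card_sdiff_add_card_inter o' o
      rw [ho'.2] at this
      omega
    have KY : K0.subgroupOf Spor.M22 ≤ Y0.subgroupOf Spor.M22 := fun g hg => by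
      have yy : ∀ r, r ∉ o → ∃ y ∈ Y0.subgroupOf Spor.M22, y.1 p = r := fun r hr => by
        obtain ⟨y, a, b, c⟩ := octad_out_trans ho hp hr
        have : y ∈ Y0 := ⟨a, fun x => b x x.2⟩
        exact ⟨⟨y, KM (YK this)⟩, this, c⟩
      obtain ⟨y, hy, e⟩ := yy (g.1 p) ((mem_iff_of_smul_eq hg.1.1.2 p).not.2 hp)
      have m : y⁻¹ * g ∈ K0.subgroupOf Spor.M22 := mul_mem (inv_mem (YK' hy)) hg
      have f0 : (y⁻¹ * g).1 p = p := by
        change y.1⁻¹ (g.1 p) = p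
        rw [← e]; simp
      have f1 : ∀ r, r ∉ o → (y⁻¹ * g).1 r = r := fun r hr => by
        obtain ⟨z, hz, rfl⟩ := yy r hr
        have := congrArg (fun w : Spor.M22 => w.1 p) (k _ m z hz)
        change (y⁻¹ * g).1 (z.1 p) = z.1 ((y⁻¹ * g).1 p) at this
        rw [this, f0]
      have one : (y⁻¹ * g).1 = 1 := eq_one_of_fix_octad m.1.1.1 ho'
        (by simp [Finset.insert_subset_iff, a1, a2]) s6 hp'.2 (fun x hx => by
          simp only [Finset.mem_insert, Finset.mem_sdiff] at hx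
          rcases hx with rfl | rfl | hx
          · exact m.1.2
          · exact m.2
          · exact f1 x hx.2) (f1 _ hp'.1)
      rw [← inv_mul_eq_one.1 (Subtype.ext one : y⁻¹ * g = 1)]
      exact hy
    have := card_le_of_le KY
    omega
  · have := (K0.subgroupOf Spor.M22).card_mul_index
    rw [cK, cM] at this
    omega

theorem main (A : ∀ (o o' o'' : Finset GolayPt), o ∈ octads → o' ∈ octads → o'' ∈ octads →
      (none ∈ o ∧ none ∈ o' ∧ none ∈ o'') → (some 0 ∈ o ∧ some 0 ∈ o' ∧ some 0 ∈ o'') → (o ∩ o').card = (o ∩ o'').card →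
      {x : Finset GolayPt | x ∈ octads ∧ none ∈ x ∧ some 0 ∈ x ∧ (o ∩ x).card = 2}.ncard = 16 ∧
      {x : Finset GolayPt | x ∈ octads ∧ none ∈ x ∧ some 0 ∈ x ∧ (o ∩ x).card = 4}.ncard = 60 ∧
      ∃ g : Equiv.Perm GolayPt, g ∈ M24 ∧ g none = none ∧ g (some 0) = some 0 ∧ g • o = o ∧ g • o' = o'')
    (B : ∀ g ∈ M24, orderOf g = 2 → (Finset.univ.filter fun p => g p = p) ∈ octads ∨ ∀ p, g p ≠ p) :
    Cfsg.Agent.H23.K.H2Stmt := by
  classical
  obtain ⟨o, ho, o1, o2, -⟩ := oc (some 1) (by decide) (by decide)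
  obtain ⟨K, Y, hx, ix, rfl, mY, φ, su, ke⟩ := base ho o1 o2
  have tr : ∀ {a b : Finset GolayPt}, a ∈ octads → b ∈ octads → none ∈ a → some 0 ∈ a → none ∈ b → some 0 ∈ b →
      ∃ g : Spor.M22, g • a = b := fun ha hb a1 a2 b1 b2 => by
    obtain ⟨g, hg, e, f⟩ := octad_pt_trans ha hb (s := {none, some 0}) (by simp [Finset.insert_subset_iff, a1, a2]) (by simp)
      id (Set.injOn_id _) (by simp [b1, b2])
    exact ⟨⟨g, ⟨hg, f none (by simp)⟩, f (some 0) (by simp)⟩, e⟩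
  have pv : ∀ (g : Spor.M22) {a : Finset GolayPt}, a ∈ octads → none ∈ a → some 0 ∈ a →
      g • a ∈ octads ∧ none ∈ g • a ∧ some 0 ∈ g • a := fun g a ha a1 a2 =>
    ⟨smul_octad g.2.1.1 ha, Finset.mem_smul_finset.2 ⟨_, a1, g.2.1.2⟩, Finset.mem_smul_finset.2 ⟨_, a2, g.2.2⟩⟩
  have ob : ∀ g : Spor.M22, orbit (stabilizer Spor.M22 o) (g • o) =
      {x : Finset GolayPt | x ∈ octads ∧ none ∈ x ∧ some 0 ∈ x ∧ (o ∩ x).card = (o ∩ g • o).card} := fun g => by
    obtain ⟨p1, p2, p3⟩ := pv g ho o1 o2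
    ext x
    constructor
    · rintro ⟨k, rfl⟩
      obtain ⟨q1, q2, q3⟩ := pv k.1 p1 p2 p3
      refine ⟨q1, q2, q3, ?_⟩
      change (o ∩ k.1 • g • o).card = _
      have := Finset.smul_finset_inter (a := k.1) (s := o) (t := g • o)
      rw [mem_stabilizer_iff.1 k.2] at this
      rw [← this, Finset.card_smul_finset]
    · rintro ⟨q1, q2, q3, q4⟩
      obtain ⟨-, -, k, a, b, c, d, e⟩ := A o (g • o) x ho p1 q1 ⟨o1, p2, q2⟩ ⟨o2, p3, q3⟩ q4.symm
      exact ⟨⟨⟨k, ⟨a, b⟩, c⟩, d⟩, e⟩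
  have ri : ∀ g : Spor.M22, (stabilizer Spor.M22 o ⊓ cj g (stabilizer Spor.M22 o)).relIndex (stabilizer Spor.M22 o) =
      (orbit (stabilizer Spor.M22 o) (g • o)).ncard := fun g => by
    rw [inf_relIndex_left, ← index_stabilizer, relIndex]
    congr 1
    ext k
    rw [mem_subgroupOf, mem_cj, mem_stabilizer_iff, mem_stabilizer_iff, mul_smul, mul_smul, inv_smul_eq_iff]
    rfl
  obtain ⟨n16, n60, -⟩ := A o o o ho ho ho ⟨o1, o1, o1⟩ ⟨o2, o2, o2⟩ rfl
  have cs : ∀ g : Spor.M22, g ∈ stabilizer Spor.M22 o ∨ (o ∩ g • o).card = 2 ∨ (o ∩ g • o).card = 4 := fun g => by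
    obtain ⟨p1, p2, p3⟩ := pv g ho o1 o2
    by_cases c : 5 ≤ (o ∩ g • o).card
    · exact .inl (octad_eq_of_five ho p1 c).symm
    · have e := Code_even_inter ho.1 p1.1
      have : ({none, some 0} : Finset GolayPt).card ≤ (o ∩ g • o).card :=
        Finset.card_le_card (by simp [Finset.insert_subset_iff, o1, o2, p2, p3])
      rw [Finset.card_pair (by decide)] at this
      right
      omega
  obtain ⟨o0, q1, q2, q3, q4⟩ := Set.nonempty_of_ncard_ne_zero (n16.trans_ne (by norm_num))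
  obtain ⟨g0, rfl⟩ := tr ho q1 o1 o2 q2 q3
  refine ⟨_, Y, hx, le_top, by rw [relIndex_top_right, ix], fun x _ x2 => ?_, ?_, ⟨g0, trivial, by rw [ri, ob, q4, n16], fun g _ => ?_⟩,
    fun J KJ _ => ?_, φ, su, fun k => ?_⟩
  · by_cases x1 : x = 1
    · exact ⟨1, trivial, by rw [x1]; simp⟩
    have : Fact (Nat.Prime 2) := ⟨Nat.prime_two⟩
    have o2' : orderOf x.1 = 2 := by
      rw [orderOf_coe]; exact orderOf_eq_prime ((pow_two x).trans x2) x1
    rcases B x.1 x.2.1.1 o2' with b | b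
    · obtain ⟨g, e⟩ := tr b ho (Finset.mem_filter.2 ⟨Finset.mem_univ _, x.2.1.2⟩) (Finset.mem_filter.2 ⟨Finset.mem_univ _, x.2.2⟩) o1 o2
      refine ⟨g, trivial, (mY _).2 fun p hp => ?_⟩
      rw [← e] at hp
      obtain ⟨r, hr, rfl⟩ := Finset.mem_smul_finset.1 hp
      change g.1 (x.1 (g.1⁻¹ (g.1 r))) = g.1 r
      rw [show g.1⁻¹ (g.1 r) = r by simp, (Finset.mem_filter.1 hr).2]
    · exact absurd x.2.1.2 (b none)
  · have : Nontrivial Y := Finite.one_lt_card_iff_nontrivial.1 (by rw [hx.cY]; norm_num)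
    obtain ⟨y, hy⟩ := exists_ne (1 : Y)
    refine ⟨g0, trivial, y, y.2, fun k => hy ?_⟩
    obtain ⟨p, hp, np⟩ : ∃ p ∈ g0 • o, p ∉ o := by
      by_contra! c
      rw [Finset.inter_eq_right.2 c, q1.2] at q4
      omega
    obtain ⟨r, hr, rfl⟩ := Finset.mem_smul_finset.1 hp
    have := eq_one_of_fix_octad (g0 * y * g0⁻¹).2.1.1 ho le_rfl (by rw [ho.2]; norm_num) np ((mY _).1 k) (by
      change g0.1 (y.1.1 (g0.1⁻¹ (g0.1 r))) = g0.1 r
      rw [show g0.1⁻¹ (g0.1 r) = r by simp, (mY _).1 y.2 r hr])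
    have h2 : g0 * y * g0⁻¹ = 1 := Subtype.ext this
    exact Subtype.ext (by simpa using h2)
  · rcases cs g with c | c | c
    · exact .inl c
    · obtain ⟨p1, p2, p3⟩ := pv g ho o1 o2
      obtain ⟨k, e⟩ : g • o ∈ orbit (stabilizer Spor.M22 o) (g0 • o) := by rw [ob]; exact ⟨p1, p2, p3, c.trans q4.symm⟩
      refine .inr (.inl ⟨k, k.2, (k.1 * g0)⁻¹ * g, ?_, by group⟩)
      rw [mem_stabilizer_iff, mul_smul, inv_smul_eq_iff, mul_smul]
      exact e.symm
    · exact .inr (.inr (by rw [ri, ob, c, n60]))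
  · by_cases c : J ≤ stabilizer Spor.M22 o
    · exact .inl (le_antisymm c KJ)
    obtain ⟨g, gJ, gK⟩ := SetLike.not_le_iff_exists.1 c
    have h1 := relIndex_mul_index KJ
    have h2 : (stabilizer Spor.M22 o).relIndex J = (orbit J o).ncard := index_stabilizer J o
    have h3 : (orbit (stabilizer Spor.M22 o) (g • o)).ncard ≤ (orbit J o).ncard := Set.ncard_le_ncard (by
      rintro _ ⟨k, rfl⟩
      exact ⟨⟨k.1 * g, mul_mem (KJ k.2) gJ⟩, mul_smul k.1 g o⟩)
    have h4 : 16 ≤ (orbit (stabilizer Spor.M22 o) (g • o)).ncard := by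
      rcases cs g with c | c | c
      · exact absurd c gK
      · rw [ob, c, n16]
      · rw [ob, c, n60]; norm_num
    rw [ix, h2] at h1
    right
    rw [← index_eq_one]
    have h5 : J.index ≤ 4 := by nlinarith
    have h6 : J.index ∣ 77 := Dvd.intro_left _ h1
    interval_cases J.index <;> omega
  · rw [← MonoidHom.mem_ker, ke, mem_subgroupOf]
    exact ⟨fun h => ⟨_, h, 0, by simp⟩, fun ⟨y, hy, i, e⟩ => by rw [e]; simpa using hy⟩

theorem h2 : Cfsg.Agent.H23.K.H2Stmt :=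
  main (fun o o' o'' => Cfsg.Agent.S1604.result none (some 0) (by decide) o o' o'') Cfsg.Agent.S5394.result.1

end H10.KH
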