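import Mathlib
import Cfsg.Agent.H10.MxB
import Cfsg.Agent.H10.DcB

/-! # The extension field subgroup `Ω₄⁻(q²)` of `Ω₈⁻(q)`: `isMaximalIn_om_om4` -/

namespace H10.Mx

open Module Form

section
variable {F K V : Type*} [Field F] [Field K] [Algebra F K] [AddCommGroup V] [Module F V] [Module K V]
  [IsScalarTower F K V]

theorem sq_of_two [Finite F] (h2 : (2 : F) ≠ 0) (r2 : finrank F K = 2) (c : F) : ∃ m : K, algebraMap F K c = m * m := by
  have := Fintype.ofFinite F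
  have : FiniteDimensional F K := .of_finrank_eq_succ r2
  have := Module.finite_of_finite F (M := K)
  have := Fintype.ofFinite K
  by_cases c0 : c = 0
  · exact ⟨0, by simp [c0]⟩
  have h3 : (2 : K) ≠ 0 := by rwa [← map_ofNat (algebraMap F K), map_ne_zero]
  obtain ⟨n, hn⟩ : Odd (Fintype.card F) := by simpa using odd_card_iff.2 h2
  refine (FiniteField.isSquare_iff (fun e => h3 (by simpa [e] using ringChar.Nat.cast_ringChar (R := K))) (by simpa)).2 ?_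
  rw [Module.card_eq_pow_finrank (K := F), r2, hn, show (2 * n + 1) ^ 2 / 2 = (2 * n + 1 - 1) * (n + 1) by
    rw [show (2 * n + 1) ^ 2 = 1 + 2 * (2 * n * (n + 1)) by ring]; simp [Nat.add_mul_div_left], ← map_pow, pow_mul, ← hn,
    FiniteField.pow_card_sub_one_eq_one c c0, one_pow, map_one]

theorem rot {ψ : Form K V} [ψ.Nondeg] [FiniteDimensional K V] (hψ : ψ.IsQuad) (t2 : (2 : K) ≠ 0) (r2 : finrank F K = 2)
    (sq : ∀ c : F, ∃ m : K, algebraMap F K c = m * m) {A : Submodule F V} {D : Submodule K V} (an : ∀ z ∈ D, ψ.Q z = 0 → z = 0)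
    (hA : ∀ a ∈ D, ∀ b ∈ D, ψ.Q a ≠ 0 → ψ.Q a = ψ.Q b → ∀ z ∈ A, (ψ.refl a * ψ.refl b).1 z ∈ A) {d e : V} (d1 : d ∈ D)
    (d0 : d ≠ 0) (d2 : d ∈ A) (e1 : e ∈ D) (e0 : e ≠ 0) (o : ψ.B e d = 0) :
    (∀ k : K, k • d ∈ A) ∧ ∃ y ∈ D, ψ.B e y ≠ 0 ∧ ∀ k : K, k • y ∈ A := by
  have : FiniteDimensional F K := .of_finrank_eq_succ r2
  have a0 := mt (an d d1) d0
  have b0 := mt (an e e1) e0
  have o' := ψ.B_symm_zero o
  have hQ : ∀ x y : K, ψ.Q (x • d + y • e) = x * x * ψ.Q d + y * y * ψ.Q e := fun x y => by simp [hψ.Q_add, hψ.Q_smul, o']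
  have an' : ∀ x y : K, x * x * ψ.Q d + y * y * ψ.Q e = 0 → y = 0 := fun x y i => by
    simpa [o, hψ.B_self, t2, b0] using congrArg (ψ.B e) (an _ (add_mem (D.smul_mem x d1) (D.smul_mem y e1)) (hQ x y ▸ i))
  have s0 : ψ.Q d + ψ.Q e ≠ 0 := fun i => one_ne_zero (an' 1 1 (by simpa))
  obtain ⟨x, y, y0, i⟩ : ∃ x y : K, y ≠ 0 ∧ x * x * ψ.Q d + y * y * ψ.Q e = ψ.Q d :=
    ⟨(ψ.Q e - ψ.Q d) / (ψ.Q d + ψ.Q e), 2 * ψ.Q d / (ψ.Q d + ψ.Q e), by simp [t2, a0, s0], by field_simp; ring⟩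
  have x1 : ∀ c : F, algebraMap F K c ≠ x * x := fun c j => by
    obtain ⟨m, hm⟩ := sq (c - 1)
    rw [map_sub, map_one, j] at hm
    exact y0 (an' m y (by linear_combination i - ψ.Q d * hm))
  have a1 := add_mem (D.smul_mem x d1) (D.smul_mem y e1)
  have a2 := (hQ x y).trans i
  have r1 : (ψ.refl (x • d + y • e) * ψ.refl d).1 d = -d + (2 * x) • (x • d + y • e) := by
    rw [Isom.mul_apply, hψ.refl_self a0, map_neg, hψ.refl_apply, a2]
    simp [hψ.σ_eq, hψ.B_self, o]; match_scalars <;> field_simp <;> ring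
  have r3 : (ψ.refl d * ψ.refl (x • d + y • e)).1 d = -d + (2 * x) • (x • d - y • e) := by
    rw [Isom.mul_apply, hψ.refl_apply (x • d + y • e), a2]
    simp [hψ.σ_eq, hψ.B_self, o, hψ.refl_self a0, hψ.refl_of_orth o']; match_scalars <;> field_simp
  have H : ∀ k : K, k • d ∈ A := fun k => by
    have j : (x * x) • d ∈ A := by
      have f4 : (4 : F) ≠ 0 := fun e => mul_ne_zero t2 t2 (by rw [← map_zero (algebraMap F K), ← e, map_ofNat]; norm_num)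
      rw [← A.smul_mem_iff f4, ← algebraMap_smul K, map_ofNat]
      convert add_mem (add_mem (hA _ a1 d d1 (a2 ▸ a0) a2 d d2) (hA d d1 _ a1 a0 a2.symm d d2)) (add_mem d2 d2) using 1
      rw [r1, r3]; module
    have : Submodule.span F {1, x * x} = (⊤ : Submodule F K) := Submodule.eq_top_of_finrank_eq (by
      rw [r2, Submodule.span_insert, finrank_sup_singleton (e := x * x) ?_, finrank_span_singleton one_ne_zero]
      intro m
      obtain ⟨c, m⟩ := Submodule.mem_span_singleton.1 m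
      exact x1 c (by simpa [Algebra.smul_def] using m))
    obtain ⟨s, t, rfl⟩ := Submodule.mem_span_pair.1 (this.ge (Submodule.mem_top (x := k)))
    simpa [add_smul] using add_mem (A.smul_mem s d2) (A.smul_mem t j)
  refine ⟨H, _, add_mem (neg_mem d1) (D.smul_mem (2 * x) a1), ?_, fun k => ?_⟩
  · simpa [o, hψ.B_self, t2, y0, b0] using fun e : x = 0 => x1 0 (by simp [e])
  rw [← r1, ← map_smul]
  exact hA _ a1 d d1 (a2 ▸ a0) a2 _ (H k)

namespace FK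
variable {φ : Form F V} {ψ : Form K V} {l : Dual F K} {M : Subgroup (V ≃ₗ[F] V)} (h : FK φ ψ l M)
  {A B : Submodule F V} {v w y t s f : V} (hq : φ.IsQuad)
  [φ.Nondeg] [ψ.Nondeg] [FiniteDimensional F V] [FiniteDimensional K V] [FiniteDimensional F K] (hb : ψ.Big)
include h hq hb

theorem fin4 [Finite K] (hψ : ψ.IsQuad) (t2 : (2 : K) ≠ 0) (hk : 4 ≤ finrank K V) (r2 : finrank F K = 2)
    (sq : ∀ c : F, ∃ m : K, algebraMap F K c = m * m) (an : ∀ p x, ψ.Q p = 0 → ψ.Q x = 0 → ψ.B p x = 0 → p ≠ 0 → x ∈ K ∙ p) (hv : ψ.Q v = 0) (v0 : v ≠ 0)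
    (h1 : t ∈ Ws hq M (h.Q v hv)) (h2 : t ∉ K ∙ v) : φ.E ≤ M.subgroupOf φ.Isom := by
  have hl : finrank F (LinearMap.ker l) + 1 = finrank F K := Dual.finrank_ker_add_one_of_ne_zero h.l0
  have hr := h.pr.two_le
  have inv : ∀ {p} (hp : ψ.Q p = 0) {z w : V} {s : K}, ψ.Q z = 0 → ψ.B z w = 0 → ψ.T s = ψ.Q w → ψ.B w p = 0 →
      (ψ.B z p = 0) → ∀ t ∈ Ws hq M (h.Q p hp),
      t + ψ.B w t • z - (ψ.ε * ψ.B z t) • w - (ψ.ε * s * ψ.B z t) • z ∈ Ws hq M (h.Q p hp) := fun hp z w s a b c d e t ht => by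
    obtain ⟨x, hx, i⟩ := h.sg a b c
    exact i t ▸ Ws.map ht hx (h.le hx) (by simp [i, d, e]) _
  have mv : ∀ {p u d y} (hp : ψ.Q p = 0) (hu : ψ.Q u = 0), d ∈ Ws hq M (h.Q u hu) → y ∈ Ws hq M (h.Q p hp) → φ.B u p = 0 →
      φ.B d p = 0 → y + φ.B d y • u - φ.B u y • d - (φ.Q d * φ.B u y) • u ∈ Ws hq M (h.Q p hp) := fun hp hu a b c d => by
    obtain ⟨x, hx, i⟩ := Ws.sg a
    exact i _ ▸ Ws.map b hx (h.le hx) (by simp [i, c, d]) _
  have s1 : ∀ u (hu : ψ.Q u = 0), u ≠ 0 → ∃ t ∈ Ws hq M (h.Q u hu), t ∉ K ∙ u := fun u hu u0 => by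
    obtain ⟨g, hg, a, -, rfl⟩ := h.trans hb hv v0 hu u0
    exact ⟨_, Ws.map h1 hg (h.le hg) rfl _, fun e => h2 (by
      obtain ⟨k, e⟩ := Submodule.mem_span_singleton.1 e
      exact Submodule.mem_span_singleton.2 ⟨k, g.injective (by rw [a, e])⟩)⟩
  obtain ⟨u, hyp⟩ := ψ.exists_hyp hv v0
  have hD := hyp.nondegOn.perp
  have hD' := hyp.finrank_perp
  set D := ψ.perp (Submodule.span K {v, u}) with eD
  have hu : ∀ k : K, ψ.Q (k • u) = 0 := ψ.Q_smul_of_sing hyp.Qf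
  have hu' : ∀ k : K, φ.B (k • u) v = l k := fun k => by rw [hq.B_comm, h.B, map_smul, hyp.Bef, smul_eq_mul, mul_one]
  have cv : ∀ {k : K} {d y}, l k = 0 → d ∈ D → y ∈ D → ψ.B d y ≠ 0 → d ∈ Ws hq M (h.Q _ (hu k)) →
      (∀ c : K, c • y ∈ Ws hq M (h.Q v hv)) → k • u ∈ Ws hq M (h.Q v hv) := fun {k d y} a b c d' e i => by
    obtain ⟨m, hm⟩ := exists_one h.l0
    have := mv hv (hu k) e (i (m / ψ.B d y)) ((hu' k).trans a) (by simp [h.B, ψ.B_symm_zero (ψ.mem_perp_pair.1 b).1])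
    simpa [h.B, d', hm, ψ.B_smul_left, (ψ.mem_perp_pair.1 c).2, add_mem_cancel_left (i _)] using this
  have s2 : ∃ p, ∃ hp : ψ.Q p = 0, ∃ t ∈ Ws hq M (h.Q p hp), ψ.B p t ≠ 0 := by
    by_contra! H
    have s3 : ∀ p (hp : ψ.Q p = 0), p ≠ 0 → ∀ k : K, k • p ∈ Ws hq M (h.Q p hp) := fun p hp p0 k => by
      obtain ⟨t, a, b⟩ := s1 p hp p0
      obtain ⟨χ, c, d⟩ := exists_dual_val b k
      obtain ⟨w, rfl⟩ := ψ.exists_B_eq χ
      obtain ⟨s, hs, -⟩ := ψ.half w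
      simpa [H p hp t a, d, add_mem_cancel_left a] using inv hp hp (ψ.B_symm_zero c) hs c (ψ.B_self_eq_zero hp) t a
    obtain ⟨k, k0, k1⟩ := exists_ker (K := F) (V := K) hr l
    have s4 : ∀ p (hp : ψ.Q p = 0), p ≠ 0 → (∀ d ∈ D, ψ.B p d = 0) → (∀ t ∈ ψ.perp D, ψ.B p t = 0 → t ∈ K ∙ p) →
        ∃ d ∈ D, d ≠ 0 ∧ d ∈ Ws hq M (h.Q p hp) := fun p hp p0 a b => by
      obtain ⟨t, c, d⟩ := s1 p hp p0
      obtain ⟨x, i, y, j, rfl⟩ := hD.split t
      have m := b y j (by simpa [a x i] using H p hp _ c)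
      obtain ⟨k, rfl⟩ := Submodule.mem_span_singleton.1 m
      exact ⟨x, i, by rintro rfl; exact d (by simpa using m), (add_mem_cancel_right (s3 p hp p0 k)).1 c⟩
    have s5 : ∀ t ∈ ψ.perp D, ∃ a b : K, a • v + b • u = t := fun t ht => by
      rwa [eD, perp_perp, Submodule.mem_span_pair] at ht
    obtain ⟨d, d1, d0, d2⟩ := s4 v hv v0 (fun d a => (ψ.mem_perp_pair.1 a).1) fun t a b => by
      obtain ⟨i, j, rfl⟩ := s5 t a
      exact Submodule.mem_span_singleton.2 ⟨i, by simp [show j = 0 by simpa [hyp.Bee, hyp.Bef] using b]⟩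
    obtain ⟨d', d3, d4, d5⟩ := s4 _ (hu k) (smul_ne_zero k0 hyp.f_ne_zero)
      (fun d a => by simp [ψ.B_smul_left, (ψ.mem_perp_pair.1 a).2]) fun t a b => by
      obtain ⟨i, j, rfl⟩ := s5 t a
      exact Submodule.mem_span_singleton.2 ⟨j / k, by
        simp [smul_smul, k0, show i = 0 by simpa [ψ.B_smul_left, k0, hyp.Bff, hyp.Bfe, ψ.ε_ne_zero] using b]⟩
    have R := fun e i j m => rot hψ t2 r2 sq (A := Ws hq M (h.Q v hv)) (D := D) (fun z a b => by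
        obtain ⟨c, rfl⟩ := Submodule.mem_span_singleton.1 (an v z hv b (ψ.mem_perp_pair.1 a).1 v0)
        simpa [hyp.Bfe, ψ.ε_ne_zero, v0] using (ψ.mem_perp_pair.1 a).2) (fun a i b j m n z o => by
        obtain ⟨x, hx, e⟩ := h.mem _ (hψ.E_eq_commutator (hψ.good_of_two_ne_zero t2) hk ▸
          hψ.refl_mul_refl_mem m one_ne_zero (w := b) (by simpa))
        exact e z ▸ Ws.map o hx (h.le hx) (by rw [e, Isom.mul_apply, hψ.refl_of_orth (ψ.B_symm_zero (ψ.mem_perp_pair.1 j).1),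
          hψ.refl_of_orth (ψ.B_symm_zero (ψ.mem_perp_pair.1 i).1)]) _) d1 d0 d2 (e := e) i j m
    obtain ⟨y, a, b, c⟩ : ∃ y ∈ D, ψ.B d' y ≠ 0 ∧ ∀ k : K, k • y ∈ Ws hq M (h.Q v hv) := by
      by_cases i : ψ.B d' d = 0
      · exact (R d' d3 d4 i).2
      obtain ⟨e, j, m, n⟩ := ψ.exists_orth D ⊥ [d] (by simp; omega)
      exact ⟨d, d1, i, (R e j (by simpa using m) (ψ.B_symm_zero (by simpa using n))).1⟩
    exact k0 (by simpa [hyp.Bef] using H v hv _ (cv k1 d3 a b d5 c))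
  obtain ⟨p, hp, t', a, b⟩ := s2
  have s3 : ∀ u (hu : ψ.Q u = 0), u ≠ 0 → ∀ w, ψ.B u w = 0 → w ∈ Ws hq M (h.Q u hu) := fun u hu u0 w c => by
    obtain ⟨g, hg, -, d, rfl⟩ := h.trans hb hp (by rintro rfl; simp at b) hu u0
    simpa using Ws.map (delta (U := ⊤) (fun x _ e => ψ.eq_zero_of_B_left fun y => e y trivial) (by simp; omega)
      (fun w _ j s hs => inv hp hp j hs (ψ.B_symm_zero j) (ψ.B_self_eq_zero hp) t' a) a b (g.symm w) trivial
      (by rw [← d, g.apply_symm_apply, c])) hg (h.le hg) rfl (h.Q _ hu)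
  have s4 : φ.Full (M.subgroupOf φ.Isom) v := full_of_le_sgSub (hp := h.Q v hv) fun x hx => by
    by_cases c : ψ.B v x = 0
    · exact s3 v hv v0 x c
    obtain ⟨d, d1, d0⟩ := (Submodule.ne_bot_iff D).1 fun e => by rw [e, finrank_bot] at hD'; omega
    obtain ⟨y, y1, y2⟩ : ∃ y ∈ D, ψ.B d y ≠ 0 := by by_contra! H; exact d0 (hD d d1 H)
    have := add_mem (s3 v hv v0 (x - ψ.B v x • u) (by simp [hyp.Bef])) (cv (h.B v x ▸ φ.mem_perp_singleton.1 hx) d1 y1 y2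
      (s3 _ (hu _) (smul_ne_zero c hyp.f_ne_zero) d (by simp [ψ.B_smul_left, (ψ.mem_perp_pair.1 d1).2]))
      fun c => s3 v hv v0 _ (by simp [(ψ.mem_perp_pair.1 y1).1]))
    rwa [sub_add_cancel] at this
  obtain ⟨m, hm⟩ := exists_one h.l0
  obtain ⟨g, hg, -, -, e⟩ := h.trans hb hv v0 (hu m) (smul_ne_zero (by rintro rfl; simp at hm) hyp.f_ne_zero)
  exact E_le_of_full s4 (h.Q v hv) (s4.map (h.Q v hv) (g := ⟨g, h.le hg⟩) hg) ((h.le hg).Q v ▸ h.Q v hv)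
    (by simp [e, hq.B_comm v, hu', hm])

omit hb in
theorem om_om4 [Finite F] (hψ : ψ.IsQuad) (h2 : (2 : K) ≠ 0) (hk : 4 ≤ finrank K V) (r2 : finrank F K = 2)
    (sq : ∀ c : F, ∃ m : K, algebraMap F K c = m * m) (an : ∀ p x, ψ.Q p = 0 → ψ.Q x = 0 → ψ.B p x = 0 → p ≠ 0 → x ∈ K ∙ p) :
    φ.E ≤ M.subgroupOf φ.Isom ∨ ∀ g ∈ M, ∀ k : K, ∃ k' : K, ∀ y, g (k • y) = k' • g y := by
  have := Module.finite_of_finite F (M := K)
  have hb := hψ.big hk
  by_cases H : ∀ A ∈ Fam M (StQ F ψ), A ∈ StQ F ψ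
  · refine Or.inr (h.nrm (by omega) (hN_of fun v w hv _ b W hW => ?_) H)
    obtain ⟨u, c, d⟩ := hψ.exists_Q_eq (W := W) (hW.1 ▸ (ψ.nondegOn_pair (by
      simp [ψ.B_self_eq_zero hv, b, mt ψ.B_symm_zero b])).perp) (by omega) (2 * ψ.B v w)
    exact ⟨u, c, by rintro rfl; simp [h2, b] at d, .inr (by rw [d, hψ.T_eq])⟩
  push Not at H
  obtain ⟨A, hA, hA'⟩ := H
  obtain ⟨A, B, hm⟩ := h.exists_mp hk hA hA'
  obtain ⟨A, B, hm, hp⟩ := h.exists_t1 hk hm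
  obtain ⟨v, B, v0, hv, hm, hp⟩ := h.std1 hm hp
  obtain ⟨s, ⟨s1, s2⟩, s0⟩ := (Submodule.ne_bot_iff _).1 hm.nb
  obtain ⟨a, a1, a2⟩ := exists_not hm.symm
  obtain ⟨f, f1, f2, f3⟩ := h.exists_f a2 fun _ => h.codim hm.symm hp a1 a2
  obtain ⟨x, hx, i, j⟩ := h.rad hm.r (fun y hy => hp y hy a a1) a2 s2
  obtain ⟨Y, m, n⟩ := h.keyO hψ h2 (by omega) hv v0 hx s1 s0 (f3 x i _ j) (f1 s s2) a1 (f2 ▸ one_ne_zero)
  obtain ⟨y, a, b, t, d, e⟩ := h.root hq hb hv v0 hm hp m n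
  exact Or.inl (h.fin4 hq hb hψ h2 hk r2 sq an a b d e)

end FK
end

open Cfsg Cfsg.Geo Matrix H10.As
variable {ι : Type} [Fintype ι] [DecidableEq ι] {F : Type*} [Field F] [Fintype F] {K : Subalgebra F (Matrix ι ι F)}

theorem isMaximalIn_om_om4 {Q : (ι → F) → F} (hQ : IsNondegenerateQuadraticForm Q) (hodd : Odd (Fintype.card F))
    (hK : IsFieldSubalgebra 2 K) (hn : Fintype.card ι = 8) (hm : ¬ IsPlusTypeOn Q ⊤)
    (hsa : IsSelfAdjointFor (QuadraticMap.polar Q) K) : IsMaximalIn (omegaGL Q) (subalgebraNormalizer K ⊓ omegaGL Q) := by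
  have hr := Nat.prime_two
  have : Nonempty ι := Fintype.card_pos_iff.1 (by omega)
  have hb := big_om hQ (by omega)
  obtain ⟨Q, rfl, _⟩ := exists_ofQuad hQ
  have hq := isQuad_ofQuad Q
  rw [omegaGL_eq_E Q (by omega)] at hb ⊢
  refine fld_bridge hK fun E _ _ _ _ _ hE h1 h2 => ?_
  have := Module.Finite.of_restrictScalars_finite F E (ι → F)
  have := Module.finite_of_finite F (M := E)
  have t := two_ne_zero_of_odd_card hodd
  have t' : (2 : E) ≠ 0 := by rwa [← map_ofNat (algebraMap F E), map_ne_zero]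
  obtain ⟨l, hl⟩ := exists_tau (F := F) (K := E)
  have l0 : l ≠ 0 := fun e => by simpa [e] using hl 1
  obtain ⟨β, i⟩ := exists_beta (φ := ofQuad Q) (sa_of h2 (fun _ _ => rfl) hsa) l0
  have hs := beta_symm (φ := ofQuad Q) (fun _ => rfl) (fun _ => rfl) l0 (by simp) i
  let ψ := ofQuad ((2 : E)⁻¹ • LinearMap.BilinMap.toQuadraticMap β)
  have hψ : ψ.IsQuad := isQuad_ofQuad _
  replace i : ∀ x y, (ofQuad Q).B x y = l (ψ.B x y) := fun x y => by
    rw [i]; congr 1; simp [ψ, QuadraticMap.polar, ← hs.eq x y]; field_simp; ring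
  have := nondeg_of i
  have h3 := finrank_mul_finrank F E (ι → F)
  simp only [hE, finrank_fintype_fun_eq_card] at h3
  have h4 : ∀ c, c * 2 < Fintype.card ι → c < finrank E (ι → F) := fun c h =>
    lt_of_mul_lt_mul_left (a := 2) (by rwa [h3, mul_comm]) (Nat.zero_le _)
  have hQ : ∀ x y, ψ.Q x = ψ.Q y → Q x = Q y := fun x y e => mul_left_cancel₀ t (by
    rw [← ofQuad_Q, ← ofQuad_Q, ← hq.B_self, ← hq.B_self, i, i, hψ.B_self, hψ.B_self, e])
  refine max_of h1 h2 hb hK hr.ne_one ⟨fun _ => rfl, fun _ => rfl, l0, i,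
    fun x e => (hQ x 0 (e.trans ψ.Q_zero.symm)).trans Q.map_zero,
    fun _ _ e => mul_left_cancel₀ t' (by rwa [← hψ.B_self, ← hψ.B_self]), Subgroup.map_subtype_le _, mem_of i hQ (.inr ⟨
      hψ.E_le_commutator (hψ.good_of_two_ne_zero t'), (hq.E_eq_commutator (hq.good_of_two_ne_zero t) (by simp; omega)).ge⟩),
    hE ▸ hr, fun W hW => hψ.exists_singular hW⟩ fun M h => h.om_om4 hq hψ t' (h4 3 (by omega)) hE (sq_of_two t hE) fun p x a b c p0 => ?_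
  by_contra d
  refine hm ((isPlusTypeOn_top_iff (k := 4) hn).2 ⟨((E ∙ p) ⊔ E ∙ x).restrictScalars F, hq.ts fun z hz => ?_, ?_⟩)
  · exact (hQ z 0 ((((TS.singleton a).sup (TS.singleton b) (by simpa using ψ.mem_perp_singleton.2 c)).Q z hz).trans ψ.Q_zero.symm)).trans Q.map_zero
  have := finrank_mul_finrank F E ((E ∙ p) ⊔ E ∙ x : Submodule E (ι → F))
  rw [finrank_sup_singleton d, finrank_span_singleton p0, hE] at this
  exact this.symm

end H10.Mx
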