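import Mathlib
import Cfsg.Agent.H12.TnJ
import Cfsg.Agent.H10.Ff

/-! # Tensor stabilisers with a small factor: the partial trace and the orbit-sum argument -/

set_option autoImplicit false
set_option linter.unusedSectionVars false

namespace H10.Tn
open Module H10.Form H12.Tn H12.Tn.Ten
open scoped TensorProduct

variable {F U W V : Type*} [Field F] [AddCommGroup U] [Module F U] [AddCommGroup W] [Module F W]
  [AddCommGroup V] [Module F V] {α : Form F U} {β : Form F W} {φ : Form F V}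
  [α.Nondeg] [β.Nondeg] [φ.Nondeg] [FiniteDimensional F U] [FiniteDimensional F W] [FiniteDimensional F V]

theorem four_le {p m : ℕ} (hp : p.Prime) (h2 : p ≠ 2) (h : 5 ≤ p ^ m) : 4 ≤ m * (p - 1) := by
  have := hp.two_le
  by_cases e : p = 3
  · subst e; rcases m with _ | _ | m <;> simp at h ⊢; omega
  have : p ≠ 4 := by rintro rfl; exact absurd hp (by decide)
  rcases m with _ | m
  · simp at h
  nlinarith [Nat.zero_le (m * (p - 1)), show 4 ≤ p - 1 by omega]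

theorem sum_le [Fintype F] (h2 : (2 : F) ≠ 0) (h5 : 5 ≤ Fintype.card F) {T : Subgroup φ.Isom} {Φ : ℕ → AddSubgroup V} {d : ℕ}
    (H : Ff.Fl (DistribMulAction.toAddMonoidEnd φ.Isom V) T Φ) (hd : ∀ x ∈ Φ (d + 1), x = 0) {E : Type*} [AddCommGroup E]
    [Module F E] [Fintype E] (hE : finrank F E = d) (θ : Multiplicative E →* φ.Isom) (hθ : ∀ a, θ a ∈ T)
    (Y : (V →ₗ[F] V) →+ V →ₗ[F] V) (Z : V →ₗ[F] V) (v : V) : (∑ a, Ff.cj (cjH φ) (θ a) Y) Z v ∈ Φ d := by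
  obtain ⟨p, hp⟩ := CharP.exists F
  obtain ⟨m, p1, e⟩ := FiniteField.card F p
  have H1 := (H.hom hd).comap (ρ' := cjH φ) LinearMap.toAddMonoidHom' fun _ _ => rfl
  refine Ff.hm_top H.top (Ff.hm_top H1.top ((H1.hom (d := 2 * d) fun x hx => LinearMap.toAddMonoidHom_injective
    (Ff.hm_bot H.top hd _ hx)).sum_mem p1 (fun Y => AddMonoidHom.ext fun x => by simp [← Nat.cast_smul_eq_nsmul F])
    (fun x => by simp [← Nat.cast_smul_eq_nsmul F]) (fun n hn => ?_) θ hθ Y) Z) v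
  rw [Module.card_eq_pow_finrank (K := F), e, hE, ← pow_mul] at hn
  have := four_le p1 (by rintro rfl; exact h2 (CharP.cast_eq_zero F 2)) (e ▸ h5)
  rw [← Nat.pow_right_injective p1.two_le hn]; nlinarith

section ten
variable (t : Ten α β φ) {M : Subgroup φ.Isom} {g k y : φ.Isom} {b b' f w : W}

/-- `End U ⊗ End W ≃ End V` -/
noncomputable def Xi : (U →ₗ[F] U) ⊗[F] (W →ₗ[F] W) ≃ₗ[F] V →ₗ[F] V :=
  homTensorHomEquiv F U W U W ≪≫ₗ t.e.conj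
/-- the partial trace -/
noncomputable def ptr : (V →ₗ[F] V) →ₗ[F] W →ₗ[F] W :=
  (TensorProduct.lid F _).toLinearMap ∘ₗ LinearMap.rTensor (W →ₗ[F] W) (LinearMap.trace F U) ∘ₗ (Xi t).symm.toLinearMap

theorem Xi_tmul (x : U →ₗ[F] U) (z : W →ₗ[F] W) : Xi t (x ⊗ₜ z) = t.tm x z :=
  LinearMap.ext (t.ext' fun u w => by simp [Xi, τ_eq, tm])

theorem ptr_tm (x : U →ₗ[F] U) (z : W →ₗ[F] W) : ptr t (t.tm x z) = LinearMap.trace F U x • z := by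
  simp [ptr, ← Xi_tmul]

variable {t}
theorem cj_tm {a : U ≃ₗ[F] U} {η : W ≃ₗ[F] W} (h : ∀ u w, g.1 (t.τ u w) = t.τ (a u) (η w)) (x : U →ₗ[F] U)
    (z : W →ₗ[F] W) : cj g (t.tm x z) = t.tm (a.conj x) (η.conj z) :=
  LinearMap.ext (t.ext' fun u w => by
    rw [cj_apply, show (g⁻¹).1 (t.τ u w) = t.τ (a.symm u) (η.symm w) by rw [Isom.inv_apply_eq, h]; simp]; simp [h])

theorem cj_ptr (hg : g ∈ t.PT) (Z : V →ₗ[F] V) : cj g (t.tm .id (ptr t Z)) = t.tm .id (ptr t (cj g Z)) := by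
  obtain ⟨a, η, h⟩ := hg
  obtain ⟨Z, rfl⟩ := (Xi t).surjective Z
  rw [cj_tm h, LinearEquiv.conj_id]
  congr 1
  induction Z with
  | zero => rw [map_zero, show cj g 0 = 0 from map_zero (cjH φ g)]; simp
  | tmul x z => simp [Xi_tmul, cj_tm h, ptr_tm]
  | add x z a b => rw [map_add, show cj g (_ + _) = cj g _ + cj g _ from map_add (cjH φ g) _ _]; simp [a, b]

theorem cj_cj (g : φ.Isom) (Z : V →ₗ[F] V) : cj g (cj g⁻¹ Z) = Z := LinearMap.ext fun v => by simp [cj_apply]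

theorem finS [Finite F] [Nontrivial U] [Nontrivial W] (h : t.Ov M) {A : Type*} [Group A] [Fintype A] [Nontrivial A]
    {θ θ' : A →* β.Isom} (h1 : ∀ a, θ a ∈ β.E) (h1' : ∀ a, θ' a ∈ β.E)
    (h2 : ∀ a ≠ 1, ∀ g ∈ M, g⁻¹ * t.rt (θ a) * g ∈ t.PT → g ∈ t.PT)
    (h2' : ∀ a ≠ 1, ∀ g ∈ M, g⁻¹ * t.rt (θ' a) * g ∈ t.PT → g ∈ t.PT) {X X' : AddSubgroup V} (hd : ∀ x ∈ X, x ∈ X' → x = 0)
    (h3 : ∀ Y Z v, (∑ a, Ff.cj (cjH φ) (t.rt.comp θ a) Y) Z v ∈ X)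
    (h3' : ∀ Y Z v, (∑ a, Ff.cj (cjH φ) (t.rt.comp θ' a) Y) Z v ∈ X') : M ≤ t.PT := fun g hg => by
  let Φ : AddSubgroup V → AddSubgroup ((V →ₗ[F] V) →+ V →ₗ[F] V) := fun X =>
    ⟨⟨⟨{Y | ∀ Z x, Y Z x ∈ X}, fun a b Z x => add_mem (a Z x) (b Z x)⟩, fun _ _ => zero_mem _⟩, fun a Z x => neg_mem (a Z x)⟩
  have H := Ff.fixed ((Ff.cj (cjH φ)).comp M.subtype) (t.PT.subgroupOf M) ((t.rt.comp θ).codRestrict M fun a => h.rt (h1 a))
    ((t.rt.comp θ').codRestrict M fun a => h.rt (h1' a)) (fun _ => t.rt_mem _) (fun _ => t.rt_mem _)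
    (fun a i g => h2 a i g g.2) (fun a i g => h2' a i g g.2) (X₁ := Φ X) (X₂ := Φ X')
    (fun Y i j => AddMonoidHom.ext fun Z => LinearMap.ext fun x => hd _ (i Z x) (j Z x)) h3 h3'
    (N := .mk' (fun Z => t.tm .id (ptr t Z)) fun _ _ => LinearMap.ext (t.ext' fun _ _ => by simp))
    (fun s hs => AddMonoidHom.ext fun Z => (cj_ptr hs _).trans (congrArg (fun Z => t.tm .id (ptr t Z)) (cj_cj s.1 Z)))
    ⟨g⁻¹, inv_mem hg⟩
  obtain ⟨a, a1⟩ := exists_ne (1 : A)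
  obtain ⟨u, hu⟩ := exists_ne (0 : U)
  obtain ⟨ξ, hξ⟩ := exists_dual (F := F) hu
  have e : cj g⁻¹ (t.tm .id (ptr t (cj g⁻¹⁻¹ _))) = t.tm .id (ptr t _) :=
    DFunLike.congr_fun H (cj g⁻¹ (t.tm (ξ.smulRight u) (θ a).1))
  rw [inv_inv, cj_cj, ptr_tm, LinearMap.trace_smulRight, hξ, one_smul] at e
  refine h2 a a1 g hg (t.mem_PT_of .id _ fun u w => Eq.trans ?_ ((LinearMap.congr_fun e _).trans (t.tm_τ ..)))
  rw [cj_apply, inv_inv, Isom.mul_apply, Isom.mul_apply]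
  exact congrArg _ (t.ext' (X := (t.rt (θ a)).1) (Y := t.tm .id (θ a).1) (fun _ _ => by simp) _)

theorem of_mapS (h0 : H0 t M) (h : t.Ov M) (hW : β.Big) (hg : g ∈ M) (hb : β.Q b = 0)
    (b0 : b ≠ 0) (hb' : β.Q b' = 0) (b0' : b' ≠ 0) (e : ∀ u, g.1 (t.τ u b) ∈ t.A b') : g ∈ t.PT := by
  obtain ⟨η, h1, h2⟩ := hW.exists_E_map_sing hb' b0' hb b0
  simpa using mul_mem (inv_mem (t.rt_mem η)) (h0 b hb b0 _ (mul_mem (h.rt h1) hg) (φ.mem_stab_of_le (by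
    rintro _ ⟨u, rfl⟩
    obtain ⟨u', e⟩ := e u
    exact ⟨u', by rw [Isom.mul_apply]; erw [← e]; simp [h2]⟩)))

theorem zz_smulS (h : t.Ov M) (h2 : (2 : F) ≠ 0) (hσ : ∀ c, φ.σ c = c) (hW : β.Big) {hb : β.Q b = 0} (b0 : b ≠ 0)
    {ζ : U →ₗ[F] U} (hζ : ζ ∈ t.ZZ M hb) (c : F) (hb' : β.Q b' = 0) : c • ζ ∈ t.ZZ M hb' := smul_mem_of_sq h2 (fun c => by
  by_cases c0 : c • b' = 0
  · exact ⟨1, one_mem _, fun v => by rcases smul_eq_zero.1 c0 with rfl | rfl <;> simp⟩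
  obtain ⟨g, hg, e⟩ := hW.exists_E_map_sing hb b0 (β.Q_smul_of_sing hb' c) c0
  simpa [hσ] using h.zz_map hζ hg hb' e) c

theorem not_E_leS (hφ : φ.Big) (hb : β.Q b = 0) (b0 : b ≠ 0) (a3 : w ∉ F ∙ b) {u u' : U} (hu : u ≠ 0) (hu' : u' ∉ F ∙ u)
    (hQ : φ.Q (t.τ u b + t.τ u' w) = 0) : ¬ φ.E ≤ t.PT := fun h => by
  obtain ⟨ξ, e1, e2⟩ := exists_dual₂ hu'
  obtain ⟨ξ', e3, e4⟩ := exists_dual₂ (not_mem_span_singleton_symm hu hu')
  obtain ⟨g, hg, e⟩ := hφ.exists_E_map_sing (t.Q_τ₂ u hb) (t.τ_ne hu b0) hQ fun e => b0 (by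
      simpa [e3, e4] using congrArg (t.cu ξ') e)
  obtain ⟨a, η, e'⟩ := h hg
  rw [e'] at e
  have b1 : ξ (a u) • η b = w := by simpa [e1, e2] using congrArg (t.cu ξ) e
  have b2 : ξ' (a u) • η b = b := by simpa [e3, e4] using congrArg (t.cu ξ') e
  have b3 : ξ' (a u) ≠ 0 := fun e => b0 (by rw [← b2, e, zero_smul])
  exact a3 (Submodule.mem_span_singleton.2 ⟨ξ (a u) / ξ' (a u), by rw [← b1]; nth_rw 1 [← b2]; simp [smul_smul, b3]⟩)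

end ten
end H10.Tn
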