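import Mathlib
import Cfsg.Agent.H10.TnS

/-! # `O_3 ⊗ O_4^-` is maximal in `Ω_12^-(q)`, `q ≥ 5` odd -/

set_option autoImplicit false
set_option linter.unusedSectionVars false

namespace H10.Tn
open Module H10.Form H12.Tn H12.Tn.Ten

section
variable {F U W V : Type*} [Field F] [AddCommGroup U] [Module F U] [AddCommGroup W] [Module F W]
  [AddCommGroup V] [Module F V] {α : Form F U} {β : Form F W} {φ : Form F V}
  [α.Nondeg] [β.Nondeg] [φ.Nondeg] [FiniteDimensional F U] [FiniteDimensional F W] [FiniteDimensional F V]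

theorem dec3 (hα : α.IsQuad) (h3 : finrank F U = 3) {a a' n : U} (hy : α.IsHyp a a') (h1 : α.B a n = 0) (h1' : α.B a' n = 0)
    (n0 : n ≠ 0) (u : U) : ∃ c : F, u = α.B a' u • a + α.B a u • a' + c • n := by
  have := hy.finrank_perp
  obtain ⟨c, e⟩ := Submodule.mem_span_singleton.1 ((Submodule.eq_of_le_of_finrank_le ((Submodule.span_singleton_le_iff_mem _ _).2
    (α.mem_perp_pair.2 ⟨h1, h1'⟩)) (by rw [finrank_span_singleton n0]; omega)).ge (hy.proj_mem u))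
  exact ⟨c, by rw [e, hα.ε_eq]; module⟩

theorem ex_n (hα : α.IsQuad) (h3 : finrank F U = 3) {a a' : U} (hy : α.IsHyp a a') :
    ∃ n, α.B a n = 0 ∧ α.B a' n = 0 ∧ α.Q n ≠ 0 := by
  have := hy.finrank_perp
  obtain ⟨n, i, n0⟩ := Submodule.exists_mem_ne_zero_of_ne_bot (p := α.perp (Submodule.span F {a, a'})) fun e => by
    rw [e, finrank_bot] at this; omega
  rw [α.mem_perp_pair] at i
  refine ⟨n, i.1, i.2, fun e => n0 (α.eq_zero_of_B_right fun u => ?_)⟩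
  obtain ⟨c, e'⟩ := dec3 hα h3 hy i.1 i.2 n0 u
  rw [e']; simp [i, α.B_self_eq_zero e]

section ten
variable [Fintype F] {t : Ten α β φ} {M : Subgroup φ.Isom} {b f w x : W} {y g : φ.Isom} {δ : W →ₗ[F] U →ₗ[F] U}
  {N N' : U →ₗ[F] U}

theorem th_cj (hδ : δ ∈ t.TH M b) {g : α.Isom} (hg : t.flip.rt g ∈ M) : g.1.conj.toLinearMap ∘ₗ δ ∈ t.TH M b := by
  obtain ⟨a0, y, a, a1, e⟩ := hδ
  exact ⟨by simp [a0], t.flip.rt g * y * t.flip.rt g⁻¹, mul_mem (mul_mem hg a) (map_inv t.flip.rt g ▸ inv_mem hg),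
    fun u => by rw [Isom.mul_apply, Isom.mul_apply, lt_τ, a1]; simp, fun w hw u => by
      rw [Isom.mul_apply, Isom.mul_apply, lt_τ, e w hw]; simp⟩

theorem th_comm (hσ : ∀ c, φ.σ c = c) (hy : β.IsHyp b f) (h1 : β.B b x = 0) (a1 : β.B b w = 0) (a2 : β.B x w = 1)
    (hN : (β.B x).smulRight N ∈ t.TH M b) (hN' : (β.B w).smulRight N' ∈ t.TH M b) {K K' : U →ₗ[F] U}
    (hK : ∀ x u, α.B (K x) u = α.B x (N u)) (hK' : ∀ x u, α.B (K' x) u = α.B x (N' u)) :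
    N' ∘ₗ K - β.ε • N ∘ₗ K' ∈ t.ZZ M hy.Qe := by
  obtain ⟨-, y, a3, a4, a5⟩ := hN
  obtain ⟨-, y', b3, b4, b5⟩ := hN'
  have H : ∀ {y : φ.Isom} {x} {N : U →ₗ[F] U}, (∀ w, β.B b w = 0 → ∀ u, y.1 (t.τ u w) = t.τ u w + t.τ ((β.B x).smulRight N w u) b) →
      ∀ z, t.ct b z = 0 → y.1 z = z + t.τ (N (t.ct x z)) b := fun {y x N} h z hz => t.perp_ind hy
    (P := fun z => y.1 z = z + t.τ (N (t.ct x z)) b) (fun u w hw => by simp [h w hw]) (fun _ _ a b => by simp [a, b]; abel) hz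
  refine ⟨(y' * y)⁻¹ * (y * y'), mul_mem (inv_mem (mul_mem b3 a3)) (mul_mem a3 b3), fun v => ?_⟩
  have c1 := ct_rad (th_rad hy a4 a5) (w := w) (δ := N) (fun u => by simp [a5 w a1, a2]) hK v
  have c2 := ct_rad (th_rad hy b4 b5) (w := x) (δ := β.ε • N') (δ' := β.ε • K') (fun u => by
    simp [b5 x h1, β.symm x w, a2]) (fun x u => by simp [hK', t.σ₁, hσ]) v
  have c3 := H a5 _ c2.1
  have c4 := H b5 _ c1.1
  rw [c2.2, map_sub, sub_eq_iff_eq_add] at c3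
  rw [c1.2, map_sub, sub_eq_iff_eq_add] at c4
  rw [Isom.mul_apply, Isom.inv_apply_eq]
  simp only [Isom.mul_apply, c3, c4, map_add, a4, b4, map_sub, map_neg, map_smul, LinearMap.sub_apply, LinearMap.comp_apply,
    LinearMap.smul_apply, LinearMap.neg_apply]
  abel

variable (h : t.Ov M) (h2 : (2 : F) ≠ 0) (hα : α.IsQuad) (hβ : β.IsQuad) (hφ : φ.IsQuad) (hW : finrank F W = 4)
  (h3 : finrank F U = 3)
include h h2 hα hβ hφ hW h3

omit hα hφ h3 in
theorem th_smul (hy : β.IsHyp b f) (hδ : δ ∈ t.TH M b) (c : F) : c • δ ∈ t.TH M b := smul_mem_of_sq h2 (fun c => by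
  by_cases c0 : c = 0
  · simp [c0]
  have g := hβ.good_of_two_ne_zero h2
  have c1 := mul_ne_zero c0 c0
  have hM := h.rt (η := β.rot b f (c * c)) (by
    rw [hβ.E_eq_commutator g hW.ge, hβ.mem_commutator_iff g (by omega)]
    simp [hβ.dickson_rot g hy c1, hβ.spinor_rot g hy c1, chi_mul_self])
  obtain ⟨a0, y, a, a1, e⟩ := hδ
  refine ⟨by simp [a0], _, mul_mem (mul_mem hM a) (inv_mem hM), fun u => ?_, fun w hw u => ?_⟩ <;>
    rw [Isom.mul_apply, Isom.mul_apply, ← map_inv, rt_τ]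
  · rw [show (β.rot b f (c * c))⁻¹.1 b = (c * c)⁻¹ • b by rw [Isom.inv_apply_eq]; simp [β.rot_apply_e hy c1, c1, -mul_inv_rev]]
    simp [a1, β.rot_apply_e hy c1, c1, -mul_inv_rev]
  have : (β.rot b f (c * c))⁻¹.1 w = w + (((c * c)⁻¹ - 1) * β.B f w) • b := by
    rw [Isom.inv_apply_eq, map_add, map_smul, β.rot_apply_e hy c1, β.rot_apply hy c1, hw, hβ.ε_eq]
    match_scalars <;> field_simp <;> ring
  rw [e _ (by rw [this]; simp [hw, hy.Bee]), map_add, rt_τ, rt_τ, Isom.apply_inv_apply, this]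
  simp [a0, β.rot_apply_e hy c1]) c

theorem sg_all (hb : β.Q b = 0) (b0 : b ≠ 0) {ζ : U →ₗ[F] U} (hζ : ζ ∈ t.ZZ M hb) (hn : ¬ ∃ c : F, ∀ u, ζ u = c • u)
    {x : U} (hx : α.Q x = 0) (x0 : x ≠ 0) (u : U) (hf : β.Q f = 0) (d : F) : φ.siegel (t.τ x f) (d • t.τ u f) 0 ∈ M := by
  have sm := fun {ζ} (a : ζ ∈ t.ZZ M hb) c {w} (hw : β.Q w = 0) => zz_smulS h h2 hφ.σ_eq (hβ.big hW.ge) b0 a c hw
  obtain ⟨a, v, v', a0, b1, b2, b3, b4, b5, -⟩ := skew_adj h2 hα le_rfl (fun _ a _ => h.zz_cj a) hζ h3.ge hn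
    (fun x u => by simpa [hβ.ε_eq] using zz_skew b0 hζ x u) fun a v a0 a1 a2 a3 a4 => by
      have := (ts_pair a1 a2 a3).finrank_le
      rw [finrank_pair a0 a4] at this; omega
  have A1 : ∀ x, α.Q x = 0 → x ≠ 0 → ∀ n, α.B x n = 0 → nn α x n ∈ t.ZZ M hb := fun x hx x0 n hn => by
    obtain ⟨g, hg, c, c0, e⟩ := Conn.exists_E_map_point (.inr h3.ge) b1 a0 hx x0
    obtain ⟨x', hy⟩ := α.exists_hyp hx x0
    have c3 : α.B x (g.1 v) = 0 := by simpa [e, c0] using (Isom.B_map g a v).trans b2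
    obtain ⟨s, e'⟩ := dec3 hα h3 hy (n := g.1 v - α.B x' (g.1 v) • x) (by simp [c3, hy.Bee]) (by simp [hy.Bfe, hα.ε_eq])
      (fun i => b4 (by
        have c4 : α.B x (g.1 v') = 0 := by simpa [e, c0] using (Isom.B_map g a v').trans b3
        rw [← Isom.B_map g, sub_eq_zero.1 i]; simp [c4])) n
    convert sm (h.zz_cj b5 hg) (s / c) hb using 1
    rw [cj_nn, e, e']
    refine LinearMap.ext fun z => ?_
    simp only [nn_apply, hn, hα.ε_eq, hα.σ_eq, map_add, map_sub, map_smulₛₗ, LinearMap.add_apply, LinearMap.sub_apply,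
      LinearMap.smul_apply, RingHom.id_apply, smul_eq_mul]
    match_scalars <;> field_simp <;> ring
  obtain ⟨x', hy⟩ := α.exists_hyp hx x0
  obtain ⟨n, n1, n2, n3⟩ := ex_n hα h3 hy
  have A2 : nn α x x' ∈ t.ZZ M hb := by
    convert sm (sub_mem (add_mem (A1 x' hy.Qf hy.f_ne_zero n n2) (sm (A1 x hx x0 n n1) (α.Q n) hb)) (A1 (x' - n - α.Q n • x)
      (by simp [hα.Q_sub, hα.Q_smul, hx, hy.Qf, n2, hy.Bfe, hα.ε_eq, α.B_symm_zero n1])
      (fun e => by simpa [n1, hy.Bef, hy.Bee] using congrArg (α.B x) e) (n + (2 * α.Q n) • x)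
      (by simp [n1, n2, hy.Bfe, hy.Bee, hα.ε_eq, α.B_symm_zero n1, hα.B_self n]))) (2 * α.Q n)⁻¹ hb using 1
    refine LinearMap.ext fun z => ?_
    simp only [nn_apply, hα.ε_eq, hα.σ_eq, map_add, map_sub, map_smulₛₗ, LinearMap.add_apply, LinearMap.sub_apply,
      LinearMap.smul_apply, RingHom.id_apply, smul_eq_mul]
    match_scalars <;> field_simp <;> ring
  obtain ⟨y, c4, c5⟩ := sm (add_mem (sm A2 (α.B x u) hb) (A1 x hx x0 (u - α.B x u • x') (by simp [hy.Bef]))) d hf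
  convert c4 using 1
  refine Isom.ext fun z => ?_
  rw [c5, φ.siegel_apply (t.Q_τ₂ _ hf) (by simp [β.B_self_eq_zero hf]) (by rw [φ.Q_smul_of_sing (t.Q_τ₂ _ hf), map_zero])]
  simp only [map_smulₛₗ, LinearMap.smul_apply, t.B_τ, nn_apply, hφ.σ_eq, hα.σ_eq, hφ.ε_eq, hα.ε_eq, map_sub, map_add,
    LinearMap.sub_apply, LinearMap.add_apply, RingHom.id_apply, smul_eq_mul]
  module

omit h h2 hW in
theorem spread4 (h2 : (2 : F) ≠ 0) (hy : β.IsHyp b f) (R : ∀ x, α.Q x = 0 → x ≠ 0 → ∀ u f, β.Q f = 0 → ∀ d : F,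
    φ.siegel (t.τ x f) (d • t.τ u f) 0 ∈ M) : φ.E ≤ M := by
  have hX : ∀ a b, β.Q b = 0 → ∀ s, φ.T s = 0 → φ.siegel (t.τ a b) 0 s ∈ M := fun a b hb s hs => by
    rw [hφ.T_eq] at hs; rw [hs, φ.siegel_zero (t.Q_τ₂ a hb)]; exact one_mem _
  let L := fun a b (hb : β.Q b = 0) => sgSub M (t.Q_τ₂ a hb) (hX a b hb)
  have k0 : ∀ a b hb, α.Q a = 0 → a ≠ 0 → ∀ u, t.τ u b ∈ L a b hb := fun a b hb ha a0 u =>
    mem_sgSub.2 ⟨by simp [β.B_self_eq_zero hb], fun d => ⟨0, by rw [φ.Q_smul_of_sing (t.Q_τ₂ _ hb), map_zero], R a ha a0 u b hb d⟩⟩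
  have k1 : ∀ a b hb z w v, φ.Q z = 0 → φ.B z w = 0 → φ.Q w = 0 → φ.siegel z w 0 ∈ M →
      φ.B z (t.τ a b) = 0 → φ.B w (t.τ a b) = 0 → v ∈ L a b hb →
      φ.B w v • z - φ.B z v • w ∈ L a b hb := fun a b hb z w v a1 a2 a3 a4 a5 a6 a7 => by
    have a3 : φ.T 0 = φ.Q w := by rw [a3, map_zero]
    convert sub_mem (map_mem_sgSub a4 (siegel_apply_of_orth a1 a2 a3 a5 a6) a7) a7 using 1
    rw [φ.siegel_apply a1 a2 a3, hφ.ε_eq]; module
  have k2 : ∀ a a' b f (hx : α.IsHyp a a') (hy : β.IsHyp b f) n, α.B a n = 0 → α.B a' n = 0 → α.Q n ≠ 0 → ∀ w,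
      t.τ a w ∈ L a b hy.Qe ∧ t.τ n w ∈ L a b hy.Qe := fun a a' b f hx hy n n1 n2 n3 w => by
    have k := fun b' (i : β.Q b' = 0) u => k1 a b hy.Qe _ _ _ (t.Q_τ₂ a i) (by simp [n1]) (t.Q_τ₂ n i)
      (by simpa using R a hx.Qe hx.e_ne_zero n b' i 1) (by simp [hx.Bee]) (by simp [α.B_symm_zero n1])
      (k0 a b hy.Qe hx.Qe hx.e_ne_zero u)
    exact ⟨eq_top_of_sing hy (S := (L a b hy.Qe).comap (t.τ a)) (k0 _ _ hy.Qe hx.Qe hx.e_ne_zero a) (fun b' i j => by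
      simpa [n1, hβ.B_comm b', j, Submodule.smul_mem_iff, hα.B_self_ne_zero h2 n3] using k b' i n) w,
      eq_top_of_sing hy (S := (L a b hy.Qe).comap (t.τ n)) (k0 _ _ hy.Qe hx.Qe hx.e_ne_zero n) (fun b' i j => by
      simpa [α.B_symm_zero n2, hβ.B_comm b', j, hx.Bef] using k b' i a') w⟩
  have k4 : ∀ a a' b f, α.IsHyp a a' → β.IsHyp b f → φ.Full M (t.τ a b) := fun a a' b f hx hy => by
    obtain ⟨n, n1, n2, n3⟩ := ex_n hα h3 hx
    have n0 : n ≠ 0 := by rintro rfl; simp at n3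
    have k := k2 a a' b f hx hy n n1 n2 n3
    have k3 : ∀ w, β.B b w = 0 → t.τ a' w ∈ L a b hy.Qe := fun w hw => by
      have := k1 a b hy.Qe _ _ _ (t.Q_τ₂ a' hy.Qe) (by simp [hw]) (t.Q_τ₁ w hx.Qf) (siegel_mem_of_mem_sgSub
        (k2 a' _ b f hx.symm hy n n2 (by simp [n1]) n3 w).1 (by rw [t.Q_τ₁ w hx.Qf, map_zero])) (by simp [hy.Bee])
        (by simp [β.B_symm_zero hw]) (k f).1
      rw [Submodule.sub_mem_iff_right _ (Submodule.smul_mem _ _ (k0 _ _ hy.Qe hx.Qe hx.e_ne_zero _))] at this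
      simpa [hx.Bfe, hy.Bef, hα.ε_eq] using this
    refine full_of_le_sgSub (hX := hX a b hy.Qe) (hp := t.Q_τ₂ a hy.Qe) fun v hv => ?_
    have a0 := φ.mem_perp_singleton.1 hv
    rw [t.B_τ] at a0
    obtain ⟨c, e⟩ := dec3 hα h3 hx n1 n2 n0 (t.ct b v)
    have := add_mem (show t.τ (t.ct b v) f ∈ L a b hy.Qe by
      rw [e, a0]; simpa using add_mem (Submodule.smul_mem _ _ (k f).1) (Submodule.smul_mem _ _ (k f).2))
      (t.perp_ind hy (P := (· ∈ L a b hy.Qe)) (fun u w hw => by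
        obtain ⟨c, e⟩ := dec3 hα h3 hx n1 n2 n0 u
        rw [e]; simpa using add_mem (add_mem (Submodule.smul_mem _ _ (k w).1) (Submodule.smul_mem _ _ (k3 w hw)))
          (Submodule.smul_mem _ _ (k w).2))
      (fun _ _ => add_mem) (v := v - t.τ (t.ct b v) f) (by simp [hy.Bef]))
    rwa [add_sub_cancel] at this
  obtain ⟨a, a', hx⟩ := hα.exists_hyp_of_three_le h3.ge
  exact E_le_of_full (k4 _ _ _ _ hx hy) (t.Q_τ₂ _ hy.Qe) (k4 _ _ _ _ hx.symm hy.symm) (t.Q_τ₂ _ hy.Qf)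
    (by simp [hx.Bef, hy.Bef])

theorem h0_4 (han : ∀ b w, β.Q b = 0 → b ≠ 0 → β.B b w = 0 → w ∉ F ∙ b → β.Q w ≠ 0) (hc : ∃ c : F, c ≠ 0 ∧ c * c ≠ 1)
    (H : ∀ b hb, b ≠ 0 → ∀ ζ ∈ t.ZZ M (b := b) hb, ∃ c : F, ∀ u, ζ u = c • u) : H0 t M := fun b hb b0 k hk hk' => by
  have := Module.nontrivial_of_finrank_pos (R := F) (M := U) (by omega)
  obtain ⟨f, hy⟩ := β.exists_hyp hb b0
  obtain ⟨x, -, a2, a1⟩ := β.exists_orth ⊤ (F ∙ b) [b] (by have := finrank_span_singleton_le (F := F) b; simp; omega)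
  refine h.stab_PT hy (a1 b (by simp)) a2 (fun y hM hr => ?_) hk hk'
  obtain ⟨δ, hδ⟩ := exists_dl hy hr
  have h0 : δ b = 0 := LinearMap.ext fun u => t.τ_eq_zero b0 (by simpa [hr.1 _ (t.τ_mem u b)] using hδ b hy.Bee u)
  refine h.rad_PT_of hy hM hδ h0 (fun w hw => by_contra fun hn => ?_) (H b hb b0)
  have hT : δ ∈ t.TH M b := ⟨h0, y, hM, fun u => hr.1 _ (t.τ_mem u b), hδ⟩
  obtain ⟨z, z', hz⟩ := hα.exists_hyp_of_three_le h3.ge
  have Z0 : ∀ ζ ∈ t.ZZ M hb, ∀ u, ζ u = 0 := fun ζ a => by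
    obtain ⟨c, e⟩ := H b hb b0 ζ a
    obtain rfl : c = 0 := mul_left_cancel₀ h2 (by
      have := zz_skew b0 a z z'
      rw [e, e] at this
      simp only [map_smulₛₗ, hα.σ_eq, LinearMap.smul_apply, hz.Bef, hβ.ε_eq, RingHom.id_apply, smul_eq_mul] at this
      linear_combination this)
    simpa using e
  obtain ⟨K, hK⟩ := exists_adj (α := α) (δ w)
  obtain ⟨a, a1, a2⟩ : ∃ a, α.Q a = 0 ∧ α.B a (δ w a) ≠ 0 := by
    by_contra! e
    let Z : AddSubgroup (U →ₗ[F] U) := ⟨⟨⟨{ζ | ∀ a, α.Q a = 0 → α.B a (ζ a) = 0}, fun i j a k => by simp [i a k, j a k]⟩,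
      by simp⟩, fun i a k => by simp [i a k]⟩
    simpa [hz.Bef, hz.Bfe, hα.ε_eq] using sym_adj h2 hα (Z := Z) le_rfl (fun ζ i g _ a k => by
      rw [cj_apply, ← Isom.B_map g⁻¹, Isom.inv_apply_apply]; exact i _ (by simpa)) e h3.ge hn (fun ζ i c a k => by simp [i a k])
      (fun x u => by
        rw [← hK]; congr 2
        exact (by simpa [hβ.ε_eq, sub_eq_zero] using Z0 _ (h.comm_mem hb hM hr hw (hδ w hw) hK) x : K x = δ w x).symm)
      (.inr hc) hz.Qe z' hz.Qf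
  have a0 : a ≠ 0 := by rintro rfl; simp at a2
  obtain ⟨a', ha⟩ := α.exists_hyp a1 a0
  obtain ⟨n, n1, n2, n3⟩ := ex_n hα h3 ha
  obtain ⟨c, c0, c1⟩ := hc
  have n4 : ∀ s : F, α.B a (s • n) = 0 := by simp [n1]
  have D := fun s : F => th_cj hT (h.lt (α.siegel_mem_E a1 (n4 s) (hα.T_eq _)))
  have sm := fun {δ} => th_smul h h2 hβ hW hy (δ := δ)
  obtain ⟨w₁, e⟩ := β.exists_B_eq (α.B a ∘ₗ δ.flip a)
  have T1 : (β.B w₁).smulRight (br α a a) ∈ t.TH M b := by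
    convert sm (sub_mem (sm (sub_mem (add_mem (D 1) (D (-1))) (add_mem hT hT)) (c * c))
      (sub_mem (add_mem (D c) (D (-c))) (add_mem hT hT))) (2 * (c * c * (1 - c * c)) * α.Q n ^ 2)⁻¹ using 1
    have : 1 - c ^ 2 ≠ 0 := sub_ne_zero.2 (sq c ▸ c1.symm)
    have q : ∀ (g : α.Isom) ζ u, g.1.conj ζ u = cj g ζ u := fun _ _ _ => rfl
    ext x u
    simp only [e, q, cj_sg hα a1 (n4 _), sg_apply hα a1 (n4 _), LinearMap.smul_apply, LinearMap.sub_apply, LinearMap.add_apply,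
      LinearMap.comp_apply, LinearEquiv.coe_coe]
    simp only [map_add, map_sub, map_smulₛₗ, LinearMap.smulRight_apply, br_apply, LinearMap.smul_apply, LinearMap.comp_apply,
      LinearMap.flip_apply, hα.Q_smul, hα.σ_eq, RingHom.id_apply, smul_eq_mul]
    match_scalars <;> field_simp <;> ring
  have w1 : β.B b w₁ = 0 := β.B_symm_zero (by simp [e, h0])
  have w2 := hβ.B_self_ne_zero h2 (han b w₁ hb b0 w1 fun i => by
    obtain ⟨d, rfl⟩ := Submodule.mem_span_singleton.1 i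
    exact a2 (by simpa [hw] using (LinearMap.congr_fun e w).symm))
  obtain ⟨g, hg, d, d0, i⟩ := Conn.exists_E_map_point (.inr h3.ge) a1 a0 ha.Qf ha.f_ne_zero
  have sy : ∀ v x u, α.B (br α v v x) u = α.B x (br α v v u) := fun v x u => by simp [hα.σ_eq, hα.B_comm x]; ring
  simpa [ha.Bef, ha.Bfe, ha.Bff, hα.ε_eq, ha.f_ne_zero] using Z0 _ (th_comm hφ.σ_eq hy w1 (w := (β.B w₁ w₁)⁻¹ • w₁) (by simp [w1])
    (by simp [w2]) T1 (N' := br α a' a') (by
      convert sm (th_cj T1 (h.lt hg)) (β.B w₁ w₁ * d * d)⁻¹ using 1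
      ext x u
      simp [B_inv, i, hα.σ_eq, hβ.σ_eq, smul_smul]; congr 1; field_simp) (sy a) (sy a')) a'

omit hφ in
theorem se4 (h0 : H0 t M) (hb : β.Q b = 0) (b0 : b ≠ 0) (hw : β.B b w = 0) (hw' : β.Q w ≠ 0) (hg : g ∈ M)
    (H : g⁻¹ * t.rt (β.siegel b w (β.Q w)) * g ∈ t.PT) : g ∈ t.PT := by
  have := Module.nontrivial_of_finrank_pos (R := F) (M := U) (by omega)
  obtain ⟨a, η, hy⟩ := H
  have : Nontrivial W := ⟨_, _, b0⟩
  have h1 := conj_sub (g := g⁻¹) (sg_sub (t := t) hb hw (hβ.T_eq _))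
  rw [inv_inv] at h1
  set y := g⁻¹ * t.rt (β.siegel b w (β.Q w)) * g with ey
  have h3 : ∀ v, g.1 (dd y (dd y v)) = t.τ (-(2 * β.Q w) • t.ct b (g.1 v)) b := fun v => by
    simp only [ey, dd_conj', Isom.apply_inv_apply, dd_sq hβ hb hw, map_smul, LinearMap.smul_apply]
  have h4 : ∀ v, dd y (dd y (dd y v)) = 0 := fun v => by
    rw [ey, dd_conj', ← ey, h3, dd_self hb hw (hβ.T_eq _), map_zero]
  obtain ⟨c, hc⟩ : ∃ c : F, ∀ u, a u = c • u := by
    by_contra hn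
    have k : ∀ u, a u ∉ F ∙ u → a (a u) ∈ Submodule.span F {u, a u} ∧ ∃ (w : W) (c : F), w ≠ 0 ∧ η w = c • w := fun u hu => by
      obtain ⟨x, a1, a2⟩ : ∃ x, dd y (dd y (t.τ u x)) = 0 ∧ x ≠ 0 := by
        obtain ⟨x, a1, a2⟩ := (Submodule.ne_bot_iff _).1 (LinearMap.ker_ne_bot_of_finrank_lt
          (f := t.ct b ∘ₗ (g.1 : V →ₗ[F] V) ∘ₗ t.τ u) (by omega))
        exact ⟨x, g.1.injective (by rw [h3, show t.ct b (g.1 (t.τ u x)) = 0 from a1]; simp), a2⟩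
      simp only [dd_apply, map_sub, hy] at a1
      have a3 : a (a u) ∈ Submodule.span F {u, a u} := by
        by_contra a3
        obtain ⟨ξ, b1, b2⟩ := exists_dual_sep a3
        simpa [b1 u (Submodule.subset_span (by simp)), b1 (a u) (Submodule.subset_span (by simp)), b2, a2]
          using congrArg (t.cu ξ) a1
      obtain ⟨ξ, b1, b2⟩ := exists_dual₂ hu
      have a4 : ξ (a (a u)) • η x = (2 : F) • x := η.injective (by
        have := congrArg (t.cu ξ) a1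
        simp only [map_sub, cu_τ, b1, b2, map_zero] at this
        rw [map_smul, map_smul]; linear_combination (norm := module) this)
      have a5 : ξ (a (a u)) ≠ 0 := fun e => a2 (by simpa [e, h2] using a4.symm)
      exact ⟨a3, x, (ξ (a (a u)))⁻¹ * 2, a2, by rw [mul_smul, ← a4, inv_smul_smul₀ a5]⟩
    obtain ⟨u, hu⟩ := (scalar_or (a : U →ₗ[F] U)).resolve_left hn
    obtain ⟨-, x, c, x0, e⟩ := k u hu
    have c0 : c ≠ 0 := by rintro rfl; simp [x0] at e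
    let N := c • (a : U →ₗ[F] U) - .id
    have k1 : ∀ u, dd y (t.τ u x) = t.τ (N u) x := fun u => by simp [dd_apply, hy, e, N]
    have k2 : ∀ u, N (N (N u)) = 0 := fun u => t.τ_eq_zero x0 (by simpa only [k1] using h4 (t.τ u x))
    have k3 : ∀ u, N (N u) = 0 := fun u => cube (k2 u) (by
      have a1 : a u ∈ Submodule.span F {u, N u} := Submodule.mem_span_pair.2 ⟨c⁻¹, c⁻¹, by simp [N, smul_sub, smul_smul, c0]⟩
      have a2 : a (a u) ∈ Submodule.span F {u, N u} := by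
        by_cases e : a u ∈ F ∙ u
        · obtain ⟨d, e⟩ := Submodule.mem_span_singleton.1 e
          rw [← e, map_smul]; exact Submodule.smul_mem _ _ a1
        · exact Submodule.span_le.2 (Set.insert_subset (Submodule.subset_span (by simp)) (Set.singleton_subset_iff.2 a1)) (k u e).1
      convert add_mem (sub_mem (Submodule.smul_mem _ (c * c) a2) (Submodule.smul_mem _ (2 * c) a1))
        (Submodule.subset_span (Set.mem_insert u _)) using 1
      simp [N]; module)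
    have := two_mul_le' h2 hα hy h1 c0 (fun u => sub_eq_zero.1 (k3 u)) hn
    have := finrank_conj (t := t) (b := b) (w := w) g⁻¹
    omega
  obtain ⟨η', e⟩ := t.exists_of_scalar hy hc
  have h5 : ∀ u x, g.1 (t.τ u ((η' - .id) ((η' - .id) x))) ∈ t.A b := fun u x => by
    rw [← dd_τ e, ← dd_τ e, h3]; exact t.τ_mem _ _
  obtain ⟨x, hx⟩ : ∃ x, (η' - .id) ((η' - .id) x) ≠ 0 := by
    by_contra! H
    obtain ⟨u₀, hu⟩ := exists_ne (0 : U)
    obtain ⟨f, hf⟩ := β.exists_B_eq_one b0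
    have := h3 ((g⁻¹).1 (t.τ u₀ f))
    rw [show dd y (dd y _) = 0 from t.ext' (X := dd y ∘ₗ dd y) (Y := 0) (fun u w => by
      simp only [LinearMap.comp_apply, dd_τ e, H]; simp) _] at this
    exact t.τ_ne hu b0 (by simpa [hf, h2, hw'] using this.symm)
  exact of_mapS h0 h (hβ.big hW.ge) hg (sing_of_ts (fun w e => by simpa [hβ.B_self, h2] using e) hb g (h5 · x)) hx hb b0 (h5 · x)

theorem oo4 (h5 : 5 ≤ Fintype.card F) (han : ∀ b w, β.Q b = 0 → b ≠ 0 → β.B b w = 0 → w ∉ F ∙ b → β.Q w ≠ 0) :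
    M ≤ t.PT ∨ φ.E ≤ M := by
  have := Module.nontrivial_of_finrank_pos (R := F) (M := U) (by omega)
  have := Module.nontrivial_of_finrank_pos (R := F) (M := W) (by omega)
  obtain ⟨b, f, hy⟩ := hβ.exists_hyp_of_three_le (by omega)
  by_cases H : ∀ b hb, b ≠ 0 → ∀ ζ ∈ t.ZZ M (b := b) hb, ∃ c : F, ∀ u, ζ u = c • u
  swap
  · push Not at H
    obtain ⟨b, hb, b0, ζ, a, e⟩ := H
    exact .inr (spread4 hα hβ hφ h3 h2 hy fun x i j u f k => sg_all h h2 hα hβ hφ hW h3 hb b0 a (by simpa using e) i j u k)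
  have h0 := h0_4 h h2 hα hβ hφ hW h3 han (exists_sq_ne (As.odd_card.2 h2) (by omega)) H
  set P := β.perp (Submodule.span F {b, f})
  have d : finrank F P = 2 := by have := hy.finrank_perp; simp only [P]; omega
  have := Module.finite_of_finite F (M := P)
  have := Fintype.ofFinite P
  have := Module.nontrivial_of_finrank_pos (R := F) (M := P) (by omega)
  let θ : ∀ p, β.Q p = 0 → (∀ w : P, β.B p w = 0) → Multiplicative P →* β.Isom := fun p i j =>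
    .mk' (fun w => β.siegel p w.toAdd (β.Q w.toAdd)) fun w w' => by
      simp [β.siegel_mul i (j _) (hβ.T_eq _) (j _) (hβ.T_eq _), hβ.Q_add]
  have S := fun p i j => sum_le h2 h5 (φ := φ) (T := (t.rt.comp (θ p i j)).range) (d := 2)
    (Φ := fun | 0 => ⊤ | 1 => (φ.perp (t.A p)).toAddSubgroup | 2 => (t.A p).toAddSubgroup | _ => ⊥)
    ⟨fun _ => trivial, antitone_nat_of_succ_le fun
      | 0 => le_top | 1 => (t.ts_A i).le_perp | 2 => bot_le | _ + 3 => le_rfl, by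
      rintro _ ⟨s, rfl⟩ (_ | _ | _ | _) x hx
      all_goals have r := t.rad_siegel i (j s.toAdd) (hβ.T_eq _)
      exacts [sub_mem_perp r.1 x, r.2 x hx, sub_eq_zero.2 (r.1 x hx),
        by rw [show x = 0 from hx, map_zero, sub_zero]; exact zero_mem _]⟩ (fun _ hx => hx) d _ fun s => ⟨s, rfl⟩
  have j : ∀ w : P, β.B b w = 0 := fun w => (β.mem_perp_pair.1 w.2).1
  have j' : ∀ w : P, β.B f w = 0 := fun w => (β.mem_perp_pair.1 w.2).2
  have q : ∀ w : Multiplicative P, w ≠ 1 → β.Q w.toAdd ≠ 0 := fun w i => han b _ hy.Qe hy.e_ne_zero (j _) fun e => by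
    obtain ⟨c, e⟩ := Submodule.mem_span_singleton.1 e
    obtain rfl : c = 0 := by simpa [hy.Bfe, hβ.ε_eq, j'] using congrArg (β.B f) e
    exact i (by simpa using e.symm)
  exact .inl (finS h (θ := θ b hy.Qe j) (θ' := θ f hy.Qf j') (fun _ => β.siegel_mem_E hy.Qe (j _) (hβ.T_eq _))
    (fun _ => β.siegel_mem_E hy.Qf (j' _) (hβ.T_eq _)) (fun w i _ => se4 h h2 hα hβ hW h3 h0 hy.Qe hy.e_ne_zero (j _) (q w i))
    (fun w i _ => se4 h h2 hα hβ hW h3 h0 hy.Qf hy.f_ne_zero (j' _) (q w i)) (fun _ => disj_A fun e => by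
      obtain ⟨c, e⟩ := Submodule.mem_span_singleton.1 e
      simpa [hy.Bee, hy.Bef] using congrArg (β.B b) e) (S b hy.Qe j) (S f hy.Qf j'))

end ten
end

open H10.As Cfsg Cfsg.Geo Matrix

theorem om12_tens {F : Type*} [Field F] [Fintype F] {ι : Type} [Fintype ι] [DecidableEq ι] {Q : (ι → F) → F}
    (hQ : IsNondegenerateQuadraticForm Q) (ho : Odd (Fintype.card F)) (h5 : 5 ≤ Fintype.card F)
    {e : ι ≃ Fin 3 × Fin 4} {P : GL ι F} {f₁ f₂} (h₁ : IsSymmetricForm f₁) (h₂ : IsSymmetricForm f₂)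
    (hm : ¬ IsPlusTypeOn (fun v => f₂ v v) ⊤) (hT : IsTensorFormStructure _root_.id (QuadraticMap.polar Q) f₁ f₂ e P) :
    IsMaximalIn (omegaGL Q) (tensorProductSubgroup 3 4 e P ⊓ omegaGL Q) := by
  obtain ⟨Q, rfl, _⟩ := exists_ofQuad hQ
  refine om_tens_aux ho le_rfl (by omega) h₁ h₂ hT fun α β _ _ a b _ b' t => ⟨?_, fun M H =>
    oo4 H (odd_card.1 ho) a b (isQuad_ofQuad Q) (by simp) (by simp) h5 fun x w i j k l m => by
      simpa [finrank_pair j l] using two_mul_lt b' (.inr hm) _ (ts_pair i m k)⟩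
  obtain ⟨x, x', hx⟩ := a.exists_hyp_of_three_le (by simp)
  obtain ⟨y, y', hy⟩ := b.exists_hyp_of_three_le (by simp)
  obtain ⟨w, -, a2, a1⟩ := β.exists_orth ⊤ (F ∙ y) [y] (by have := finrank_span_singleton_le (F := F) y; simp; omega)
  exact not_E_leS (t := t) ((isQuad_ofQuad Q).big (by rw [finrank_fintype_fun_eq_card, Fintype.card_congr e]; simp)) hy.Qe
    hy.e_ne_zero a2 hx.e_ne_zero (u' := x') (fun e => by
      obtain ⟨c, e⟩ := Submodule.mem_span_singleton.1 e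
      simpa [hx.Bee, hx.Bef] using congrArg (α.B x) e) (by
      rw [Form.Q_add_of_orth _ (by simp [a1 y]), t.Q_τ₂ _ hy.Qe, t.Q_τ₁ _ hx.Qf, add_zero])

end H10.Tn
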