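import Mathlib
import Cfsg.Agent.H10.MxB
import Cfsg.Agent.H10.TnU

/-! # Overgroups of `Ω₃(q^r)` in `Ω_{3r}(q)`, I : the case of a non-trivial `Z(R(A)) ∩ M` -/

set_option autoImplicit false
set_option linter.unusedSectionVars false

namespace H10.Mx

open Module Form

theorem polsq0 {K G : Type*} [Field K] [AddCommGroup G] (h2 : ∀ g : G, g + g = 0 → g = 0) (b : K →+ K →+ G)
    (hs : ∀ x y, b x y = b y x) {a : K} (ha : a ^ 9 ≠ a) (H : ∀ m, b (m * m) (m * m) = 0) (x y : K) : b x y = 0 := by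
  have A : ∀ m, b (m * m) 1 + (b m m + b m m) = 0 := fun m => h2 _ (h2 _ (by
    have p := H (m + 1)
    have q := H (m - 1)
    rw [show (m + 1) * (m + 1) = m * m + m + m + 1 by ring] at p
    rw [show (m - 1) * (m - 1) = m * m - m - m + 1 by ring] at q
    have r := H 1
    simp only [map_add, map_sub, AddMonoidHom.add_apply, AddMonoidHom.sub_apply, H m, mul_one, hs 1 (m * m), hs m (m * m),
      hs 1 m] at p q r
    linear_combination (norm := module) p + q - (2 : ℤ) • r))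
  have B : ∀ x y, b (x * y) 1 + (b x y + b x y) = 0 := fun x y => h2 _ (by
    have p := A (x + y)
    rw [show (x + y) * (x + y) = x * x + x * y + x * y + y * y by ring] at p
    simp only [map_add, AddMonoidHom.add_apply, hs y x] at p
    linear_combination (norm := module) p - A x - A y)
  have C : ∀ m, b (m ^ 4) 1 = 0 := fun m => by
    simpa [H m, show m * m * (m * m) = m ^ 4 by ring] using B (m * m) (m * m)
  have D : ∀ m n, b (m ^ 3 * n) 1 + b (m * n ^ 3) 1 = 0 := fun m n => h2 _ (h2 _ (h2 _ (by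
    have p := congrArg (b · 1) (show (m + n) ^ 4 - (m - n) ^ 4 = (8 : ℤ) • (m ^ 3 * n + m * n ^ 3) by simp; ring)
    simp only [map_add, map_sub, map_zsmul, AddMonoidHom.add_apply, AddMonoidHom.sub_apply, C, AddMonoidHom.zsmul_apply] at p
    linear_combination (norm := module) -p)))
  have E : ∀ n, b n 1 = 0 := fun n => by
    obtain ⟨n, rfl⟩ : ∃ k, n = (a ^ 3) ^ 3 * k - a * k * 1 ^ 3 :=
      ⟨n / (a ^ 9 - a), by rw [one_pow, mul_one, ← sub_mul, ← pow_mul, mul_div_cancel₀ _ (sub_ne_zero.2 ha)]⟩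
    have p := D (a * n) 1
    rw [show (a * n) ^ 3 * 1 = a ^ 3 * n ^ 3 by ring] at p
    rw [map_sub, AddMonoidHom.sub_apply]
    linear_combination (norm := module) D (a ^ 3) n - p
  exact h2 _ (by simpa [E] using B x y)

theorem polsq {K G : Type*} [Field K] [AddCommGroup G] (J : AddSubgroup G) (h2 : ∀ g : G, g + g ∈ J → g ∈ J) (b : K →+ K →+ G)
    (hs : ∀ x y, b x y = b y x) {a : K} (ha : a ^ 9 ≠ a) (H : ∀ m, b (m * m) (m * m) ∈ J) (x y : K) : b x y ∈ J :=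
  (QuotientAddGroup.eq_zero_iff _).1 (polsq0 (G := G ⧸ J) (fun g => QuotientAddGroup.induction_on g fun g e =>
    (QuotientAddGroup.eq_zero_iff _).2 (h2 g ((QuotientAddGroup.eq_zero_iff _).1 e))) (b.compr₂ (QuotientAddGroup.mk' J))
    (fun x y => congrArg (QuotientAddGroup.mk' J) (hs x y)) ha (fun m => (QuotientAddGroup.eq_zero_iff _).2 (H m)) x y)

theorem ex24 {K : Type*} [Field K] [Finite K] (h : 27 ≤ Nat.card K) : ∃ a : K, a ≠ 0 ∧ a ^ 24 ≠ 1 := by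
  obtain ⟨g, hg⟩ := IsCyclic.exists_ofOrder_eq_natCard (α := Kˣ)
  refine ⟨g, g.ne_zero, fun e => ?_⟩
  have := Nat.le_of_dvd (by omega) (orderOf_dvd_of_pow_eq_one (x := g) (n := 24) (Units.ext (by simpa)))
  rw [hg, Nat.card_units] at this; omega

variable {F K V : Type*} [Field F] [Field K] [Algebra F K] [AddCommGroup V] [Module F V] [Module K V]
  [IsScalarTower F K V]

theorem sq_mul [Finite K] (h2 : (2 : F) ≠ 0) (ho : Odd (finrank F K)) {k : K} (k0 : k ≠ 0) :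
    ∃ (c : F) (m : K), c ≠ 0 ∧ m ≠ 0 ∧ m * m * k = algebraMap F K c := by
  have : Finite F := .of_injective _ (algebraMap F K).injective
  obtain ⟨n, hn⟩ : Odd (∑ i ∈ Finset.range (finrank F K), Nat.card F ^ i) := by
    rw [Finset.odd_sum_iff_odd_card_odd, Finset.filter_true_of_mem fun i _ => (odd_card_iff.2 h2).pow]; simpa
  exact ⟨Algebra.norm F k, k ^ n, by simpa, pow_ne_zero _ k0, by rw [FiniteField.algebraMap_norm_eq_pow_sum, hn]; ring⟩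

theorem cen (hr : (finrank F K).Prime) {Y : V →ₗ[F] V} {e : K} (h : ∀ p, Y (e • p) = e • Y p) :
    (∃ c : F, e = algebraMap F K c) ∨ ∀ (k : K) p, Y (k • p) = k • Y p := by
  let E : Subalgebra F K :=
    { carrier := {e | ∀ p, Y (e • p) = e • Y p}
      mul_mem' := fun ha hb p => by rw [mul_smul, mul_smul, ha, hb]
      add_mem' := fun ha hb p => by rw [add_smul, add_smul, map_add, ha, hb]
      algebraMap_mem' := fun c p => by simp }
  rcases (Subalgebra.isSimpleOrder_of_finrank_prime F K hr).eq_bot_or_eq_top E with h2 | h2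
  · obtain ⟨c, hc⟩ := Algebra.mem_bot.1 (h2 ▸ (show e ∈ E from h))
    exact .inl ⟨c, hc.symm⟩
  · exact .inr fun k => show k ∈ E from h2 ▸ trivial

structure F3 (φ : Form F V) (ψ : Form K V) (l : Dual F K) (M : Subgroup (V ≃ₗ[F] V)) : Prop extends FK φ ψ l M where
  hq : φ.IsQuad
  hψ : ψ.IsQuad
  t2 : (2 : F) ≠ 0
  k3 : finrank K V = 3
  r3 : 3 ≤ finrank F K
  com : ∀ g ∈ commutator ψ.Isom, ∃ x ∈ M, ∀ z, x z = g.1 z

namespace F3
variable {φ : Form F V} {ψ : Form K V} {l : Dual F K} {M : Subgroup (V ≃ₗ[F] V)} (h : F3 φ ψ l M)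
  {A B : Submodule F V} {u v w y t s f n a : V} {Y : V →ₗ[F] V} {g : V ≃ₗ[F] V}
  [φ.Nondeg] [ψ.Nondeg] [FiniteDimensional F V] [FiniteDimensional K V] [FiniteDimensional F K] [Finite F]
include h

theorem t2' : (2 : K) ≠ 0 := by rw [← map_ofNat (algebraMap F K), map_ne_zero]; exact h.t2
theorem odd : Odd (finrank F K) := h.pr.odd_of_ne_two (by have := h.r3; omega)
theorem sa (k : K) (x y : V) : φ.B (k • x) y = φ.B x (k • y) := by simp [h.B, h.hψ.σ_eq]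
theorem ex24 : ∃ a : K, a ≠ 0 ∧ a ^ 24 ≠ 1 := by
  have := Module.finite_of_finite F (M := K)
  refine Mx.ex24 ?_
  rw [Module.natCard_eq_pow_finrank (K := F)]
  have := Finite.one_lt_card (α := F)
  obtain ⟨c, e⟩ := odd_card_iff.2 h.t2
  exact (Nat.pow_le_pow_left (show 3 ≤ Nat.card F by omega) 3).trans (Nat.pow_le_pow_right (by omega) h.r3)

theorem fr (hv : ψ.Q v = 0) (v0 : v ≠ 0) : ∃ u n, ψ.IsHyp v u ∧ ψ.B v n = 0 ∧ ψ.B u n = 0 ∧ ψ.B n n ≠ 0 ∧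
    ∀ z, ψ.B v z = 0 → ∃ a c : K, z = a • v + c • n := by
  obtain ⟨u, hy⟩ := ψ.exists_hyp hv v0
  obtain ⟨n, a, b, c⟩ := Tn.ex_n h.hψ h.k3 hy
  refine ⟨u, n, hy, a, b, h.hψ.B_self_ne_zero h.t2' c, fun z hz => ?_⟩
  obtain ⟨d, e⟩ := Tn.dec3 h.hψ h.k3 hy a b (by rintro rfl; simp at c) z
  exact ⟨_, d, by simpa [hz] using e⟩

theorem tor (hv : ψ.Q v = 0) (v0 : v ≠ 0) {m : K} (m0 : m ≠ 0) : ∃ g ∈ M, (∀ (k : K) y, g (k • y) = k • g y) ∧
    (∀ x y, ψ.B (g x) (g y) = ψ.B x y) ∧ g v = (m * m) • v ∧ ∀ z, ψ.B v z = 0 → g z - z ∈ pt F K v := by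
  have := Module.finite_of_finite F (M := K)
  obtain ⟨u, hy⟩ := ψ.exists_hyp hv v0
  have g := h.hψ.good_of_two_ne_zero h.t2'
  have c1 := mul_ne_zero m0 m0
  obtain ⟨x, hx, e⟩ := h.com (ψ.rot v u (m * m)) (by
    rw [h.hψ.mem_commutator_iff g (by rw [h.k3]; omega)]
    simp [h.hψ.dickson_rot g hy c1, h.hψ.spinor_rot g hy c1, chi_mul_self])
  exact ⟨x, hx, by simp [e], by simp [e], by rw [e, ψ.rot_apply_e hy c1], fun z hz => by
    simpa [e, ψ.rot_apply hy c1, hz] using smul_mem_pt _ v⟩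

theorem tr3 (hu : ψ.Q u = 0) (u0 : u ≠ 0) (hv : ψ.Q v = 0) (v0 : v ≠ 0) : ∃ g ∈ M, (∀ (k : K) y, g (k • y) = k • g y) ∧
    (∀ x y, ψ.B (g x) (g y) = ψ.B x y) ∧ ∃ c : F, c ≠ 0 ∧ g u = c • v := by
  have := Module.finite_of_finite F (M := K)
  obtain ⟨g, hg, a, b, k, e⟩ : ∃ g ∈ M, (∀ (k : K) y, g (k • y) = k • g y) ∧
      (∀ x y, ψ.B (g x) (g y) = ψ.B x y) ∧ ∃ k : K, g u = k • v := by
    by_cases e : ψ.B u v = 0
    · obtain ⟨-, n, -, a, -, b, c⟩ := h.fr hu u0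
      obtain ⟨i, j, rfl⟩ := c v e
      obtain rfl : j = 0 := by simpa [h.hψ.Q_add, h.hψ.Q_smul, hu, a, show ψ.Q n ≠ 0 from mt ψ.B_self_eq_zero b] using hv
      exact ⟨1, one_mem _, fun _ _ => rfl, fun _ _ => rfl, i⁻¹, by simp at v0; simp [v0]⟩
    have hy : ψ.IsHyp u ((ψ.B u v)⁻¹ • v) := ⟨hu, ψ.Q_smul_of_sing hv _, by simp [e]⟩
    obtain ⟨n, a, b, c⟩ := Tn.ex_n h.hψ h.k3 hy
    obtain ⟨g, hg, e⟩ := ψ.exists_E_map_hyp hy a b (h.hψ.T_eq _) c
    obtain ⟨x, hx, e'⟩ := h.mem g hg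
    exact ⟨x, hx, by simp [e'], by simp [e'], _, by rw [e', e, smul_smul]⟩
  obtain ⟨c, m, c0, m0, i⟩ := sq_mul h.t2 h.odd (k := k) (by rintro rfl; simp [u0] at e)
  obtain ⟨x, hx, j, j', e', -⟩ := h.tor hv v0 m0
  exact ⟨x * g, mul_mem hx hg, by simp [a, j], by simp [b, j'], c, c0, by
    rw [LinearEquiv.mul_apply, e, j, e', smul_smul, mul_comm, i, algebraMap_smul]⟩

theorem zk (hv : ψ.Q v = 0) (v0 : v ≠ 0) (hY : Zs M (pt F K v) Y) {z : V} (hz : ψ.B v z = 0) : Y z = 0 :=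
  h.Zker (h.ts (mem_fam ⟨v, v0, hv, rfl⟩)) hY fun b hb => φ.B_symm_zero (h.perp_iff.2 hz b hb)

theorem full (hv : ψ.Q v = 0) (v0 : v ≠ 0) (hY : Zs M (pt F K v) Y) (Y0 : Y ≠ 0) (ht : ψ.B v t ≠ 0) (ha : a ∈ pt F K v)
    (hat : φ.B a t = 0) : ∃ Y, (∀ c : F, Zs M (pt F K v) (c • Y)) ∧ Y t = a := by
  have hA := h.ts (mem_fam ⟨v, v0, hv, rfl⟩)
  let J : AddSubgroup (V →ₗ[F] V) := .ofSub {Y | Zs M (pt F K v) Y} ⟨0, fun _ => zero_mem _, 1, one_mem _, by simp⟩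
    fun _ a _ b => by simpa [sub_eq_add_neg] using h.Zsub hA a b
  let μ : K →+* (V →ₗ[F] V) := (Algebra.lsmul F F V).toRingHom
  let b : K →+ K →+ V →ₗ[F] V := .mk' (fun x => .mk' (fun y => μ x * Y * μ y + μ y * Y * μ x) fun _ _ => by
    simp only [map_add, mul_add, add_mul]; abel) fun _ _ => AddMonoidHom.ext fun _ => by
    simp only [map_add, mul_add, add_mul, AddMonoidHom.mk'_apply, AddMonoidHom.add_apply]; abel
  have eb : ∀ x y z, b x y z = x • Y (y • z) + y • Y (x • z) := fun _ _ _ => rfl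
  obtain ⟨e, e0, e1⟩ := h.ex24
  have hb : ∀ x y, b x y ∈ J := polsq J (fun g hg => by
      obtain ⟨p, hp⟩ := CharP.exists F
      obtain ⟨i, hi⟩ := (CharP.char_is_prime F p).odd_of_ne_two (by rintro rfl; exact h.t2 (CharP.cast_eq_zero F 2))
      convert nsmul_mem hg (i + 1) using 1
      rw [← two_nsmul, smul_smul, show (i + 1) * 2 = p + 1 by omega, succ_nsmul, ← Nat.cast_smul_eq_nsmul F]; simp)
    b (fun x y => add_comm _ _) (a := e) (fun i => e1 (by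
      rw [show e ^ 24 = (e ^ 8) ^ 3 by ring, mul_left_cancel₀ e0 (show e * e ^ 8 = e * 1 by linear_combination i), one_pow]))
    fun m => by
      by_cases m0 : m = 0
      · simpa [m0] using zero_mem J
      obtain ⟨g, hg, i, j, k, -⟩ := h.tor hv v0 m0
      have := hY.cn hg
      rw [map_pt i, k, pt_eq (smul_mem_pt _ v) (by simp [m0, v0]), show cn g Y = μ (m * m) * Y * μ (m * m) from
        LinearMap.ext fun z => by
        obtain ⟨c, e⟩ := mem_pt.1 (hY.1 (g.symm z))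
        have := h.zk hv v0 hY (z := g.symm z - (m * m) • z) (by rw [map_sub, ← j, k]; simp [h.hψ.σ_eq])
        rw [map_sub, sub_eq_zero] at this
        change _ = (m * m) • Y ((m * m) • z)
        rw [cn_apply, ← this, ← e, i, k, smul_comm]] at this
      exact add_mem (show _ ∈ J from this) this
  let W : Submodule F (V →ₗ[F] V) := ⟨⟨⟨{Y | ∀ c : F, c • Y ∈ J}, fun a b c => by simpa using add_mem (a c) (b c)⟩,
    fun c => by simpa using zero_mem J⟩, fun c _ a d => by simpa [smul_smul] using a (d * c)⟩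
  by_contra! H
  obtain ⟨f, i, j⟩ := φ.exists_sep (W := W.map (LinearMap.applyₗ t)) (u := a) fun ⟨Y, i, j⟩ => H Y i j
  have d : ∀ z, ψ.B v (z - (ψ.B v z / ψ.B v t) • t) = 0 := fun z => by simp [ht]
  have d' : ∀ (k : K) z, Y (k • z) = Y ((k * (ψ.B v z / ψ.B v t)) • t) := fun k z => by
    rw [← sub_eq_zero, ← map_sub, mul_smul, ← smul_sub]; exact h.zk hv v0 hY (by rw [map_smul, d, smul_zero])
  set c := ψ.B v f / ψ.B v t with ec
  have df : ∀ a ∈ pt F K v, φ.B f a = φ.B (c • t) a := fun a ha => by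
    have := h.perp_iff.2 (d f) a ha
    rwa [map_sub, sub_eq_zero, h.hq.B_comm a, h.hq.B_comm a] at this
  have mA : ∀ (k : K) z, k • Y z ∈ pt F K v := fun k z => by
    obtain ⟨c, e⟩ := mem_pt.1 (hY.1 z); rw [← e, smul_smul]; exact smul_mem_pt _ _
  have z0 : ∀ a ∈ pt F K v, (∀ x : K, φ.B (x • t) a = 0) → a = 0 := fun a ha H => by
    obtain ⟨k, rfl⟩ := mem_pt.1 ha
    rw [show k = 0 from (mul_eq_zero.1 (eq_zero_of_mul h.l0 (a := k * ψ.B v t) fun x => by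
      simpa [h.B, h.hψ.σ_eq, h.hψ.B_comm t, mul_left_comm] using H x)).resolve_right ht, zero_smul]
  rcases cen h.pr (Y := Y) (e := c) (fun p => by
    rw [d', show Y p = _ by simpa using d' 1 p, eq_comm, ← sub_eq_zero]
    generalize ψ.B v p / ψ.B v t = y
    refine z0 _ (sub_mem (mA _ _) (hY.1 _)) fun x => ?_
    have := i _ ⟨b x y, fun c => by convert hb (c • x) y using 1; ext z; simp [eb, smul_comm y c], rfl⟩
    rw [LinearMap.applyₗ_apply_apply, eb, df _ (add_mem (mA _ _) (mA _ _)), map_add, ← h.sa y, h.hq.B_comm _ (Y _),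
      h.skew hA hY, ← h.sa, smul_comm, h.sa, smul_smul, mul_comm y] at this
    rw [map_sub]; linear_combination this) with ⟨e, i⟩ | i
  · rw [df a ha, i, algebraMap_smul, h.Bs, h.hq.B_comm, hat, mul_zero] at j; exact zero_ne_one j
  refine Y0 (LinearMap.ext fun z => ?_)
  rw [← one_smul K z, d', i, z0 _ (hY.1 t) fun x => ?_, smul_zero, LinearMap.zero_apply]
  have := h.skew hA hY (x • t) t
  rw [i, h.sa, h.hq.B_comm] at this
  exact mul_left_cancel₀ h.t2 (by linear_combination this)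

theorem exmp (hv : ψ.Q v = 0) (v0 : v ≠ 0) (hY : Zs M (pt F K v) Y) (Y0 : Y ≠ 0) : ∃ A B, MP M (StQ F ψ) A B := by
  have hA := h.ts (mem_fam ⟨v, v0, hv, rfl⟩)
  obtain ⟨u, hy⟩ := ψ.exists_hyp hv v0
  let b := finBasis F K
  let N : Matrix _ _ F := .of fun i j => φ.B (b i • u) (Y (b j • u))
  have : N.det = 0 := by
    have e := N.det_transpose
    rw [show N.transpose = -N by ext i j; simp [N, h.hq.B_comm (b j • u), h.skew hA hY], Matrix.det_neg, Fintype.card_fin,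
      h.odd.neg_one_pow] at e
    exact mul_left_cancel₀ h.t2 (by linear_combination -e)
  obtain ⟨x, x0, hx⟩ := Matrix.exists_mulVec_eq_zero_iff.2 this
  obtain ⟨k, hk⟩ := mem_pt.1 (hY.1 (b.equivFun.symm x • u))
  obtain rfl : k = 0 := eq_zero_of_mul h.l0 fun c => by
    have : ∀ i, l (b i * k) = 0 := fun i => by
      have := congrFun hx i
      simp only [N, Matrix.mulVec, dotProduct, Matrix.of_apply, mul_comm _ (x _), ← smul_eq_mul, ← map_smul, ← map_sum,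
        ← smul_assoc, ← Finset.sum_smul, ← b.equivFun_symm_apply, ← hk] at this
      simpa [h.B, h.hψ.σ_eq, hy.Bfe, h.hψ.ε_eq, mul_comm] using this
    rw [← b.sum_repr c]; simp only [Finset.sum_mul, map_sum, smul_mul_assoc, map_smul, this, smul_zero, Finset.sum_const_zero]
  obtain ⟨y, hy', e⟩ := hY.2
  have s := mem_fam (M := M) (show _ ∈ StQ F ψ from ⟨u, hy.f_ne_zero, hy.Qf, rfl⟩)
  refine Mx.exists_mp s (fam_map s hy') (fun i => Y0 (LinearMap.ext fun z => ?_)) ((Submodule.ne_bot_iff _).2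
    ⟨_, ⟨smul_mem_pt _ u, _, smul_mem_pt _ u, by rw [LinearEquiv.coe_coe, e, ← hk, zero_smul, add_zero]⟩,
      smul_ne_zero (b.equivFun.symm.map_ne_zero_iff.2 x0) hy.f_ne_zero⟩)
  obtain ⟨c, j⟩ := mem_pt.1 (i.ge (Submodule.mem_map_of_mem (smul_mem_pt (ψ.B v z) u)))
  obtain ⟨d, m⟩ := mem_pt.1 (hY.1 (ψ.B v z • u))
  have := h.zk hv v0 hY (z := z - ψ.B v z • u) (by simp [hy.Bef])
  rw [map_sub, sub_eq_zero] at this
  rw [LinearEquiv.coe_coe, e, ← m] at j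
  rw [this, ← m, show d = 0 by simpa [hy.Bff, hy.Bfe, h.hψ.ε_eq] using (congrArg (ψ.B u) j).symm]; simp

theorem caseb (hv : ψ.Q v = 0) (v0 : v ≠ 0) (hY : Zs M (pt F K v) Y) (Y0 : Y ≠ 0) (hm : MP M (StQ F ψ) (pt F K v) B) :
    ∃ A B, MP M (StQ F ψ) A B ∧ ∃ t ∈ B, t ∉ A ∧ ∀ a ∈ A, φ.B a t = 0 := by
  by_cases h3 : ∃ t ∈ B, t ∉ pt F K v ∧ ψ.B v t = 0
  · obtain ⟨t, a, b, c⟩ := h3; exact ⟨_, _, hm, t, a, b, h.perp_iff.2 c⟩
  push Not at h3
  obtain ⟨t, h1, h2⟩ := FK.exists_not hm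
  obtain ⟨C, hC⟩ := (pt F K v ⊓ B).exists_isCompl
  obtain ⟨y, ⟨y1, y2⟩, y0, hy⟩ := h.hq.exists_singular (W := φ.perp (pt F K v ⊔ B) ⊓ C) (by
    have := φ.finrank_perp (pt F K v ⊔ B)
    have := Submodule.finrank_sup_add_finrank_inf_eq (pt F K v) B
    have := Submodule.finrank_sup_add_finrank_inf_eq (φ.perp (pt F K v ⊔ B)) C
    have := Submodule.finrank_add_eq_of_isCompl hC
    have := Submodule.finrank_le (φ.perp (pt F K v ⊔ B) ⊔ C)
    have := finrank_mul_finrank F K V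
    have := h.r3
    rw [finrank_pt v0, FK.rk hm.r, h.k3] at *; omega)
  have d2 : ψ.B v y = 0 := h.perp_iff.1 fun a ha => y1 a (Submodule.mem_sup_left ha)
  have d3 : ∀ b ∈ B, φ.B b y = 0 := fun a ha => y1 a (Submodule.mem_sup_right ha)
  have y3 : y ∉ B := fun e => y0 (hC.disjoint.le_bot ⟨⟨by_contra fun e' => h3 _ e e' d2, e⟩, y2⟩)
  have t0 := h3 t h1 h2
  obtain ⟨x, hx, i, j⟩ := h.sg' (w := -(ψ.B v t)⁻¹ • y) hv (by simp [d2])
  obtain ⟨c, j⟩ := j t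
  rw [h.hψ.ε_eq, one_mul, smul_smul, mul_neg, mul_inv_cancel₀ t0, neg_one_smul, sub_neg_eq_add] at j
  have p : ∀ z, ψ.B v z = 0 → φ.B z (c • v) = 0 := fun z hz => φ.B_symm_zero (h.perp_iff.2 hz _ (smul_mem_pt c v))
  obtain ⟨Z, a, b⟩ := h.full hv v0 hY Y0 t0 (neg_mem (smul_mem_pt c v)) (by
    have := (h.le hx).Q t
    rw [j, h.hq.Q_add, h.hq.Q_add, hy, d3 t h1, h.Q _ (ψ.Q_smul_of_sing hv c), map_add,
      LinearMap.add_apply, p y d2] at this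
    simpa [h.hq.B_comm t] using this)
  have a := one_smul F Z ▸ a 1
  obtain ⟨x', hx', e⟩ := a.2
  have h4 : t + y ∈ B.map ((x' * x : V ≃ₗ[F] V) : V →ₗ[F] V) := ⟨t, h1, by
    simp [j, e, b, h.zk hv v0 a d2, h.zk hv v0 a (z := c • v) (by simp [ψ.B_self_eq_zero hv])]⟩
  have h5 : t + y ∉ B := fun e => y3 ((add_mem_cancel_left h1).1 e)
  have h6 : pt F K v ⊓ B ≤ B ⊓ B.map ((x' * x : V ≃ₗ[F] V) : V →ₗ[F] V) := fun z hz => ⟨hz.2, z, hz.2, by
    obtain ⟨k, rfl⟩ := mem_pt.1 hz.1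
    have : ψ.B v (k • v) = 0 := by simp [ψ.B_self_eq_zero hv]
    simp [i _ this, e, h.zk hv v0 a this, ψ.B_symm_zero d2]⟩
  exact ⟨B, _, ⟨hm.r, fam_map hm.r (mul_mem hx' hx), fun e => h5 (e.ge h4), fun e => hm.nb (le_bot_iff.1 (h6.trans e.le)),
    fun _ a _ b c => (hm.mx _ a _ b c).trans (Submodule.finrank_mono h6)⟩, _, h4, h5, fun a ha => by
      rw [map_add, d3 a ha, (h.ts hm.r).B a ha t h1, add_zero]⟩

theorem dec (hv : ψ.Q v = 0) (v0 : v ≠ 0) (h2 : t ∉ pt F K v) (h3 : ψ.B v t = 0) :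
    ψ.B t t ≠ 0 ∧ ∀ z, ψ.B v z = 0 → ψ.B t z = 0 → z ∈ pt F K v := by
  obtain ⟨-, n, -, a, -, b, c⟩ := h.fr hv v0
  obtain ⟨i, j, rfl⟩ := c t h3
  have j0 : j ≠ 0 := by rintro rfl; exact h2 (by simpa using smul_mem_pt i v)
  refine ⟨by simp [a, ψ.B_symm_zero a, ψ.B_self_eq_zero hv, j0, b], fun z d e => ?_⟩
  obtain ⟨i', j', rfl⟩ := c z d
  obtain rfl : j' = 0 := by simpa [a, ψ.B_symm_zero a, ψ.B_self_eq_zero hv, j0, b] using e
  simpa using smul_mem_pt i' v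

theorem perp3 (r4 : 3 < finrank F K) (hv : ψ.Q v = 0) (v0 : v ≠ 0) (hm : MP M (StQ F ψ) (pt F K v) B) (h1 : t ∈ B)
    (h2 : t ∉ pt F K v) (h3 : ψ.B v t = 0) (hy : y ∈ B) : ψ.B v y = 0 := by
  classical
  by_contra h4
  obtain ⟨t0, d⟩ := h.dec hv v0 h2 h3
  have tv := ψ.B_symm_zero h3
  have vv := ψ.B_self_eq_zero hv
  have cd : ∀ z ∈ B, ψ.B v z = 0 → ∃ c : F, ψ.B t z = c • ψ.B t t := fun z a b => by
    obtain ⟨u, hu, hu'⟩ := FK.exists_not hm.symm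
    obtain ⟨c, hc⟩ := mem_bot_of_pres h.pr (S := B.comap ((LinearMap.toSpanSingleton K V v).restrictScalars F))
      (e := ψ.B t z / ψ.B t t) (fun h0 => hm.nb (eq_bot_iff.2 fun z hz => by
        obtain ⟨k, rfl⟩ := mem_pt.1 hz.1
        simp [show k = 0 from h0.le hz.2]))
      (fun h0 => by
        obtain ⟨k, rfl⟩ := mem_pt.1 hu
        exact hu' (h0.ge (Submodule.mem_top (x := k)))) fun s hs => by
      obtain ⟨x, hx, e, -⟩ := h.sg' (w := (s / ψ.B t t) • t) hv (by simp [h3])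
      have := hm.stab hx (fun z hz hz' => by
        obtain ⟨k, rfl⟩ := mem_pt.1 hz
        simpa [e, vv, tv] using hz') h1 h2 (by simpa [e, h3, h.hψ.σ_eq, t0] using add_mem h1 hs) z a
      rw [e z b, add_mem_cancel_left a, h.hψ.B_smul_left] at this
      rwa [show ψ.B t z / ψ.B t t * s = s / ψ.B t t * ψ.B t z by ring]
    exact ⟨c, by rw [Algebra.smul_def, ← hc, div_mul_cancel₀ _ t0]⟩
  have key : ∀ s : K, s • v ∈ B → ∀ y ∈ B, ∃ c : F, s * ψ.B v y = c • ψ.B t t := fun s hs y hy => by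
    obtain ⟨x, hx, e, e'⟩ := h.sg' (w := (s / ψ.B t t) • t) hv (by simp [h3])
    have := hm.stab hx (fun z hz hz' => by
      obtain ⟨k, rfl⟩ := mem_pt.1 hz
      simpa [e, vv, tv] using hz') h1 h2 (by simpa [e, h3, h.hψ.σ_eq, t0] using add_mem h1 hs) y hy
    obtain ⟨a, i⟩ := e' y
    obtain ⟨c, j⟩ := cd _ (sub_mem hy this) (by simp [i, h3, vv])
    exact ⟨c, by simpa [i, tv, t0, h.hψ.ε_eq, mul_assoc, mul_comm s] using j⟩
  obtain ⟨_, ⟨s1, s2⟩, s0⟩ := (Submodule.ne_bot_iff _).1 hm.nb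
  obtain ⟨s, rfl⟩ := mem_pt.1 s1
  have s0' : s ≠ 0 := left_ne_zero_of_smul s0
  obtain ⟨c, e⟩ := key s s2 y hy
  have c0 : c ≠ 0 := by rintro rfl; simp [s0', h4] at e
  have : B ≤ Submodule.span F ↑({y, t, s • v} : Finset V) := fun z hz => by
    obtain ⟨c1, e1⟩ := key s s2 z hz
    have a := sub_mem hz (B.smul_mem (c1 / c) hy)
    have b : ψ.B v (z - (c1 / c) • y) = 0 := mul_left_cancel₀ s0' (by
      rw [map_sub, LinearMap.map_smul_of_tower, mul_sub, mul_smul_comm, e, e1, smul_smul]; simp [c0])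
    obtain ⟨c2, e2⟩ := cd _ a b
    obtain ⟨k, i⟩ := mem_pt.1 (d (z - (c1 / c) • y - c2 • t) (by simp only [map_sub _ _ (c2 • t), b]; simp [h3])
      (by simp only [map_sub _ _ (c2 • t), e2]; simp))
    obtain ⟨c3, e3⟩ := key k (i ▸ sub_mem a (B.smul_mem c2 h1)) y hy
    obtain rfl : k = (c3 / c) • s := mul_right_cancel₀ h4 (by rw [smul_mul_assoc, e, e3, smul_smul]; simp [c0])
    rw [show z = (c1 / c) • y + c2 • t + (c3 / c) • s • v by rw [← smul_assoc, i]; abel]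
    refine add_mem (add_mem ?_ ?_) ?_ <;> exact Submodule.smul_mem _ _ (Submodule.subset_span (by simp))
  have := (Submodule.finrank_mono this).trans ((finrank_span_finset_le_card _).trans Finset.card_le_three)
  rw [FK.rk hm.r] at this; omega

theorem root3 (hv : ψ.Q v = 0) (v0 : v ≠ 0) (hm : MP M (StQ F ψ) (pt F K v) B) (hp : ∀ a ∈ B, ∀ b ∈ pt F K v, φ.B a b = 0)
    (hY : Zs M (pt F K v) Y) (Y0 : Y ≠ 0) :
    ∃ y, ∃ hy : ψ.Q y = 0, y ≠ 0 ∧ ∀ k : K, k • y ∈ Ws h.hq M (h.Q y hy) := by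
  obtain ⟨a, a1, a2⟩ := FK.exists_not hm.symm
  obtain ⟨t, t1, t2⟩ := FK.exists_not hm
  obtain ⟨f, -, f2, f3⟩ := h.exists_f a2 fun _ => h.codim hm.symm hp a1 a2
  have hA := h.ts hm.l
  have f0 : ψ.B v f ≠ 0 := fun e => one_ne_zero (f2.symm.trans (φ.B_symm_zero (h.perp_iff.2 e a a1)))
  obtain ⟨y, y0, y3⟩ := exists_ker (K := F) (V := pt F K v) (by rw [finrank_pt v0]; have := h.r3; omega) ((φ.B f).domRestrict _)
  obtain ⟨y, y1⟩ := y
  replace y0 : y ≠ 0 := by simpa using y0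
  obtain ⟨Y, hY', rfl⟩ := h.full hv v0 hY Y0 f0 y1 (φ.B_symm_zero y3)
  replace hY' := one_smul F Y ▸ hY' 1
  have y2 : ψ.Q (Y f) = 0 := by obtain ⟨k, e⟩ := mem_pt.1 y1; exact e ▸ ψ.Q_smul_of_sing hv k
  have m : t ∈ Ws h.hq M (h.Q _ y2) := Ws.of (φ.B_symm_zero (hp t t1 _ y1)) ((h.ts hm.r).Q t t1) fun c => by
    obtain ⟨x, hx, i, j⟩ := h.rad hm.r (fun y hy => hp y hy a a1) a2 (B.smul_mem c t1)
    obtain ⟨D, m, n⟩ := h.dl (hA.sup (h.ts hm.r) fun b hb a ha => φ.B_symm_zero (hp b hb a ha)) le_sup_left hY' hx (f3 x i _ j)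
      (Submodule.mem_sup_right (B.smul_mem c t1))
    exact ⟨D, m.2, fun z => by simp [n, show φ.B f (Y f) = 0 from y3, h.hq.B_comm z]⟩
  refine ⟨_, y2, y0, fun k => ?_⟩
  obtain ⟨χ, c, d⟩ := exists_dual_val (fun e => t2 ((pt_eq y1 y0).le e)) k
  obtain ⟨w, rfl⟩ := ψ.exists_B_eq χ
  obtain ⟨x, hx, i, -⟩ := h.sg' y2 (ψ.B_symm_zero c)
  have := Ws.map m hx (h.le hx) (by simp [i, c, ψ.B_self_eq_zero y2]) (h.Q _ y2)
  rwa [i t (h.perp_iff.1 fun b hb => φ.B_symm_zero (hp t t1 b ((pt_eq y1 y0).le hb))), d, add_mem_cancel_left m] at this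

omit h [ψ.Nondeg] [FiniteDimensional K V] [FiniteDimensional F K] [Finite F] in
theorem _root_.H10.Mx.Ws.map' {hq : φ.IsQuad} {hv : φ.Q v = 0} (hw : w ∈ Ws hq M hv) (hg : g ∈ M) (hg' : g ∈ φ.Isom) {c : F}
    (c0 : c ≠ 0) (e : g v = c • u) (hu : φ.Q u = 0) : g w ∈ Ws hq M hu := by
  obtain ⟨a, b⟩ := Ws.map hw hg hg' e (φ.Q_smul_of_sing hu c)
  replace a : φ.B u (g w) = 0 := by simpa [c0] using a
  refine ⟨a, fun d => ?_⟩
  obtain ⟨s, i, j⟩ := b (d / c)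
  rw [φ.siegel_smul hu (by simp [a]) i, hq.σ_eq, smul_smul, mul_div_cancel₀ _ c0] at j
  exact ⟨_, by rw [hq.T_eq] at i ⊢; rw [i, hq.Q_smul, hq.Q_smul]; field_simp, j⟩

theorem fin3 (hv : ψ.Q v = 0) (v0 : v ≠ 0) (h1 : ∀ k : K, k • v ∈ Ws h.hq M (h.Q v hv)) : φ.E ≤ M.subgroupOf φ.Isom := by
  have hq := h.hq
  have hl : finrank F (LinearMap.ker l) + 1 = finrank F K := Dual.finrank_ker_add_one_of_ne_zero h.l0
  have h3 := h.r3
  have hk := h.k3
  have mv : ∀ {p u d y} (hp : ψ.Q p = 0) (hu : ψ.Q u = 0), d ∈ Ws hq M (h.Q u hu) → y ∈ Ws hq M (h.Q p hp) → φ.B u p = 0 →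
      φ.B d p = 0 → y + φ.B d y • u - φ.B u y • d - (φ.Q d * φ.B u y) • u ∈ Ws hq M (h.Q p hp) := fun hp hu a b c d => by
    obtain ⟨x, hx, i⟩ := Ws.sg a
    exact i _ ▸ Ws.map b hx (h.le hx) (by simp [i, c, d]) _
  have s1 : ∀ p (hp : ψ.Q p = 0), p ≠ 0 → ∀ k : K, k • p ∈ Ws hq M (h.Q p hp) := fun u hu u0 k => by
    obtain ⟨g, hg, a, -, c, c0, e⟩ := h.tr3 hv v0 hu u0
    simpa [a, e, smul_comm k, c0] using Ws.map' (h1 (c⁻¹ • k)) hg (h.le hg) c0 e (h.Q _ hu)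
  obtain ⟨u, hyp⟩ := ψ.exists_hyp hv v0
  have hD := hyp.nondegOn.perp
  have hD' := hyp.finrank_perp
  set D := ψ.perp (Submodule.span K {v, u}) with eD
  have hu : ∀ k : K, ψ.Q (k • u) = 0 := ψ.Q_smul_of_sing hyp.Qf
  have hu' : ∀ k : K, φ.B (k • u) v = l k := fun k => by rw [hq.B_comm, h.B, map_smul, hyp.Bef, smul_eq_mul, mul_one]
  have cv : ∀ {k : K} {d y}, l k = 0 → d ∈ D → y ∈ D → ψ.B d y ≠ 0 → d ∈ Ws hq M (h.Q _ (hu k)) →
      (∀ c : K, c • y ∈ Ws hq M (h.Q v hv)) → k • u ∈ Ws hq M (h.Q v hv) := fun {k d y} a b c d' e i => by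
    obtain ⟨m, hm⟩ := exists_one h.l0
    have := mv hv (hu k) e (i (m / ψ.B d y)) ((hu' k).trans a) (by simp [h.B, ψ.B_symm_zero (ψ.mem_perp_pair.1 b).1])
    simpa [h.B, d', hm, ψ.B_smul_left, (ψ.mem_perp_pair.1 c).2, add_mem_cancel_left (i _)] using this
  obtain ⟨t', a, b⟩ : ∃ t ∈ Ws hq M (h.Q v hv), ψ.B v t ≠ 0 := by
    by_contra! H
    obtain ⟨a, a0, -⟩ := exists_ker (K := F) (V := LinearMap.ker l) (by omega) 0
    obtain ⟨b, hb⟩ := exists_not_mem_pt (K := F) (V := LinearMap.ker l) (by omega) a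
    obtain ⟨m, c, d⟩ := exists_dual_val (K := F) (v := a.1) (t := b.1) (fun e => hb (by
      obtain ⟨k, e⟩ := Submodule.mem_span_singleton.1 e; exact Submodule.mem_span_singleton.2 ⟨k, Subtype.ext e⟩)) 1
    obtain ⟨k, hk⟩ := exists_mul_eq h.l0 m
    have b0 : b.1 ≠ 0 := fun e => by simp [e] at d
    have e : ∀ x : K, φ.B (x • u) (ψ.σ k • v) = m x := fun x => by
      rw [hq.B_comm, h.B, hk, ψ.B_smul_left, map_smul, hyp.Bef]; simp
    have := mv hv (hu b) (d := a.1 • u) (by simpa [smul_smul, b0] using s1 _ (hu b) (smul_ne_zero b0 hyp.f_ne_zero) (a / b))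
      (h1 (ψ.σ k)) ((hu' _).trans b.2) ((hu' _).trans a.2)
    rw [e, e, c, d, h.Q _ (hu _), zero_smul, zero_mul, zero_smul, add_zero, sub_zero, one_smul] at this
    exact a0 (Subtype.ext (by simpa [hyp.Bef, hyp.Bee] using H _ this))
  have s3 : ∀ u (hu : ψ.Q u = 0), u ≠ 0 → ∀ w, ψ.B u w = 0 → w ∈ Ws hq M (h.Q u hu) := fun u hu u0 w c => by
    obtain ⟨g, hg, -, d, e, e0, i⟩ := h.tr3 hv v0 hu u0
    simpa using Ws.map' (delta (U := ⊤) (fun x _ e => ψ.eq_zero_of_B_left fun y => e y trivial) (by simp [hk])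
      (fun w _ j s hs => by
        obtain ⟨x, hx, i⟩ := h.sg hv j hs
        exact i t' ▸ Ws.map a hx (h.le hx) (by simp [i, ψ.B_symm_zero j, hyp.Bee]) _) a b (g.symm w) trivial
      (by rw [← d, g.apply_symm_apply, i, h.βs, c, smul_zero])) hg (h.le hg) e0 i (h.Q _ hu)
  have s4 : φ.Full (M.subgroupOf φ.Isom) v := full_of_le_sgSub (hp := h.Q v hv) fun x hx => by
    by_cases c : ψ.B v x = 0
    · exact s3 v hv v0 x c
    obtain ⟨d, d1, d0⟩ := (Submodule.ne_bot_iff D).1 fun e => by rw [e, finrank_bot] at hD'; omega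
    obtain ⟨y, y1, y2⟩ : ∃ y ∈ D, ψ.B d y ≠ 0 := by by_contra! H; exact d0 (hD d d1 H)
    have := add_mem (s3 v hv v0 (x - ψ.B v x • u) (by simp [hyp.Bef])) (cv (h.B v x ▸ φ.mem_perp_singleton.1 hx) d1 y1 y2
      (s3 _ (hu _) (smul_ne_zero c hyp.f_ne_zero) d (by simp [ψ.B_smul_left, (ψ.mem_perp_pair.1 d1).2]))
      fun c => s3 v hv v0 _ (by simp [(ψ.mem_perp_pair.1 y1).1]))
    rwa [sub_add_cancel] at this
  obtain ⟨m, hm⟩ := exists_one h.l0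
  obtain ⟨g, hg, -, -, c, c0, e⟩ := h.tr3 hv v0 (hu m) (smul_ne_zero (by rintro rfl; simp at hm) hyp.f_ne_zero)
  exact E_le_of_full s4 (h.Q v hv) (s4.map (h.Q v hv) (g := ⟨g, h.le hg⟩) hg) ((h.le hg).Q v ▸ h.Q v hv)
    (by simp [e, hq.B_comm v, hu', hm, c0])

theorem ztr (hv : ψ.Q v = 0) (v0 : v ≠ 0) (hY : Zs M (pt F K v) Y) (Y0 : Y ≠ 0) (hu : ψ.Q u = 0) (u0 : u ≠ 0) :
    ∃ Y, Zs M (pt F K u) Y ∧ Y ≠ 0 := by
  obtain ⟨g, hg, a, -, c, c0, e⟩ := h.tr3 hv v0 hu u0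
  have := hY.cn hg
  rw [map_pt a, e, pt_eq (Submodule.smul_mem _ c (self_mem_pt u)) (smul_ne_zero c0 u0)] at this
  exact ⟨_, this, fun i => Y0 (LinearMap.ext fun z => by simpa using LinearMap.congr_fun i (g z))⟩

theorem nz (r4 : 3 < finrank F K) (hv : ψ.Q v = 0) (v0 : v ≠ 0) (hY : Zs M (pt F K v) Y) (Y0 : Y ≠ 0) :
    φ.E ≤ M.subgroupOf φ.Isom := by
  obtain ⟨A, B, hm⟩ := h.exmp hv v0 hY Y0
  obtain ⟨_, -, _, ⟨u, u0, hu, rfl⟩, -, hm'⟩ := hm.std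
  obtain ⟨Z, a, b⟩ := h.ztr hv v0 hY Y0 hu u0
  obtain ⟨A, B, hm₀, t, h1, h2, h3⟩ := h.caseb hu u0 a b hm'
  obtain ⟨g, hg, _, ⟨u, u0, hu, rfl⟩, rfl, hm⟩ := hm₀.std
  obtain ⟨Z, a, b⟩ := h.ztr hv v0 hY Y0 hu u0
  obtain ⟨y, c, d, e⟩ := h.root3 hu u0 hm (fun a ha b hb => φ.B_symm_zero (h.perp_iff.2 (h.perp3 r4 hu u0 hm
    (Submodule.mem_map_of_mem h1) (fun e => h2 (mem_map_iff.2 e)) (h.perp_iff.1 fun a ha => by
      rw [LinearEquiv.coe_coe, ← h.Bm hg, g.apply_symm_apply]; exact h3 _ (Submodule.mem_map_of_mem ha)) ha) b hb)) a b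
  exact h.fin3 c d e

end F3
end H10.Mx
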