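import Mathlib
import Cfsg.Agent.H10.MxQ

/-! # Overgroups of `Ω₃(q^r)` in `Ω_{3r}(q)`, II : the orbit-sum argument -/

set_option autoImplicit false
set_option linter.unusedSectionVars false

namespace H10.Mx

open Module Form

section
variable {X : Type*} [AddCommGroup X] {Φ Φ' : ℕ → AddSubgroup X} {d : ℕ}
/-- opposite filtrations meet trivially -/
def O1 (Φ Φ' : ℕ → AddSubgroup X) (d : ℕ) : Prop := ∀ i j x, d < i + j → x ∈ Φ i → x ∈ Φ' j → x = 0
/-- opposite filtrations span -/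
def O2 (Φ Φ' : ℕ → AddSubgroup X) (d : ℕ) : Prop :=
  ∀ T : AddSubgroup X, (∀ i ≤ d, ∀ x, x ∈ Φ i → x ∈ Φ' (d - i) → x ∈ T) → ∀ x, x ∈ T
theorem O1.hom (h1 : O1 Φ Φ' d) (h2 : O2 Φ Φ' d) : O1 (Ff.hm Φ d) (Ff.hm Φ' d) (2 * d) := fun i j Y e a b =>
  AddMonoidHom.ext (h2 Y.ker fun k hk x p q => h1 _ _ _ (by omega) (a k x p) (b _ x q))
end

variable {F K V : Type*} [Field F] [Field K] [Algebra F K] [AddCommGroup V] [Module F V] [Module K V]
  [IsScalarTower F K V]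

/-- the flag of a family of functionals -/
def fl (w : Fin 3 → Dual K V) (i : ℕ) : AddSubgroup V :=
  ⟨⟨⟨{x | ∀ b : Fin 3, b < i → w b x = 0}, fun a b c e => by simp [a c e, b c e]⟩, by simp⟩, fun a c e => by simp [a c e]⟩

/-- conjugation -/
def cnH : (V ≃ₗ[F] V) →* AddMonoid.End (V →ₗ[F] V) where
  toFun g := AddMonoidHom.mk' (cn g) fun _ _ => LinearMap.ext fun _ => by simp
  map_one' := rfl
  map_mul' _ _ := rfl

theorem opp {w : Fin 3 → Dual K V} {e : Fin 3 → V} (h1 : ∀ a b, a ≠ b → w a (e b) = 0) (h2 : ∀ z, ∑ a, w a z • e a = z) :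
    O1 (Ff.hm (fun i => (Ff.hm (fl w) 2 i).comap (LinearMap.toAddMonoidHom' (R₁ := F) (σ₁₂ := .id F))) 4)
      (Ff.hm (fun i => (Ff.hm (fl (w ∘ Fin.rev)) 2 i).comap (LinearMap.toAddMonoidHom' (R₁ := F) (σ₁₂ := .id F))) 4) 8 := by
  have a : O1 (fl w) (fl (w ∘ Fin.rev)) 2 := fun i j x e p q => by
    rw [← h2 x]
    refine Finset.sum_eq_zero fun b _ => smul_eq_zero_of_left ?_ _
    by_cases c : b.1 < i
    · exact p b c
    · simpa using q b.rev (by simp; omega)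
  have b : O2 (fl w) (fl (w ∘ Fin.rev)) 2 := fun T H x => h2 x ▸ sum_mem fun b _ => H b (by omega) _
    (fun c e => by simp [h1 c b (by omega)]) fun c e => by simp [h1 c.rev b (by rintro rfl; simp at e; omega)]
  refine O1.hom (d := 4) (fun i j x e p q => LinearMap.toAddMonoidHom_injective (a.hom b i j _ e p q)) fun T H Z => ?_
  rw [show Z = ∑ a, ∑ b, rk F (e a) (w a) ∘ₗ Z ∘ₗ rk F (e b) (w b) from LinearMap.ext fun z => by
    rw [Finset.sum_comm]; simp [h2, ← map_sum]]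
  refine sum_mem fun a _ => sum_mem fun b _ => H (a + 2 - b) (by omega) _ (fun i x p c e => ?_) fun i x p c e => ?_
  · by_cases o : c = a
    · simp [p b (by omega)]
    · simp [h1 c a o]
  · by_cases o : c.rev = a
    · simp [show w b x = 0 by simpa using p b.rev (by subst o; simp at e ⊢; omega)]
    · simp [h1 _ a o]

variable (K) in
/-- the normaliser of `K` -/
def Nm [Finite K] [Nontrivial V] : Subgroup (V ≃ₗ[F] V) where
  carrier := {g | ∀ k : K, ∃ k' : K, ∀ y, g (k • y) = k' • g y}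
  one_mem' k := ⟨k, fun _ => rfl⟩
  mul_mem' a b k := by
    obtain ⟨i, e⟩ := b k
    exact (a i).imp fun j e' y => by simp [e, e']
  inv_mem' {g} a k := by
    choose σ e using a
    obtain ⟨v, v0⟩ := exists_ne (0 : V)
    obtain ⟨i, rfl⟩ := Finite.surjective_of_injective (f := σ) (fun i j o =>
      smul_left_injective K v0 (g.injective (by simp only [e, o]))) k
    exact ⟨i, fun y => g.injective (by simp [e])⟩

theorem Nm.hom [Finite K] [Nontrivial V] {g : V ≃ₗ[F] V} (h : g ∈ Nm K) : ∃ σ : K ≃ₐ[F] K, ∀ k y, g (k • y) = σ k • g y := by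
  choose σ e using h
  obtain ⟨v, v0⟩ := exists_ne (0 : V)
  have H : ∀ {k a : K}, g (k • v) = a • g v → σ k = a := fun i =>
    smul_left_injective K (g.map_ne_zero_iff.2 v0) ((e _ v).symm.trans i)
  let τ : K →ₐ[F] K := ⟨⟨⟨⟨σ, H (by simp)⟩, fun a b => H (by rw [mul_smul, e, e, mul_smul])⟩, H (by simp),
    fun a b => H (by rw [add_smul, map_add, e, e, add_smul])⟩, fun c => H (by simp)⟩
  exact ⟨.ofBijective τ (Finite.injective_iff_bijective.1 τ.injective), e⟩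

namespace F3
variable {φ : Form F V} {ψ : Form K V} {l : Dual F K} {M : Subgroup (V ≃ₗ[F] V)} (h : F3 φ ψ l M)
  {A B : Submodule F V} {u v w y t s f n a : V} {Y : V →ₗ[F] V} {g X : V ≃ₗ[F] V}
  [φ.Nondeg] [ψ.Nondeg] [FiniteDimensional F V] [FiniteDimensional K V] [FiniteDimensional F K] [Finite F]
  (hv : ψ.Q v = 0) (v0 : v ≠ 0) (H : ∀ Y, Zs M (pt F K v) Y → Y = 0)
include h hv v0 H

theorem radlin (hX : X ∈ M) (j1 : ∀ b ∈ pt F K v, X b = b) (j : ∀ z, ψ.B v z = 0 → X z - z ∈ pt F K v) :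
    (∃ d, ψ.B v d = 0 ∧ ∀ z, ψ.B v z = 0 → X z = z + ψ.B d z • v) ∧ ∀ (k : K) z, X (k • z) = k • X z := by
  have vv := ψ.B_self_eq_zero hv
  obtain ⟨u, hyp⟩ := ψ.exists_hyp hv v0
  have j2 : ∀ z, ψ.B v (X z) = ψ.B v z := fun z => sub_eq_zero.1 (by
    rw [← map_sub]; exact h.perp_iff.1 fun b hb => by rw [map_sub, ← h.Bm hX b z, j1 b hb, sub_self])
  have e1 : ∀ z, ψ.B v z = 0 → X z = z + ψ.B (u - X u) z • v := fun z hz => by
    obtain ⟨r, hr, i⟩ := h.sg hv hz (h.hψ.T_eq _)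
    have m : ∀ y, X (r y) - r (X y) = -(X (ψ.B v y • z) - ψ.B v y • z) - ψ.B z (X y - y) • v := fun y => by
      simp only [i, map_sub, map_add, j1 _ (smul_mem_pt _ v), h.hψ.ε_eq, one_mul, j2]; module
    have m' : ∀ y, X (r y) - r (X y) ∈ pt F K v := fun y => m y ▸ sub_mem (neg_mem (j _ (by simp [hz]))) (smul_mem_pt _ v)
    have := LinearMap.congr_fun (H ((X : V →ₗ[F] V) ∘ₗ r - (r : V →ₗ[F] V) ∘ₗ X) ⟨m', _,
      M.mul_mem (M.inv_mem (M.mul_mem hr hX)) (M.mul_mem hX hr), fun y => ?_⟩) u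
    · replace this := (m u).symm.trans this
      rw [hyp.Bef, one_smul, LinearMap.zero_apply, map_sub] at this
      rw [h.hψ.B_comm, map_sub]
      linear_combination (norm := module) -this
    obtain ⟨k, hk⟩ := mem_pt.1 (m' y)
    change (r * X).symm (X (r y)) = y + (X (r y) - r (X y))
    rw [LinearEquiv.symm_apply_eq, map_add, ← hk, LinearEquiv.mul_apply, LinearEquiv.mul_apply, j1 _ (smul_mem_pt _ v), i (k • v)]
    rw [map_smul, map_smul, vv, ψ.B_symm_zero hz]; simp [hk]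
  have d0 : ψ.B v (u - X u) = 0 := by simp [j2]
  obtain ⟨x, hx, i⟩ := h.sg hv d0 (h.hψ.T_eq _)
  have e2 : ∀ z, ψ.B v z = 0 → x.symm (X z) = z := fun z hz => by rw [x.symm_apply_eq, e1 z hz, i]; simp [hz]
  have := H ((x.symm : V →ₗ[F] V) ∘ₗ X - .id) ⟨fun z => ?_, x⁻¹ * X, mul_mem (inv_mem hx) hX, fun z => by simp⟩
  · refine ⟨⟨_, d0, e1⟩, fun k z => ?_⟩
    have e : ∀ z, X z = x z := fun z => x.symm_apply_eq.1 (sub_eq_zero.1 (LinearMap.congr_fun this z))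
    rw [e, e, i, i]; simp only [map_smul, smul_eq_mul]; module
  have o : ∀ y, ψ.B v y = 0 → ψ.B y (x.symm (X z) - z) = 0 := fun y hy => eq_zero_of_mul h.l0 fun k => by
    rw [← h.hψ.B_smul_left, ← h.B, map_sub, ← h.Bm (mul_mem (inv_mem hx) hX) _ z]
    exact sub_eq_zero.2 (congrArg (φ.B · _) (e2 _ (by simp [hy])).symm)
  obtain ⟨-, n, -, a, -, b, c⟩ := h.fr hv v0
  exact (h.dec hv v0 (fun e => by obtain ⟨k, rfl⟩ := mem_pt.1 e; simp [vv] at b) a).2 _ (o v vv) (o n a)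

omit H in
theorem stp (hg : g ∈ M) (e : ∀ a ∈ pt F K v, g a ∈ pt F K v) :
    (∀ a ∈ pt F K v, g.symm a ∈ pt F K v) ∧ (∀ z, ψ.B v z = 0 → ψ.B v (g z) = 0) ∧ ∀ z, ψ.B v z = 0 → ψ.B v (g.symm z) = 0 := by
  have : ∀ a ∈ pt F K v, g.symm a ∈ pt F K v := fun a ha => mem_map_iff.1 ((Submodule.eq_of_le_of_finrank_eq
    (Submodule.map_le_iff_le_comap.2 e) (LinearEquiv.finrank_map_eq ..)).ge ha)
  exact ⟨this, fun z hz => h.perp_iff.1 fun a ha => by rw [← h.Bm' hg]; exact h.perp_iff.2 hz _ (this a ha),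
    fun z hz => h.perp_iff.1 fun a ha => by rw [← h.Bm hg, g.apply_symm_apply]; exact h.perp_iff.2 hz _ (e a ha)⟩

theorem h0a (hg : g ∈ M) (e : ∀ a ∈ pt F K v, g a ∈ pt F K v) (k : K) : ∃ k' : K,
    (∀ a ∈ pt F K v, g (k • g.symm a) = k' • a) ∧ ∀ z, ψ.B v z = 0 → g (k • g.symm z) - k' • z ∈ pt F K v := by
  have vv := ψ.B_self_eq_zero hv
  obtain ⟨e1, e2, e3⟩ := h.stp hv v0 hg e
  obtain ⟨-, n, -, a, -, b, c⟩ := h.fr hv v0
  have key : ∀ k : K, ∃ i : K, ∀ z, ψ.B v z = 0 → g ((k * ψ.B n (g.symm z)) • v) = (i * ψ.B n z) • v := fun k => by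
    obtain ⟨x, hx, i, -⟩ := h.sg' (w := k • n) hv (by simp [a])
    have j : ∀ z, ψ.B v z = 0 → (g * x * g⁻¹) z = z + g ((k * ψ.B n (g.symm z)) • v) := fun z hz => by
      simp [LinearEquiv.mul_apply, i _ (e3 z hz), h.hψ.σ_eq]
    obtain ⟨⟨d, m, o⟩, -⟩ := h.radlin hv v0 H (mul_mem (mul_mem hg hx) (inv_mem hg)) (fun z hz => by
      obtain ⟨s, p⟩ := mem_pt.1 (e1 z hz)
      obtain ⟨s', rfl⟩ := mem_pt.1 hz
      rw [j _ (by simp [vv]), ← p]; simp [ψ.B_symm_zero a]) fun z hz => by simpa [j z hz] using e _ (smul_mem_pt _ v)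
    obtain ⟨s, s', rfl⟩ := c d m
    exact ⟨s', fun z hz => by simpa [j z hz, hz, h.hψ.σ_eq] using o z hz⟩
  obtain ⟨i, p⟩ := key 1
  obtain ⟨j, q⟩ := key k
  have i0 : i ≠ 0 := by rintro rfl; simpa [b, v0] using p _ (e2 n a)
  refine ⟨j / i, fun z hz => ?_, fun z hz => (h.dec hv v0 (fun e => by
    obtain ⟨k, rfl⟩ := mem_pt.1 e; simp [vv] at b) a).2 _ (by simp [hz, e2, e3]) ?_⟩
  · obtain ⟨s, rfl⟩ := mem_pt.1 hz
    have := p ((s / (i * ψ.B n n)) • n) (by simp [a])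
    rw [map_smul (ψ.B n), smul_eq_mul, show i * (s / (i * ψ.B n n) * ψ.B n n) = s by field_simp] at this
    rw [← this, g.symm_apply_apply, smul_smul, one_mul, q _ (by simp [a]), ← one_mul (ψ.B n (g.symm _)), this, smul_smul]
    congr 1; simp; field_simp
  have := p _ (e2 (k • g.symm z) (by simp [e3 z hz]))
  rw [g.symm_apply_apply, map_smul (ψ.B n), one_mul, smul_eq_mul, q z hz] at this
  have := smul_left_injective K v0 this
  simp only [map_sub, map_smul, smul_eq_mul]; field_simp; linear_combination -this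

theorem h0b (hg : g ∈ M) (e : ∀ a ∈ pt F K v, g a ∈ pt F K v) (hX : X ∈ M) {m : K} (m0 : m ≠ 0)
    (x1 : ∀ (k : K) y, X (k • y) = k • X y) (x2 : X v = (m * m) • v) (x3 : ∀ z, ψ.B v z = 0 → X z - z ∈ pt F K v) (k : K) (z : V) :
    g (X (g.symm (k • z))) = k • g (X (g.symm z)) := by
  obtain ⟨e1, e2, e3⟩ := h.stp hv v0 hg e
  obtain ⟨m', i, -⟩ := h.h0a hv v0 H hg e m
  have m0' : m' ≠ 0 := by rintro rfl; simpa [m0, v0] using i v (self_mem_pt v)
  obtain ⟨y, hy, y1, y2, y3, y4⟩ := h.tor hv v0 (inv_ne_zero m0')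
  have := (h.radlin hv v0 H (mul_mem hy (mul_mem (mul_mem hg hX) (inv_mem hg))) (fun b hb => by
    obtain ⟨s, p⟩ := mem_pt.1 (e1 b hb)
    have : X (g.symm b) = m • g.symm (g (m • g.symm b)) := by rw [g.symm_apply_apply, ← p, x1, x2]; module
    change y (g (X (g.symm b))) = b
    rw [this, i _ (e _ (by rw [← p, smul_smul]; exact smul_mem_pt _ _)), i b hb]
    obtain ⟨s, rfl⟩ := mem_pt.1 hb
    simp only [y1, y3, smul_smul]; congr 1; field_simp) fun z hz => by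
    have a := e _ (x3 _ (e3 z hz))
    rw [map_sub, g.apply_symm_apply] at a
    obtain ⟨s, p⟩ := mem_pt.1 a
    convert add_mem (y4 (g (X (g.symm z))) (by rw [eq_sub_iff_add_eq.1 p |>.symm]; simp [hz, ψ.B_self_eq_zero hv])) a using 1
    exact (sub_add_sub_cancel _ _ _).symm).2 k z
  exact y.injective (this.trans (y1 _ _).symm)

theorem h0 (hg : g ∈ M) (e : ∀ a ∈ pt F K v, g a ∈ pt F K v) (k : K) : ∃ k' : K, ∀ y, g (k • y) = k' • g y := by
  have vv := ψ.B_self_eq_zero hv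
  obtain ⟨e1, e2, e3⟩ := h.stp hv v0 hg e
  obtain ⟨k', i, j⟩ := h.h0a hv v0 H hg e k
  let D : V →ₗ[F] V := cn g (Algebra.lsmul F F V k) - Algebra.lsmul F F V k'
  have eD : ∀ z, D z = g (k • g.symm z) - k' • z := fun _ => rfl
  suffices ∀ z, D z = 0 from ⟨k', fun y => by simpa [eD, sub_eq_zero] using this (g y)⟩
  have sa : ∀ x y, φ.B (D x) y = φ.B x (D y) := fun x y => by
    rw [eD, eD, map_sub, map_sub, LinearMap.sub_apply, h.sa k', ← h.Bm' hg, ← h.sa k, ← h.Bm hg (k • _), g.apply_symm_apply]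
  have D1 : ∀ a ∈ pt F K v, D a = 0 := fun a ha => by rw [eD, i a ha, sub_self]
  have cm : ∀ m : K, m ≠ 0 → ∃ y : V ≃ₗ[F] V, (∀ z, D (y z) = y (D z)) ∧ (∀ a ∈ pt F K v, y a = (m * m) • a) ∧
      (∀ z, ψ.B v z = 0 → y z - z ∈ pt F K v) ∧ ∀ z, ψ.B v (y ((m * m) • z) - z) = 0 := fun m m0 => by
    obtain ⟨y, hy, y1, y2, y3, y4⟩ := h.tor hv v0 m0
    refine ⟨y, fun z => ?_, fun a ha => ?_, y4, fun z => ?_⟩
    · have := h.h0b hv v0 H (symm_mem hg) e1 hy m0 y1 y3 y4 k (g.symm z)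
      rw [LinearEquiv.symm_symm, g.apply_symm_apply, g.symm_apply_eq] at this
      rw [eD, eD, map_sub, this, y1]
    · obtain ⟨s, rfl⟩ := mem_pt.1 ha; rw [y1, y3, smul_comm]
    · have := y2 v z
      rw [y3, h.hψ.B_smul_left] at this
      simp [y1, this, -mul_eq_zero]
  obtain ⟨a, a0, a1⟩ := h.ex24
  have a4 : a * a * (a * a) - 1 ≠ 0 := fun e => a1 (by
    rw [show a ^ 24 = (a * a * (a * a)) ^ 6 by ring, sub_eq_zero.1 e, one_pow])
  have D2 : ∀ z, ψ.B v z = 0 → D z = 0 := fun z hz => by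
    obtain ⟨y, p, q, r, -⟩ := cm _ (mul_ne_zero a0 a0)
    have := D1 _ (r z hz)
    rw [map_sub, p, q (D z) (j z hz)] at this
    exact (smul_eq_zero_iff_right a4).1 (by rw [sub_smul, one_smul, this])
  have D3 : ∀ z, D z ∈ pt F K v := fun z => by
    have o : ∀ y, ψ.B v y = 0 → ψ.B y (D z) = 0 := fun y hy => eq_zero_of_mul h.l0 fun k => by
      rw [← h.hψ.B_smul_left, ← h.B, ← sa, D2 _ (by simp [hy])]; simp
    obtain ⟨-, n, -, a, -, b, c⟩ := h.fr hv v0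
    exact (h.dec hv v0 (fun e => by obtain ⟨k, rfl⟩ := mem_pt.1 e; simp [vv] at b) a).2 _ (o v vv) (o n a)
  have D4 : ∀ m : K, m ≠ 0 → ∀ z, D ((m * m) • z) = (m * m)⁻¹ • D z := fun m m0 z => by
    obtain ⟨y, p, q, -, r⟩ := cm m m0
    have := D2 _ (r z)
    rw [map_sub, p, q _ (D3 _), sub_eq_zero] at this
    rw [← this, inv_smul_smul₀ (mul_ne_zero m0 m0)]
  intro z
  have p1 : a * a + 1 ≠ 0 := fun e => a4 (by linear_combination (a * a - 1) * e)
  have p2 : a * a - 1 ≠ 0 := fun e => a4 (by linear_combination (a * a + 1) * e)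
  have := congrArg D (show ((a * a + 1) * (a * a + 1)) • z - ((a * a - 1) * (a * a - 1)) • z =
    (a * a) • z + (a * a) • z + (a * a) • z + (a * a) • z by module)
  rw [map_sub, map_add, map_add, map_add, D4 _ p1, D4 _ p2, D4 _ a0] at this
  simp only [← sub_smul, ← add_smul] at this
  rw [← sub_eq_zero, ← sub_smul, smul_eq_zero] at this
  refine this.resolve_left fun e => a1 ?_
  have t := h.t2'
  have : a ^ 8 - a ^ 4 + 1 = 0 := mul_left_cancel₀ (mul_ne_zero t t) (by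
    generalize hx : a * a + 1 = x at *
    generalize hy : a * a - 1 = y at *
    field_simp at e
    subst hx hy
    linear_combination -e)
  linear_combination (a ^ 12 - 1) * (a ^ 4 + 1) * this

variable [Finite K] [Nontrivial V]

theorem se (nf : ∀ g ∈ M, ∀ s ∈ M, ∀ σ : K ≃ₐ[F] K, (∀ k y, s (k • y) = σ k • s y) → (∀ y, s y = y ↔ g y ∈ pt F K v) →
      (∀ k, σ (σ (σ k - k) - (σ k - k)) = σ (σ k - k) - (σ k - k)) → ∀ k, σ k = k)
    (h2 : w ∉ pt F K v) (h3 : ψ.B v w = 0) (hX : X ∈ M)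
    (e : ∀ z, X z = z + ψ.B w z • v - ψ.B v z • w - (ψ.Q w * ψ.B v z) • v) (hg : g ∈ M) (hs : g⁻¹ * X * g ∈ Nm K) :
    g ∈ Nm K := by
  have vv := ψ.B_self_eq_zero hv
  have wv := ψ.B_symm_zero h3
  obtain ⟨w0, d⟩ := h.dec hv v0 h2 h3
  obtain ⟨σ, i⟩ := Nm.hom hs
  set s := g⁻¹ * X * g with es
  have e1 : ∀ z, g (s z) = X (g z) := fun z => by simp [es, LinearEquiv.mul_apply]
  have e2 : ∀ z, X (X z - z) - (X z - z) = (-ψ.B v z * ψ.B w w) • v := fun z => by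
    rw [e (X z - z), e z]; simp [vv, wv, h3]
  have e3 : ∀ y, s y = y ↔ g y ∈ pt F K v := fun y => by
    rw [← g.injective.eq_iff, e1, e]
    refine ⟨fun a => ?_, fun a => by obtain ⟨k, a⟩ := mem_pt.1 a; simp [← a, vv, wv]⟩
    have b : ψ.B v (g y) = 0 := by simpa [wv, w0] using congrArg (ψ.B w) a
    exact d _ b (by simpa [b, v0] using a)
  have e4 : s (g.symm v) = g.symm v := (e3 _).2 (by simpa using self_mem_pt v)
  have g0 : g.symm v ≠ 0 := by simpa
  have := nf g hg s (mul_mem (mul_mem (inv_mem hg) hX) hg) σ i e3 fun k => smul_left_injective K g0 (by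
    have a : ∀ k, (σ k - k) • g.symm v = s (k • g.symm v) - k • g.symm v := fun k => by rw [i, e4, sub_smul]
    change σ _ • _ = _ • _
    rw [← e4, ← i, e4, e3, a, a, map_sub, e1, map_sub g, e1, e2]; exact smul_mem_pt _ _)
  simp only [this] at i
  obtain ⟨u, hy⟩ := ψ.exists_hyp hv v0
  have a : ∀ k : K, g (k • g.symm v) ∈ pt F K v := fun k => by
    have b : ∀ z, s (s z - z) - (s z - z) = g.symm ((-ψ.B v (g z) * ψ.B w w) • v) := fun z => by
      rw [g.eq_symm_apply, map_sub, e1, map_sub g, e1, e2]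
    have c := b (g.symm (-(ψ.B w w)⁻¹ • u))
    rw [g.apply_symm_apply, map_smul (ψ.B v), hy.Bef, show -(-(ψ.B w w)⁻¹ • (1 : K)) * ψ.B w w = 1 by simp [w0], one_smul] at c
    rw [← c, smul_sub, ← i, smul_sub, ← i, b, g.apply_symm_apply]; exact smul_mem_pt _ _
  obtain ⟨y, hy', y1, -, c, c0, y2⟩ := h.tr3 hv v0 (v := g.symm v) (mul_left_cancel₀ h.t2' (by
    rw [← h.hψ.B_self, mul_zero]
    exact eq_zero_of_mul h.l0 fun k => by
      rw [← h.hψ.B_smul_left, ← h.B, ← h.Bm hg, g.apply_symm_apply]; exact h.perp_iff.2 vv _ (a k))) g0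
  simpa using mul_mem (show g * y ∈ Nm K from h.h0 hv v0 H (mul_mem hg hy') fun b hb => by
    obtain ⟨k, rfl⟩ := mem_pt.1 hb
    rw [LinearEquiv.mul_apply, y1, y2, smul_comm, map_smul]; exact Submodule.smul_mem _ _ (a k))
    (inv_mem (show y ∈ Nm K from fun k => ⟨k, y1 k⟩))

omit hv v0 H in
theorem sumN [Fintype K] (hy : ψ.IsHyp v u) (a : ψ.B v n = 0) (a' : ψ.B u n = 0) (b : ψ.B n n ≠ 0) :
    ∃ θ : Multiplicative K →* M, (∀ c z, (θ c).1 z = z + ψ.B (c.toAdd • n) z • v - ψ.B v z • c.toAdd • n -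
      (ψ.Q (c.toAdd • n) * ψ.B v z) • v) ∧ ∀ Y, ∑ c, Ff.cj (cnH.comp M.subtype) (θ c) Y ∈ Ff.hm
        (fun i => (Ff.hm (fl ![ψ.B v, (ψ.B n n)⁻¹ • ψ.B n, ψ.B u]) 2 i).comap
          (LinearMap.toAddMonoidHom' (R₁ := F) (σ₁₂ := .id F))) 4 5 := by
  choose x hx e using fun c : K => h.sg hy.Qe (w := c • n) (by simp [a]) (h.hψ.T_eq _)
  simp only [h.hψ.ε_eq, one_mul] at e
  have nv := ψ.B_symm_zero a
  let θ : Multiplicative K →* M := .mk' (fun c => ⟨x c.toAdd, hx _⟩) fun c d => Subtype.ext (LinearEquiv.ext fun z => by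
    simp only [toAdd_mul, Subgroup.coe_mul, LinearEquiv.mul_apply, e, map_add, map_sub, map_smul, h.hψ.Q_smul, h.hψ.B_smul_left,
      a, nv, hy.Bee, h.hψ.B_self n, smul_eq_mul]; module)
  refine ⟨θ, fun c => e _, fun Y => ?_⟩
  have H0 : Ff.Fl ((DistribMulAction.toAddMonoidEnd (V ≃ₗ[F] V) V).comp M.subtype) θ.range
      (fl ![ψ.B v, (ψ.B n n)⁻¹ • ψ.B n, ψ.B u]) := ⟨fun x b e => by omega, fun i j e x p b o => p b (by omega), by
    rintro _ ⟨c, rfl⟩ i z p d o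
    change (![ψ.B v, (ψ.B n n)⁻¹ • ψ.B n, ψ.B u] d) (x c.toAdd z - z) = _
    have p0 : 0 < i → ψ.B v z = 0 := p 0
    have p1 : 1 < i → ψ.B n z = 0 := by simpa [b] using p 1
    fin_cases d <;> simp at o
    · simp [e, a, hy.Bee]
    · simp [e, nv, p0 o]
    · simp [e, p0 (by omega), p1 (by omega)]⟩
  have hd : ∀ x ∈ fl ![ψ.B v, (ψ.B n n)⁻¹ • ψ.B n, ψ.B u] (2 + 1), x = 0 := fun x p => by
    obtain ⟨c, i⟩ := Tn.dec3 h.hψ h.k3 hy a a' (by rintro rfl; simp at b) x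
    have p0 := p 0
    have p1 := p 1
    have p2 := p 2
    simp [b] at p0 p1 p2
    rw [p0, p2] at i
    rw [i] at p1 ⊢; simp_all
  have H1 := (H0.hom hd).comap (ρ' := cnH.comp M.subtype) (LinearMap.toAddMonoidHom' (R₁ := F) (σ₁₂ := .id F)) fun _ _ => rfl
  obtain ⟨p, hp⟩ := CharP.exists F
  have := Fintype.ofFinite F
  obtain ⟨m, p1, i⟩ := FiniteField.card F p
  refine (H1.hom (d := 4) fun x hx => LinearMap.toAddMonoidHom_injective (Ff.hm_bot H0.top hd _ hx)).sum_mem p1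
    (fun Y => AddMonoidHom.ext fun x => by simp [← Nat.cast_smul_eq_nsmul F])
    (fun x => by simp [← Nat.cast_smul_eq_nsmul F]) (fun k hk => ?_) θ (fun _ => ⟨_, rfl⟩) Y
  rw [Module.card_eq_pow_finrank (K := F), i, ← pow_mul] at hk
  have := h.r3
  have := m.pos
  have := p1.two_le
  have : p ≠ 2 := by rintro rfl; exact h.t2 (CharP.cast_eq_zero F 2)
  rw [← Nat.pow_right_injective p1.two_le hk]
  exact le_trans (by decide) (Nat.mul_le_mul (Nat.mul_le_mul m.pos h.r3) (show 2 ≤ p - 1 by omega))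

theorem zz (nf : ∀ v, ψ.Q v = 0 → v ≠ 0 → (∀ Y, Zs M (pt F K v) Y → Y = 0) → ∀ g ∈ M, ∀ s ∈ M, ∀ σ : K ≃ₐ[F] K,
      (∀ k y, s (k • y) = σ k • s y) → (∀ y, s y = y ↔ g y ∈ pt F K v) →
      (∀ k, σ (σ (σ k - k) - (σ k - k)) = σ (σ k - k) - (σ k - k)) → ∀ k, σ k = k) : M ≤ Nm K := fun g hg => by
  have := Fintype.ofFinite K
  have := Module.finite_of_finite K (M := V)
  have : Finite (V ≃ₗ[F] V) := DFunLike.finite _
  obtain ⟨u, n, hy, a, a', b, -⟩ := h.fr hv v0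
  have hy' : ψ.IsHyp u v := ⟨hy.Qf, hy.Qe, by rw [h.hψ.B_comm, hy.Bef]⟩
  have H' : ∀ Y, Zs M (pt F K u) Y → Y = 0 := fun Y i => by_contra fun j =>
    (h.ztr hy.Qf hy.f_ne_zero i j hv v0).elim fun Z i => i.2 (H Z i.1)
  obtain ⟨θ, e, i⟩ := h.sumN hy a a' b
  obtain ⟨θ', e', i'⟩ := h.sumN hy' a' a b
  have o : ∀ {v} (c : Multiplicative K), ψ.B n v = 0 → c ≠ 1 → c.toAdd • n ∉ pt F K v := fun c p q r => by
    obtain ⟨k, r⟩ := mem_pt.1 r
    exact q (by simpa [p, b] using congrArg (ψ.B n) r.symm)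
  have lin : ∀ {v u} (x : V ≃ₗ[F] V), (∀ z, x z = z + ψ.B u z • v - ψ.B v z • u - (ψ.Q u * ψ.B v z) • v) → x ∈ Nm K :=
    fun x p k => ⟨k, fun z => by rw [p, p]; simp only [map_smul, smul_eq_mul]; module⟩
  let μ : K →+* (V →ₗ[F] V) := (Algebra.lsmul F F V).toRingHom
  let N : (V →ₗ[F] V) →+ V →ₗ[F] V := .mk' (fun Z => ∑ a : K, μ a * Z * μ a⁻¹) fun _ _ => by
    simp only [mul_add, add_mul, Finset.sum_add_distrib]
  have eN : ∀ Z z, N Z z = ∑ a : K, a • Z (a⁻¹ • z) := fun Z z => LinearMap.sum_apply ..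
  have := Ff.fixed (Ff.cj (cnH.comp M.subtype)) ((Nm K).subgroupOf M) θ θ' (fun c => lin _ (e c)) (fun c => lin _ (e' c))
    (fun c p g => h.se hv v0 H (nf v hv v0 H) (o c (ψ.B_symm_zero a) p) (by simp [a]) (θ c).2 (e c) g.2)
    (fun c p g => h.se hy.Qf hy.f_ne_zero H' (nf u hy.Qf hy.f_ne_zero H') (o c (ψ.B_symm_zero a') p) (by simp [a']) (θ' c).2 (e' c) g.2)
    (opp (e := ![u, n, v]) (fun c d p => by
      fin_cases c <;> fin_cases d <;> simp [a, a', ψ.B_symm_zero a, ψ.B_symm_zero a', hy.Bee, hy.Bff] at p ⊢) (fun z => by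
      obtain ⟨c, q⟩ := Tn.dec3 h.hψ h.k3 hy a a' (by rintro rfl; simp at b) z
      have : ψ.B n z = c * ψ.B n n := by rw [q]; simp [ψ.B_symm_zero a, ψ.B_symm_zero a']
      simp [Fin.sum_univ_three, this, b, mul_comm c]; conv_rhs => rw [q]
      abel) 5 5 · (by omega)) i (by
      rwa [show _ ∘ Fin.rev = ![ψ.B u, (ψ.B n n)⁻¹ • ψ.B n, ψ.B v] by ext j : 1; fin_cases j <;> rfl]) (N := N) (fun s hs => by
      obtain ⟨σ, p⟩ := Nm.hom (g := s.1) hs
      refine AddMonoidHom.ext fun Z => LinearMap.ext fun z => ?_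
      change s.1 (N (cn s.1⁻¹ Z) (s.1.symm z)) = _
      rw [eN, eN, map_sum]
      refine Fintype.sum_equiv σ.toEquiv _ _ fun c => ?_
      change s.1 (c • s.1.symm (Z (s.1 _))) = _
      simp [p]) ⟨g, hg⟩
  have q : ∀ Z : V →ₗ[K] V, N (Z.restrictScalars F) = -Z.restrictScalars F := fun Z => LinearMap.ext fun z => by
    classical
    rw [eN, ← Finset.add_sum_erase _ _ (Finset.mem_univ 0), Finset.sum_congr rfl (g := fun _ => Z z) fun c hc => by
      simp [(Finset.mem_erase.1 hc).1]]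
    simp [← Nat.cast_smul_eq_nsmul K, Nat.cast_sub Fintype.card_pos, FiniteField.cast_card_eq_zero]
  have r : ∀ (Z : V →ₗ[K] V) (k : K) z, g.symm (Z (g (k • z))) = k • g.symm (Z (g z)) := fun Z k z => by
    have s : ∀ z, N (cn g⁻¹ (Z.restrictScalars F)) z = -g.symm (Z (g z)) := fun z => by
      have := LinearMap.congr_fun (DFunLike.congr_fun this (Z.restrictScalars F)) (g z)
      rw [q] at this
      change g (N _ (g.symm (g z))) = -Z (g z) at this
      rw [← map_neg, g.eq_symm_apply, ← this, g.symm_apply_apply]; rfl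
    by_cases k0 : k = 0
    · simp [k0]
    rw [← neg_inj, ← smul_neg, ← s, ← s, eN, eN, Finset.smul_sum]
    exact Fintype.sum_equiv (Equiv.mulLeft₀ k⁻¹ (inv_ne_zero k0)) _ _ fun c => by simp [smul_smul, k0, mul_comm, mul_left_comm k]
  intro k
  refine ⟨ψ.B v (g (k • g.symm u)), fun y => ?_⟩
  have := r ((ψ.B v).smulRight (g y)) k (g.symm u)
  simp only [LinearMap.smulRight_apply, g.apply_symm_apply, hy.Bef, one_smul, g.symm_apply_apply] at this
  exact (g.symm_apply_eq.1 this).symm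

omit hv v0 H [Finite K] [Nontrivial V] in
theorem om3 (r4 : 3 < finrank F K) :
    φ.E ≤ M.subgroupOf φ.Isom ∨ ∀ g ∈ M, ∀ k : K, ∃ k' : K, ∀ y, g (k • y) = k' • g y := by
  have := Module.finite_of_finite F (M := K)
  obtain ⟨v, -, v0, hv⟩ := h.sing ⊤ (by simp [h.k3])
  have := nontrivial_of_ne v 0 v0
  by_cases H : ∀ Y, Zs M (pt F K v) Y → Y = 0
  swap
  · push Not at H; exact H.elim fun Y i => .inl (h.nz r4 hv v0 i.1 i.2)
  refine .inr (h.zz hv v0 H fun _ _ _ _ _ _ _ _ σ _ _ e => by_contra fun i => ?_)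
  let N : K →ₗ[F] K := σ.toLinearMap - .id
  have a : finrank F (LinearMap.ker N) ≤ 1 := (Submodule.finrank_mono (show _ ≤ F ∙ (1 : K) from fun k hk => by
    obtain ⟨c, rfl⟩ := (cen h.pr (Y := σ.toLinearMap) (e := k) fun p => by
      simp [show σ k = k from sub_eq_zero.1 hk]).resolve_right fun j => i fun k => by simpa using j k 1
    exact Submodule.mem_span_singleton.2 ⟨c, by simp [Algebra.smul_def]⟩)).trans (finrank_span_singleton_le _)
  have b : ∀ S : Submodule F K, finrank F S ≤ finrank F (S.map N) + 1 := fun S => by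
    have := (N.domRestrict S).finrank_range_add_finrank_ker
    have := LinearMap.finrank_le_finrank_of_injective (f := (S.subtype.restrict (p := LinearMap.ker (N.domRestrict S))
      (q := LinearMap.ker N) fun _ a => a)) fun x y e => Subtype.ext (Subtype.ext (congrArg (·.1) e))
    rw [LinearMap.range_domRestrict] at *; omega
  have c := b ⊤
  have := b ((⊤ : Submodule F K).map N)
  have d := b (((⊤ : Submodule F K).map N).map N)
  rw [show (((⊤ : Submodule F K).map N).map N).map N = ⊥ from eq_bot_iff.2 (by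
    rintro _ ⟨_, ⟨_, ⟨k, -, rfl⟩, rfl⟩, rfl⟩; exact sub_eq_zero.2 (e k)), finrank_bot] at d
  rw [finrank_top] at c; omega

end F3

section
open Cfsg Cfsg.Geo Matrix H10.As
universe u
variable {ι : Type} [Fintype ι] [DecidableEq ι] {F : Type u} [Field F] [Fintype F] {K : Subalgebra F (Matrix ι ι F)} {r : ℕ}

theorem om3_of {Q : (ι → F) → F} (hQ : IsNondegenerateQuadraticForm Q) (hodd : Odd (Fintype.card F))
    (hr : r.Prime) (r3 : 3 ≤ r) (hK : IsFieldSubalgebra r K) (hn : 3 * r = Fintype.card ι)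
    (hsa : IsSelfAdjointFor (QuadraticMap.polar Q) K)
    (H : ∀ (E : Type u) [Field E] [Algebra F E] [Module E (ι → F)] [IsScalarTower F E (ι → F)] [FiniteDimensional F E]
      [FiniteDimensional E (ι → F)] (φ : Form F (ι → F)) [φ.Nondeg] (ψ : Form E (ι → F)) [ψ.Nondeg] l M,
      F3 φ ψ l M → finrank F E = r → φ.E ≤ M.subgroupOf φ.Isom ∨ ∀ g ∈ M, ∀ k : E, ∃ k' : E, ∀ y, g (k • y) = k' • g y) :
    IsMaximalIn (omegaGL Q) (subalgebraNormalizer K ⊓ omegaGL Q) := by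
  have : Nonempty ι := Fintype.card_pos_iff.1 (by omega)
  have hb := big_om hQ (by omega)
  obtain ⟨Q, rfl, _⟩ := exists_ofQuad hQ
  have hq := isQuad_ofQuad Q
  rw [omegaGL_eq_E Q (by omega)] at hb ⊢
  refine fld_bridge hK fun E _ _ _ _ _ hE h1 h2 => ?_
  have := Module.Finite.of_restrictScalars_finite F E (ι → F)
  have := Module.finite_of_finite F (M := E)
  have t := two_ne_zero_of_odd_card hodd
  have t' : (2 : E) ≠ 0 := by rwa [← map_ofNat (algebraMap F E), map_ne_zero]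
  obtain ⟨l, hl⟩ := exists_tau (F := F) (K := E)
  have l0 : l ≠ 0 := fun e => by simpa [e] using hl 1
  obtain ⟨β, i⟩ := exists_beta (φ := ofQuad Q) (sa_of h2 (fun _ _ => rfl) hsa) l0
  have hs := beta_symm (φ := ofQuad Q) (fun _ => rfl) (fun _ => rfl) l0 (by simp) i
  let ψ := ofQuad ((2 : E)⁻¹ • LinearMap.BilinMap.toQuadraticMap β)
  have hψ : ψ.IsQuad := isQuad_ofQuad _
  replace i : ∀ x y, (ofQuad Q).B x y = l (ψ.B x y) := fun x y => by
    rw [i]; congr 1; simp [ψ, QuadraticMap.polar, ← hs.eq x y]; field_simp; ring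
  have := nondeg_of i
  have h3 := finrank_mul_finrank F E (ι → F)
  simp only [hE, finrank_fintype_fun_eq_card] at h3
  have hQ : ∀ x y, ψ.Q x = ψ.Q y → Q x = Q y := fun x y e => mul_left_cancel₀ t (by
    rw [← ofQuad_Q, ← ofQuad_Q, ← hq.B_self, ← hq.B_self, i, i, hψ.B_self, hψ.B_self, e])
  refine isMaximalIn_map _ (fun e => hb.not_field hK hr.ne_one (Subgroup.map_le_iff_le_comap.2 e)) fun M hM g hg _ hg' => ?_
  have c : ∀ g ∈ commutator ψ.Isom, ∃ x ∈ M.map (ofQuad Q).Isom.subtype, ∀ z, x z = g.1 z := fun g hg => by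
    let ρ : ψ.Isom →* (ofQuad Q).Isom := ⟨⟨fun g => ⟨g.1.restrictScalars F, fun x y => by simp [i],
      fun x => hQ _ _ (g.2.Q x)⟩, rfl⟩, fun _ _ => rfl⟩
    exact ⟨_, Subgroup.mem_map_of_mem _ (hM ⟨show ρ g ∈ _ from (hq.E_eq_commutator (hq.good_of_two_ne_zero t) (by simp; omega)).ge
      ((Subgroup.map_commutator ⊤ ⊤ ρ).le.trans (Subgroup.commutator_mono le_top le_top) (Subgroup.mem_map_of_mem _ hg)),
      (mem_nrm_iff h1 h2).2 fun k => ⟨k, fun y => by simp only [toGL_mulVec]; exact map_smul g.1 k y⟩⟩), fun _ => rfl⟩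
  exact ((H E _ ψ l _ ⟨⟨fun _ => rfl, fun _ => rfl, l0, i, fun x e => (hQ x 0 (e.trans ψ.Q_zero.symm)).trans Q.map_zero,
    fun _ _ e => mul_left_cancel₀ t' (by rwa [← hψ.B_self, ← hψ.B_self]), Subgroup.map_subtype_le _,
    fun g hg => c g (hψ.E_le_commutator (hψ.good_of_two_ne_zero t') hg), hE ▸ hr, fun W hW => hψ.exists_singular hW⟩, hq, hψ, t,
    Nat.eq_of_mul_eq_mul_left hr.pos (by omega), hE ▸ r3, c⟩ hE).resolve_right
    fun e => hg' ((mem_nrm_iff h1 h2).2 (by simpa [toGL_mulVec] using e _ (Subgroup.mem_map_of_mem _ hg)))).trans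
      (Subgroup.comap_map_eq_self_of_injective (ofQuad Q).Isom.subtype_injective M).le

theorem isMaximalIn_om_om3 {Q : (ι → F) → F} (hQ : IsNondegenerateQuadraticForm Q) (hodd : Odd (Fintype.card F))
    (hr : r.Prime) (r3 : 3 < r) (hK : IsFieldSubalgebra r K) (hn : 3 * r = Fintype.card ι)
    (hsa : IsSelfAdjointFor (QuadraticMap.polar Q) K) : IsMaximalIn (omegaGL Q) (subalgebraNormalizer K ⊓ omegaGL Q) :=
  om3_of hQ hodd hr r3.le hK hn hsa fun _ _ _ _ _ _ _ _ _ _ _ _ _ h e => h.om3 (e ▸ r3)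

end
end H10.Mx
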