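import Mathlib
import Cfsg.Agent.H10.MxB

/-! # `GU_3(q).2` is maximal in `Sp_6(q)`, `q` odd -/

namespace H10.Mx

open Module Form

section
variable {F K V : Type*} [Field F] [Field K] [Algebra F K] [AddCommGroup V] [Module F V] [Module K V]
  [IsScalarTower F K V]

theorem hN3 {ψ : Form K V} [ψ.Nondeg] [FiniteDimensional K V] [Finite K] {q : ℕ} (hu : ψ.IsUnitary q) (t2 : (2 : K) ≠ 0)
    (hk : 3 ≤ finrank K V) (v w : V) (hv : ψ.Q v = 0) (hw : ψ.Q w = 0)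
    (b : ψ.B v w ≠ 0) : ∃ u, ψ.Q u = 0 ∧ u ∉ (K ∙ v) ⊔ (K ∙ w) ∧ ψ.Q (v + w + u) = 0 := by
  have g : ψ.B v v * ψ.B w w - ψ.B v w * ψ.B w v ≠ 0 := by simp [ψ.B_self_eq_zero hv, b, mt ψ.B_symm_zero b]
  obtain ⟨n, n1, n0⟩ := Submodule.exists_mem_ne_zero_of_ne_bot (p := ψ.perp (Submodule.span K {v, w})) fun e => by
    have := ψ.finrank_perp (Submodule.span K {v, w})
    rw [e, finrank_bot] at this
    have := finrank_span_pair_le (F := K) v w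
    omega
  obtain ⟨c, c0, hc⟩ := hu.exists_skew
  rw [hu.herm.T_eq, add_eq_zero_iff_neg_eq] at hc
  obtain ⟨i, j⟩ := ψ.mem_perp_pair.1 n1
  have m1 := Submodule.mem_sup_left (T := K ∙ w) (Submodule.mem_span_singleton_self v)
  have m2 := Submodule.mem_sup_right (S := K ∙ v) (Submodule.mem_span_singleton_self w)
  have hn : ψ.σ (ψ.Q n) = ψ.Q n := by rw [hu.herm.Q_eq, ← hu.herm.B_comm]
  have b' : ψ.σ (ψ.B v w) ≠ 0 := by simpa
  refine ⟨n + (-c • v + (((c * ψ.B v w + c * c * ψ.B v w + ψ.σ (c * ψ.B v w + c * c * ψ.B v w) - ψ.Q n) / (2 * c) / ψ.B v w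
    - 1 - c) • w)), ?_, fun e => n0 (Submodule.disjoint_def.1 (ψ.nondegOn_iff_disjoint.1 (ψ.nondegOn_pair g)) n (by
      rw [Submodule.span_insert]
      exact (add_mem_cancel_right (add_mem (Submodule.smul_mem _ _ m1) (Submodule.smul_mem _ _ m2))).1 e) n1), ?_⟩
  all_goals
    simp [ψ.Q_add, ψ.Q_smul_of_sing hv, ψ.Q_smul_of_sing hw, hv, hw, ψ.B_symm_zero i, ψ.B_symm_zero j, i, j, ψ.B_smul_left, hu.herm.T_eq,
      ← hc, hn, ψ.B_self_eq_zero hv, ψ.B_self_eq_zero hw, hu.herm.B_comm v w, map_ofNat]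
    field_simp; ring

namespace FK
variable {φ : Form F V} {ψ : Form K V} {l : Dual F K} {M : Subgroup (V ≃ₗ[F] V)} (h : FK φ ψ l M)
  {A B : Submodule F V} {v w y t s f : V}
  [φ.Nondeg] [ψ.Nondeg] [FiniteDimensional F V] [FiniteDimensional K V] [FiniteDimensional F K] [Finite K]
  {q : ℕ} (hu : ψ.IsUnitary q) (hk : 3 ≤ finrank K V)
include h hu hk

omit [φ.Nondeg] [FiniteDimensional F K] in
theorem exists_mp3 (hA : A ∈ Fam M (StQ F ψ)) (hA' : A ∉ StQ F ψ) : ∃ A B, MP M (StQ F ψ) A B := by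
  by_contra H
  have h1 : ∀ B ∈ Fam M (StQ F ψ), ∀ v ∈ A, v ≠ 0 → v ∈ B → A = B := fun B hB v a b c => by_contra fun e =>
    H (Mx.exists_mp hA hB e ((Submodule.ne_bot_iff _).2 ⟨v, ⟨a, c⟩, b⟩))
  have h0 : ∀ t ∈ A, ψ.Q t = 0 → t = 0 := fun t ht e => by_contra fun t0 =>
    hA' ⟨t, t0, e, h1 _ (mem_fam ⟨t, t0, e, rfl⟩) t ht t0 (self_mem_pt t)⟩
  obtain ⟨t, ht, t0⟩ := (Submodule.ne_bot_iff A).1 fun e => h.pr.ne_zero (by rw [← rk hA, e, finrank_bot])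
  have h2 : ψ.B t t ≠ 0 := fun e => t0 (h0 t ht (by rwa [hu.herm.Q_eq]))
  obtain ⟨b, hb, hb'⟩ : ∃ b ∈ A, b ∉ pt F K t := by
    by_contra! H
    exact h2 (h.perp_iff.1 fun a ha => (h.ts hA).B a ((Submodule.eq_of_le_of_finrank_eq H
      ((rk hA).trans (finrank_pt t0).symm)).ge ha) t ht)
  have h3 := ψ.finrank_perp (K ∙ t)
  rw [finrank_span_singleton t0] at h3
  obtain ⟨e, he, e0, hQ⟩ := hu.exists_singular (W := ψ.perp (K ∙ t)) (by omega)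
  obtain ⟨f, hf, hyp⟩ := exists_hyp_mem (ψ.nondegOn_singleton h2).perp he e0 hQ
  obtain ⟨c, c0, hc⟩ := hu.exists_skew
  refine hb' (show b ∈ K ∙ t from ψ.perp_perp (K ∙ t) ▸ fun z hz => ψ.B_symm_zero (ψ.mem_perp_singleton.1
    (le_of_sing_mem (A := ψ.perp (K ∙ b)) hyp he hf (fun z z1 z0 z2 => ψ.mem_perp_singleton.2 (ψ.B_symm_zero ?_)) hz)))
  rw [ψ.mem_perp_singleton] at z1
  obtain ⟨x, hx, i⟩ := h.sg (w := 0) z2 (by simp) (by simpa using hc)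
  have := sub_mem hb ((h1 _ (fam_map hA hx) t ht t0 ⟨t, ht, by simp [i, ψ.B_symm_zero z1]⟩).ge (Submodule.mem_map_of_mem hb))
  simpa [c0, z0, ψ.ε_ne_zero] using h0 ((ψ.ε * c * ψ.B z b) • z) (by simpa [i] using this) (ψ.Q_smul_of_sing z2 _)

omit hu hk [φ.Nondeg] [ψ.Nondeg] [FiniteDimensional K V] [FiniteDimensional F K] [Finite K] in
theorem perp2 (hr : finrank F K = 2) (hm : MP M (StQ F ψ) A B) (h1 : t ∈ B) (h2 : t ∉ A) (h3 : ∀ a ∈ A, φ.B a t = 0) :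
    ∀ a ∈ A, ∀ b ∈ B, φ.B a b = 0 := fun a ha b hb => by
  have := mt Submodule.finrank_eq_zero.1 hm.nb
  obtain ⟨y, hy, _, hz, rfl⟩ := Submodule.mem_sup.1 ((Submodule.eq_of_le_of_finrank_le (S₁ := (A ⊓ B) ⊔ F ∙ t)
    (sup_le inf_le_right (by simpa)) (by rw [finrank_sup_singleton fun e => h2 (Submodule.mem_inf.1 e).1, rk hm.r]; omega)).ge hb)
  obtain ⟨c, rfl⟩ := Submodule.mem_span_singleton.1 hz
  simp [(h.ts hm.l).B a ha y hy.1, h3 a ha]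

omit [φ.Nondeg] [FiniteDimensional F K] in
theorem exists_t3 (hr : finrank F K = 2) (t2 : (2 : F) ≠ 0) (hl : ∀ a, l (ψ.σ a) = -l a) (hm : MP M (StQ F ψ) A B) :
    ∃ A B, MP M (StQ F ψ) A B ∧ ∀ a ∈ A, ∀ b ∈ B, φ.B a b = 0 := by
  obtain ⟨_, -, _, ⟨v, v0, hv, rfl⟩, -, hm'⟩ := hm.std
  obtain ⟨B, hm⟩ : ∃ B, MP M (StQ F ψ) (pt F K v) B := ⟨_, hm'⟩
  obtain ⟨t, h1, h2⟩ := exists_not hm
  by_cases h3 : ψ.B v t = 0
  · exact ⟨_, _, hm, h.perp2 hr hm h1 h2 (h.perp_iff.2 h3)⟩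
  have t' : (2 : K) ≠ 0 := by rwa [← map_ofNat (algebraMap F K), map_ne_zero]
  obtain ⟨w, w1, w2, w3⟩ := ψ.exists_orth ⊤ (K ∙ v) [v] (by have := finrank_span_singleton_le (F := K) v; simp; omega)
  replace w3 := w3 v (by simp)
  have h4 : ψ.B t v ≠ 0 := mt ψ.B_symm_zero h3
  set y := w + ((-ψ.Q w / 2 - ψ.B t w) / ψ.B t v) • v with ey
  have d1 : ψ.B t y = -ψ.Q w / 2 := by simp [ey, h4]
  have d2 : ψ.B v y = 0 := by simp [ey, w3, ψ.B_self_eq_zero hv]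
  have hn : ψ.σ (ψ.Q w) = ψ.Q w := by rw [hu.herm.Q_eq, ← hu.herm.B_comm]
  have y4 : ψ.Q t = ψ.Q (t + y) := by
    rw [ψ.Q_add, d1, ey, ψ.Q_add, ψ.Q_smul_of_sing hv]; simp [ψ.B_symm_zero w3, hu.herm.T_eq, hn, map_ofNat]; field_simp; ring
  have hB : ∀ b ∈ B, ∃ c : F, b - c • t ∈ pt F K v := fun b hb => by
    have := mt Submodule.finrank_eq_zero.1 hm.nb
    obtain ⟨y, hy, _, hz, rfl⟩ := Submodule.mem_sup.1 ((Submodule.eq_of_le_of_finrank_le (S₁ := (pt F K v ⊓ B) ⊔ F ∙ t)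
      (sup_le inf_le_right (by simpa)) (by rw [finrank_sup_singleton fun e => h2 (Submodule.mem_inf.1 e).1, rk hm.r]; omega)).ge hb)
    obtain ⟨c, rfl⟩ := Submodule.mem_span_singleton.1 hz
    exact ⟨c, by simpa using hy.1⟩
  have y2 : ∀ b ∈ B, φ.B b y = 0 := fun b hb => by
    obtain ⟨c, e⟩ := hB b hb
    have := hl (ψ.B t y)
    rw [d1, show ψ.σ (-ψ.Q w / 2) = -ψ.Q w / 2 by simp [hn, map_ofNat], eq_neg_iff_add_eq_zero, ← two_mul, mul_eq_zero] at this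
    simpa [h.Bs, h.B t, d1, this.resolve_left t2] using h.perp_iff.2 d2 _ e
  have y3 : y ∉ B := fun e => by
    obtain ⟨c, i⟩ := hB y e
    obtain ⟨k, j⟩ := mem_pt.1 i
    have := congrArg (ψ.B v) j
    simp [d2, ψ.B_self_eq_zero hv, h3] at this
    exact w2 ((add_mem_cancel_right (Submodule.smul_mem _ _ (Submodule.mem_span_singleton_self v))).1
      (show y ∈ pt F K v by simpa [this] using i))
  obtain ⟨s, a, b, c⟩ := exists_siegel_map hv y4 (by simp [d2]) h3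
  obtain ⟨x, hx, e⟩ := h.mem _ (ψ.siegel_mem_E hv a b)
  have h4 : t + y ∈ B.map (x : V →ₗ[F] V) := ⟨t, h1, (e t).trans c⟩
  have h5 : t + y ∉ B := fun e => y3 ((add_mem_cancel_left h1).1 e)
  have h6 : pt F K v ⊓ B ≤ B ⊓ B.map (x : V →ₗ[F] V) := fun z hz => ⟨hz.2, z, hz.2, by
    obtain ⟨k, rfl⟩ := mem_pt.1 hz.1
    exact (e _).trans (by rw [map_smul, siegel_apply_self hv a b])⟩
  have hm' : MP M (StQ F ψ) B _ := ⟨hm.r, fam_map hm.r hx, fun e => h5 (e.ge h4), fun e => hm.nb (le_bot_iff.1 (h6.trans e.le)),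
    fun _ a _ b c => (hm.mx _ a _ b c).trans (Submodule.finrank_mono h6)⟩
  exact ⟨_, _, hm', h.perp2 hr hm' h4 h5 fun a ha => by rw [map_add, y2 a ha, (h.ts hm.r).B a ha t h1, add_zero]⟩

theorem sp_u3 (ha : H09.IsAltF φ) (hr : finrank F K = 2) (h2 : (2 : F) ≠ 0) (hl : ∀ a, l (ψ.σ a) = -l a) :
    M.subgroupOf φ.Isom = ⊤ ∨ ∀ g ∈ M, ∀ k : K, ∃ k' : K, ∀ y, g (k • y) = k' • g y := by
  by_cases H : ∀ A ∈ Fam M (StQ F ψ), A ∈ StQ F ψ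
  · exact Or.inr (h.nrm hk (hN3 hu (by rwa [← map_ofNat (algebraMap F K), map_ne_zero]) hk) H)
  push Not at H
  obtain ⟨A, hA, hA'⟩ := H
  obtain ⟨A, B, hm⟩ := h.exists_mp3 hu hk hA hA'
  obtain ⟨A, B, hm, hp⟩ := h.exists_t3 hu hk hr h2 hl hm
  obtain ⟨c₀, c1, c2⟩ : ∃ c, l c ≠ 0 ∧ ψ.σ c = -c := by
    obtain ⟨a, e⟩ := exists_one h.l0
    exact ⟨a - ψ.σ a, by rwa [map_sub, hl, e, sub_neg_eq_add, one_add_one_eq_two], by simp⟩
  obtain ⟨s, s0, s1, hs⟩ : ∃ s, s ≠ 0 ∧ ψ.Q s = 0 ∧ SFull (M.subgroupOf φ.Isom) s := by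
    obtain ⟨g, hg, _, ⟨v, v0, hv, rfl⟩, rfl, hm'⟩ := hm.std
    obtain ⟨B, hm, hp⟩ : ∃ B, MP M (StQ F ψ) (pt F K v) B ∧ ∀ a ∈ B, ∀ b ∈ pt F K v, φ.B a b = 0 :=
      ⟨_, hm', fun a i b j => φ.B_symm_zero (by
        rw [← h.Bm hg]; exact hp _ (Submodule.mem_map_of_mem j) _ (by simpa using mem_map_iff.1 i))⟩
    obtain ⟨s, ⟨s1, s2⟩, s0⟩ := (Submodule.ne_bot_iff _).1 hm.nb
    obtain ⟨a, a1, a2⟩ := exists_not hm.symm
    obtain ⟨f, f1, f2, f3⟩ := h.exists_f a2 fun _ => h.codim hm.symm hp a1 a2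
    obtain ⟨g, hg, w, b, -, d⟩ := h.tv hm.l a1 (f2 ▸ one_ne_zero)
    set m := ψ.B w (g.symm f) with em
    have b' : ψ.σ m ≠ 0 := by simpa
    refine ⟨s, s0, by obtain ⟨k, rfl⟩ := mem_pt.1 s1; exact ψ.Q_smul_of_sing hv k,
      h.q3 ha (neg_ne_zero.2 one_ne_zero) (fun e => h2 (by linear_combination -e)) (h.ts hm.l) s1
        (f := f) (y := g ((c₀ / ψ.σ m) • w)) ?_ (fun c => ?_) fun c => ?_⟩
    · rwa [← h.Bm' hg, h.B, map_smul, hu.herm.B_comm, ← em, smul_eq_mul, div_mul_cancel₀ _ b']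
    · convert d (c • (c₀ / (m * ψ.σ m))) (by simp [hu.herm.T_eq, Algebra.smul_def, h.σK, c2, mul_comm, neg_div]) using 4
      rw [← map_smul, ← smul_assoc, smul_mul_assoc]; congr 3; field_simp
    · obtain ⟨x, hx, i, j⟩ := h.rad hm.r (fun y hy => hp y hy a a1) a2 (B.smul_mem c s2)
      exact ⟨x, hx, f3 x i _ j⟩
  have H : ∀ v, ψ.Q v = 0 → SFull (M.subgroupOf φ.Isom) v := fun v hv => by
    by_cases v0 : v = 0
    · exact v0 ▸ sFull_zero ha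
    obtain ⟨g, hg, -, -, rfl⟩ := h.trans (hu.big hk) s1 s0 hv v0
    exact hs.map ha (g := ⟨g, h.le hg⟩) hg
  refine Or.inl (eq_top_of_sFull ha fun x => ?_)
  by_cases x0 : x = 0
  · exact x0 ▸ sFull_zero ha
  obtain ⟨b, b1, b2⟩ : ∃ b, ψ.T b = ψ.Q x ∧ l b ≠ 0 := by
    obtain ⟨b, b1, -⟩ := ψ.half x
    by_cases e : l b = 0
    exacts [⟨b + c₀, by simp [b1, hu.herm.T_eq c₀, c2], by simpa [e]⟩, ⟨b, b1, e⟩]
  obtain ⟨e, hyp⟩ := ψ.exists_hyp s1 s0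
  obtain ⟨p, p1, p2⟩ := exists_sing_B_eq_one hyp x0
  have p3 := ψ.Q_smul_of_sing p1 (ψ.σ b)
  have p4 : ψ.B (ψ.σ b • p) x = b := by simp [ψ.B_smul_left, p2]
  simpa using (H _ p3).add_smul ha (H (x - ψ.σ b • p) (by rw [ψ.Q_sub, ψ.T_B_comm, p4, p3, b1]; simp))
    (by rwa [h.B, map_sub, p4, ψ.B_self_eq_zero p3, sub_zero]) 1

end FK
end

open Matrix Cfsg Cfsg.Geo H10.As
universe u
variable {F : Type u} [Field F] [Fintype F]

theorem isMaximalIn_sp_u3 {m : ℕ} {K : Subalgebra F (Matrix (Fin m ⊕ Fin m) _ F)} (hm : 3 ≤ m) (hodd : Odd (Fintype.card F))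
    (hK : IsFieldSubalgebra 2 K) (hac : IsAdjointClosedFor (sympForm m F) K) (hsa : ¬ IsSelfAdjointFor (sympForm m F) K) :
    IsMaximalIn (spGL m F) (subalgebraNormalizer K ⊓ spGL m F) := by
  have : Nonempty (Fin m) := ⟨⟨0, by omega⟩⟩
  have ha := H09.isAltF_spForm (l := Fin m) (F := F)
  have hb := big_sp (F := F) (m := m) (by omega) (by omega)
  rw [spGL_eq_E] at hb ⊢
  refine fld_bridge hK fun E _ _ _ _ _ hE h1 h2 => ?_
  have := Module.Finite.of_restrictScalars_finite F E (Fin m ⊕ Fin m → F)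
  have := Module.finite_of_finite F (M := E)
  obtain ⟨ψ, q, l, hu, l0, a, i, b⟩ := exists_herm h1 h2 ha.σ_eq (H09.sympForm_eq _ · ·) hac hsa
  have := nondeg_of i
  have := finrank_mul_finrank F E (Fin m ⊕ Fin m → F)
  simp only [hE, finrank_fintype_fun_eq_card, Fintype.card_sum, Fintype.card_fin] at this
  exact max_of h1 h2 hb hK (by omega) ⟨ha.σ_eq, b, l0, i, fun _ _ => rfl, fun _ _ e => by rwa [hu.herm.Q_eq, hu.herm.Q_eq],
    Subgroup.map_subtype_le _, mem_of i (fun _ _ _ => rfl) (.inl (E_eq_top_of_isAltF ha)), hE ▸ Nat.prime_two,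
    fun W hW => hu.exists_singular (by omega)⟩ fun M h => (h.sp_u3 hu (by omega) ha hE (two_ne_zero_of_odd_card hodd)
      (by simpa [ε_eq_of_isAltF ha] using a)).imp_left (le_top.trans ·.ge)

end H10.Mx
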