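import Mathlib
import Cfsg.Agent.H10.MxR

/-! # Overgroups of `Ω₃(q³)` in `Ω₉(q)` -/

set_option autoImplicit false
set_option linter.unusedSectionVars false

namespace H10.Mx

open Module Form

variable {F K V : Type*} [Field F] [Field K] [Algebra F K] [AddCommGroup V] [Module F V] [Module K V]
  [IsScalarTower F K V]

theorem fix_mem (hr : (finrank F K).Prime) {σ : K ≃ₐ[F] K} (i : ¬ ∀ k, σ k = k) {k : K} (e : σ k = k) :
    ∃ c : F, k = algebraMap F K c :=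
  (cen hr (Y := σ.toLinearMap) (e := k) fun p => by simp [e]).resolve_right fun j => i fun k => by simpa using j k 1

theorem artin {σ : K → K} {s : V →+ V} (h : ∀ k y, s (k • y) = σ k • s y) (hσ : ∀ k, σ k = k → ∃ c : F, k = algebraMap F K c) :
    ∀ {n : ℕ} (x : Fin n → V), (∀ i, s (x i) = x i) → LinearIndependent F x → LinearIndependent K x
  | 0, _, _, _ => linearIndependent_empty_type
  | n + 1, x, a, b => by
    rw [linearIndependent_fin_succ] at b ⊢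
    have c := artin h hσ (Fin.tail x) (fun i => a _) b.1
    refine ⟨c, fun d => b.2 ?_⟩
    obtain ⟨k, e⟩ := (Submodule.mem_span_range_iff_exists_fun K).1 d
    have := congrArg s e
    rw [a, ← e, map_sum, ← sub_eq_zero, ← Finset.sum_sub_distrib] at this
    simp only [h, show ∀ i, s (Fin.tail x i) = Fin.tail x i from fun i => a _, ← sub_smul] at this
    choose m hm using fun i => hσ _ (sub_eq_zero.1 (Fintype.linearIndependent_iff.1 c _ this i))
    exact (Submodule.mem_span_range_iff_exists_fun F).2 ⟨m, by simpa [hm] using e⟩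

namespace F3
variable {φ : Form F V} {ψ : Form K V} {l : Dual F K} {M : Subgroup (V ≃ₗ[F] V)} (h : F3 φ ψ l M)
  {v : V} {Y : V →ₗ[F] V} {g s : V ≃ₗ[F] V}
  [φ.Nondeg] [ψ.Nondeg] [FiniteDimensional F V] [FiniteDimensional K V] [FiniteDimensional F K] [Finite F]
  (r3 : finrank F K = 3) (hv : ψ.Q v = 0) (v0 : v ≠ 0)
include h r3 hv v0

theorem sg3 (hY : Zs M (pt F K v) Y) (Y0 : Y ≠ 0) (k : K) : k • v ∈ Ws h.hq M (h.Q v hv) := by
  have hA := h.ts (mem_fam ⟨v, v0, hv, rfl⟩)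
  set w := k • v with ew
  have w1 : w ∈ pt F K v := smul_mem_pt _ _
  have v1 : v ∈ pt F K v := self_mem_pt v
  by_cases hw : w ∈ F ∙ v
  · obtain ⟨c, e⟩ := Submodule.mem_span_singleton.1 hw
    exact e ▸ Submodule.smul_mem _ _ self_mem_sgSub
  obtain ⟨a, a1, a2⟩ : ∃ a ∈ pt F K v, a ∉ Submodule.span F {v, w} := by
    by_contra! H
    have := Submodule.finrank_mono (show pt F K v ≤ _ from H)
    have := finrank_span_pair_le (F := F) v w
    rw [finrank_pt v0] at *; omega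
  have li : LinearIndependent F ![a, w, v] := by
    simp [linearIndependent_fin_succ, Fin.tail_def, v0, hw, Set.pair_comm w v, a2]
  set x : Fin 3 → V := ![a, w, v] with ex
  have xA : ∀ i, x i ∈ pt F K v := fun i => by fin_cases i <;> assumption
  choose t t1 t2 using fun i => φ.exists_sep' (li.notMem_span_image (s := {i}ᶜ) (x := i) (by simp))
  have t3 : ∀ i j, φ.B (x i) (t j) = if i = j then 1 else 0 := fun i j => by
    split_ifs with e
    exacts [e ▸ t2 i, t1 j _ (Submodule.subset_span ⟨i, e, rfl⟩)]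
  have sp : ∀ y ∈ pt F K v, y = ∑ i, φ.B y (t i) • x i := fun y hy => by
    rw [← Submodule.eq_of_le_of_finrank_eq (Submodule.span_le.2 (Set.range_subset_iff.2 xA))
      (by rw [finrank_span_eq_card li, finrank_pt v0, r3]; rfl)] at hy
    obtain ⟨c, rfl⟩ := (Submodule.mem_span_range_iff_exists_fun F).1 hy
    simp [h.σ, t3]
  have ex' : ∀ {Y}, Zs M (pt F K v) Y → ∀ z, Y z = ∑ i, ∑ j, (φ.B (x i) z * φ.B (Y (t i)) (t j)) • x j := fun {Y} i z => by
    have := h.Zker hA i (z := z - ∑ i, φ.B (x i) z • t i) fun y hy => by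
      rw [h.hq.B_comm, map_sub, map_sum]; conv_lhs => lhs; rw [sp y hy]
      simp [h.σ, mul_comm (φ.B y _)]
    rw [map_sub, sub_eq_zero, map_sum] at this
    rw [this]
    exact Finset.sum_congr rfl fun j _ => by rw [map_smul, sp _ (i.1 _), Finset.smul_sum]; simp [smul_smul, ← sp _ (i.1 _)]
  have sk : ∀ {Y}, Zs M (pt F K v) Y → ∀ y z, φ.B (Y y) z = -φ.B (Y z) y := fun i y z => by
    rw [h.skew hA i, h.hq.B_comm]
  have sk0 : ∀ {Y}, Zs M (pt F K v) Y → ∀ y, φ.B (Y y) y = 0 := fun i y =>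
    mul_left_cancel₀ h.t2 (by linear_combination sk i y y)
  have nz : ∀ {z}, ∀ i, φ.B (x i) z ≠ 0 → ψ.B v z ≠ 0 := fun i e e' => e (h.perp_iff.2 e' _ (xA i))
  obtain ⟨Y₁, i₁, e₁⟩ := h.full hv v0 hY Y0 (t := t 0) (nz 0 (by simp [t3])) w1 (t3 1 0)
  obtain ⟨Y₂, i₂, e₂⟩ := h.full hv v0 hY Y0 (t := φ.B (Y₁ (t 1)) (t 2) • t 0 + t 2) (nz 2 (by simp [t3])) w1
    (by simp [show φ.B w (t 0) = 0 from t3 1 0, show φ.B w (t 2) = 0 from t3 1 2])
  have j₁ := one_smul F Y₁ ▸ i₁ 1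
  have j₂ := one_smul F Y₂ ▸ i₂ 1
  have a₁ : φ.B (Y₁ (t 0)) (t 1) = 1 := e₁ ▸ t3 1 1
  have a₂ : φ.B (Y₁ (t 0)) (t 2) = 0 := e₁ ▸ t3 1 2
  have b₁ := congrArg (φ.B · (t 0)) e₂
  have b₂ := congrArg (φ.B · (t 1)) e₂
  simp only [map_add, map_smul, LinearMap.add_apply, h.hq.B_smul_left, sk0 j₂, show φ.B w (t 0) = 0 from t3 1 0,
    show φ.B w (t 1) = 1 from t3 1 1, sk j₂ (t 2)] at b₁ b₂
  refine Ws.of (hA.B v v1 w w1) (hA.Q w w1) fun c => ⟨_, (h.Zsub hA (i₁ (c * φ.B (Y₂ (t 0)) (t 1))) (i₂ c)).2, fun z => ?_⟩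
  simp only [LinearMap.sub_apply, LinearMap.smul_apply]
  rw [ex' j₁ z, ex' j₂ z, h.hq.B_smul_left]
  simp only [Fin.sum_univ_three, sk0 j₁, sk0 j₂, sk j₁ (t 2), sk j₁ (t 1) (t 0), sk j₂ (t 2), sk j₂ (t 1) (t 0), a₁, a₂,
    show φ.B (Y₂ (t 0)) (t 2) = 0 by simpa using b₁,
    show φ.B (Y₂ (t 1)) (t 2) = φ.B (Y₁ (t 1)) (t 2) * φ.B (Y₂ (t 0)) (t 1) - 1 by linear_combination -b₂]
  simp only [ex, Matrix.cons_val]
  module

theorem nf3 (H : ∀ Y, Zs M (pt F K v) Y → Y = 0) (hg : g ∈ M) (hs : s ∈ M) {σ : K ≃ₐ[F] K}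
    (e1 : ∀ k y, s (k • y) = σ k • s y) (e2 : ∀ y, s y = y ↔ g y ∈ pt F K v) : ∀ k, σ k = k := by
  by_contra i
  have := Module.finite_of_finite F (M := K)
  have := nontrivial_of_ne v 0 v0
  let B := (pt F K v).map (g.symm : V →ₗ[F] V)
  have mB : ∀ {y}, y ∈ B ↔ g y ∈ pt F K v := by simp [B]
  have rt : ∀ {x y a b}, x ∈ B → y ∈ B → a ∈ B → b ∈ B → ψ.B a b ≠ 0 → ∃ c : F, ψ.B x y = c • ψ.B a b :=
    fun {x y a b} hx hy ha hb e => by
    have q : ∀ {x y}, x ∈ B → y ∈ B → ∀ k, l (σ k * ψ.B x y) = l (k * ψ.B x y) := fun {x y} hx hy k => by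
      have := h.Bm hs (k • x) y
      rwa [e1, (e2 _).2 (mB.1 hx), (e2 _).2 (mB.1 hy), h.B, h.B, h.hψ.B_smul_left, h.hψ.B_smul_left] at this
    obtain ⟨c, j⟩ := fix_mem h.pr i (k := ψ.B x y / ψ.B a b) (sub_eq_zero.1 ((mul_eq_zero.1 (eq_zero_of_mul h.l0
      (a := (σ (ψ.B x y / ψ.B a b) - ψ.B x y / ψ.B a b) * ψ.B a b) fun k => by
        obtain ⟨k, rfl⟩ := σ.surjective k
        rw [sub_mul, mul_sub, map_sub, ← mul_assoc, ← map_mul, q ha hb, div_mul_cancel₀ _ e, q hx hy, mul_assoc,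
          div_mul_cancel₀ _ e, sub_self])).resolve_right e))
    exact ⟨c, by rw [Algebra.smul_def, ← j, div_mul_cancel₀ _ e]⟩
  obtain ⟨m, hm⟩ : ∃ m : Dual F K, ∀ x ∈ B, ∀ y ∈ B, m (ψ.B x y) = 0 → ψ.B x y = 0 := by
    by_cases e : ∃ a ∈ B, ∃ b ∈ B, ψ.B a b ≠ 0
    · obtain ⟨a, ha, b, hb, e⟩ := e
      obtain ⟨m, j⟩ := not_forall.1 (mt (Module.forall_dual_apply_eq_zero_iff F _).1 e)
      refine ⟨m, fun x hx y hy p => ?_⟩
      obtain ⟨c, q⟩ := rt hx hy ha hb e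
      simp_all
    · exact ⟨0, fun x hx y hy _ => by_contra fun j => e ⟨x, hx, y, hy, j⟩⟩
  let b : LinearMap.BilinForm F B := LinearMap.mk₂ F (fun x y => m (ψ.B x y)) (by simp) (by simp [h.βs]) (by simp) (by simp)
  have := invertibleOfNonzero h.t2
  obtain ⟨e, he⟩ := LinearMap.BilinForm.exists_orthogonal_basis (B := b) ⟨fun x y => by simp [b, h.hψ.B_comm x.1]⟩
  have d : finrank F B = 3 := by rw [LinearEquiv.finrank_map_eq, finrank_pt v0, r3]
  let x : Fin 3 → V := fun i => e (i.cast d.symm)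
  have xB : ∀ i, x i ∈ B := fun i => (e _).2
  have o : ∀ i j, i ≠ j → ψ.B (x i) (x j) = 0 := fun i j p => hm _ (xB i) _ (xB j) (he (by simpa using p))
  have li : LinearIndependent K x := artin (s := (s : V →ₗ[F] V).toAddMonoidHom) e1 (fun _ => fix_mem h.pr i) x
    (fun i => (e2 _).2 (mB.1 (xB i)))
    ((e.linearIndependent.comp _ (Fin.cast_injective d.symm)).map' B.subtype B.ker_subtype)
  have an : ∀ i, ψ.Q (x i) ≠ 0 := fun i p => li.ne_zero i (ψ.eq_zero_of_B_left fun y => by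
    obtain ⟨c, rfl⟩ := (Submodule.mem_span_range_iff_exists_fun K).1
      ((li.span_eq_top_of_card_eq_finrank' (by simp [h.k3])).ge (Submodule.mem_top (x := y)))
    rw [map_sum]
    refine Finset.sum_eq_zero fun j _ => ?_
    by_cases q : i = j
    · simp [← q, ψ.B_self_eq_zero p]
    · simp [o i j q])
  have key : ∀ i j k, i ≠ j → i ≠ k → j ≠ k → chi (ψ.Q (x i)) ≠ chi (ψ.Q (x j)) := fun a c k ac ak ck p => by
    obtain ⟨u, u0, q⟩ := exists_eq_mul_sq_of_chi_eq (an a) (an c) p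
    obtain ⟨y, hy, ey⟩ := h.com _ (h.hψ.refl_mul_refl_mem (an a) u0 q)
    have st : ∀ i, ∀ z ∈ B, (ψ.refl (x i)).1 z ∈ B := fun i z hz => by
      obtain ⟨c, p⟩ := rt (xB i) hz (xB i) (xB i) (h.hψ.B_self_ne_zero h.t2' (an i))
      rw [h.hψ.refl_apply, p, h.hψ.B_self, show -(ψ.Q (x i))⁻¹ * c • (2 * ψ.Q (x i)) = (-(2 * c)) • (1 : K) by
        have := an i; simp only [Algebra.smul_def, map_neg, map_mul, map_ofNat]; field_simp, smul_assoc, one_smul]
      exact add_mem hz (B.smul_mem _ (xB i))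
    obtain ⟨τ, hτ⟩ := Nm.hom (show g * y * g⁻¹ ∈ Nm K from h.h0 hv v0 H (mul_mem (mul_mem hg hy) (inv_mem hg)) fun z hz =>
      mB.1 (by change y _ ∈ B; rw [ey]; exact st _ _ (st _ _ (Submodule.mem_map_of_mem hz))))
    have ev : ∀ z, (g * y * g⁻¹) (g z) = g ((ψ.refl (x a)).1 ((ψ.refl (x c)).1 z)) := fun z => by
      simp [LinearEquiv.mul_apply, ey]
    have n0 : ∀ i, g (x i) ≠ 0 := fun i => by simpa using li.ne_zero i
    have ra := ev (x a)
    have rc := ev (x c)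
    have rk := ev (x k)
    rw [h.hψ.refl_of_orth (o c a ac.symm), h.hψ.refl_self (an a), map_neg] at ra
    rw [h.hψ.refl_self (an c), map_neg, h.hψ.refl_of_orth (o a c ac), map_neg] at rc
    rw [h.hψ.refl_of_orth (o c k ck), h.hψ.refl_of_orth (o a k ak)] at rk
    have mm : ∀ i, ∃ k : K, k • g (x a) = g (x i) := fun i => mem_pt.1 ((pt_eq (mB.1 (xB a)) (n0 a)).ge (mB.1 (xB i)))
    obtain ⟨k₁, p₁⟩ := mm c
    obtain ⟨k₂, p₂⟩ := mm k
    rw [← p₁, hτ, ra, smul_neg, neg_inj] at rc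
    rw [← p₂, hτ, ra] at rk
    by_cases j : ∀ k, τ k = k
    · rw [j, smul_neg, p₂, neg_eq_iff_add_eq_zero, ← two_smul F] at rk
      simp [h.t2, n0] at rk
    obtain ⟨u, rfl⟩ := fix_mem h.pr j (smul_left_injective K (n0 a) rc)
    rw [algebraMap_smul, ← map_smul, g.injective.eq_iff] at p₁
    have := o a c ac
    rw [← p₁, LinearMap.map_smul_of_tower, smul_eq_zero] at this
    exact this.elim (fun i => li.ne_zero c (by simp [← p₁, i])) (h.hψ.B_self_ne_zero h.t2' (an a))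
  have a := key 0 1 2 (by decide) (by decide) (by decide)
  have b := key 0 2 1 (by decide) (by decide) (by decide)
  have c := key 1 2 0 (by decide) (by decide) (by decide)
  revert a b c
  generalize chi (ψ.Q (x 0)) = a, chi (ψ.Q (x 1)) = b, chi (ψ.Q (x 2)) = c
  revert a b c; decide

omit hv v0 in
theorem om33 : φ.E ≤ M.subgroupOf φ.Isom ∨ ∀ g ∈ M, ∀ k : K, ∃ k' : K, ∀ y, g (k • y) = k' • g y := by
  have := Module.finite_of_finite F (M := K)
  obtain ⟨v, -, v0, hv⟩ := h.sing ⊤ (by simp [h.k3])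
  have := nontrivial_of_ne v 0 v0
  by_cases H : ∀ Y, Zs M (pt F K v) Y → Y = 0
  · exact .inr (h.zz hv v0 H fun _ a b c _ d _ e _ f g _ => h.nf3 r3 a b c d e f g)
  · push Not at H; exact H.elim fun Y i => .inl (h.fin3 hv v0 (h.sg3 r3 hv v0 i.1 i.2))

end F3

open Cfsg Cfsg.Geo Matrix in
theorem isMaximalIn_om_om33 {ι : Type} [Fintype ι] [DecidableEq ι] {F : Type*} [Field F] [Fintype F]
    {K : Subalgebra F (Matrix ι ι F)} {Q : (ι → F) → F} (hQ : IsNondegenerateQuadraticForm Q) (hodd : Odd (Fintype.card F))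
    (hK : IsFieldSubalgebra 3 K) (hn : 9 = Fintype.card ι)
    (hsa : IsSelfAdjointFor (QuadraticMap.polar Q) K) : IsMaximalIn (omegaGL Q) (subalgebraNormalizer K ⊓ omegaGL Q) :=
  om3_of hQ hodd Nat.prime_three le_rfl hK hn hsa fun _ _ _ _ _ _ _ _ _ _ _ _ _ h e => h.om33 e

end H10.Mx
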