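import Cfsg.Agent.L.Jf0
import Cfsg.Agent.S1554

/-! Part M20 of S5572: a Frobenius group of order twenty in `M₂₄`. -/

set_option autoImplicit false

namespace H10.S5M20

open Subgroup Cfsg H14

theorem m20 : L.Jf.M20Stmt := by
  obtain ⟨e⟩ := (Cfsg.Agent.S1554.result _ oct0_mem (pt 5) (by decide +kernel)).2.2
  let s : alternatingGroup (Fin 8) := ⟨⟨![1, 2, 3, 4, 0, 5, 6, 7], ![4, 0, 1, 2, 3, 5, 6, 7], by decide, by decide⟩, by
    rw [Equiv.Perm.mem_alternatingGroup]; decide⟩
  let t : alternatingGroup (Fin 8) := ⟨⟨![0, 2, 4, 1, 3, 6, 5, 7], ![0, 3, 1, 4, 2, 6, 5, 7], by decide, by decide⟩, by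
    rw [Equiv.Perm.mem_alternatingGroup]; decide⟩
  have : Fact (Nat.Prime 5) := ⟨by norm_num⟩
  have : Fact (Nat.Prime 2) := ⟨Nat.prime_two⟩
  have s5 : orderOf s = 5 := orderOf_eq_prime (by apply Subtype.ext; decide) fun k => by
    have := congrArg Subtype.val k; revert this; decide
  have t4 : orderOf t = 2 ^ (1 + 1) := orderOf_eq_prime_pow (fun k => by
    have := congrArg Subtype.val k; revert this; decide) (by apply Subtype.ext; decide)
  have ts : t * s * t⁻¹ = s ^ 2 := by apply Subtype.ext; decide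
  let φ := (inclusion (inf_le_left.trans inf_le_left)).comp e.symm.toMonoidHom
  have inj : Function.Injective φ := fun a b h => e.symm.injective (Subtype.ext (congrArg (fun w : M24 => w.1) h))
  exact ⟨φ s, φ t, (orderOf_injective φ inj s).trans s5, (orderOf_injective φ inj t).trans t4, by
    rw [← map_inv, ← map_mul, ← map_mul, ts, map_pow]⟩

end H10.S5M20
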