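import Cfsg.Agent.L.Js0

/-! Part C of S5573: a pure four-group centralizing the element of order seven. -/

set_option autoImplicit false

namespace H10.S7C

open Subgroup Cfsg BG L.Js

universe u

theorem c : CStmt.{u} := by
  intro G _ _ z δ σ t V K ⟨x0, y0, x3, y7, xy⟩ ha pu hV cV KN ⟨e⟩ tV t1 tz o276 δ3 δz c3 σz σ7
  classical
  have : Fact (Nat.Prime 7) := ⟨by norm_num⟩
  have mc : ∀ {a g : G}, g ∈ C_[a] ↔ g * a = a * g := mem_centralizer_singleton_iff
  have oc : ∀ g a : G, orderOf (g * a * g⁻¹) = orderOf a := fun g a => (MulAut.conj g).orderOf_eq a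
  let x : G := e.symm x0
  let s : G := e.symm y0
  have ox : orderOf x = 3 := by rw [orderOf_coe, e.symm.orderOf_eq, x3]
  have os : orderOf s = 7 := by rw [orderOf_coe, e.symm.orderOf_eq, y7]
  have xs : s * x = x * s := by
    have := congrArg (fun w => ((e.symm w : K) : G)) xy
    simpa only [map_mul, coe_mul] using this.symm
  have sN : s ∈ N_(V) := KN (e.symm y0).2
  obtain ⟨g, hg⟩ := isConj_iff.1 (c3 x δ ox δ3)
  have gz : g * s * g⁻¹ ∈ C_[z] := δz (mc.2 (by rw [← hg, conj_mul, conj_mul, xs]))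
  have sy : ∀ (a : G) (h : a ∈ C_[z]), orderOf a = 7 → ∃ P : Sylow 7 C_[z], (P : Subgroup C_[z]) = zpowers ⟨a, h⟩ := fun a h o => by
    have c7 : Nat.card (zpowers (⟨a, h⟩ : C_[z])) = 7 := by rw [Nat.card_zpowers, ← orderOf_coe]; exact o
    refine ⟨(IsPGroup.of_card (n := 1) c7).toSylow fun k => ha.1 ?_, rfl⟩
    rw [← (zpowers (⟨a, h⟩ : C_[z])).card_mul_index, c7]
    exact Nat.mul_dvd_mul_left 7 k
  obtain ⟨P, hP⟩ := sy _ gz (by rw [oc, os])
  obtain ⟨R, hR⟩ := sy _ σz σ7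
  obtain ⟨h, hh⟩ := MulAction.exists_smul_eq C_[z] R P
  have m : h * ⟨σ, σz⟩ * h⁻¹ ∈ (P : Subgroup C_[z]) := by
    rw [← hh]; exact smul_mem_pointwise_smul _ (MulAut.conj h) _ (hR ▸ mem_zpowers _)
  rw [hP] at m
  obtain ⟨i, hi⟩ := m
  have hi' : (g * s * g⁻¹) ^ i = h * σ * (h : G)⁻¹ := congrArg Subtype.val hi
  set n := (h : G)⁻¹ * g with hn
  have ns : σ = n * s ^ i * n⁻¹ := by
    rw [conj_zpow] at hi'
    calc σ = (h : G)⁻¹ * (h * σ * (h : G)⁻¹) * h := by group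
      _ = _ := by rw [← hi', hn]; group
  let U := V ⊓ C_[s]
  let O : Set G := {v : G | ∃ n ∈ N_(V), n * t * n⁻¹ = v}
  have OV : ∀ v ∈ O, v ∈ V ∧ v ≠ 1 ∧ ¬ IsConj z v := by
    rintro _ ⟨k, hk, rfl⟩
    exact ⟨(mem_normalizer_iff.1 hk t).1 tV, by simpa using t1, fun q => tz (q.trans (isConj_iff.2 ⟨k, rfl⟩).symm)⟩
  have it : ∀ (k : ℕ) (v : G), (fun v => s * v * s⁻¹)^[k] v = s ^ k * v * (s ^ k)⁻¹ := fun k v => by
    induction k with
    | zero => simp
    | succ k i => rw [Function.iterate_succ_apply', i]; group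
  have F3 : 3 ≤ {v | v ∈ O ∧ s * v * s⁻¹ = v}.ncard := by
    have := Fintype.ofFinite O
    let f : Function.End O := fun v => ⟨s * v * s⁻¹, by
      obtain ⟨_, k, hk, rfl⟩ := v
      exact ⟨s * k, mul_mem sN hk, by group⟩⟩
    have e : ∀ k v, ((f ^ k) v : G) = s ^ k * v * (s ^ k)⁻¹ := fun k => by
      induction k with
      | zero => exact fun _ => by simp; rfl
      | succ k i => exact fun v => by rw [pow_succ]; exact (i (f v)).trans (by simp only [f]; group)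
    have := Equiv.Perm.card_fixedPoints_modEq (f := f) (p := 7) (n := 1) (funext fun v => Subtype.ext (by
      rw [pow_one, e, ← os, pow_orderOf_eq_one]; simp; rfl))
    rw [Fintype.card_eq_nat_card, Fintype.card_eq_nat_card, Nat.card_coe_set_eq, o276,
      Nat.card_congr ((Equiv.subtypeEquivRight (p := fun v : O => v ∈ Function.fixedPoints f) (q := fun v : O => s * v * s⁻¹ = v)
      fun x => Subtype.ext_iff).trans (Equiv.subtypeSubtypeEquivSubtypeInter (· ∈ O) fun v => s * v * s⁻¹ = v))] at this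
    change 276 ≡ Nat.card {v | v ∈ O ∧ s * v * s⁻¹ = v} [MOD 7] at this
    rw [Nat.card_coe_set_eq] at this
    unfold Nat.ModEq at this
    omega
  have FU : ∀ v ∈ {v | v ∈ O ∧ s * v * s⁻¹ = v}, v ∈ U := fun v hv => ⟨(OV v hv.1).1, mc.2 (mul_inv_eq_iff_eq_mul.1 hv.2).symm⟩
  have cU : Nat.card U = (U : Set G).ncard := Nat.card_coe_set_eq _
  have n1 : (1 : G) ∉ {v | v ∈ O ∧ s * v * s⁻¹ = v} := fun q => (OV 1 q.1).2.1 rfl
  have U4 : 4 ≤ Nat.card U := by
    have := Set.ncard_le_ncard (Set.insert_subset (one_mem U) FU)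
    rw [Set.ncard_insert_of_notMem n1] at this
    omega
  have dU : Nat.card U ∣ 2 ^ 11 := cV ▸ card_dvd_of_le inf_le_left
  have cm : ∀ a ∈ V, ∀ b ∈ V, a * b = b * a := fun a i b j => congrArg Subtype.val (hV.1.is_comm.comm (⟨a, i⟩ : V) ⟨b, j⟩)
  have pure : ∀ w ∈ U, w ≠ 1 → ¬ IsConj z w := fun w hw w1 q => by
    obtain ⟨k, rfl⟩ := isConj_iff.1 q
    have kz : k⁻¹ * s * k⁻¹⁻¹ ∈ C_[z] := mc.2 (by
      have := mc.1 hw.2
      calc k⁻¹ * s * k⁻¹⁻¹ * z = k⁻¹ * (s * (k * z * k⁻¹)) * k := by group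
        _ = _ := by rw [← this]; group)
    have d84 := (ha.2 _ kz (by rw [oc, os])).1
    have l : cj k⁻¹ U ≤ C_[z] ⊓ C_[k⁻¹ * s * k⁻¹⁻¹] := fun a i => by
      obtain ⟨b, j, rfl⟩ := mem_cj'.1 i
      refine ⟨mc.2 ?_, mc.2 (by rw [conj_mul, conj_mul, mc.1 j.2])⟩
      calc k⁻¹ * b * k⁻¹⁻¹ * z = k⁻¹ * (b * (k * z * k⁻¹)) * k := by group
        _ = _ := by rw [cm b j.1 _ hw.1]; group
    have d1 := (card_dvd_of_le l).trans d84
    rw [← Nat.card_congr (cjEquiv k⁻¹ U).toEquiv] at d1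
    have d4 : Nat.card U ≤ 4 := Nat.le_of_dvd (by norm_num) (by simpa using Nat.dvd_gcd d1 dU)
    have := Set.ncard_le_ncard (Set.insert_subset hw (Set.insert_subset (one_mem U) FU))
    rw [Set.ncard_insert_of_notMem (by
      rintro (a | a)
      exacts [w1 a, (OV _ a.1).2.2 q]), Set.ncard_insert_of_notMem n1] at this
    omega
  refine ⟨cj n U, fun a i' => ?_, ?_, fun a i a1 => ?_⟩
  · obtain ⟨b, j, rfl⟩ := mem_cj'.1 i'
    refine mc.2 ?_
    rw [ns, conj_mul, conj_mul, ((show Commute b s from mc.1 j.2).zpow_right i).eq]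
  · rw [← Nat.card_congr (cjEquiv n U).toEquiv]
    exact le_antisymm (pu V hV cV U inf_le_left pure) U4
  · obtain ⟨b, j, rfl⟩ := mem_cj'.1 i
    have b1 : b ≠ 1 := fun q => a1 (by simp [q])
    have : Fact (Nat.Prime 2) := ⟨Nat.prime_two⟩
    exact ⟨by rw [oc]; exact orderOf_eq_prime (hV.2 b j.1) b1,
      fun q => pure b j b1 (q.trans (isConj_iff.2 ⟨n, rfl⟩).symm)⟩

end H10.S7C
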