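import Cfsg.Agent.L.Js0
import Cfsg.Agent.H14.MCls2

/-! Part M21 of S5573: commuting elements of orders three and seven in `M₂₄`. -/

set_option autoImplicit false

namespace H10.S7M21

open Subgroup Cfsg H14

theorem m21 : L.Js.M21Stmt := by
  have : Fact (Nat.Prime 7) := ⟨by norm_num⟩
  have c : 7 ∣ Nat.card (centralizer {S24.el t3B}) := by rw [c3B_full.card]; decide +kernel
  obtain ⟨g, hg⟩ := exists_prime_orderOf_dvd_card' 7 c
  refine ⟨S24.el t3B, g.1, ?_, by rw [orderOf_coe, hg], (mem_centralizer_singleton_iff.1 g.2).symm⟩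
  rw [← orderOf_coe, in3B.coe_el, ord3B]

end H10.S7M21
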