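import Mathlib
import Cfsg.Agent.H10.SpM

/-! # The stabiliser of a pair of totally isotropic `m`-spaces in `Sp_{2m}(q)`, `m ≥ 3`, `q` odd -/

namespace H10
open Module
namespace Form.TSPair
variable {F V : Type*} [Field F] [AddCommGroup V] [Module F V] {φ : Form F V} [φ.Nondeg] [FiniteDimensional F V]
  {W₁ W₂ : Submodule F V} (h : φ.TSPair W₁ W₂) (ha : H09.IsAltF φ) (t2 : (2 : F) ≠ 0) (hk : 3 ≤ finrank F W₁)
  {M : Subgroup φ.Isom} (hM : φ.E ⊓ (φ.stab W₁ ⊓ φ.stab W₂) ≤ M) {k t : φ.Isom} {p w : V}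
include h ha hk hM

theorem tr3 {u : V} (hp : p ∈ W₁) (p0 : p ≠ 0) (hu : u ∈ W₁) (u0 : u ≠ 0) : ∃ g ∈ M, g.1 p = u := by
  have H : ∀ p ∈ W₁, ∀ u ∈ W₁, p ≠ 0 → u ∉ F ∙ p → ∃ g ∈ M, g.1 p = u := fun p hp u hu p0 i => by
    obtain ⟨w, a, b, c⟩ := h.exists_sep (Z := F ∙ (u - p)) (by simpa using sub_mem hu hp) hp fun e => by
      obtain ⟨c, e⟩ := Submodule.mem_span_singleton.1 e
      have c0 : c ≠ 0 := by rintro rfl; exact p0 (by simpa using e.symm)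
      exact i ((Submodule.smul_mem_iff _ c0).1 (Submodule.mem_span_singleton.2 ⟨1 + c, by linear_combination (norm := module) -e⟩))
    have d := φ.B_symm_zero (b _ (Submodule.mem_span_singleton_self _))
    exact ⟨_, hM (h.siegel_mem (sub_mem hu hp) a d), by simp [sg_alt ha d, c, h.ts₁.B _ (sub_mem hu hp) p hp, -map_sub]⟩
  obtain ⟨e, a, b, -⟩ := φ.exists_orth W₁ ((F ∙ p) ⊔ F ∙ u) [] (by
    have := Submodule.finrank_add_le_finrank_add_finrank (F ∙ p) (F ∙ u)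
    have := finrank_span_singleton_le (F := F) p
    have := finrank_span_singleton_le (F := F) u
    simp; omega)
  obtain ⟨g, i, rfl⟩ := H p hp e a p0 fun e => b (Submodule.mem_sup_left e)
  obtain ⟨g', i', j⟩ := H _ a u hu (by simpa) (not_mem_span_singleton_symm u0 fun e => b (Submodule.mem_sup_right e))
  exact ⟨g' * g, mul_mem i' i, j⟩

include t2
variable (hk' : k ∈ M) (hk₂ : ∀ x ∈ W₂, k.1 x ∈ W₁) (hE : ¬ φ.E ≤ M)
include hk' hk₂ hE

theorem tv3 (hp : p ∈ W₁) (p0 : p ≠ 0) {s : F} (H : φ.siegel p 0 s ∈ M) : s = 0 := by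
  by_contra s0
  have T := fun s => show φ.T s = φ.Q 0 by simp [ha.T_eq]
  have h1 : ∀ c, φ.siegel p 0 (c * c * s) ∈ M := fun c => by
    by_cases c0 : c = 0
    · simp [c0, φ.siegel_zero (ha.Q_eq p), one_mem]
    obtain ⟨g, a, b⟩ := h.tr3 ha hk hM hp p0 (W₁.smul_mem c hp) (smul_ne_zero c0 p0)
    simpa [b, siegel_smul (ha.Q_eq p) (map_zero _) (T s), ha.σ_eq] using siegel_conj_mem a (ha.Q_eq p) (by simp) (T s) H
  have h2 : SFull M p := fun c => by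
    convert mul_mem (h1 ((c / s + 1) / 2)) (inv_mem (h1 ((c / s - 1) / 2))) using 1
    rw [eq_mul_inv_iff_mul_eq]
    exact Isom.ext fun x => by
      simp [quasi_apply_alt ha, sg_alt ha, B_self_of_isAltF ha]; match_scalars <;> field_simp <;> ring
  have h3 : ∀ u ∈ W₁, SFull M u := fun u hu => by
    by_cases u0 : u = 0
    · exact u0 ▸ sFull_zero ha
    obtain ⟨g, a, rfl⟩ := h.tr3 ha hk hM hp p0 hu u0
    exact h2.map ha a
  have h4 : ∀ u ∈ W₂, SFull M u := fun u hu => by simpa using (h3 _ (hk₂ u hu)).map ha (inv_mem hk')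
  refine hE (le_top.trans (eq_top_of_sFull ha fun v => ?_).ge)
  obtain ⟨⟨a, i⟩, ⟨b, j⟩, rfl⟩ := exists_add_of_isCompl h.compl v
  by_cases b0 : b = 0
  · simpa [b0] using h3 a i
  by_cases e : φ.B a b = 0
  swap
  · simpa using (h3 a i).add_smul ha (h4 b j) e 1
  obtain ⟨y, m, -, n⟩ := h.symm.exists_sep bot_le j (by simpa)
  simpa [add_comm] using ((h3 y m).add_smul ha (h4 b j) (by simp [n]) 1).add_smul ha (h3 _ (sub_mem i m))
    (by simp [h.ts₁.B y m _ i, h.ts₁.B y m y m, φ.B_symm_zero e, B_swap_of_isAltF ha y b, n]) 1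

theorem mp3 (ht : t ∈ M) (hp : p ∈ W₁) (p0 : p ≠ 0) (h1 : t.1 p ∈ W₁) (hw : w ∈ W₂) (h0 : φ.B p w = 0) : t.1 w ∈ W₂ := by
  have T := fun s w => show φ.T s = φ.Q w by simp [ha.T_eq, ha.Q_eq]
  have h2 := siegel_conj_mem ht (ha.Q_eq p) h0 (T _ _) (hM (h.siegel_mem hp hw h0))
  rw [← Isom.B_map t] at h0
  have p1 : t.1 p ≠ 0 := by simpa
  generalize t.1 p = q at *
  obtain ⟨⟨a, i⟩, ⟨b, j⟩, e⟩ := exists_add_of_isCompl h.compl (t.1 w)
  rw [e] at h0 h2 ⊢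
  have h3 : φ.B q b = 0 := by simpa [h.ts₁.B q h1 a i] using h0
  by_cases m : a ∈ F ∙ q
  · obtain ⟨c, rfl⟩ := Submodule.mem_span_singleton.1 m
    have := h.tv3 ha t2 hk hM hk' hk₂ hE h1 p1 (s := 2 * c) (by
      convert mul_mem h2 (inv_mem (hM (h.siegel_mem h1 j h3))) using 1
      rw [eq_mul_inv_iff_mul_eq]
      exact Isom.ext fun x => by
        simp [sg_alt ha h0, sg_alt ha h3, sg_alt ha (map_zero _), B_self_of_isAltF ha, h3, ha.σ_eq]; module)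
    simp_all
  obtain ⟨y, n, o, r⟩ := h.exists_sep (by simpa using h1) i m
  have o' := φ.B_symm_zero (o _ (Submodule.mem_span_singleton_self _))
  have := Subgroup.commutator_le_self M (Subgroup.commutator_mem_commutator (hM (h.siegel_mem h1 n o')) h2)
  rw [siegel_commutator (ha.Q_eq q) o' (T _ _) h0 (T _ _)] at this
  have := h.tv3 ha t2 hk hM hk' hk₂ hE h1 p1 this
  simp [B_swap_of_isAltF ha y, r, h.ts₂.B y n b j, one_add_one_eq_two, t2] at this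

theorem st3 (hk₁ : ∀ x ∈ W₁, k.1 x ∈ W₂) (ht : t ∈ M) (hp : p ∈ W₁) (p0 : p ≠ 0) (h1 : t.1 p ∈ W₁) :
    t ∈ φ.stab W₁ ⊓ φ.stab W₂ := by
  have he := h.finrank_eq
  have H : ∀ x ∈ W₁, t.1 x ∈ W₁ := fun x hx => by
    obtain ⟨w, a, b, c⟩ := φ.exists_orth W₂ ⊥ [p, x] (by simp; omega)
    exact h.symm.mp3 ha t2 (he ▸ hk) (inf_comm (φ.stab W₁) _ ▸ hM) hk' hk₁ hE ht a (by simpa using b)
      (h.mp3 ha t2 hk hM hk' hk₂ hE ht hp p0 h1 a (c p (by simp))) hx (φ.B_symm_zero (c x (by simp)))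
  refine ⟨φ.mem_stab_of_le H, φ.mem_stab_of_le fun y hy => ?_⟩
  obtain ⟨w, a, b, c⟩ := φ.exists_orth W₁ ⊥ [y] (by simp; omega)
  exact h.mp3 ha t2 hk hM hk' hk₂ hE ht a (by simpa using b) (H w a) hy (φ.B_symm_zero (c y (by simp)))

omit hk' hk₂ hE in
theorem E_le3 (hk' : k ∈ M) (hk₁ : ∀ x ∈ W₁, k.1 x ∈ W₂) (hk₂ : ∀ x ∈ W₂, k.1 x ∈ W₁) {g : φ.Isom} (hg : g ∈ M)
    (h₁ : ¬ (W₁.map (g.1 : V →ₗ[F] V) = W₁ ∧ W₂.map (g.1 : V →ₗ[F] V) = W₂))
    (h₂ : ¬ (W₁.map (g.1 : V →ₗ[F] V) = W₂ ∧ W₂.map (g.1 : V →ₗ[F] V) = W₁)) : φ.E ≤ M := by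
  by_contra hE
  have he := h.finrank_eq
  have hd := Submodule.disjoint_def.1 h.compl.disjoint
  have S := fun {t p} => h.st3 ha t2 hk hM (t := t) (p := p) hk' hk₂ hE hk₁
  obtain ⟨p, hp, p0⟩ := Submodule.exists_mem_ne_zero_of_ne_bot (p := W₁) (by rintro rfl; simp at hk)
  obtain ⟨⟨a, i⟩, ⟨b, j⟩, e⟩ := exists_add_of_isCompl h.compl (g.1 p)
  by_cases b0 : b = 0
  · exact h₁ ((S hg hp p0 (by simpa [e, b0])).imp φ.mem_stab_iff_map.1 φ.mem_stab_iff_map.1)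
  by_cases a0 : a = 0
  · have := S (mul_mem hk' hg) hp p0 (hk₂ _ (by simpa [e, a0]))
    have H : ∀ X Y : Submodule F V, IsCompl X Y → finrank F X = finrank F Y → (∀ x ∈ X, k.1 x ∈ Y) → (∀ x ∈ Y, k.1 x ∈ X) →
        k * g ∈ φ.stab X → X.map (g.1 : V →ₗ[F] V) = Y := fun X Y c d m n o => by
      refine Submodule.eq_of_le_of_finrank_eq ?_ (by rw [LinearEquiv.finrank_map_eq, d])
      rintro _ ⟨x, hx, rfl⟩
      obtain ⟨⟨u, r⟩, ⟨v, s⟩, e⟩ := exists_add_of_isCompl c (g.1 x)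
      have := (o x).1 hx
      rw [Isom.mul_apply, e, map_add, add_mem_cancel_right (n v s)] at this
      simpa [e, show u = 0 by simpa using Submodule.disjoint_def.1 c.disjoint _ this (m u r)]
    exact h₂ ⟨H _ _ h.compl he hk₁ hk₂ this.1, H _ _ h.compl.symm he.symm hk₂ hk₁ this.2⟩
  obtain ⟨y, y1, -, y2⟩ := h.symm.exists_sep bot_le j (by simpa)
  obtain ⟨z, z1, -, z2⟩ := h.exists_sep bot_le i (by simpa)
  have H : ((W₂ ⊓ φ.perp (F ∙ p)) ⊔ F ∙ p).map (g.1 : V →ₗ[F] V) ≤ Submodule.span F {a, b} := by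
    rw [Submodule.map_sup]
    refine sup_le ?_ (by rw [Submodule.map_span, Set.image_singleton, Submodule.span_singleton_le_iff_mem]
                         exact Submodule.mem_span_pair.2 ⟨1, 1, by simp [e]⟩)
    rintro _ ⟨w, ⟨m, n⟩, rfl⟩
    have n' := φ.mem_perp_singleton.1 n
    have o : φ.B (a + b) (g.1 w) = 0 := by rw [← Isom.B_map g] at n'; exact e ▸ n'
    obtain ⟨x, x1, x2, x3⟩ := φ.exists_orth W₁ ⊥ [g.1 p, g.1 w] (by simp; omega)
    have := S (siegel_conj_mem hg (ha.Q_eq p) n' (by simp [ha.T_eq, ha.Q_eq]) (hM (h.siegel_mem hp m n'))) x1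
      (by simpa using x2) (by rwa [siegel_apply_of_orth (ha.Q_eq _) (by simpa) (by simp [ha.T_eq, ha.Q_eq]) (x3 _ (by simp))
        (x3 _ (by simp))])
    have r := sub_mem y1 ((this.1 y).1 y1)
    have r' := sub_mem z1 ((this.2 z).1 z1)
    rw [e, sg_alt ha o] at r r'
    simp only [map_add, LinearMap.add_apply, B_swap_of_isAltF ha y b, B_swap_of_isAltF ha z a, y2, z2, h.ts₁.B a i y y1,
      h.ts₂.B b j z z1] at r r'
    refine Submodule.mem_span_pair.2 ⟨φ.B (g.1 w) z, φ.B (g.1 w) y, (sub_eq_zero.1 (hd _ ?_ ?_)).symm⟩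
    · convert add_mem r (W₁.smul_mem (φ.B (g.1 w) y - φ.B (g.1 w) z) i) using 1; simp; module
    · convert add_mem r' (W₂.smul_mem (φ.B (g.1 w) z - φ.B (g.1 w) y) j) using 1; simp; module
  have d := (Submodule.finrank_mono H).trans (finrank_span_pair_le a b)
  rw [LinearEquiv.finrank_map_eq, finrank_sup_singleton (W := W₂ ⊓ φ.perp (F ∙ p)) fun m => p0 (hd p hp (Submodule.mem_inf.1 m).1)] at d
  have := finrank_le_inf_perp (φ := φ) W₂ (F ∙ p)
  have := finrank_span_singleton_le (F := F) p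
  omega

end Form.TSPair

section
open Matrix Cfsg Cfsg.Geo
variable {ι : Type} [Fintype ι] [DecidableEq ι] {F : Type*} [Field F] {φ : Form F (ι → F)} [φ.Nondeg]

theorem isMaximalIn_pair3 {D : Fin 2 → Submodule F (ι → F)} (h : φ.TSPair (D 0) (D 1))
    (hk : 3 ≤ finrank F (D 0)) (ha : H09.IsAltF φ) (t2 : (2 : F) ≠ 0)
    (hs : ∃ k ∈ φ.E, (∀ x ∈ D 0, k.1 x ∈ D 1) ∧ ∀ x ∈ D 1, k.1 x ∈ D 0) :
    IsMaximalIn (φ.E.map φ.toGL) (decompositionStabilizer D ⊓ φ.E.map φ.toGL) := by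
  have he := h.finrank_eq
  refine isMaximalIn_map _ (fun h0 => ?_) fun M hM g hg _ hg' => ?_
  · obtain ⟨p, hp, hp0⟩ := Submodule.exists_mem_ne_zero_of_ne_bot (p := D 0)
      (by intro h1; rw [h1, finrank_bot] at hk; omega)
    obtain ⟨w, hw, hw', -⟩ := φ.exists_orth (D 0) (F ∙ p) []
      (by have := finrank_span_singleton_le (F := F) p; simp; omega)
    obtain ⟨z, hz, h1, h2⟩ := h.exists_sep (by simpa using hp) hw hw'
    have h3 := h.ts₁.B p hp w hw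
    have h4 : φ.T 0 = φ.Q w := by simp [h.ts₁.Q w hw]
    have h5 : (φ.siegel p w 0).1 z = z + φ.ε • p := by
      rw [φ.siegel_apply (h.ts₁.Q p hp) h3 h4, φ.symm z w, h2,
        φ.B_symm_zero (h1 p (Submodule.mem_span_singleton_self p))]
      simp
    have hd := Submodule.disjoint_def.1 h.compl.disjoint
    rcases toGL_mem_decomp_two.1 (h0 (φ.siegel_mem_E (h.ts₁.Q p hp) h3 h4)) with h6 | h6
    · have h7 := h6.2.le ⟨z, hz, h5⟩
      exact hp0 (hd p hp (((D 1).smul_mem_iff φ.ε_ne_zero).1 ((add_mem_cancel_left hz).1 h7)))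
    · have h7 := h6.2.le ⟨z, hz, h5⟩
      simp [hd z ((add_mem_cancel_right ((D 0).smul_mem _ hp)).1 h7) hz] at h2
  · obtain ⟨k, h1, h2, h3⟩ := hs
    rw [toGL_mem_decomp_two, not_or] at hg'
    refine h.E_le3 ha t2 hk (fun x hx => hM ⟨hx.1, toGL_mem_decomp_two.2 (Or.inl
      ⟨φ.mem_stab_iff_map.1 hx.2.1, φ.mem_stab_iff_map.1 hx.2.2⟩)⟩) (hM ⟨h1, toGL_mem_decomp_two.2
        (Or.inr ⟨?_, ?_⟩)⟩) h2 h3 hg hg'.1 hg'.2
    · exact Submodule.eq_of_le_of_finrank_eq (by rintro _ ⟨x, hx, rfl⟩; exact h2 x hx)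
        (by rw [LinearEquiv.finrank_map_eq, he])
    · exact Submodule.eq_of_le_of_finrank_eq (by rintro _ ⟨x, hx, rfl⟩; exact h3 x hx)
        (by rw [LinearEquiv.finrank_map_eq, he])

end

theorem SpL.pair3 {F : Type*} [Field F] [Fintype F] {m : ℕ} (hm : 3 ≤ m) (hodd : Odd (Fintype.card F)) (D : Fin 2 → Submodule F (Fin m ⊕ Fin m → F)) (hD : Cfsg.Geo.IsMDecomposition m D) (hts : ∀ i, Cfsg.Geo.IsTotallySingularFor (Cfsg.sympForm m F) (D i)) : Cfsg.Geo.IsMaximalIn (Cfsg.spGL m F) (Cfsg.Geo.decompositionStabilizer D ⊓ Cfsg.spGL m F) := by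
  have h0 := H09.isAltF_spForm (l := Fin m) (F := F)
  have h1 : (H09.spForm (Fin m) F).TSPair (D 0) (D 1) := ⟨h0.ts fun x hx y hy =>
    (H09.sympForm_eq _ _ _).symm.trans (hts 0 x hx y hy), h0.ts fun x hx y hy =>
    (H09.sympForm_eq _ _ _).symm.trans (hts 1 x hx y hy), H10.isCompl_of_fin_two hD.indep hD.iSup_eq_top⟩
  have h2 := H10.two_ne_zero_of_odd_card hodd
  rw [H10.spGL_eq_E]
  exact H10.isMaximalIn_pair3 h1 (by rw [hD.finrank_eq]; omega) h0 h2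
    (by simpa [H10.Form.E_eq_top_of_isAltF h0] using h1.exists_swap)

end H10
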