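import Mathlib
import Cfsg.Agent.H10.Subf4

/-!
# Overgroups of unitary subfield subgroups in dimension at least 6
-/

namespace H10

open Module

namespace Form
variable {F V : Type*} [Field F] [AddCommGroup V] [Module F V] {φ : Form F V}
  [φ.Nondeg] [FiniteDimensional F V] [Finite F]

variable (φ) in
/-- the standing hypotheses -/
structure RatU0 (K : Subfield F) (L : Submodule K V) : Prop where
  rat : φ.RatS K L
  sing : ∀ W : Submodule K L, 2 ≤ finrank K W → ∃ v ∈ W, v ≠ 0 ∧ φ.Q v = 0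
  dim : 6 ≤ finrank F V

theorem RatU0.hyp {K : Subfield F} {L : Submodule K V} (h : φ.RatU0 K L) (l : List V) (hl : ∀ x ∈ l, x ∈ L) (hn : l.length ≤ 2) :
    ∃ e ∈ L, ∃ f ∈ L, φ.IsHyp e f ∧ ∀ x ∈ l, φ.B x e = 0 ∧ φ.B x f = 0 ∧ φ.B e x = 0 ∧ φ.B f x = 0 := by
  have := h.rat.nondeg
  have := RatS.finiteDim (L := L)
  have := h.dim
  lift l to List L using hl
  obtain ⟨C, -, h2, h3, h4⟩ := exists_le_orth (φ := h.rat.form) ⊤ (Submodule.span K {x | x ∈ l}) l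
  have h5 := finrank_span_list_le (F := K) l
  obtain ⟨e, h6, h7, h8⟩ := h.sing C (by simp [h.rat.rank] at h4 hn; omega)
  obtain ⟨f, h9, h10⟩ := h.rat.form.exists_partner (W := Submodule.span K {x | x ∈ l}) (Subtype.ext h8)
    (fun h => h7 (Submodule.disjoint_def.1 h2 e h6 h)) (h.rat.form.mem_perp_span.2 fun x hx => h3 e h6 x hx)
  refine ⟨e, e.2, f, f.2, ⟨h8, congrArg Subtype.val h10.Qf, congrArg Subtype.val h10.Bef⟩, fun x hx' => ?_⟩
  obtain ⟨x, hx, rfl⟩ := List.mem_map.1 hx'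
  have a : φ.B x e = 0 := congrArg Subtype.val (h3 e h6 x hx)
  have b : φ.B x f = 0 := congrArg Subtype.val (h.rat.form.mem_perp_span.1 h9 x hx)
  exact ⟨a, b, φ.B_symm_zero a, φ.B_symm_zero b⟩

theorem RatU0.sing_induction {K : Subfield F} {L : Submodule K V} (h : φ.RatU0 K L) {p : V} (hp : p ∈ L) {P : V → Prop}
    (h1 : ∀ z ∈ L, φ.Q z = 0 → φ.B p z = 0 → P z) (h2 : ∀ x y, P x → P y → P (x - y))
    {y : V} (hy : y ∈ L) (hpy : φ.B p y = 0) : P y := by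
  obtain ⟨e, he, f, hf, hyp, h3⟩ := h.hyp [p, y] (by simp [hp, hy]) (by simp)
  simp only [List.mem_cons, List.not_mem_nil, or_false, forall_eq_or_imp, forall_eq] at h3
  obtain ⟨s, h4, h5⟩ := h.rat.half y hy
  have h6 : e - s • f + y ∈ L := L.add_mem (L.sub_mem he (RatS.smul_mem h4 hf)) hy
  convert h2 _ _ (h2 _ _ (h1 _ h6 ?_ (by simp [h3, hpy])) (h1 e he hyp.Qe h3.1.1))
    (h1 (-s • f) (RatS.smul_mem (K.neg_mem h4) hf) (φ.Q_smul_of_sing hyp.Qf _) (by simp [h3])) using 1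
  · module
  · have := hyp.Q_comb 1 (-s) (w := y) (φ.mem_perp_pair.2 ⟨h3.2.2.2.1, h3.2.2.2.2⟩)
    simpa [h5, sub_eq_add_neg] using this

variable (φ) in
/-- an overgroup of the rational Siegel maps -/
structure RatU (K : Subfield F) (L : Submodule K V) (M : Subgroup φ.Isom) : Prop extends φ.RatU0 K L where
  mem : ∀ p ∈ L, ∀ w ∈ L, ∀ s ∈ K, φ.Q p = 0 → φ.B p w = 0 → φ.T s = φ.Q w → φ.siegel p w s ∈ M

namespace RatU
open RatN (Coef inA_of)
variable {K : Subfield F} {L : Submodule K V} {M : Subgroup φ.Isom} (h : φ.RatU K L M)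
include h

omit [φ.Nondeg] [FiniteDimensional F V] [Finite F] in
theorem inA {p u : V} (hp : p ∈ L) (hu : u ∈ L) (hQ : φ.Q p = 0) (h0 : φ.B p u = 0) : InA M p u := by
  obtain ⟨s, h1, h2⟩ := h.rat.half u hu
  exact ⟨h0, s, h2, h.mem p hp u hu s h1 hQ h0 h2⟩

omit [Finite F] in
theorem extract' {p u z w : V} (hp : φ.Q p = 0) (h1 : InA M p u) (hz : z ∈ L) (hw : w ∈ L)
    (hQ : φ.Q z = 0) (h2 : φ.B z w = 0) (h3 : φ.B z p = 0) (h4 : φ.B w p = 0) (h5 : φ.B z u = 0) :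
    φ.siegel p (φ.B w u • z) 0 ∈ M := by
  obtain ⟨-, s, h6, h7⟩ := h.inA hz hw hQ h2
  exact extract hp h1 hQ h2 h6 h7 h3 h4 h5

omit [φ.Nondeg] [FiniteDimensional F V] [Finite F] in
theorem coef_of_mem {c : F} (hc : c ∈ K) : Coef K L M c := fun p hp z hz h1 h2 h3 =>
  h.mem p hp _ (RatS.smul_mem hc hz) 0 K.zero_mem h1 (by simp [h3]) (by simp [φ.Q_smul_of_sing h2])

theorem coef_σ_mul {c d : F} (hc : Coef K L M c) (hd : Coef K L M d) : Coef K L M (φ.σ d * c) := by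
  intro p hp z hz h1 h2 h3
  obtain ⟨e, he, f, hf, hyp, h4⟩ := h.hyp [p, z] (by simp [hp, hz]) (by simp)
  simp only [List.mem_cons, List.not_mem_nil, or_false, forall_eq_or_imp, forall_eq] at h4
  simpa [hyp.Bef, mul_comm c] using extract h1 (inA_of hyp.Qf h4.1.2.1 (hc p hp f hf h1 hyp.Qf h4.1.2.1))
    h2 (w := d • e) (by simp [h4]) (by simp [φ.Q_smul_of_sing hyp.Qe])
    (hd z hz e he h2 hyp.Qe h4.2.1) (φ.B_symm_zero h3) (by simp [h4]) (by simp [h4])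

/-- the coefficient algebra -/
def coefAlg : Subalgebra K F where
  carrier := {c | Coef K L M c}
  mul_mem' {c d} hc hd := by
    simpa using h.coef_σ_mul hd (h.coef_σ_mul (h.coef_of_mem K.one_mem) hc)
  add_mem' {c d} hc hd p hp z hz h1 h2 h3 := by
    have := M.mul_mem (hc p hp z hz h1 h2 h3) (hd p hp z hz h1 h2 h3)
    rw [φ.siegel_mul h1 (by simp [h3]) (by simp [φ.Q_smul_of_sing h2]) (by simp [h3])
      (by simp [φ.Q_smul_of_sing h2])] at this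
    simpa [φ.B_self_eq_zero h2, add_smul] using this
  algebraMap_mem' c := h.coef_of_mem c.2

theorem mv {c : F} {p u z : V} (hp : p ∈ L) (hu : u ∈ L) (hz : z ∈ L) (h1 : φ.Q p = 0) (h3 : φ.Q z = 0) (h5 : φ.B p z = 0)
    (h4 : φ.B z u = 0) (h6 : u ∉ Submodule.span F {p, z}) (h7 : InA M p (c • u)) : φ.siegel p (c • z) 0 ∈ M := by
  obtain ⟨w, hw, h9, h10⟩ := h.rat.exists_sep hu h6
  simpa [h10] using h.extract' h1 h7 hz hw h3 (φ.B_symm_zero (h9 z hz (Submodule.subset_span (by simp)))) (φ.B_symm_zero h5)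
    (h9 p hp (Submodule.subset_span (by simp))) (by simp [h4])

theorem coef_move {c : F} {p u z : V} (hp : p ∈ L) (hu : u ∈ L) (hz : z ∈ L) (h1 : φ.Q p = 0)
    (h2 : φ.Q u = 0) (h3 : φ.Q z = 0) (h4 : φ.B p u = 0) (h5 : φ.B p z = 0) (h6 : u ∉ F ∙ p)
    (h7 : InA M p (c • u)) : φ.siegel p (c • z) 0 ∈ M := by
  obtain ⟨e, he, f, hf, hyp, h8⟩ := h.hyp [p, u] (by simp [hp, hu]) (by simp)
  simp only [List.mem_cons, List.not_mem_nil, or_false, forall_eq_or_imp, forall_eq] at h8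
  have a : ∀ k ∈ K, InA M p (c • k • e) := fun k hk => inA_of (φ.Q_smul_of_sing hyp.Qe k) (by simp [h8])
    (h.mv hp hu (RatS.smul_mem hk he) h1 (φ.Q_smul_of_sing hyp.Qe k) (by simp [h8]) (by simp [h8]) (fun m => by
      obtain ⟨i, j, m⟩ := Submodule.mem_span_pair.1 m
      have : j • k • e = 0 := by
        have := congrArg (φ.B f) m
        simp only [map_add, map_smul, h8, hyp.Bfe, smul_eq_mul, mul_zero, zero_add, ← mul_assoc, mul_eq_zero (b := φ.ε), φ.ε_ne_zero, or_false] at this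
        rw [smul_smul, this, zero_smul]
      exact h6 (Submodule.mem_span_singleton.2 ⟨i, by rwa [this, add_zero] at m⟩)) h7)
  have a1 : InA M p (c • e) := by simpa using a 1 K.one_mem
  have b : ∀ k ∈ K, InA M p (c • k • u) := fun k hk => inA_of (φ.Q_smul_of_sing h2 k) (by simp [h4])
    (h.mv hp he (RatS.smul_mem hk hu) h1 (φ.Q_smul_of_sing h2 k) (by simp [h4]) (by simp [h8]) (fun m => by
      obtain ⟨i, j, m⟩ := Submodule.mem_span_pair.1 m
      simpa [h8, hyp.Bfe, φ.ε_ne_zero.symm] using congrArg (φ.B f) m) a1)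
  by_cases i : φ.B z e = 0 ∧ φ.B z u = 0
  · by_cases j : u ∈ Submodule.span F {p, z}
    swap
    · exact h.mv hp hu hz h1 h3 h5 i.2 j h7
    refine h.mv hp he hz h1 h3 h5 i.1 (fun m => ?_) a1
    obtain ⟨s, t, j⟩ := Submodule.mem_span_pair.1 j
    obtain ⟨s', t', m⟩ := Submodule.mem_span_pair.1 m
    have m1 : t' * φ.B f z = φ.ε := by simpa [h8, hyp.Bfe] using congrArg (φ.B f) m
    have m2 : t * φ.B f z = 0 := by simpa [h8] using congrArg (φ.B f) j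
    obtain rfl : t = 0 := (mul_eq_zero.1 m2).resolve_right fun e => φ.ε_ne_zero (by rw [← m1, e, mul_zero])
    exact h6 (Submodule.mem_span_singleton.2 ⟨s, by simpa using j⟩)
  have k1 := h.rat.B_mem _ hz _ he
  have k2 := h.rat.B_mem _ hz _ hu
  refine h.mv hp (L.sub_mem (RatS.smul_mem k1 hu) (RatS.smul_mem k2 he)) hz h1 h3 h5 (by simp [mul_comm]) (fun m => ?_)
    (by rw [smul_sub]; exact (b _ k1).sub h1 (a _ k2))
  obtain ⟨s, t, m⟩ := Submodule.mem_span_pair.1 m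
  have m1 : t * φ.B e z = 0 := by simpa [h8, hyp.Bee] using congrArg (φ.B e) m
  have m2 : t * φ.B u z = 0 := by simpa [h8, φ.B_self_eq_zero h2, φ.B_symm_zero h4] using congrArg (φ.B u) m
  obtain rfl : t = 0 := by_contra fun n => i ⟨φ.B_symm_zero ((mul_eq_zero.1 m1).resolve_left n), φ.B_symm_zero ((mul_eq_zero.1 m2).resolve_left n)⟩
  have m3 : φ.B z u = 0 := by simpa [h8, hyp.Bfe, φ.ε_ne_zero] using congrArg (φ.B f) m
  have m4 : φ.B z e ≠ 0 := fun n => i ⟨n, m3⟩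
  exact h6 ((Submodule.smul_mem_iff _ m4).1 (Submodule.mem_span_singleton.2 ⟨s, by simpa [m3] using m⟩))

theorem coef_of_pair {c : F} {p u : V} (hp : p ∈ L) (hu : u ∈ L) (h1 : φ.Q p = 0) (hp0 : p ≠ 0)
    (h2 : φ.Q u = 0) (h4 : φ.B p u = 0) (h6 : u ∉ F ∙ p) (h7 : InA M p (c • u)) :
    Coef K L M c := by
  intro y hy z hz h8 h9 h10
  obtain ⟨e, he, f, hf, hyp, h11⟩ := h.hyp [p, y] (by simp [hp, hy]) (by simp)
  simp only [List.mem_cons, List.not_mem_nil, or_false, forall_eq_or_imp, forall_eq] at h11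
  have h12 : ∀ x, φ.B f x = 0 → e ∉ F ∙ x := fun x hx h0 => by
    obtain ⟨a, rfl⟩ := Submodule.mem_span_singleton.1 h0
    simpa [hx, φ.ε_ne_zero.symm] using hyp.Bfe
  have h13 := h.coef_move hp hu he h1 h2 hyp.Qe h4 h11.1.1 h6 h7
  rw [siegel_swap h1 hyp.Qe h11.1.1] at h13
  have h14 := h.coef_move he hp hy hyp.Qe h1 h8 h11.1.2.2.1 h11.2.2.2.1
    (not_mem_span_singleton_symm hp0 (h12 p h11.1.2.2.2)) (inA_of h1 h11.1.2.2.1 h13)
  rw [siegel_swap hyp.Qe h8 h11.2.2.2.1] at h14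
  simpa using h.coef_move hy he hz h8 hyp.Qe h9 h11.2.1 h10 (h12 y h11.2.2.2.2) (inA_of hyp.Qe h11.2.1 h14)

theorem E_le_of_coef (hc : ∀ c, Coef K L M c) (hT : ∀ t, φ.T t = 0 →
    (∃ b, t = b - φ.ε * φ.σ b) ∨ ∃ a, ∃ d ∈ K, φ.T d = 0 ∧ t = φ.σ a * a * d) : φ.E ≤ M := by
  have key : ∀ p ∈ L, ∀ f ∈ L, φ.IsHyp p f → φ.Full M p := fun p hp f hf hyp => by
    obtain ⟨e, he, e', he', hyp', h1⟩ := h.hyp [p, f] (by simp [hp, hf]) (by simp)
    simp only [List.mem_cons, List.not_mem_nil, or_false, forall_eq_or_imp, forall_eq] at h1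
    have hX : ∀ t, φ.T t = 0 → φ.siegel p 0 t ∈ M := fun t ht => by
      rcases hT t ht with ⟨b, rfl⟩ | ⟨a, d, h2, h3, rfl⟩
      · have := siegel_commutator hyp.Qe (a := (1 : F) • e) (b := b • e') (s := 0) (t := 0)
          (by simp [h1]) (by simp [hyp'.Qe]) (by simp [h1]) (by simp [φ.Q_smul_of_sing hyp'.Qf])
        simp only [one_smul, map_smul, hyp'.Bef, smul_eq_mul, mul_one, B_smul_left, hyp'.Bfe,
          mul_comm _ φ.ε] at this
        have h2 : φ.siegel p e 0 ∈ M := by simpa using hc 1 p hp e he hyp.Qe hyp'.Qe h1.1.1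
        have h3 := hc b p hp e' he' hyp.Qe hyp'.Qf h1.1.2.1
        rw [← this]
        exact M.mul_mem (M.mul_mem (M.mul_mem h2 h3) (M.inv_mem h2)) (M.inv_mem h3)
      by_cases ha : a = 0
      · simp [ha, φ.siegel_zero hyp.Qe, M.one_mem]
      have h4 := siegel_conj_mem (M.mul_mem (hc (-(φ.σ a)⁻¹ * φ.ε) e' he' f hf hyp'.Qf hyp.Qf h1.2.2.2.2)
        (hc (φ.σ a) p hp e he hyp.Qe hyp'.Qe h1.1.1)) hyp'.Qf (w := 0) (s := d) (by simp)
        (by simpa using h3) (h.mem e' he' 0 L.zero_mem d h2 hyp'.Qf (by simp) (by simpa using h3))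
      rw [map_zero, Isom.mul_apply, φ.siegel_apply hyp.Qe (by simp [h1]) (by simp [φ.Q_smul_of_sing hyp'.Qe]),
        φ.siegel_apply hyp'.Qf (by simp [h1]) (by simp [φ.Q_smul_of_sing hyp.Qf])] at h4
      have h5 := siegel_smul hyp.Qe (w := 0) (s := d) (by simp) (by simpa using h3) a
      rw [smul_zero] at h5
      convert h4 using 1
      rw [← h5]
      have h6 : a⁻¹ * φ.ε * (a * φ.ε) = 1 := by
        rw [mul_mul_mul_comm, inv_mul_cancel₀ ha, ε_mul_ε, one_mul]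
      simp [h1, hyp'.Bef, hyp'.Bff, hyp.Bfe, h6]
    refine full_of_le_sgSub (hp := hyp.Qe) (hX := hX) fun y hy => ?_
    have := h.rat.mem_of_le (A := (sgSub M hyp.Qe hX).comap (LinearMap.id - (φ.B p).smulRight f))
      (fun x hx => h.sing_induction hp
        (P := (· ∈ sgSub M hyp.Qe hX)) (fun z hz h2 h3 => ⟨h3, fun c => ⟨0,
          by simp [φ.Q_smul_of_sing h2], hc c p hp z hz hyp.Qe h2 h3⟩⟩) (fun _ _ => sub_mem)
        (L.sub_mem hx (RatS.smul_mem (h.rat.B_mem _ hp _ hx) hf)) (by simp [hyp.Bef])) y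
    simpa [φ.mem_perp_singleton.1 hy] using this
  obtain ⟨e, he, f, hf, hyp, -⟩ := h.hyp [] (by simp) (by simp)
  exact E_le_of_full (key e he f hf hyp) hyp.Qe (key f hf _ (RatS.smul_mem h.rat.ε_mem he) hyp.symm)
    hyp.Qf (by simp [hyp.Bef])

section rat
variable (hc : ∀ c, Coef K L M c → c ∈ K) {d : F} (hd : d ∈ K) (hd0 : d ≠ 0) (hT : φ.T d = 0)
include hc hd hd0 hT

theorem exists_add_mem {p u : V} (hp : p ∈ L) (hQ : φ.Q p = 0) (hp0 : p ≠ 0) (hu : InA M p u) :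
    ∃ d : F, u + d • p ∈ L := by
  have hT' : φ.T d = φ.Q 0 := by simpa using hT
  refine h.rat.exists_add_mem hp hQ fun x hx hx' => ?_
  rw [φ.symm]
  refine K.mul_mem h.rat.ε_mem (h.rat.σ_mem _ (h.sing_induction hp
    (P := fun x => φ.B x u ∈ K) (fun z hz h1 h2 => ?_) (fun x y h1 h2 => by simpa using K.sub_mem h1 h2)
    hx hx'))
  by_cases i : z ∈ F ∙ p
  · obtain ⟨a, rfl⟩ := Submodule.mem_span_singleton.1 i
    simp [hu.1]
  have h6 := hu.map hQ (h.mem z hz 0 L.zero_mem d hd h1 (by simp) hT')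
  rw [siegel_apply_of_orth h1 (by simp) hT' (φ.B_symm_zero h2) (by simp), φ.siegel_apply h1 (by simp) hT'] at h6
  exact mem_of_mul_mem (hc (φ.ε * d * φ.B z u) (h.coef_of_pair hp hz hQ hp0 h1 h2 i (by simpa using hu.sub hQ h6)))
    (K.mul_mem h.rat.ε_mem hd) (mul_ne_zero φ.ε_ne_zero hd0)

omit hc hd hd0 hT in
theorem coef_mem {u y y' e : V} (hu : u ∈ L) (hy : y ∈ L) (hy' : y' ∈ L)
    (he : e ∈ L) (h2 : φ.B e u = 0) (h3 : φ.B e y = 0) (h4 : φ.B e y' = 1)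
    (h5 : u ∉ F ∙ y) {a b c : F} (h6 : a • u + b • y + c • y' ∈ L) : a ∈ K := by
  obtain ⟨w, hw, h7, h8⟩ := h.rat.exists_sep hu h5
  simpa [h2, h3, h4, h8, mul_comm c, h7 y hy (Submodule.mem_span_singleton_self y)] using h.rat.B_mem (w - φ.σ (φ.B w y') • e)
    (L.sub_mem hw (RatS.smul_mem (h.rat.σ_mem _ (h.rat.B_mem _ hw _ hy')) he)) _ h6

omit hc hd hd0 hT in
/-- recognising a vector that is rational up to a scalar -/
theorem exists_smul_mem {v : V}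
    (H : ∀ y ∈ L, ∀ y' ∈ L, ∀ u ∈ L, φ.Q y = 0 → φ.Q y' = 0 → φ.B y y' = 0 → φ.B y u = 0 → φ.B y' u = 0 → φ.B v y ≠ 0 →
      φ.B v y' ≠ 0 → ∃ ν c : F, ν ≠ 0 ∧ ν • u + (-(ν * (φ.B v u / φ.B v y))) • y + c • y' ∈ L) :
    ∃ c : F, c ≠ 0 ∧ c • v ∈ L := by
  by_cases h0 : ∀ y ∈ L, φ.Q y = 0 → φ.B v y = 0
  · refine ⟨1, one_ne_zero, h.rat.mem_of_B fun x hx => ?_⟩
    rw [one_smul, h.sing_induction L.zero_mem (P := fun x => φ.B v x = 0) (fun z a b _ => h0 z a b)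
      (fun x y h1 h2 => by simp [h1, h2]) hx (by simp)]
    exact K.zero_mem
  have h1 : ∀ y ∈ L, φ.Q y = 0 → φ.B v y ≠ 0 → ∀ u ∈ L, φ.B y u = 0 →
      φ.B v u / φ.B v y ∈ K := fun y hy h2 h4 u hu h6 => by
    by_cases h8 : u ∈ F ∙ y
    · obtain ⟨a, rfl⟩ := Submodule.mem_span_singleton.1 h8
      obtain ⟨w, hw, -, h10⟩ := h.rat.exists_sep (W := ⊥) hy (by rintro rfl; simp at h4)
      simpa [h4, h10] using h.rat.B_mem _ hw _ hu
    obtain ⟨e, he, f, hf, hyp, h9⟩ := h.hyp [y, u] (by simp [hy, hu]) (by simp)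
    simp only [List.mem_cons, List.not_mem_nil, or_false, forall_eq_or_imp, forall_eq] at h9
    obtain ⟨y', h10, h11, h13, h14, h15, h16⟩ : ∃ y' ∈ L, φ.Q y' = 0 ∧
        φ.B y y' = 0 ∧ φ.B y' u = 0 ∧ φ.B v y' ≠ 0 ∧ φ.B e y' = 1 := by
      by_cases h10 : φ.B v f = 0
      · exact ⟨y + f, L.add_mem hy hf, by rw [φ.Q_add_of_orth h9.1.2.1, h2, hyp.Qf, add_zero],
          by simp [h9, φ.B_self_eq_zero h2], by simp [h9, h6], by simp [h10, h4], by simp [h9, hyp.Bef]⟩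
      · exact ⟨f, hf, hyp.Qf, h9.1.2.1, h9.2.2.2.2, h10, hyp.Bef⟩
    obtain ⟨ν, c, h17, h18⟩ := H y hy y' h10 u hu h2 h11 h13 h6 h14 h4 h15
    have h19 := h.coef_mem hu hy h10 he h9.2.2.2.1 h9.1.2.2.1 h16 h8 h18
    by_cases u0 : u = 0
    · simp [u0]
    rw [add_comm (ν • u)] at h18
    exact mem_of_mul_mem (K.neg_mem_iff.1 (h.coef_mem hy hu h10 he h9.1.2.2.1
      h9.2.2.2.1 h16 (not_mem_span_singleton_symm (by rintro rfl; simp at h4) h8) h18)) h19 h17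
  push Not at h0
  obtain ⟨y, hy, h2, h4⟩ := h0
  refine ⟨φ.σ (φ.B v y)⁻¹, by simpa using h4, h.rat.mem_of_B fun u hu => ?_⟩
  rw [B_smul_left, σ_σ, ← div_eq_inv_mul]
  obtain ⟨e, he, f, hf, hyp, h9⟩ := h.hyp [y, u] (by simp [hy, hu]) (by simp)
  simp only [List.mem_cons, List.not_mem_nil, or_false, forall_eq_or_imp, forall_eq] at h9
  by_cases h6 : φ.B v (y + e) = 0
  · have h7 : φ.B v e = -φ.B v y := by rw [map_add] at h6; linear_combination h6
    simpa [h7, div_neg] using h1 e he hyp.Qe (by simpa [h7] using h4) u hu h9.2.2.2.1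
  have h7 := h.rat.B_mem _ hy _ hu
  have h8 := h1 _ (L.add_mem hy he) (by rw [φ.Q_add_of_orth h9.1.1, h2, hyp.Qe, add_zero])
    h6 _ (L.sub_mem hu (RatS.smul_mem h7 hf)) (by simp [h9, hyp.Bef])
  convert K.add_mem (K.mul_mem h8 (K.add_mem K.one_mem (h1 y hy h2 h4 e he h9.1.1)))
    (K.mul_mem h7 (h1 y hy h2 h4 f hf h9.1.2.1)) using 1
  simp only [map_add, map_sub, map_smul, smul_eq_mul] at h6 ⊢
  field_simp
  ring

theorem exists_smul_mem_of_tv {g : φ.Isom}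
    (hg : g ∈ M) {x : V} (hx : x ∈ L) (hQ : φ.Q x = 0) : ∃ c : F, c ≠ 0 ∧ c • g.1 x ∈ L := by
  have hT' : φ.T d = φ.Q 0 := by simpa using hT
  have ha := siegel_conj_mem hg hQ (by simp) hT' (h.mem x hx 0 L.zero_mem d hd hQ (by simp) hT')
  have hv : φ.Q (g.1 x) = 0 := by simpa using hQ
  generalize g.1 x = v at ha hv
  rw [map_zero] at ha
  have key : ∀ y ∈ L, φ.Q y = 0 → φ.B v y ≠ 0 → ∃ γ ∈ M, ∃ μ : F, μ ≠ 0 ∧
      (∀ u, φ.B v u = 0 → φ.B y u = 0 → γ.1 u = u) ∧ γ.1 y = μ • v := fun y hy h1 h2 => by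
    obtain ⟨γ, h3, μ, h4, h5, h6⟩ := exists_weyl φ.Isom.subtype ha
      (h.mem y hy 0 L.zero_mem d hd h1 (by simp) hT') (α := -(φ.ε * d * φ.B v y))
      (β := -(φ.ε * d * φ.B y v)) (by simp [hd0, h2, φ.ε_ne_zero])
      (by simp [hd0, φ.B_eq_zero_comm.not.1 h2, φ.ε_ne_zero])
    refine ⟨γ, h3, μ, h4, fun u h7 h8 => h5 u (siegel_apply_of_orth hv (by simp) hT' h7 (by simp))
      (siegel_apply_of_orth h1 (by simp) hT' h8 (by simp)), h6 v y (siegel_apply_self hv (by simp) hT') ?_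
      (siegel_apply_self h1 (by simp) hT') ?_⟩
    · exact (φ.siegel_apply hv (by simp) hT' y).trans (by simp [sub_eq_add_neg])
    · exact (φ.siegel_apply h1 (by simp) hT' v).trans (by simp [sub_eq_add_neg])
  exact h.exists_smul_mem
    fun y hy y' hy' u hu h1 h2 h3 h4 h5 h6 h7 => by
      obtain ⟨γ, h8, μ, h9, h10, h11⟩ := key y hy h1 h6
      obtain ⟨γ', h12, μ', h13, h14, h15⟩ := key y' hy' h2 h7
      have h16 : (γ'⁻¹ * γ).1 y = (μ * μ'⁻¹) • y' := by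
        rw [Isom.mul_apply, Isom.inv_apply_eq, h11, map_smul, h15, smul_smul, inv_mul_cancel_right₀ h13]
      have h17 : (γ'⁻¹ * γ).1 (u - (φ.B v u / φ.B v y) • y) = u - (φ.B v u / φ.B v y) • y := by
        rw [Isom.mul_apply, Isom.inv_apply_eq, h10 _ (by simp [h6]) (by simp [h4, φ.B_self_eq_zero h1]),
          h14 _ (by simp [h6]) (by simp [h5, φ.B_symm_zero h3])]
      have h18 := (h.inA hy hu h1 h4).map h1 (M.mul_mem (M.inv_mem h12) h8)
      rw [map_sub, map_smul, h16, sub_eq_iff_eq_add] at h17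
      rw [h16, h17] at h18
      obtain ⟨e, he⟩ := h.exists_add_mem hc hd hd0 hT hy' h2 (by rintro rfl; simp at h7)
        (h18.of_smul h2 (by simp [h9, h13]))
      refine ⟨φ.σ (μ * μ'⁻¹), φ.σ (μ * μ'⁻¹) * (φ.B v u / φ.B v y) * (μ * μ'⁻¹) + e,
        by simp [h9, h13], ?_⟩
      convert he using 1
      module

end rat

theorem exists_smul_of_sing {g : V ≃ₗ[F] V}
    (H : ∀ y ∈ L, φ.Q y = 0 → ∃ c : F, c ≠ 0 ∧ c • g y ∈ L) : ∃ c : F, c ≠ 0 ∧ ∀ x ∈ L, c • g x ∈ L := by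
  have h1 : ∀ y ∈ L, ∀ z ∈ L, φ.Q y = 0 → φ.Q z = 0 → φ.B y z = 0 → y ∉ F ∙ z → z ≠ 0 →
      ∀ c : F, c ≠ 0 → c • g y ∈ L → c • g z ∈ L := fun y hy z hz h2 h3 h4 h5 h6 c hc h7 => by
    obtain ⟨a, ha, h8⟩ := H _ (L.add_mem hy hz) (by rw [φ.Q_add_of_orth h4, h2, h3, add_zero])
    obtain ⟨b, hb, h9⟩ := H z hz h3
    have h10 : ∀ y z : V, y ∉ F ∙ z → ∀ b c : F, b ≠ 0 → c ≠ 0 → c • g y ∈ L → b • g z ∈ L →
        a • g (y + z) ∈ L → a / c ∈ K := fun y z h10 b c hb hc h11 h12 h13 => by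
      obtain ⟨w, hw, h14, h15⟩ := h.rat.exists_sep (W := F ∙ g z) h11 fun h0 => by
        obtain ⟨d, hd⟩ := Submodule.mem_span_singleton.1 h0
        exact h10 (Submodule.mem_span_singleton.2 ⟨c⁻¹ * d, g.injective (by
          rw [map_smul, mul_smul, hd, smul_smul, inv_mul_cancel₀ hc, one_smul])⟩)
      have h16 : φ.B w (g z) = 0 := by
        simpa [hb] using h14 _ h12 (Submodule.smul_mem _ _ (Submodule.mem_span_singleton_self _))
      convert h.rat.B_mem _ hw _ h13 using 1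
      simp only [map_smul, map_add, smul_eq_mul, h16, add_zero] at h15 ⊢
      rw [div_eq_iff hc, mul_assoc, mul_comm _ c, h15, mul_one]
    have h11 := h10 y z h5 b c hb hc h7 h9 h8
    have h12 := h10 z y (not_mem_span_singleton_symm h6 h5) c b hc hb h9 h7 (add_comm y z ▸ h8)
    convert RatS.smul_mem (K.div_mem h12 h11) h9 using 1
    rw [smul_smul]; congr 1; field_simp
  obtain ⟨p, hp, f, hf, hyp, -⟩ := h.hyp [] (by simp) (by simp)
  obtain ⟨c, hc, h2⟩ := H p hp hyp.Qe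
  refine ⟨c, hc, fun x hx => h.sing_induction L.zero_mem
    (P := fun x => c • g x ∈ L) (fun z hz h3 _ => ?_)
    (fun x y h1 h2 => by rw [map_sub, smul_sub]; exact L.sub_mem h1 h2) hx (by simp)⟩
  by_cases hz0 : z = 0
  · simp [hz0]
  obtain ⟨e, he, e', he', hyp', h4⟩ := h.hyp [p, z] (by simp [hp, hz]) (by simp)
  simp only [List.mem_cons, List.not_mem_nil, or_false, forall_eq_or_imp, forall_eq] at h4
  have h5 : ∀ x, φ.B e' x = 0 → e ∉ F ∙ x := fun x hx h0 => by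
    obtain ⟨a, rfl⟩ := Submodule.mem_span_singleton.1 h0
    simpa [hx, φ.ε_ne_zero.symm] using hyp'.Bfe
  exact h1 e he z hz hyp'.Qe h3 h4.2.2.2.1 (h5 z h4.2.2.2.2) hz0 c hc (h1 p hp e he hyp.Qe hyp'.Qe
    h4.1.1 (not_mem_span_singleton_symm hyp.e_ne_zero (h5 p h4.1.2.2.2)) hyp'.e_ne_zero c hc h2)

theorem dichotomy (hK : (finrank K F).Prime) (hT : ∀ t, φ.T t = 0 →
    (∃ b, t = b - φ.ε * φ.σ b) ∨ ∃ a, ∃ d ∈ K, φ.T d = 0 ∧ t = φ.σ a * a * d)
    (hcase : ∃ d ∈ K, d ≠ 0 ∧ φ.T d = 0) :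
    φ.E ≤ M ∨ ∀ g ∈ M, ∃ c : F, c ≠ 0 ∧ ∀ x ∈ L, c • g.1 x ∈ L := by
  have := Subalgebra.isSimpleOrder_of_finrank_prime K F hK
  rcases eq_bot_or_eq_top h.coefAlg with h0 | h0
  swap
  · exact Or.inl (h.E_le_of_coef (fun c => (h0.ge Algebra.mem_top : c ∈ h.coefAlg)) hT)
  have hc : ∀ c, Coef K L M c → c ∈ K := fun c hc => by
    obtain ⟨a, rfl⟩ := Algebra.mem_bot.1 (h0.le hc)
    exact a.2
  obtain ⟨d, h1, h2, h3⟩ := hcase
  exact Or.inr fun g hg => h.exists_smul_of_sing fun y hy hQ => h.exists_smul_mem_of_tv hc h1 h2 h3 hg hy hQ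

end RatU
end Form

open Matrix Cfsg Cfsg.Geo
section
variable {ι : Type} [Fintype ι] [DecidableEq ι] {F : Type*} [Field F] {K : Subfield F} {P : GL ι F}

theorem isMaximalIn_subfield6 [Finite F] {φ : Form F (ι → F)} [φ.Nondeg] (hu : φ.RatU0 K (ratL K P)) (hK : (finrank K F).Prime)
    (hT : ∀ t, φ.T t = 0 → (∃ b, t = b - φ.ε * φ.σ b) ∨
      ∃ a, ∃ d ∈ K, φ.T d = 0 ∧ t = φ.σ a * a * d)
    (hcase : ∃ d ∈ K, d ≠ 0 ∧ φ.T d = 0) :
    IsMaximalIn (φ.E.map φ.toGL) (subfieldSubgroup K P ⊓ φ.E.map φ.toGL) := by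
  have h := hu.rat
  refine isMaximalIn_map _ (fun h0 => ?_) fun M hM g hg _ hg' => ?_
  · obtain ⟨c, hc⟩ := exists_not_mem_of_prime hK
    obtain ⟨p, hp, f, hf, hyp, -⟩ := hu.hyp [] (by simp) (by simp)
    obtain ⟨e, he, e', he', hyp', h1⟩ := hu.hyp [p, f] (by simp [hp, hf]) (by simp)
    simp only [List.mem_cons, List.not_mem_nil, or_false, forall_eq_or_imp, forall_eq] at h1
    have h2 : φ.B p (φ.σ c • e) = 0 := by simp [h1]
    have h3 : φ.T 0 = φ.Q (φ.σ c • e) := by simp [φ.Q_smul_of_sing hyp'.Qe]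
    obtain ⟨d, hd, h4⟩ := mem_subfieldSubgroup_iff.1 (h0 (φ.siegel_mem_E hyp.Qe h2 h3))
    simp only [toGL_mulVec] at h4
    have h5 := h.B_mem _ (h4 p hp) f hf
    have h6 := h.B_mem _ (h4 e' he') f hf
    rw [Form.siegel_apply_self hyp.Qe h2 h3] at h5
    rw [φ.siegel_apply hyp.Qe h2 h3] at h6
    simp only [hyp.Bef, h1, hyp'.Bef, mul_zero, zero_smul, sub_zero,
      Form.B_smul_left, mul_one, map_add, LinearMap.add_apply, zero_add, Form.σ_σ] at h5 h6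
    exact hc (by simpa using h.σ_mem _ (Form.mem_of_mul_mem h6 h5 (by simpa using hd)))
  · refine (Form.RatU.dichotomy ⟨hu, fun p hp w hw s hs h1 h2 h3 =>
      hM ⟨φ.siegel_mem_E h1 h2 h3, mem_subfieldSubgroup_iff.2 ⟨1, one_ne_zero, fun x hx => ?_⟩⟩⟩
      hK hT hcase).resolve_right fun h0 => hg' (mem_subfieldSubgroup_iff.2 ?_)
    · rw [toGL_mulVec, one_smul, φ.siegel_apply h1 h2 h3]
      exact sub_mem (sub_mem (add_mem hx (Form.RatS.smul_mem (h.B_mem _ hw _ hx) hp))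
        (Form.RatS.smul_mem (K.mul_mem h.ε_mem (h.B_mem _ hp _ hx)) hw))
        (Form.RatS.smul_mem (K.mul_mem (K.mul_mem h.ε_mem hs) (h.B_mem _ hp _ hx)) hp)
    · simpa only [toGL_mulVec] using h0 g hg

end

theorem su6_9 {F : Type*} [Field F] [Fintype F] {q : ℕ} (hF : Fintype.card F = q ^ 2) :
    ∀ (F₀ : Subfield F) (r : ℕ) (P : Matrix.GeneralLinearGroup (Fin 6) F), r.Prime → Odd r → Fintype.card F = Nat.card F₀ ^ r → Cfsg.Geo.IsFormRationalStructure (Cfsg.hermForm 6 F q) F₀ 1 P → Cfsg.Geo.IsMaximalIn (Cfsg.GU 6 F q ⊓ Cfsg.Geo.specialLinear (Fin 6) F) (Cfsg.Geo.subfieldSubgroup F₀ P ⊓ (Cfsg.GU 6 F q ⊓ Cfsg.Geo.specialLinear (Fin 6) F)) := by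
  intro F₀ r P hr hro hcard hP
  have hF' : Nat.card F = q ^ 2 := by rw [Nat.card_eq_fintype_card, hF]
  have h0 := H10.stdU_isUnitary hF' 6
  have hK := H10.finrank_eq_of_card hcard
  have h1 : ∀ a ∈ F₀, (H10.stdU hF' 6).σ a ∈ F₀ := fun a ha => h0.σ_eq a ▸ F₀.pow_mem ha q
  let σ₀ : F₀ →+* F₀ := ((H10.stdU hF' 6).σ.comp F₀.subtype).codRestrict F₀ fun a => h1 a a.2
  have h2 : σ₀ ≠ RingHom.id F₀ := fun h => by
    have := Subalgebra.isSimpleOrder_of_finrank_prime F₀ F (hK ▸ hr)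
    let A : Subalgebra F₀ F :=
      { (H10.stdU hF' 6).σ.eqLocus (RingHom.id F) with
        algebraMap_mem' := fun a => congrArg Subtype.val (RingHom.congr_fun h a) }
    rcases eq_bot_or_eq_top A with h3 | h3
    · have h4 : Nat.card F₀ = q := by
        rw [← H10.card_fixed hF']
        refine Nat.card_congr (Equiv.subtypeEquivRight fun x => ⟨fun hx => ?_, fun hx => ?_⟩)
        · exact (h0.σ_eq x).symm.trans (A.algebraMap_mem ⟨x, hx⟩)
        · obtain ⟨a, rfl⟩ := Algebra.mem_bot.1 (h3.le ((h0.σ_eq x).trans hx))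
          exact a.2
      rw [h4, hF] at hcard
      rw [← Nat.pow_right_injective (H10.two_le_q hF') hcard] at hro
      exact absurd hro (by decide)
    · obtain ⟨a, ha⟩ := h0.exists_σ_ne
      exact ha (h3.ge Algebra.mem_top)
  have h3 : ∀ a, σ₀ (σ₀ a) = a := fun a => Subtype.ext ((H10.stdU hF' 6).σ_σ a)
  obtain ⟨θ, hθ⟩ := H10.Form.exists_theta h2 h3
  replace hθ : (θ : F) + (H10.stdU hF' 6).σ θ = 1 := congrArg Subtype.val hθ
  have h4 : (H10.stdU hF' 6).RatS F₀ (H10.ratL F₀ P) :=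
    H10.ratS_of h1 (fun u v hu hv => by simpa [H10.stdU_B] using hP v u hv hu)
      (fun u hu => by simpa [H10.stdU_Q] using hP u u hu hu)
      (fun a ha => h0.herm.T_eq a ▸ F₀.add_mem ha (h1 a ha)) fun x _ hx => ⟨_, F₀.mul_mem θ.2 hx, by
        rw [h0.herm.T_eq, map_mul, h0.herm.σ_Q]; linear_combination (H10.stdU hF' 6).Q x * hθ⟩
  obtain ⟨q₀, h5, h6⟩ := H10.exists_q_of_involutive h2 h3
  have h7 : h4.form.IsUnitary q₀ :=
    ⟨⟨Subtype.ext h0.herm.ε_eq, fun a => Subtype.ext (h0.herm.T_eq a)⟩, h5, h6⟩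
  rw [H10.SU_eq_E hF' (by omega)]
  refine H10.isMaximalIn_subfield6 ⟨h4, fun W hW => ?_, by simp⟩ (hK ▸ hr) (fun t ht => Or.inl ?_) ?_
  · have := H10.Form.RatS.finiteDim (L := H10.ratL F₀ P)
    obtain ⟨v, h8, h9, h10⟩ := h7.exists_singular (W := W) (by omega)
    exact ⟨v, h8, h9, congrArg Subtype.val h10⟩
  · rw [h0.herm.T_eq] at ht
    exact ⟨θ * t, by
      rw [h0.herm.ε_eq, map_mul, eq_neg_of_add_eq_zero_right ht]; linear_combination -t * hθ⟩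
  · obtain ⟨t, h8, h9⟩ := h7.exists_skew
    exact ⟨t, t.2, by simpa using h8, congrArg Subtype.val h9⟩
end H10
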