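import Cfsg.Agent.H10.KH
import Cfsg.Agent.S5600
import Cfsg.Agent.L.Jt0

/-! Part M2 of the 3-local cluster: `M₂₂` has one class of elements of order three. -/

set_option autoImplicit false

namespace H10.TM

open Subgroup H10.JH Cfsg MulAction H14 BG
open scoped Pointwise

theorem half (x y : Spor.M22) (hx : orderOf x = 3) (hy : orderOf y = 3) : IsConj x y ∨ IsConj x y⁻¹ := by
  classical
  have ox : orderOf x.1 = 3 := by rw [orderOf_coe, hx]
  have oy : orderOf y.1 = 3 := by rw [orderOf_coe, hy]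
  have cl : ∀ z : Spor.M22, orderOf z.1 = 3 → ∃ k ∈ M24, z.1 = k * SP.el t3A * k⁻¹ := fun z hz => by
    obtain ⟨k, hk, e | e⟩ := cls3 z.2.1.1 hz
    · exact ⟨k, hk, e⟩
    · have : none ∈ fixS z.1 := Finset.mem_filter.2 ⟨Finset.mem_univ _, z.2.1.2⟩
      rw [e, fixS_conj, fix3B, Finset.smul_finset_empty] at this
      exact absurd this (Finset.notMem_empty _)
  obtain ⟨k, hk, e⟩ := cl x ox
  obtain ⟨k', hk', e'⟩ := cl y oy
  have F6 : (fixS y.1).card = 6 := by rw [e', fixS_conj, fix3A, Finset.card_smul_finset]; decide +kernel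
  set g := k' * k⁻¹ with hg
  have gm : g ∈ M24 := mul_mem hk' (inv_mem hk)
  have gx : g * x.1 * g⁻¹ = y.1 := by rw [e, e', hg]; group
  have mF : ∀ p, p ∈ fixS y.1 ↔ y.1 p = p := fun p => ⟨fun h => (Finset.mem_filter.1 h).2, fun h => Finset.mem_filter.2 ⟨Finset.mem_univ _, h⟩⟩
  have gF : ∀ p, x.1 p = p → g p ∈ fixS y.1 := fun p hp => (mF _).2 (by rw [← gx]; simp [hp])
  obtain ⟨A, B, C⟩ := Cfsg.Agent.S5600.result _ F6
  let P := M24 ⊓ fixingSubgroup (Equiv.Perm GolayPt) (fixS y.1 : Set GolayPt)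
  have cP : Nat.card P = Nat.card {g : Equiv.Perm GolayPt // g ∈ M24 ∧ ∀ p ∈ fixS y.1, g p = p} :=
    Nat.card_congr (Equiv.subtypeEquivRight fun g => ⟨fun h => ⟨h.1, fun p hp => h.2 ⟨p, hp⟩⟩, fun h => ⟨h.1, fun p => h.2 p p.2⟩⟩)
  have yP : y.1 ∈ P := ⟨y.2.1.1, fun p => (mF _).1 p.2⟩
  have d3 := Subgroup.orderOf_dvd_natCard P yP
  have c3 : Nat.card P = 3 := by
    by_cases c : ∃ o ∈ octads, fixS y.1 ⊆ o
    · rw [oy, cP, B c] at d3; omega
    · rw [cP, (C c).1]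
  have zP : zpowers y.1 = P := eq_of_le_of_card_ge ((zpowers_le).2 yP) (by rw [c3, Nat.card_zpowers, oy])
  let a : fixS y.1 := ⟨g none, gF _ x.2.1.2⟩
  let b : fixS y.1 := ⟨g (some 0), gF _ x.2.2⟩
  let a' : fixS y.1 := ⟨none, (mF _).2 y.2.1.2⟩
  let b' : fixS y.1 := ⟨some 0, (mF _).2 y.2.2⟩
  have ab : a ≠ b := fun h => absurd (g.injective (congrArg Subtype.val h)) (by decide)
  have ab' : a' ≠ b' := fun h => (by decide : (none : GolayPt) ≠ some 0) (congrArg Subtype.val h)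
  obtain ⟨σ, s1, s2⟩ : ∃ σ : Equiv.Perm (fixS y.1), σ a = a' ∧ σ b = b' :=
    ⟨Equiv.swap (Equiv.swap a a' b) b' * Equiv.swap a a', by
      rw [Equiv.Perm.mul_apply, Equiv.swap_apply_left, Equiv.swap_apply_of_ne_of_ne _ ab']
      intro h
      exact ab ((Equiv.swap a a').injective ((Equiv.swap_apply_left _ _).trans h)), by simp⟩
  obtain ⟨h, hm, hσ⟩ := A σ
  let m : Spor.M22 := ⟨h * g, ⟨mul_mem hm gm, (hσ a).trans (congrArg Subtype.val s1)⟩, (hσ b).trans (congrArg Subtype.val s2)⟩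
  have q : h * y.1 * h⁻¹ ∈ P := ⟨M24.mul_mem (M24.mul_mem hm y.2.1.1) (M24.inv_mem hm), fun p => by
    obtain ⟨r, rfl⟩ := σ.surjective p
    change h (y.1 (h⁻¹ (σ r))) = σ r
    rw [← hσ r, show h⁻¹ (h r) = r by simp, (mF _).1 r.2]⟩
  have mx : (m * x * m⁻¹).1 = h * y.1 * h⁻¹ := by
    change h * g * x.1 * (h * g)⁻¹ = _
    rw [← gx]; group
  rw [← zP, mem_zpowers_iff_mem_range_orderOf, oy] at q
  obtain ⟨i, hi, ei⟩ := Finset.mem_image.1 q
  have y3 : y.1 ^ 3 = 1 := oy ▸ pow_orderOf_eq_one y.1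
  rw [Finset.mem_range] at hi
  interval_cases i
  · exfalso
    have : y.1 = 1 := by simpa using ei.symm
    rw [this, orderOf_one] at oy; omega
  · exact .inl (isConj_iff.2 ⟨m, Subtype.ext (by rw [mx, ← ei, pow_one])⟩)
  · refine .inr (isConj_iff.2 ⟨m, Subtype.ext ?_⟩)
    rw [mx, ← ei]
    exact eq_inv_of_mul_eq_one_left ((pow_succ _ 2).symm.trans y3)

theorem real : ∃ x : Spor.M22, orderOf x = 3 ∧ IsConj x x⁻¹ := by
  obtain ⟨o, ho, o1, o2, -⟩ := oc (some 1) (by decide) (by decide)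
  obtain ⟨K, Y, hx, -, -, -, φ, su, ke⟩ := H10.KH.base ho o1 o2
  have : Fact (Nat.Prime 3) := ⟨Nat.prime_three⟩
  let s : A6 := ⟨⟨![1, 2, 0, 3, 4, 5], ![2, 0, 1, 3, 4, 5], by decide, by decide⟩, by
    rw [Equiv.Perm.mem_alternatingGroup]; decide⟩
  let t : A6 := ⟨⟨![1, 0, 2, 4, 3, 5], ![1, 0, 2, 4, 3, 5], by decide, by decide⟩, by
    rw [Equiv.Perm.mem_alternatingGroup]; decide⟩
  have s3 : s ^ 3 = 1 := by apply Subtype.ext; decide
  have s1 : s ≠ 1 := by intro k; have := congrArg Subtype.val k; revert this; decide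
  have ts : t * s * t⁻¹ * s = 1 := by apply Subtype.ext; decide
  obtain ⟨a, ha⟩ := su s
  obtain ⟨b, hb⟩ := su t
  have sq : ∀ y ∈ φ.ker, y * y = 1 := fun y hy => Subtype.ext (hx.Y2 _ (by rwa [ke] at hy))
  have a6 : a ^ 3 * a ^ 3 = 1 := sq _ (by rw [MonoidHom.mem_ker, map_pow, ha, s3])
  set x := a ^ 4 with hx'
  have x3 : x ^ 3 = 1 := by
    rw [show x ^ 3 = a ^ 3 * a ^ 3 * (a ^ 3 * a ^ 3) by rw [hx']; group, a6, one_mul]
  have px : φ x = s := by rw [hx', map_pow, ha, pow_succ, s3, one_mul]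
  have x1 : x ≠ 1 := fun k => s1 (by rw [← px, k, map_one])
  set y := b * x * b⁻¹ * x with hy
  have yk : y ∈ φ.ker := by rw [MonoidHom.mem_ker, hy]; simp only [map_mul, map_inv, px, hb, ts]
  have e : b * x * b⁻¹ = y * x⁻¹ := by rw [hy]; group
  have c3 : (y * x⁻¹) ^ 3 = 1 := by rw [← e, conj_pow, x3]; group
  have y2 := sq y yk
  have yi : y⁻¹ = y := inv_eq_of_mul_eq_one_left y2
  have k : (x⁻¹ * y * x) * x⁻¹ * (x⁻¹ * y * x)⁻¹ = y * x⁻¹ := by
    calc (x⁻¹ * y * x) * x⁻¹ * (x⁻¹ * y * x)⁻¹ = y⁻¹ * (y * x⁻¹) ^ 3 * x * y⁻¹ * y⁻¹ * x := by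
          simp only [pow_succ, pow_zero, one_mul]; group
      _ = y⁻¹ * x * x := by rw [c3, yi, mul_assoc _ y y, y2]; group
      _ = y * x⁻¹ := by rw [yi, mul_assoc]; congr 1; exact eq_inv_of_mul_eq_one_left (by rw [← x3, pow_succ, pow_two])
  have cj : IsConj x x⁻¹ := (isConj_iff.2 ⟨b, e⟩).trans (isConj_iff.2 ⟨_, k⟩).symm
  exact ⟨x, by rw [orderOf_coe]; exact orderOf_eq_prime x3 x1, by simpa using K.subtype.map_isConj cj⟩

theorem m2 : L.Jt.M2Stmt := fun x y hx hy => by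
  obtain ⟨w, hw, c⟩ := real
  have k : ∀ z : Spor.M22, orderOf z = 3 → IsConj z w := fun z hz => (half z w hz hw).elim id fun h => h.trans c.symm
  exact (k x hx).trans (k y hy).symm

end H10.TM
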