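import Mathlib
import Cfsg.Agent.H10.TnS

/-! # `O_3 ⊗ Sp_2` is maximal in `Sp_6(q)`, `q ≥ 5` odd -/

set_option autoImplicit false
set_option linter.unusedSectionVars false

namespace H10.Tn
open Module H10.Form H12.Tn H12.Tn.Ten

section
variable {F U W V : Type*} [Field F] [AddCommGroup U] [Module F U] [AddCommGroup W] [Module F W]
  [AddCommGroup V] [Module F V] {α : Form F U} {β : Form F W} {φ : Form F V}
  [α.Nondeg] [β.Nondeg] [φ.Nondeg] [FiniteDimensional F U] [FiniteDimensional F W] [FiniteDimensional F V]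

theorem dec2 (hW : finrank F W = 2) {b f : W} (hy : β.IsHyp b f) (w : W) : w = (β.ε * β.B f w) • b + β.B b w • f := by
  have := hy.finrank_perp
  have := hy.proj_mem w
  rw [Submodule.finrank_eq_zero.1 (show finrank F (β.perp _) = 0 by omega), Submodule.mem_bot] at this
  linear_combination (norm := module) this

section ten
variable [Fintype F] {t : Ten α β φ} {M : Subgroup φ.Isom} {b f : W} (h : t.Ov M) (h2 : (2 : F) ≠ 0) (hα : α.IsQuad)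
  (hβ : H09.IsAltF β) (hφ : H09.IsAltF φ) (hW : finrank F W = 2) (h3 : finrank F U = 3)
include h h2 hα hβ hφ hW h3

theorem spread2 (hc : ∃ c : F, c ≠ 0 ∧ c * c ≠ 1) (hy : β.IsHyp b f) {ζ : U →ₗ[F] U} (hζ : ζ ∈ t.ZZ M hy.Qe)
    (hn : ¬ ∃ c : F, ∀ u, ζ u = c • u) : φ.E ≤ M := by
  have sm := fun {b} (b0 : b ≠ 0) {ζ} (a : ζ ∈ t.ZZ M (hβ.Q_eq b)) c w =>
    zz_smulS h h2 hφ.σ_eq (big_alt hβ) b0 a c (hβ.Q_eq w)
  have Z1 : ∀ x, α.Q x = 0 → ∀ (c : F) w, c • br α x x ∈ t.ZZ M (hβ.Q_eq w) := fun x hx => sm hy.e_ne_zero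
    (sym_adj h2 hα le_rfl (fun _ a _ => h.zz_cj a) hζ h3.ge hn (fun _ a c => sm hy.e_ne_zero a c _)
      (fun x u => by simpa [alt_ε hβ] using zz_skew hy.e_ne_zero hζ x u) (.inr hc) hx)
  have S1 : ∀ x, α.Q x = 0 → ∀ w, SFull M (t.τ x w) := fun x hx w c => by
    obtain ⟨y, a, e⟩ := Z1 x hx c w
    convert a using 1
    exact Isom.ext fun v => by rw [e, quasi_apply_alt hφ, t.B_τ]; simp [mul_smul]
  obtain ⟨x, x', hx⟩ := hα.exists_hyp_of_three_le h3.ge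
  have S2 : ∀ b f, β.IsHyp b f → ∀ u, SFull M (t.τ u b) := fun b f hy u => by
    by_cases u0 : u = 0
    · simpa [u0] using sFull_zero hφ
    obtain ⟨y, y1, y2⟩ := exists_sing_B_eq_one hx u0
    obtain ⟨y', hy'⟩ := α.exists_hyp y1 (by rintro rfl; simp at y2)
    let S : Submodule F U := ⟨⟨⟨{u | ∃ ζ ∈ t.ZZ M (hβ.Q_eq b), ζ y = u}, by
      rintro _ _ ⟨a, i, rfl⟩ ⟨b, j, rfl⟩; exact ⟨_, add_mem i j, rfl⟩⟩, 0, zero_mem _, rfl⟩, by
      rintro c _ ⟨a, i, rfl⟩; exact ⟨_, sm hy.e_ne_zero i c b, rfl⟩⟩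
    obtain ⟨ζ, ⟨g, a, e⟩, rfl⟩ := eq_top_of_sing hy' (S := S) ⟨.id, ⟨_, h.rt (β.siegel_mem_E (w := 0) (s := 1) hy.Qe (by simp)
      (by simp [alt_T hβ])), fun v => by simp [tv_apply hy.Qe (alt_T hβ 1), alt_ε hβ]⟩, rfl⟩
      (fun z i j => ⟨_, Z1 z i 1 b, by simp [hα.B_comm z, j]⟩) u
    simpa [e, hy.Bef] using ((S1 y y1 f).map hφ a).add_smul hφ (S1 y y1 f) (by
      simp [e, hy.Bef, hy.Bff, hα.B_comm _ y, y2]) (-1)
  refine le_top.trans (eq_top_of_sFull hφ fun v => ?_).ge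
  obtain ⟨u, u', rfl⟩ : ∃ u u', v = t.τ u b + t.τ u' f := ⟨β.ε • t.ct f v, t.ct b v, t.ext' (X := .id)
    (Y := t.τ.flip b ∘ₗ (β.ε • t.ct f) + t.τ.flip f ∘ₗ t.ct b) (fun u w => by
      nth_rw 1 [dec2 hW hy w]; simp [mul_smul]) v⟩
  have S3 : ∀ u, SFull M (t.τ u f) := fun u => S2 _ _ hy.symm u
  by_cases u0 : u' = 0
  · simpa [u0] using S2 b f hy u
  by_cases e : α.B u u' = 0
  swap
  · simpa using (S2 b f hy u).add_smul hφ (S3 u') (by simp [e, hy.Bef]) 1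
  obtain ⟨y, n⟩ := α.exists_B_eq_one u0
  convert ((S2 b f hy y).add_smul hφ (S3 u') (by simp [hα.B_comm y, n, hy.Bef]) 1).add_smul hφ (S2 b f hy (u - y))
    (by simp [hy.Bee, hy.Bfe, n, α.B_symm_zero e, β.ε_ne_zero]) 1 using 1
  simp; abel

omit h2 hα in
theorem h0_2 (H : ∀ b hb, b ≠ 0 → ∀ ζ ∈ t.ZZ M (b := b) hb, ∃ c : F, ∀ u, ζ u = c • u) : H0 t M := fun b hb b0 k hk hk' => by
  have := Module.nontrivial_of_finrank_pos (R := F) (M := U) (by omega)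
  have : Nontrivial W := ⟨b, 0, b0⟩
  obtain ⟨f, hy⟩ := β.exists_hyp hb b0
  let γ : U →ₗ[F] U := β.ε • t.ct f ∘ₗ (k.1 : V →ₗ[F] V) ∘ₗ t.τ.flip b
  have e1 : ∀ u, k.1 (t.τ u b) = t.τ (γ u) b := fun u => by
    obtain ⟨u', e⟩ := (hk' _).1 (t.τ_mem u b)
    simp [γ, ← show t.τ u' b = _ from e, hy.Bfe, smul_smul]
  have P : ∀ {y : φ.Isom}, (∀ u, y.1 (t.τ u b) = t.τ u b) → ∀ u w, β.B b w = 0 → y.1 (t.τ u w) = t.τ u w := fun e u w hw => by
    rw [dec2 hW hy w]; simp [hw, e]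
  have tv := tv_apply (t := t) hb (alt_T hβ 1)
  obtain ⟨ζ, a, e⟩ := exists_zz (t := t) hy (mul_mem (mul_mem (inv_mem hk) (h.rt (β.siegel_mem_E (w := 0) (s := 1) hb (by simp)
    (by simp [alt_T hβ])))) hk) (P fun u => by rw [Isom.mul_apply, Isom.mul_apply, Isom.inv_apply_eq]; simp [e1, tv, hy.Bee])
  obtain ⟨c, hc⟩ := H b hb b0 ζ a
  have e2 : ∀ v, t.ct b (k.1 v) = c • γ (t.ct b v) := fun v => t.τ_inj b0 (by
    have := e v
    rw [Isom.mul_apply, Isom.mul_apply, Isom.inv_apply_eq, tv, map_add, e1, hc] at this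
    simpa [alt_ε hβ] using this)
  have e3 : ∀ u u', α.B (γ u) (γ u') * c = α.B u u' := fun u u' => by
    have := Isom.B_map k (t.τ u b) (t.τ u' f)
    rw [e1, t.B_τ, e2] at this
    simpa [hy.Bef, mul_comm] using this
  let η : W →ₗ[F] W := (β.ε • β.B f).smulRight b + (c • β.B b).smulRight f
  have e4 : φ.IsIsom (t.tm γ η) := t.isIsom_tm fun u u' x y => by
    rw [← e3 u]
    conv_rhs => rw [dec2 hW hy x, dec2 hW hy y]
    simp [η, hy.Bee, hy.Bef, hy.Bfe, hy.Bff, hβ.σ_eq]; ring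
  have e5 : ∀ u w, (φ.toIsom (t.tm γ η)).1 (t.τ u w) = t.τ (γ u) (η w) := fun u w => by rw [φ.toIsom_apply e4, tm_τ]
  have hg := t.mem_PT_of γ η e5
  have hM := h.pt _ (E_eq_top_of_isAltF hφ ▸ Subgroup.mem_top _) hg
  have e6 : ∀ u, ((φ.toIsom (t.tm γ η))⁻¹ * k).1 (t.τ u b) = t.τ u b := fun u => by
    rw [Isom.mul_apply, Isom.inv_apply_eq, e1, e5]; simp [η, hy.Bee, hy.Bfe]
  simpa using mul_mem hg (h.rad_PT_of hy (mul_mem (inv_mem hM) hk) (δ := 0) (fun w hw u => by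
    rw [P e6 u w hw]; simp) rfl (fun _ _ => ⟨0, by simp⟩) (H b hb b0))

omit hφ in
theorem se2 (h0 : H0 t M) {s : F} (b0 : b ≠ 0) (s0 : s ≠ 0) (g : φ.Isom) (hg : g ∈ M)
    (H : g⁻¹ * t.rt (β.siegel b 0 s) * g ∈ t.PT) : g ∈ t.PT := by
  have := Module.nontrivial_of_finrank_pos (R := F) (M := U) (by omega)
  have hb := hβ.Q_eq b
  have hs := alt_T hβ s
  obtain ⟨a, η, hy⟩ := H
  obtain ⟨u₀, hu⟩ := exists_ne (0 : U)
  have h1 := conj_sub (g := g⁻¹) (tv_sub (t := t) hb hs)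
  rw [inv_inv] at h1
  set y := g⁻¹ * t.rt (β.siegel b 0 s) * g with ey
  have h2' : finrank F ((t.A b).map ((g⁻¹).1 : V →ₗ[F] V)) = finrank F U := by
    rw [LinearEquiv.finrank_map_eq, t.finrank_A b0]
  have h3 : ¬ ∀ v, y.1 v = v := fun e => by
    obtain ⟨f, hf⟩ := β.exists_B_eq_one b0
    have := e ((g⁻¹).1 (t.τ u₀ f))
    rw [ey, Isom.mul_apply, Isom.mul_apply, Isom.apply_inv_apply, (g⁻¹).1.injective.eq_iff] at this
    simpa [hf, hu] using tv_fix hb b0 hs s0 this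
  have h4 : ∀ v, y.1 (y.1 v - v) = y.1 v - v := fun v => by
    obtain ⟨_, ⟨u, rfl⟩, e⟩ := h1 v
    rw [← e]; simp [ey, siegel_apply_self hb (w := 0) (by simp) (by simpa)]
  obtain ⟨c, hc⟩ : ∃ c : F, ∀ u, a u = c • u := by
    refine (scalar_or_scalar hy h2 h4).elim id fun ⟨c, hc⟩ => ?_
    have c0 : c ≠ 0 := by rintro rfl; exact b0 (by simpa using hc b)
    have e : ∀ u w, y.1 (t.τ u w) = t.τ ((a.trans (.smulOfNeZero F U c c0)) u) ((1 : W ≃ₗ[F] W) w) := fun u w => by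
      simp [hy, hc]
    set a' := a.trans (.smulOfNeZero F U c c0)
    obtain ⟨u₁, e1⟩ : ∃ u, a' u ≠ u := by
      by_contra! e1
      exact h3 (t.ext' (X := y.1) (Y := .id) fun u w => by simp [e, e1])
    obtain ⟨f, hf⟩ := β.exists_B_eq_one b0
    obtain ⟨e2, u₂, e3⟩ := exists_two hα h2 (fun u u' => by simpa [e, hf] using Isom.B_map y (t.τ u b) (t.τ u' f)) e1
      fun u => t.τ_inj b0 (by simpa [e] using h4 (t.τ u b))
    have := two_mul_le e h1 e2 e3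
    omega
  obtain ⟨η', e⟩ := t.exists_of_scalar hy hc
  obtain ⟨w, hw⟩ : ∃ w, η' w - w ≠ 0 := by
    by_contra! e1
    exact h3 (t.ext' (X := y.1) (Y := .id) fun u w => by simp [e, sub_eq_zero.1 (e1 w)])
  exact of_mapS h0 h (big_alt hβ) hg (hβ.Q_eq _) hw hb b0 fun u => by
    obtain ⟨z, a, e1⟩ := h1 (t.τ u w)
    rw [map_sub, ← e, ← e1]; erw [Isom.apply_inv_apply]; exact a

theorem os2 (h5 : 5 ≤ Fintype.card F) : M ≤ t.PT ∨ φ.E ≤ M := by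
  have := Module.nontrivial_of_finrank_pos (R := F) (M := U) (by omega)
  have := Module.nontrivial_of_finrank_pos (R := F) (M := W) (by omega)
  by_cases H : ∀ b hb, b ≠ 0 → ∀ ζ ∈ t.ZZ M (b := b) hb, ∃ c : F, ∀ u, ζ u = c • u
  swap
  · push Not at H
    obtain ⟨b, hb, b0, ζ, a, e⟩ := H
    obtain ⟨f, hy⟩ := β.exists_hyp hb b0
    exact .inr (spread2 h h2 hα hβ hφ hW h3 (exists_sq_ne (As.odd_card.2 h2) (by omega)) hy a (by simpa using e))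
  have h0 := h0_2 h hβ hφ hW h3 H
  have T : ∀ s, β.T s = β.Q 0 := fun s => by simp [alt_T hβ]
  let θ : W → Multiplicative F →* β.Isom := fun b => .mk' (fun s => β.siegel b 0 s.toAdd) fun s s' => by
    simp [β.siegel_mul (hβ.Q_eq b) (w := 0) (w' := 0) (by simp) (T _) (by simp) (T _)]
  have S := fun b => sum_le h2 h5 (φ := φ) (T := (t.rt.comp (θ b)).range) (d := 1)
    (Φ := fun | 0 => ⊤ | 1 => (t.A b).toAddSubgroup | _ => ⊥)
    ⟨fun _ => trivial, antitone_nat_of_succ_le fun | 0 => le_top | 1 => bot_le | _ + 2 => le_rfl, by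
      rintro _ ⟨s, rfl⟩ (_ | _ | _) x hx
      exacts [tv_sub (hβ.Q_eq b) (alt_T hβ _) x, sub_eq_zero.2 ((t.rad_siegel (hβ.Q_eq b) (by simp) (T _)).1 x hx),
        by rw [show x = 0 from hx, map_zero, sub_zero]; exact zero_mem _]⟩ (fun _ hx => hx) (finrank_self F) _
    fun s => ⟨s, rfl⟩
  obtain ⟨b, b0⟩ := exists_ne (0 : W)
  obtain ⟨f, hy⟩ := β.exists_hyp (hβ.Q_eq b) b0
  exact .inl (finS h (θ := θ b) (θ' := θ f) (fun _ => β.siegel_mem_E hy.Qe (by simp) (T _))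
    (fun _ => β.siegel_mem_E hy.Qf (by simp) (T _)) (fun _ => se2 h h2 hα hβ hW h3 h0 b0)
    (fun _ => se2 h h2 hα hβ hW h3 h0 hy.f_ne_zero) (fun _ => disj_A fun e => by
      obtain ⟨c, e⟩ := Submodule.mem_span_singleton.1 e
      simpa [hy.Bee, hy.Bef] using congrArg (β.B b) e) (S b) (S f))

end ten
end

open H10.As H10.Mx H24.NM Cfsg Cfsg.Geo Matrix

theorem sp6_tens {F : Type*} [Field F] [Fintype F] (ho : Odd (Fintype.card F)) (h5 : 5 ≤ Fintype.card F)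
    {e : _ ≃ Fin 2 × Fin 3} {P : GL (Fin 3 ⊕ Fin 3) F} {f₁ f₂} (h₁ : IsSymplecticForm f₁) (h₂ : IsSymmetricForm f₂)
    (hT : IsTensorFormStructure _root_.id (sympForm 3 F) f₁ f₂ e P) :
    IsMaximalIn (spGL 3 F) (tensorProductSubgroup 2 3 e P ⊓ spGL 3 F) := by
  have h2 := odd_card.1 ho
  obtain ⟨c, c0, hc⟩ := tau_form (σ := .id F) (sf_of_symp h₁).toSq (sf_of_symm h₂).toSq hT
  obtain ⟨α, _, a1, a2, a3⟩ := exists_altF h₁ c0
  obtain ⟨β, _, b1, b3⟩ := exists_symF h2 h₂ one_ne_zero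
  rw [spGL_eq_E]
  refine isMaximalIn_tens (α := α) (β := β) a1.σ_eq b1.σ_eq (by rw [a2, b1.ε_eq, mul_one]; rfl)
    (fun _ _ _ _ => by rw [a3, b3, H09.spForm_B, ← H09.sympForm_eq, hc]; ring) (fun _ _ _ _ _ => rfl) fun t =>
    ⟨?_, fun M h => t.flip_PT ▸ os2 h.flip h2 b1 a1 H09.isAltF_spForm (by simp) (by simp) h5⟩
  obtain ⟨u, hu⟩ := exists_ne (0 : Fin 2 → F)
  obtain ⟨w, hw⟩ := exists_ne (0 : Fin 3 → F)
  obtain ⟨u', i⟩ := exists_not_mem_pt (K := F) (by simp) u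
  obtain ⟨w', j⟩ := exists_not_mem_pt (K := F) (by simp) w
  exact t.flip_PT ▸ not_E_leS (t := t.flip) (big_alt H09.isAltF_spForm) (a1.Q_eq u) hu i hw j rfl

end H10.Tn
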