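import Mathlib
import Cfsg.Agent.H10.TnU
import Cfsg.Agent.H10.DcA

/-! # `O_3 ≀ S_2` in `Ω_9(q)`, I : the radical of a standard subspace -/

set_option autoImplicit false
set_option linter.unusedSectionVars false

namespace H10.Tn
open Module H10.Form H12.Tn H12.Tn.Ten

variable {F U W V : Type*} [Field F] [AddCommGroup U] [Module F U] [AddCommGroup W] [Module F W]
  [AddCommGroup V] [Module F V] {α : Form F U} {β : Form F W} {φ : Form F V}
  [α.Nondeg] [β.Nondeg] [φ.Nondeg] [FiniteDimensional F U] [FiniteDimensional F W] [FiniteDimensional F V]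
  [Fintype F] {t : Ten α β φ} {M : Subgroup φ.Isom} {b f w x : W} {y g : φ.Isom} {δ : W →ₗ[F] U →ₗ[F] U}

theorem rot_mem3 (h2 : (2 : F) ≠ 0) (hβ : β.IsQuad) (hW : finrank F W = 3) (hy : β.IsHyp b f) {c : F} (c0 : c ≠ 0) :
    β.rot b f (c * c) ∈ β.E := hβ.commutator_le_three hW hy (by
  have g := hβ.good_of_two_ne_zero h2
  have c1 := mul_ne_zero c0 c0
  rw [hβ.mem_commutator_iff g (by omega)]
  simp [hβ.dickson_rot g hy c1, hβ.spinor_rot g hy c1, chi_mul_self])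

theorem an3 (hW : finrank F W = 3) (hb : β.Q b = 0) (b0 : b ≠ 0) (hw : β.B b w = 0) (h : w ∉ F ∙ b) : β.Q w ≠ 0 := fun e => by
  have := (ts_pair hb e hw).finrank_le
  rw [finrank_pair b0 h] at this; omega

theorem of_map3 (h0 : H0 t M) (h : t.Ov M) (hW : finrank F W = 3) (hg : g ∈ M) (hb : β.Q b = 0)
    (b0 : b ≠ 0) (hb' : β.Q f = 0) (b0' : f ≠ 0) (e : ∀ u, g.1 (t.τ u b) ∈ t.A f) : g ∈ t.PT := by
  obtain ⟨η, h1, c, c0, h2⟩ := Conn.exists_E_map_point (.inr hW.ge) hb' b0' hb b0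
  simpa using mul_mem (inv_mem (t.rt_mem η)) (h0 b hb b0 _ (mul_mem (h.rt h1) hg) (φ.mem_stab_of_le (by
    rintro _ ⟨u, rfl⟩
    obtain ⟨u', e⟩ := e u
    exact ⟨c • u', by rw [Isom.mul_apply]; erw [← e]; simp [h2]⟩)))

variable (h : t.Ov M) (h2 : (2 : F) ≠ 0) (hα : α.IsQuad) (hβ : β.IsQuad) (hφ : φ.IsQuad) (hW : finrank F W = 3)
  (h3 : finrank F U = 3)
include h h2 hα hβ hφ hW h3

omit hα hφ h3 in
theorem th_smul3 (hy : β.IsHyp b f) (hδ : δ ∈ t.TH M b) (c : F) : c • δ ∈ t.TH M b := smul_mem_of_sq h2 (fun c => by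
  by_cases c0 : c = 0
  · simp [c0]
  have c1 := mul_ne_zero c0 c0
  have hM := h.rt (rot_mem3 h2 hβ hW hy c0)
  obtain ⟨a0, y, a, a1, e⟩ := hδ
  refine ⟨by simp [a0], _, mul_mem (mul_mem hM a) (inv_mem hM), fun u => ?_, fun w hw u => ?_⟩ <;>
    rw [Isom.mul_apply, Isom.mul_apply, ← map_inv, rt_τ]
  · rw [show (β.rot b f (c * c))⁻¹.1 b = (c * c)⁻¹ • b by rw [Isom.inv_apply_eq]; simp [β.rot_apply_e hy c1, c1, -mul_inv_rev]]
    simp [a1, β.rot_apply_e hy c1, c1, -mul_inv_rev]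
  have : (β.rot b f (c * c))⁻¹.1 w = w + (((c * c)⁻¹ - 1) * β.B f w) • b := by
    rw [Isom.inv_apply_eq, map_add, map_smul, β.rot_apply_e hy c1, β.rot_apply hy c1, hw, hβ.ε_eq]
    match_scalars <;> field_simp <;> ring
  rw [e _ (by rw [this]; simp [hw, hy.Bee]), map_add, rt_τ, rt_τ, Isom.apply_inv_apply, this]
  simp [a0, β.rot_apply_e hy c1]) c

theorem sg_all3 (hb : β.Q b = 0) (b0 : b ≠ 0) {ζ : U →ₗ[F] U} (hζ : ζ ∈ t.ZZ M hb) (hn : ¬ ∃ c : F, ∀ u, ζ u = c • u)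
    {x : U} (hx : α.Q x = 0) (x0 : x ≠ 0) (u : U) (hf : β.Q f = 0) (d : F) : φ.siegel (t.τ x f) (d • t.τ u f) 0 ∈ M := by
  obtain ⟨a, v, v', a0, b1, b2, b3, b4, b5, -⟩ := skew_adj h2 hα le_rfl (fun _ a _ => h.zz_cj a) hζ h3.ge hn
    (fun x u => by simpa [hβ.ε_eq] using zz_skew b0 hζ x u) fun a v a0 a1 a2 a3 a4 => by
      have := (ts_pair a1 a2 a3).finrank_le
      rw [finrank_pair a0 a4] at this; omega
  have sm : ∀ c : F, c • nn α a v ∈ t.ZZ M hb := smul_mem_of_sq h2 fun c => by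
    by_cases c0 : c = 0
    · simp [c0]
    obtain ⟨a', hy⟩ := α.exists_hyp b1 a0
    convert h.zz_cj b5 (rot_mem3 h2 hα h3 hy c0) using 1
    rw [cj_nn, α.rot_apply_e hy (mul_ne_zero c0 c0), α.rot_apply hy (mul_ne_zero c0 c0), b2]
    refine LinearMap.ext fun z => ?_
    simp only [nn_apply, hα.ε_eq, hα.σ_eq, map_add, map_sub, map_smulₛₗ, LinearMap.add_apply, LinearMap.sub_apply,
      LinearMap.smul_apply, RingHom.id_apply, smul_eq_mul]
    module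
  have A0 : ∀ x, α.Q x = 0 → x ≠ 0 → ∀ n, α.B x n = 0 → nn α x n ∈ t.ZZ M hb := fun x hx x0 n hn => by
    obtain ⟨g, hg, c, c0, e⟩ := Conn.exists_E_map_point (.inr h3.ge) b1 a0 hx x0
    obtain ⟨x', hy⟩ := α.exists_hyp hx x0
    have c3 : α.B x (g.1 v) = 0 := by simpa [e, c0] using (Isom.B_map g a v).trans b2
    obtain ⟨s, e'⟩ := dec3 hα h3 hy (n := g.1 v - α.B x' (g.1 v) • x) (by simp [c3, hy.Bee]) (by simp [hy.Bfe, hα.ε_eq])
      (fun i => b4 (by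
        have c4 : α.B x (g.1 v') = 0 := by simpa [e, c0] using (Isom.B_map g a v').trans b3
        rw [← Isom.B_map g, sub_eq_zero.1 i]; simp [c4])) n
    convert h.zz_cj (sm (s / c)) hg using 1
    rw [cj_smul, cj_nn, e, e']
    refine LinearMap.ext fun z => ?_
    simp only [nn_apply, hn, hα.ε_eq, hα.σ_eq, map_add, map_sub, map_smulₛₗ, LinearMap.add_apply, LinearMap.sub_apply,
      LinearMap.smul_apply, RingHom.id_apply, smul_eq_mul]
    match_scalars <;> field_simp <;> ring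
  have A1 : ∀ x, α.Q x = 0 → x ≠ 0 → ∀ n, α.B x n = 0 → ∀ d : F, d • nn α x n ∈ t.ZZ M hf := fun x hx x0 n hn d => by
    by_cases f0 : f = 0
    · exact ⟨1, one_mem _, fun v => by simp [f0]⟩
    obtain ⟨g, hg, c, c0, e⟩ := Conn.exists_E_map_point (.inr hW.ge) hb b0 hf f0
    convert h.zz_map (A0 x hx x0 ((d / (c * c)) • n) (by simp [hn])) hg hf e using 1
    refine LinearMap.ext fun z => ?_
    simp only [nn_apply, hα.ε_eq, hα.σ_eq, hφ.σ_eq, map_smulₛₗ, LinearMap.smul_apply, smul_eq_mul]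
    match_scalars <;> field_simp
  obtain ⟨x', hy⟩ := α.exists_hyp hx x0
  obtain ⟨n, n1, n2, n3⟩ := ex_n hα h3 hy
  have A2 : ∀ d : F, d • nn α x x' ∈ t.ZZ M hf := fun d => by
    convert sub_mem (add_mem (A1 x' hy.Qf hy.f_ne_zero n n2 (d / (2 * α.Q n))) (A1 x hx x0 n n1 (d / 2))) (A1 (x' - n - α.Q n • x)
      (by simp [hα.Q_sub, hα.Q_smul, hx, hy.Qf, n2, hy.Bfe, hα.ε_eq, α.B_symm_zero n1])
      (fun e => by simpa [n1, hy.Bef, hy.Bee] using congrArg (α.B x) e) (n + (2 * α.Q n) • x)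
      (by simp [n1, n2, hy.Bfe, hy.Bee, hα.ε_eq, α.B_symm_zero n1, hα.B_self n]) (d / (2 * α.Q n))) using 1
    refine LinearMap.ext fun z => ?_
    simp only [nn_apply, hα.ε_eq, hα.σ_eq, map_add, map_sub, map_smulₛₗ, LinearMap.add_apply, LinearMap.sub_apply,
      LinearMap.smul_apply, RingHom.id_apply, smul_eq_mul]
    match_scalars <;> field_simp <;> ring
  obtain ⟨y, c4, c5⟩ := add_mem (A2 (d * α.B x u)) (A1 x hx x0 (u - α.B x u • x') (by simp [hy.Bef]) d)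
  convert c4 using 1
  refine Isom.ext fun z => ?_
  rw [c5, φ.siegel_apply (t.Q_τ₂ _ hf) (by simp [β.B_self_eq_zero hf]) (by rw [φ.Q_smul_of_sing (t.Q_τ₂ _ hf), map_zero])]
  simp only [map_smulₛₗ, LinearMap.smul_apply, t.B_τ, nn_apply, hφ.σ_eq, hα.σ_eq, hφ.ε_eq, hα.ε_eq, map_sub, map_add,
    LinearMap.sub_apply, LinearMap.add_apply, RingHom.id_apply, smul_eq_mul]
  module

theorem h0_3 (hc : ∃ c : F, c ≠ 0 ∧ c * c ≠ 1)
    (H : ∀ b hb, b ≠ 0 → ∀ ζ ∈ t.ZZ M (b := b) hb, ∃ c : F, ∀ u, ζ u = c • u) : H0 t M := fun b hb b0 k hk hk' => by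
  have := Module.nontrivial_of_finrank_pos (R := F) (M := U) (by omega)
  obtain ⟨f, hy⟩ := β.exists_hyp hb b0
  obtain ⟨x, -, a2, a1⟩ := β.exists_orth ⊤ (F ∙ b) [b] (by have := finrank_span_singleton_le (F := F) b; simp; omega)
  refine h.stab_PT hy (a1 b (by simp)) a2 (fun y hM hr => ?_) hk hk'
  obtain ⟨δ, hδ⟩ := exists_dl hy hr
  have h0 : δ b = 0 := LinearMap.ext fun u => t.τ_eq_zero b0 (by simpa [hr.1 _ (t.τ_mem u b)] using hδ b hy.Bee u)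
  refine h.rad_PT_of hy hM hδ h0 (fun w hw => by_contra fun hn => ?_) (H b hb b0)
  have hT : δ ∈ t.TH M b := ⟨h0, y, hM, fun u => hr.1 _ (t.τ_mem u b), hδ⟩
  obtain ⟨z, z', hz⟩ := hα.exists_hyp_of_three_le h3.ge
  have Z0 : ∀ ζ ∈ t.ZZ M hb, ∀ u, ζ u = 0 := fun ζ a => by
    obtain ⟨c, e⟩ := H b hb b0 ζ a
    obtain rfl : c = 0 := mul_left_cancel₀ h2 (by
      have := zz_skew b0 a z z'
      rw [e, e] at this
      simp only [map_smulₛₗ, hα.σ_eq, LinearMap.smul_apply, hz.Bef, hβ.ε_eq, RingHom.id_apply, smul_eq_mul] at this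
      linear_combination this)
    simpa using e
  obtain ⟨K, hK⟩ := exists_adj (α := α) (δ w)
  obtain ⟨a, a1, a2⟩ : ∃ a, α.Q a = 0 ∧ α.B a (δ w a) ≠ 0 := by
    by_contra! e
    let Z : AddSubgroup (U →ₗ[F] U) := ⟨⟨⟨{ζ | ∀ a, α.Q a = 0 → α.B a (ζ a) = 0}, fun i j a k => by simp [i a k, j a k]⟩,
      by simp⟩, fun i a k => by simp [i a k]⟩
    simpa [hz.Bef, hz.Bfe, hα.ε_eq] using sym_adj h2 hα (Z := Z) le_rfl (fun ζ i g _ a k => by
      rw [cj_apply, ← Isom.B_map g⁻¹, Isom.inv_apply_apply]; exact i _ (by simpa)) e h3.ge hn (fun ζ i c a k => by simp [i a k])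
      (fun x u => by
        rw [← hK]; congr 2
        exact (by simpa [hβ.ε_eq, sub_eq_zero] using Z0 _ (h.comm_mem hb hM hr hw (hδ w hw) hK) x : K x = δ w x).symm)
      (.inr hc) hz.Qe z' hz.Qf
  have a0 : a ≠ 0 := by rintro rfl; simp at a2
  obtain ⟨a', ha⟩ := α.exists_hyp a1 a0
  obtain ⟨n, n1, n2, n3⟩ := ex_n hα h3 ha
  obtain ⟨c, c0, c1⟩ := hc
  have n4 : ∀ s : F, α.B a (s • n) = 0 := by simp [n1]
  have D := fun s : F => th_cj hT (h.lt (α.siegel_mem_E a1 (n4 s) (hα.T_eq _)))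
  have sm := fun {δ} => th_smul3 h h2 hβ hW hy (δ := δ)
  obtain ⟨w₁, e⟩ := β.exists_B_eq (α.B a ∘ₗ δ.flip a)
  have T1 : (β.B w₁).smulRight (br α a a) ∈ t.TH M b := by
    convert sm (sub_mem (sm (sub_mem (add_mem (D 1) (D (-1))) (add_mem hT hT)) (c * c))
      (sub_mem (add_mem (D c) (D (-c))) (add_mem hT hT))) (2 * (c * c * (1 - c * c)) * α.Q n ^ 2)⁻¹ using 1
    have : 1 - c ^ 2 ≠ 0 := sub_ne_zero.2 (sq c ▸ c1.symm)
    have q : ∀ (g : α.Isom) ζ u, g.1.conj ζ u = cj g ζ u := fun _ _ _ => rfl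
    ext x u
    simp only [e, q, cj_sg hα a1 (n4 _), sg_apply hα a1 (n4 _), LinearMap.smul_apply, LinearMap.sub_apply, LinearMap.add_apply,
      LinearMap.comp_apply, LinearEquiv.coe_coe]
    simp only [map_add, map_sub, map_smulₛₗ, LinearMap.smulRight_apply, br_apply, LinearMap.smul_apply, LinearMap.comp_apply,
      LinearMap.flip_apply, hα.Q_smul, hα.σ_eq, RingHom.id_apply, smul_eq_mul]
    match_scalars <;> field_simp <;> ring
  have w1 : β.B b w₁ = 0 := β.B_symm_zero (by simp [e, h0])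
  have w2 := hβ.B_self_ne_zero h2 (an3 hW hb b0 w1 fun i => by
    obtain ⟨d, rfl⟩ := Submodule.mem_span_singleton.1 i
    exact a2 (by simpa [hw] using (LinearMap.congr_fun e w).symm))
  obtain ⟨g, hg, d, d0, i⟩ := Conn.exists_E_map_point (.inr h3.ge) a1 a0 ha.Qf ha.f_ne_zero
  have sy : ∀ v x u, α.B (br α v v x) u = α.B x (br α v v u) := fun v x u => by simp [hα.σ_eq, hα.B_comm x]; ring
  simpa [ha.Bef, ha.Bfe, ha.Bff, hα.ε_eq, ha.f_ne_zero] using Z0 _ (th_comm hφ.σ_eq hy w1 (w := (β.B w₁ w₁)⁻¹ • w₁) (by simp [w1])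
    (by simp [w2]) T1 (N' := br α a' a') (by
      convert sm (th_cj T1 (h.lt hg)) (β.B w₁ w₁ * d * d)⁻¹ using 1
      ext x u
      simp [B_inv, i, hα.σ_eq, hβ.σ_eq, smul_smul]; congr 1; field_simp) (sy a) (sy a')) a'

theorem h0_or3 (h5 : 5 ≤ Fintype.card F) : H0 t M ∨ φ.E ≤ M := by
  obtain ⟨b, f, hy⟩ := hβ.exists_hyp_of_three_le hW.ge
  by_cases H : ∀ b hb, b ≠ 0 → ∀ ζ ∈ t.ZZ M (b := b) hb, ∃ c : F, ∀ u, ζ u = c • u
  · exact .inl (h0_3 h h2 hα hβ hφ hW h3 (exists_sq_ne (As.odd_card.2 h2) (by omega)) H)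
  push Not at H
  obtain ⟨b, hb, b0, ζ, a, e⟩ := H
  exact .inr (spread4 hα hβ hφ h3 h2 hy fun x i j u f k => sg_all3 h h2 hα hβ hφ hW h3 hb b0 a (by simpa using e) i j u k)

end H10.Tn
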