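import Mathlib
import Cfsg.Agent.H10.TnV
import Cfsg.Agent.H10.DcB

/-! # `O_3 ≀ S_2` in `Ω_9(q)`, II : conjugates of root elements -/

set_option autoImplicit false
set_option linter.unusedSectionVars false

namespace H10.Tn
open Module H10.Form H12.Tn H12.Tn.Ten

variable {F U W V : Type*} [Field F] [AddCommGroup U] [Module F U] [AddCommGroup W] [Module F W]
  [AddCommGroup V] [Module F V] {α : Form F U} {β : Form F W} {φ : Form F V}
  [α.Nondeg] [β.Nondeg] [φ.Nondeg] [FiniteDimensional F U] [FiniteDimensional F W] [FiniteDimensional F V] [Fintype F]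

section ops
variable (L L' : V →ₗ[F] V)
/-- polynomials in two commuting nilpotent maps -/
def dop (s κ κ' : F) : V →ₗ[F] V := s • (L + L') + (s * s / 2) • (L * L + (2 : F) • (L * L') + L' * L') +
  (κ / 2) • (L * L * L' + L * L' * L') + κ' • (L * L * L' * L')
theorem dop_apply (s κ κ' : F) (v : V) : dop L L' s κ κ' v = s • (L v + L' v) + (s * s / 2) • (L (L v) + (2 : F) • L (L' v) +
  L' (L' v)) + (κ / 2) • (L (L (L' v)) + L (L' (L' v))) + κ' • L (L (L' (L' v))) := rfl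
variable {L L'} (h2 : (2 : F) ≠ 0) (c : ∀ v, L' (L v) = L (L' v)) (c1 : ∀ v, L (L (L v)) = 0) (c2 : ∀ v, L' (L' (L' v)) = 0)
  {s κ κ' : F}
include h2 c c1 c2

theorem dop0 (v : V) : L' (dop L L' 1 κ κ' (dop L L' 1 κ κ' (dop L L' 1 κ κ' v))) = (3 : F) • L (L (L' (L' v))) := by
  simp only [dop_apply, map_add, map_smul, c, c1, c2, map_zero, smul_zero]
  match_scalars <;> field_simp <;> ring

variable (h3 : (3 : F) = 0)
include h3
theorem dop1 : ∃ r : V →ₗ[F] V, (∀ v, dop L L' s (s ^ 3) (s ^ 4 / 4) v = dop L L' 1 κ κ' (r v)) ∧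
    ∀ v, r (dop L L' 1 κ κ' v) = dop L L' 1 κ κ' (r v) := by
  have e : (2 : F)⁻¹ = -1 := inv_eq_of_mul_eq_one_right (by linear_combination -h3)
  have e' : (4 : F)⁻¹ = 1 := inv_eq_of_mul_eq_one_right (by linear_combination h3)
  refine ⟨s • .id - (s * s - s) • (L + L') - (s ^ 3 - κ * s) • (L * L') + (s * (κ - κ') + κ * s ^ 2 + s ^ 3 + s ^ 4) • (L * L * L'),
    fun v => ?_, fun v => ?_⟩ <;>
  simp only [dop_apply, map_add, map_sub, map_smul, c, c1, c2, map_zero, smul_zero, LinearMap.add_apply, LinearMap.sub_apply,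
    LinearMap.smul_apply, Module.End.mul_apply, LinearMap.id_apply, div_eq_mul_inv, e, e'] <;>
  match_scalars <;> grind

theorem dop2 {d : F} (H : ∀ v, dop L L' s (s ^ 3) (s ^ 4 / 4) (dop L L' 1 κ κ' v) = d • dop L L' 1 κ κ' (dop L L' 1 κ κ' v))
    {v : V} (hv : L (L (L' (L' v))) ≠ 0) : s ^ 3 = κ * s := by
  have e : (2 : F)⁻¹ = -1 := inv_eq_of_mul_eq_one_right (by linear_combination -h3)
  have a : (s - d) • L (L (L' (L' v))) = 0 := by
    have := congrArg (fun x => L' (L' x)) (H v)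
    simp only [dop_apply, map_add, map_smul, c, c1, c2, map_zero, smul_zero] at this
    linear_combination (norm := module) this
  obtain rfl : s = d := by simpa [hv, sub_eq_zero] using a
  have b : (s ^ 3 - κ * s) • L (L (L' (L' v))) = 0 := by
    rw [← sub_eq_zero.2 (H v)]
    simp only [dop_apply, map_add, map_smul, c, c1, c2, map_zero, smul_zero, div_eq_mul_inv, e]
    match_scalars <;> grind
  simpa [hv, sub_eq_zero] using b
end ops

section three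
variable (h2 : (2 : F) ≠ 0) (hα : α.IsQuad) (h3 : finrank F U = 3) {ζ : U →ₗ[F] U}
  (sk : ∀ x u, α.B (ζ x) u = -α.B x (ζ u))
include h2 hα

theorem unip {a : U →ₗ[F] U} (ha : ∀ u u', α.B (a u) (a u') = α.B u u')
    (h : ∀ u, (a - .id) ((a - .id) ((a - .id) u)) = 0) : ∃ ζ : U →ₗ[F] U, (∀ x u, α.B (ζ x) u = -α.B x (ζ u)) ∧
      (∀ u, ζ (ζ (ζ u)) = 0) ∧ ∀ u, a u = u + ζ u + (1 / 2 : F) • ζ (ζ u) := by
  obtain ⟨N, rfl⟩ : ∃ N, a = .id + N := ⟨a - .id, by abel⟩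
  simp only [add_sub_cancel_left] at h
  have k : ∀ u u', α.B (N u) u' = α.B u (N (N u') - N u') := fun u u' => by
    have := ha u (u' - N u' + N (N u'))
    simp only [LinearMap.add_apply, LinearMap.id_apply, map_add, map_sub, h, map_zero] at this ⊢
    linear_combination this
  refine ⟨N - (1 / 2 : F) • (N * N), fun x u => ?_, fun u => by simp [h], fun u => ?_⟩
  · simp only [LinearMap.sub_apply, LinearMap.smul_apply, Module.End.mul_apply, map_sub, hα.B_smul_left, k, h, map_smul,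
      map_zero, smul_eq_mul]
    field_simp; ring
  · simp only [LinearMap.sub_apply, LinearMap.smul_apply, Module.End.mul_apply, map_sub, h, map_smul, map_zero,
      LinearMap.add_apply, LinearMap.id_apply]
    module

theorem sg_nn {a n : U} (ha : α.Q a = 0) (hn : α.B a n = 0) (s : F) (u : U) : (α.siegel a (s • n) (α.Q (s • n))).1 u =
    u + s • nn α a n u + (s * s / 2) • nn α a n (nn α a n u) := by
  rw [sg_apply hα ha (by simp [hn])]
  simp only [nn_apply, hα.B_smul_left, hα.Q_smul, map_sub, map_smul, hn, α.B_symm_zero hn, α.B_self_eq_zero ha, hα.B_self, hα.ε_eq,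
    smul_eq_mul]
  match_scalars <;> field_simp <;> ring

include h3 sk
theorem skew_ker : ∃ v, v ≠ 0 ∧ ζ v = 0 := by
  obtain ⟨a, a', hy⟩ := hα.exists_hyp_of_three_le h3.ge
  obtain ⟨n, n1, n2, n3⟩ := ex_n hα h3 hy
  have s0 : ∀ x, α.B x (ζ x) = 0 := fun x => mul_left_cancel₀ h2 (by linear_combination sk x x + hα.B_comm x (ζ x))
  have s1 : ∀ x u, α.B u (ζ x) = -α.B x (ζ u) := fun x u => by rw [← sk, hα.B_comm]
  have k : ∀ v, α.B a (ζ v) = 0 → α.B a' (ζ v) = 0 → α.B n (ζ v) = 0 → ζ v = 0 := fun v i j k => α.eq_zero_of_B_right fun u => by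
    obtain ⟨c, e⟩ := dec3 hα h3 hy n1 n2 (by rintro rfl; simp at n3) u
    rw [e]; simp [i, j, k]
  by_cases e : α.B n (ζ a') • a - α.B n (ζ a) • a' + α.B a' (ζ a) • n = 0
  · exact ⟨a, hy.e_ne_zero, k a (s0 a) (by simpa [α.B_symm_zero n1, α.B_symm_zero n2, hα.B_self_ne_zero h2 n3] using congrArg (α.B n) e)
      (by simpa [hy.Bee, hy.Bef, n1] using congrArg (α.B a) e)⟩
  refine ⟨_, e, k _ ?_ ?_ ?_⟩ <;> simp only [map_add, map_sub, map_smul, s0, s1 a' a, s1 n a, s1 n a', smul_eq_mul] <;> ring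

theorem skew3 (h : ∀ u, ζ (ζ (ζ u)) = 0) (h0 : ζ ≠ 0) :
    ∃ a n, a ≠ 0 ∧ α.Q a = 0 ∧ α.B a n = 0 ∧ ζ = nn α a n ∧ ∃ u, ζ (ζ u) ≠ 0 := by
  obtain ⟨a, x, a0, rfl, a1⟩ : ∃ a x, a ≠ 0 ∧ a = ζ x ∧ ζ a = 0 := by
    obtain ⟨u, hu⟩ := DFunLike.ne_iff.1 h0
    by_cases e : ζ (ζ u) = 0
    exacts [⟨_, _, hu, rfl, e⟩, ⟨_, _, e, rfl, h u⟩]
  have a2 : α.Q (ζ x) = 0 := mul_left_cancel₀ h2 (by rw [← hα.B_self, sk, a1]; simp)
  generalize ζ x = a at *
  obtain ⟨a', hy⟩ := α.exists_hyp a2 a0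
  obtain ⟨n, n1, n2, n3⟩ := ex_n hα h3 hy
  have n0 : n ≠ 0 := by rintro rfl; simp at n3
  have s0 : ∀ x, α.B x (ζ x) = 0 := fun x => mul_left_cancel₀ h2 (by linear_combination sk x x + hα.B_comm x (ζ x))
  have s1 : ∀ x, α.B a (ζ x) = 0 := fun x => by rw [← neg_eq_zero, ← sk, a1]; simp
  obtain ⟨c, e⟩ := dec3 hα h3 hy n1 n2 n0 (ζ a')
  obtain ⟨d, e'⟩ := dec3 hα h3 hy n1 n2 n0 (ζ n)
  simp only [s0, s1, zero_smul, zero_add, add_zero] at e e'
  obtain rfl : d = 0 := by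
    have := s0 n
    rw [e'] at this
    simpa [α.B_symm_zero n1, hα.B_self_ne_zero h2 n3] using this
  rw [← neg_neg (α.B a' _), ← sk, e, hα.B_smul_left] at e'
  have z : ζ = nn α a (-c • n) := LinearMap.ext fun u => by
    obtain ⟨d, i⟩ := dec3 hα h3 hy n1 n2 n0 u
    rw [i]; simp [a1, e, e', hα.ε_eq, hα.σ_eq, hy.Bee, hy.Bef, n1, α.B_symm_zero n1, α.B_symm_zero n2]; module
  exact ⟨a, _, a0, a2, by simp [n1], z, a', by
    simp [e, e', a0, hα.B_self_ne_zero h2 n3, show c ≠ 0 by rintro rfl; exact h0 (z.trans (by ext; simp))]⟩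
end three

section ten
variable (t : Ten α β φ)

/-- elements interchanging the two factors -/
def SW (g : φ.Isom) : Prop := ∃ (a : U ≃ₗ[F] W) (η : W ≃ₗ[F] U), ∀ u w, g.1 (t.τ u w) = t.τ (η w) (a u)

/-- the stabiliser of the tensor decomposition -/
def PS : Subgroup φ.Isom where
  carrier := {g | g ∈ t.PT ∨ SW t g}
  one_mem' := .inl (one_mem _)
  mul_mem' := by
    rintro g k (⟨a, η, e⟩ | ⟨a, η, e⟩) (⟨a', η', e'⟩ | ⟨a', η', e'⟩)
    exacts [.inl ⟨a' ≪≫ₗ a, η' ≪≫ₗ η, by simp [e, e']⟩, .inr ⟨a' ≪≫ₗ η, η' ≪≫ₗ a, by simp [e, e']⟩,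
      .inr ⟨a' ≪≫ₗ a, η' ≪≫ₗ η, by simp [e, e']⟩, .inl ⟨a' ≪≫ₗ η, η' ≪≫ₗ a, by simp [e, e']⟩]
  inv_mem' := by
    rintro g (h | ⟨a, η, e⟩)
    exacts [.inl (inv_mem h), .inr ⟨η.symm, a.symm, fun u w => by rw [Isom.inv_apply_eq, e]; simp⟩]

variable {t} {M : Subgroup φ.Isom} {b w : W} {g σ : φ.Isom}
theorem SW.flip (h : SW t g) : SW t.flip g := h.elim fun a h => h.elim fun η e => ⟨η, a, fun w u => e u w⟩
theorem flip_PS : PS t.flip = PS t := Subgroup.ext fun _ => or_congr (by rw [t.flip_PT]) ⟨SW.flip, SW.flip⟩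

variable (h : t.Ov M) (h2 : (2 : F) ≠ 0) (hα : α.IsQuad) (hβ : β.IsQuad) (hW : finrank F W = 3)
  (h3 : finrank F U = 3) (h0 : H0 t M) (hb : β.Q b = 0) (b0 : b ≠ 0) (hw : β.B b w = 0) (hw' : β.Q w ≠ 0) (hg : g ∈ M)
include h h2 hβ hW h3 h0 hb b0 hw hw' hg

omit h h2 hW h3 h0 b0 hw' hg in
theorem dd2 (v : V) : g.1 (dd (g⁻¹ * t.rt (β.siegel b w (β.Q w)) * g) (dd (g⁻¹ * t.rt (β.siegel b w (β.Q w)) * g) v)) =
    t.τ (-(2 * β.Q w) • t.ct b (g.1 v)) b := by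
  simp only [dd_conj', Isom.apply_inv_apply, dd_sq hβ hb hw, map_smul, LinearMap.smul_apply]

omit h h2 hW h3 h0 b0 hw' hg in
theorem dd3 (v : V) : dd (g⁻¹ * t.rt (β.siegel b w (β.Q w)) * g) (dd (g⁻¹ * t.rt (β.siegel b w (β.Q w)) * g)
    (dd (g⁻¹ * t.rt (β.siegel b w (β.Q w)) * g) v)) = 0 := by
  rw [dd_conj', dd2 hβ hb hw, dd_self hb hw (hβ.T_eq _), map_zero]

theorem se_rt {η : W →ₗ[F] W} (e : ∀ u x, (g⁻¹ * t.rt (β.siegel b w (β.Q w)) * g).1 (t.τ u x) = t.τ u (η x)) : g ∈ t.PT := by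
  have := Module.nontrivial_of_finrank_pos (R := F) (M := U) (by omega)
  have h5 : ∀ u x, g.1 (t.τ u ((η - .id) ((η - .id) x))) ∈ t.A b := fun u x => by
    rw [← dd_τ e, ← dd_τ e, dd2 hβ hb hw]; exact t.τ_mem _ _
  obtain ⟨x, hx⟩ : ∃ x, (η - .id) ((η - .id) x) ≠ 0 := by
    by_contra! H
    obtain ⟨u₀, hu⟩ := exists_ne (0 : U)
    obtain ⟨f, hf⟩ := β.exists_B_eq_one b0
    have := dd2 (t := t) (g := g) hβ hb hw ((g⁻¹).1 (t.τ u₀ f))
    set y := g⁻¹ * t.rt (β.siegel b w (β.Q w)) * g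
    rw [show dd y (dd y _) = 0 from t.ext' (X := dd y ∘ₗ dd y) (Y := 0) (fun u w => by
      simp only [LinearMap.comp_apply, dd_τ e, H]; simp) _] at this
    exact t.τ_ne hu b0 (by simpa [hf, h2, hw'] using this.symm)
  exact of_map3 h0 h hW hg (sing_of_ts (fun w e => by simpa [hβ.B_self, h2] using e) hb g (h5 · x)) hx hb b0 (h5 · x)

include hα
theorem core (h5 : 5 ≤ Fintype.card F) (hσ : σ ∈ M) (hs : SW t σ) {ζ : U →ₗ[F] U} {ξ : W →ₗ[F] W}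
    (k1 : ∀ x u, α.B (ζ x) u = -α.B x (ζ u)) (k2 : ∀ x u, β.B (ξ x) u = -β.B x (ξ u)) (c1 : ∀ u, ζ (ζ (ζ u)) = 0)
    (c2 : ∀ u, ξ (ξ (ξ u)) = 0) {κ κ' : F}
    (e : ∀ v, dd (g⁻¹ * t.rt (β.siegel b w (β.Q w)) * g) v = dop (t.tm ζ .id) (t.tm .id ξ) 1 κ κ' v) : g ∈ PS t := by
  have := Module.nontrivial_of_finrank_pos (R := F) (M := U) (by omega)
  have e' := fun v => sub_eq_iff_eq_add.1 ((dd_apply _ v).symm.trans (e v))
  by_cases z1 : ζ = 0
  · exact .inl (se_rt h h2 hβ hW h3 h0 hb b0 hw hw' hg (η := .id + ξ + (1 / 2 : F) • (ξ * ξ)) fun u x => by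
      rw [e']; simp [dop_apply, z1]; abel)
  by_cases z2 : ξ = 0
  · obtain ⟨a, η, i⟩ := id hs
    simpa using mul_mem (show g * σ⁻¹ ∈ PS t from .inl (se_rt h h2 hβ hW h3 h0 hb b0 hw hw' (mul_mem hg (inv_mem hσ))
      (η := a.conj (.id + ζ + (1 / 2 : F) • (ζ * ζ))) fun u x => by
      rw [show ∀ y, (g * σ⁻¹)⁻¹ * y * (g * σ⁻¹) = σ * (g⁻¹ * y * g) * σ⁻¹ from fun y => by group, Isom.mul_apply, Isom.mul_apply,
        show (σ⁻¹).1 (t.τ u x) = t.τ (a.symm x) (η.symm u) by rw [Isom.inv_apply_eq, i]; simp, e']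
      simp [dop_apply, z2, i]; abel)) (show σ ∈ PS t from .inr hs)
  exfalso
  obtain ⟨a, n, a0, a1, a2, rfl, u, hu⟩ := skew3 h2 hα h3 k1 c1 z1
  obtain ⟨c, m, b1, b2, b3, rfl, x, hx⟩ := skew3 h2 hβ hW k2 c2 z2
  set L := t.tm (nn α a n) .id with eL
  set L' := t.tm .id (nn β c m) with eL'
  have d0 : ∀ v, L' (L v) = L (L' v) := t.ext' (X := L' ∘ₗ L) (Y := L ∘ₗ L') (by simp [eL, eL', -nn_apply])
  have d1 : ∀ v, L (L (L v)) = 0 := t.ext' (X := L ∘ₗ L ∘ₗ L) (Y := 0) (by simp [eL, c1, -nn_apply])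
  have d2 : ∀ v, L' (L' (L' v)) = 0 := t.ext' (X := L' ∘ₗ L' ∘ₗ L') (Y := 0) (by simp [eL', c2, -nn_apply])
  have d3 : L (L (L' (L' (t.τ u x)))) ≠ 0 := by simpa [eL, eL', -nn_apply] using t.τ_ne hu hx
  have q := dd3 (t := t) (g := g) hβ hb hw
  have c3 : (3 : F) = 0 := by
    have := dop0 h2 d0 d1 d2 (κ := κ) (κ' := κ') (t.τ u x)
    simpa [← e, q, d3] using this.symm
  obtain ⟨s, hs⟩ := exists_not_root (.X ^ 3 - .C κ * .X : Polynomial F) (fun e => by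
    simpa using congrArg (Polynomial.coeff · 3) e) (lt_of_le_of_lt (by compute_degree) (by simp; omega : 3 < _))
  obtain ⟨z, z0, ez⟩ : ∃ z ∈ M, ∀ v, dd z v = dop L L' s (s ^ 3) (s ^ 4 / 4) v :=
    ⟨_, mul_mem (h.lt (α.siegel_mem_E a1 (w := s • n) (by simp [a2]) (hα.T_eq _))) (h.rt (β.siegel_mem_E b2 (w := s • m)
      (by simp [b3]) (hβ.T_eq _))), t.ext' fun u x => by
      simp only [dd_apply, Isom.mul_apply, rt_τ, lt_τ, sg_nn h2 hα a1 a2, sg_nn h2 hβ b2 b3, dop_apply, eL, eL', tm_τ, map_add,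
        map_smul, LinearMap.add_apply, LinearMap.smul_apply, LinearMap.id_apply]
      have : (4 : F) ≠ 0 := by rw [show (4 : F) = 2 * 2 by norm_num]; exact mul_ne_zero h2 h2
      match_scalars <;> field_simp <;> ring⟩
  obtain ⟨r, r1, r2⟩ := dop1 h2 d0 d1 d2 c3 (s := s) (κ := κ) (κ' := κ')
  simp only [← ez, ← e] at r1 r2
  have p := dd2 (t := t) (g := g) hβ hb hw
  have rs := t.rad_siegel hb hw (hβ.T_eq _)
  have p0 : ∀ v, t.ct b (g.1 v) = 0 ↔ dd (g⁻¹ * t.rt (β.siegel b w (β.Q w)) * g)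
      (dd (g⁻¹ * t.rt (β.siegel b w (β.Q w)) * g) v) = 0 := fun v => by
    rw [← g.1.map_eq_zero_iff, p]; exact ⟨by simp +contextual, fun i => by simpa [h2, hw'] using t.τ_eq_zero b0 i⟩
  obtain ⟨f, hy⟩ := β.exists_hyp hb b0
  have R : Rad φ (t.A b) (g * z * g⁻¹) := ⟨by
    rintro _ ⟨u, rfl⟩
    have := p ((g⁻¹).1 ((-(2 * β.Q w))⁻¹ • t.τ u f))
    rw [Isom.apply_inv_apply, map_smul (t.ct b), ct_τ, hy.Bef, one_smul, smul_inv_smul₀ (by simp [h2, hw'])] at this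
    rw [← sub_eq_zero, ← dd_apply, dd_conj, LinearMap.flip_apply, ← this, Isom.inv_apply_apply, r1, ← r2, q, map_zero, map_zero], fun v hv => by
    rw [← dd_apply, dd_conj, r1, dd_conj', Isom.apply_inv_apply]
    exact rs.2 _ (t.mem_perp_A.2 ((p0 _).2 (by
      rw [← r2, ← r2, (p0 _).1 (by simpa using t.mem_perp_A.1 hv), map_zero])))⟩
  obtain ⟨w', i, j⟩ := t.rad_PT (h0.of_fix (mul_mem (mul_mem hg z0) (inv_mem hg)) hb b0 fun u => R.1 _ (t.τ_mem u b)) hy R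
  obtain ⟨d, k⟩ := dec3 hβ hW hy (n := w - β.B f w • b) (by simp [hw, hy.Bee]) (by simp [hy.Bfe, hβ.ε_eq])
    (fun e => hw' (by rw [sub_eq_zero.1 e, β.Q_smul_of_sing hb])) w'
  refine (by simpa [sub_eq_zero] using hs : s ^ 3 ≠ κ * s) (dop2 h2 d0 d1 d2 c3 (κ' := κ') (d := d) (fun v => ?_) d3)
  rw [← ez, ← e, ← e]
  generalize (p0 _).2 (q v) = o
  generalize dd (g⁻¹ * t.rt (β.siegel b w (β.Q w)) * g) v = v at o
  have := j _ o
  rw [← sub_eq_iff_eq_add', ← dd_apply, dd_conj, Isom.inv_apply_apply] at this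
  rw [← g.1.injective.eq_iff, this, map_smul, dd_conj', Isom.apply_inv_apply, dd_apply, t.rt_siegel hb hw (hβ.T_eq _), k, i]
  simp [ct_add, ct_smul, ct_sub, o, ← t.σ₂, hβ.σ_eq]

variable (h5 : 5 ≤ Fintype.card F) (hσ : σ ∈ M) (hs : SW t σ)
include h5 hσ hs

theorem seP (H : g⁻¹ * t.rt (β.siegel b w (β.Q w)) * g ∈ t.PT) : g ∈ PS t := by
  have := Module.nontrivial_of_finrank_pos (R := F) (M := U) (by omega)
  have : Nontrivial W := ⟨_, _, b0⟩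
  have p := (t.rad_siegel hb hw (hβ.T_eq _)).isP.conj g⁻¹
  have q := dd3 (t := t) (g := g) hβ hb hw
  rw [inv_inv] at p
  obtain ⟨a, η, hy⟩ := H
  suffices ∃ (ζ : U →ₗ[F] U) (ξ : W →ₗ[F] W), (∀ x u, α.B (ζ x) u = -α.B x (ζ u)) ∧ (∀ x u, β.B (ξ x) u = -β.B x (ξ u)) ∧
      (∀ u, ζ (ζ (ζ u)) = 0) ∧ (∀ u, ξ (ξ (ξ u)) = 0) ∧ ∀ v, dd (g⁻¹ * t.rt (β.siegel b w (β.Q w)) * g) v =
        dop (t.tm ζ .id) (t.tm .id ξ) 1 1 (1 / 4) v by
    obtain ⟨ζ, ξ, a, b, c, d, e⟩ := this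
    exact core h h2 hα hβ hW h3 h0 hb b0 hw hw' hg h5 hσ hs a b c d e
  generalize g⁻¹ * t.rt (β.siegel b w (β.Q w)) * g = y at *
  have hp := Fact.mk (CharP.char_is_prime F (ringChar F))
  have : CharP (Module.End F U) (ringChar F) := charP_of_injective_algebraMap (algebraMap F _).injective _
  have pw : ∀ n : ℕ, ∀ u w, (y ^ n).1 (t.τ u w) = t.τ ((a ^ n) u) ((η ^ n) w) := fun n => by
    induction n with
    | zero => simp
    | succ n ih => intro u w; simp only [pow_succ, Isom.mul_apply, hy, ih, LinearEquiv.mul_apply]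
  obtain ⟨c, hc⟩ := scalar_of_rank (pw (ringChar F ^ 2)) (Y := ⊥) (by rw [show y ^ _ = 1 from p]; simp) (by simp [hW])
  obtain ⟨d, rfl⟩ := (bijective_iterateFrobenius F (ringChar F) 2).2 c
  obtain ⟨u₀, i, u0⟩ := (Submodule.ne_bot_iff _).1 (mt (LinearMap.isUnit_iff_ker_eq_bot _).2 (IsNilpotent.not_isUnit
    (x := (a : Module.End F U) - d • 1) ⟨ringChar F ^ 2, by
      rw [sub_pow_char_pow_of_commute _ _ ((Commute.one_right _).smul_right d), smul_pow, one_pow, sub_eq_zero]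
      ext u; simpa [LinearEquiv.pow_apply, Module.End.pow_apply, iterateFrobenius_def] using hc u⟩))
  replace i : a u₀ = d • u₀ := by simpa [sub_eq_zero] using i
  have d0 : d ≠ 0 := by rintro rfl; simp [u0] at i
  obtain ⟨μ, -, j⟩ := sim_left hy
  obtain ⟨a', ea⟩ : ∃ a' : U →ₗ[F] U, a' = d⁻¹ • (a : U →ₗ[F] U) := ⟨_, rfl⟩
  obtain ⟨η', eη⟩ : ∃ a' : W →ₗ[F] W, a' = d • (η : W →ₗ[F] W) := ⟨_, rfl⟩
  replace hy : ∀ u w, y.1 (t.τ u w) = t.τ (a' u) (η' w) := fun u w => by simp [hy, ea, eη, d0]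
  replace i : a' u₀ = u₀ := by simp [ea, i, d0]
  replace j : ∀ u u', α.B (a' u) (a' u') * (μ * d * d) = α.B u u' := fun u u' => by
    simp [ea, ← j u, hα.σ_eq]; field_simp
  have k2 : ∀ w, (η' - .id) ((η' - .id) ((η' - .id) w)) = 0 := fun w => t.flip.τ_eq_zero u0 (by
    have : ∀ w, dd y (t.τ u₀ w) = t.τ u₀ ((η' - .id) w) := fun w => by simp [dd_apply, hy, i]
    simpa only [this, flip_τ] using q (t.τ u₀ w))
  obtain ⟨w₀, i', w0⟩ := (Submodule.ne_bot_iff _).1 (mt (LinearMap.isUnit_iff_ker_eq_bot _).2 (IsNilpotent.not_isUnit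
    (x := η' - .id) ⟨3, LinearMap.ext fun w => by simpa only [pow_three, Module.End.mul_apply, LinearMap.zero_apply] using k2 w⟩))
  have k1 : ∀ u, (a' - .id) ((a' - .id) ((a' - .id) u)) = 0 := fun u => t.τ_eq_zero w0 (by
    have : ∀ u, dd y (t.τ u w₀) = t.τ ((a' - .id) u) w₀ := fun w => by
      simp [dd_apply, hy, show η' w₀ = w₀ from sub_eq_zero.1 i']
    simpa only [this] using q (t.τ u w₀))
  obtain ⟨u₁, l⟩ := α.exists_B_eq_one u0
  have m : μ * d * d = 1 := by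
    have e : ∀ u, α.B u₀ ((a' - .id) u) * (μ * d * d) = (1 - μ * d * d) * α.B u₀ u := fun u => by
      have := j u₀ u
      rw [i] at this; simp only [LinearMap.sub_apply, LinearMap.id_apply, map_sub]; linear_combination this
    have e1 := e u₁
    have e2 := e ((a' - .id) u₁)
    have e3 := e ((a' - .id) ((a' - .id) u₁))
    rw [k1, map_zero] at e3
    rw [l] at e1
    exact (sub_eq_zero.1 (pow_eq_zero_iff (n := 3) (by omega) |>.1 (by
      linear_combination -(μ * d * d) ^ 2 * e3 - (1 - μ * d * d) * (μ * d * d) * e2 - (1 - μ * d * d) ^ 2 * e1))).symm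
  simp only [m, mul_one] at j
  obtain ⟨ζ, a1, a2, a3⟩ := unip h2 hα j k1
  obtain ⟨ξ, b1, b2, b3⟩ := unip h2 hβ (fun w w' => by
    simpa [hy, j, l] using Isom.B_map y (t.τ u₀ w) (t.τ u₁ w')) k2
  refine ⟨ζ, ξ, a1, b1, a2, b2, t.ext' fun u x => ?_⟩
  simp only [dd_apply, hy, a3, b3, dop_apply, tm_τ, map_add, map_smul, LinearMap.add_apply, LinearMap.smul_apply,
    LinearMap.id_apply]
  have : (4 : F) ≠ 0 := by rw [show (4 : F) = 2 * 2 by norm_num]; exact mul_ne_zero h2 h2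
  match_scalars <;> field_simp <;> ring

theorem se3 (H : g⁻¹ * t.rt (β.siegel b w (β.Q w)) * g ∈ PS t) : g ∈ PS t := by
  rcases H with H | ⟨a, η, e⟩
  · exact seP h h2 hα hβ hW h3 h0 hb b0 hw hw' hg h5 hσ hs H
  refine seP h h2 hα hβ hW h3 h0 hb b0 (w := w + w) (by simp [hw]) (by simpa [← two_smul F w, hβ.Q_smul, h2]) hg h5 hσ hs
    ⟨a ≪≫ₗ η, η ≪≫ₗ a, fun u x => ?_⟩
  rw [hβ.Q_add, ← β.siegel_mul hb hw (hβ.T_eq _) hw (hβ.T_eq _), map_mul,
    show ∀ x, g⁻¹ * (x * x) * g = g⁻¹ * x * g * (g⁻¹ * x * g) from fun x => by group, Isom.mul_apply, e, e]; rfl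

theorem se_lie {ζ : U →ₗ[F] U} {ξ : W →ₗ[F] W} (k1 : ∀ x u, α.B (ζ x) u = -α.B x (ζ u))
    (k2 : ∀ x u, β.B (ξ x) u = -β.B x (ξ u)) (e : ∀ v, (g⁻¹).1 (t.tm .id (nn β b w) (g.1 v)) = t.tm ζ .id v + t.tm .id ξ v) :
    g ∈ PS t := by
  have q : ∀ v, t.tm .id (nn β b w) (t.tm .id (nn β b w) (t.tm .id (nn β b w) v)) = 0 :=
    t.ext' (X := t.tm .id (nn β b w) ∘ₗ t.tm .id (nn β b w) ∘ₗ t.tm .id (nn β b w)) (Y := 0)
      (by simp [β.B_self_eq_zero hb, hw, β.B_symm_zero hw])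
  have e' : ∀ v, g.1 (t.tm ζ .id v + t.tm .id ξ v) = t.tm .id (nn β b w) (g.1 v) := fun v => by rw [← e, Isom.apply_inv_apply]
  have r : ∀ v, (t.tm ζ .id + t.tm .id ξ) ((t.tm ζ .id + t.tm .id ξ) ((t.tm ζ .id + t.tm .id ξ) v)) = 0 := fun v => by
    rw [← g.1.map_eq_zero_iff]; simp only [LinearMap.add_apply, e', q]
  obtain ⟨u₀, u0, i⟩ := skew_ker h2 hα h3 k1
  obtain ⟨w₀, w0, j⟩ := skew_ker h2 hβ hW k2
  refine core h h2 hα hβ hW h3 h0 hb b0 hw hw' hg h5 hσ hs k1 k2 (fun u => t.τ_eq_zero w0 (by simpa [j] using r (t.τ u w₀)))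
    (fun u => t.flip.τ_eq_zero u0 (by simpa [i] using r (t.τ u₀ u))) (κ := 0) (κ' := 0) fun v => ?_
  have : ∀ v, dd (t.rt (β.siegel b w (β.Q w))) v = t.tm .id (nn β b w) v + (1 / 2 : F) • t.tm .id (nn β b w)
      (t.tm .id (nn β b w) v) := t.ext' (Y := t.tm .id (nn β b w) + (1 / 2 : F) • (t.tm .id (nn β b w) ∘ₗ t.tm .id (nn β b w))) fun u x => by
    have := sg_nn h2 hβ hb hw 1 x
    simp only [one_smul] at this
    simp [dd_apply, this, -nn_apply]; abel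
  rw [dd_conj', this, map_add, map_smul, ← e' v, Isom.inv_apply_apply, e, dop_apply]
  have c : ∀ v, t.tm .id ξ (t.tm ζ .id v) = t.tm ζ .id (t.tm .id ξ v) :=
    t.ext' (X := t.tm .id ξ ∘ₗ t.tm ζ .id) (Y := t.tm ζ .id ∘ₗ t.tm .id ξ) (by simp)
  simp only [map_add, c]
  module

end ten

end H10.Tn
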