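import Mathlib
import Cfsg.Agent.H10.TnW

/-! # `O_3 ≀ S_2` in `Ω_9(q)`, III : the orbit sum -/

set_option autoImplicit false
set_option linter.unusedSectionVars false

namespace H10

theorem Ff.inv_sum {G X : Type*} [Group G] [AddCommGroup X] [Finite G] (A : Type*) [Group A] [Fintype A]
    (ρ : G →* AddMonoid.End X) (S : Subgroup G) {N : X} (hN : ∀ s ∈ S, ρ s N = N) : ∃ T, (∀ g, ρ g T = T) ∧
      ∀ θ : A →* G, (∀ a, θ a ∈ S) → (∀ a ≠ 1, ∀ g, g⁻¹ * θ a * g ∈ S → g ∈ S) → ∀ X' : AddSubgroup X,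
        (∀ Y, ∑ a, ρ (θ a) Y ∈ X') → T - N ∈ X' := by
  have := Fintype.ofFinite (G ⧸ S)
  let f : G ⧸ S → X := Quotient.lift (fun g => ρ g N) fun a b h => by
    rw [← mul_inv_cancel_left a b, map_mul]; exact congrArg (ρ a) (hN _ (QuotientGroup.leftRel_apply.1 h)).symm
  have e : ∀ (g : G) ω, f (g • ω) = ρ g (f ω) := fun g ω => by
    induction ω using QuotientGroup.induction_on with | H k => exact congrArg (· N) (map_mul ρ g k)
  exact ⟨∑ ω, f ω, fun g => by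
    rw [map_sum]; exact Fintype.sum_equiv (MulAction.toPerm g) _ _ fun ω => (e g ω).symm,
    fun θ a b _ c => Ff.sum_sub_mem ρ S θ a b c f (by simp [f]) e⟩

namespace Tn
open Module H10.Form H12.Tn H12.Tn.Ten

variable {F U W V : Type*} [Field F] [AddCommGroup U] [Module F U] [AddCommGroup W] [Module F W]
  [AddCommGroup V] [Module F V] {α : Form F U} {β : Form F W} {φ : Form F V}
  [α.Nondeg] [β.Nondeg] [φ.Nondeg] [FiniteDimensional F U] [FiniteDimensional F W] [FiniteDimensional F V] [Fintype F]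

theorem tri {Z : Type*} [AddCommMonoid Z] [Module F Z] (h5 : 5 ≤ Fintype.card F) (G : W →ₗ[F] W →ₗ[F] Z) (c d : Fin 3 → W)
    (e : Fin 3 → Z →ₗ[F] F) (h : ∀ m n l : Fin 3, 3 < m.1 + n.1 + l.1 → c m = 0 ∨ d n = 0 ∨ e l = 0) :
    ∑ s : F, ∑ l, s ^ l.1 * e l (G (∑ m, s ^ m.1 • c m) (∑ m, s ^ m.1 • d m)) = 0 := by
  simp only [map_sum, map_smul, LinearMap.sum_apply, LinearMap.smul_apply, smul_eq_mul, Finset.mul_sum, ← mul_assoc, ← pow_add]
  rw [Finset.sum_comm]; refine Finset.sum_eq_zero fun l _ => ?_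
  rw [Finset.sum_comm]; refine Finset.sum_eq_zero fun n _ => ?_
  rw [Finset.sum_comm]; refine Finset.sum_eq_zero fun m _ => ?_
  rw [← Finset.sum_mul]
  by_cases i : 3 < m.1 + n.1 + l.1
  · rcases h m n l i with j | j | j <;> simp [j]
  · rw [FiniteField.sum_pow_lt_card_sub_one _ _ (by omega), zero_mul]

/-- vanishing in low degree -/
def Z4 (b n f : W) (G : W → W → W → W → F) : Prop :=
  ∀ i j k : Fin 3, i.1 + j.1 + k.1 ≤ 3 → G (![b, n, f] i) (![b, n, f] j) (![b, b, n] k) (![n, f, f] k) = 0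

theorem ext3 {Z : Type*} [AddCommMonoid Z] [Module F Z] (hβ : β.IsQuad) {b n f : W} (hy : β.IsHyp b f) (n1 : β.B b n = 0)
    (n2 : β.B f n = 0) (hW : finrank F W = 3) (n3 : β.Q n ≠ 0) (L : W →ₗ[F] Z) (a : ∀ i, L (![b, n, f] i) = 0) (w : W) :
    L w = 0 := by
  obtain ⟨c, e⟩ := dec3 hβ hW hy n1 n2 (by rintro rfl; simp at n3) w
  rw [e]; simp [show L b = 0 from a 0, show L n = 0 from a 1, show L f = 0 from a 2]

section
variable (h2 : (2 : F) ≠ 0) (hβ : β.IsQuad) {b n f : W} (hy : β.IsHyp b f) (n1 : β.B b n = 0) (n2 : β.B f n = 0)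
  {G : W →ₗ[F] W →ₗ[F] W →ₗ[F] W →ₗ[F] F} (alt : ∀ a b c d, G a b c d = -G a b d c)
include h2 hβ hy n1 n2 alt

theorem z4_sum (h5 : 5 ≤ Fintype.card F) {η : F → β.Isom} (hη : ∀ s, η s = β.siegel b (s • n) (β.Q (s • n)))
 :
    Z4 b n f fun a b c d => ∑ s, G ((η s).1 a) ((η s).1 b) ((η s).1 c) ((η s).1 d) := fun i j k hk => by
  let C : Fin 3 → Fin 3 → W := ![![b, 0, 0], ![n, (2 * β.Q n) • b, 0], ![f, -n, -β.Q n • b]]
  let ev : W → W → (W →ₗ[F] W →ₗ[F] F) →ₗ[F] F := fun c d => LinearMap.applyₗ d ∘ₗ LinearMap.applyₗ c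
  let E : Fin 3 → Fin 3 → (W →ₗ[F] W →ₗ[F] F) →ₗ[F] F := ![![ev b n, 0, 0], ![ev b f, -ev b n, 0],
    ![ev n f, (2 * β.Q n) • ev b f, -β.Q n • ev b n]]
  have hC : ∀ s i, (η s).1 (![b, n, f] i) = ∑ m, s ^ m.1 • C i m := fun s i => by
    rw [hη, sg_apply hβ hy.Qe (by simp [n1])]
    fin_cases i <;> simp [C, Fin.sum_univ_three, hβ.σ_eq, hβ.Q_smul, n1, n2, β.B_symm_zero n1, β.B_symm_zero n2, hy.Bee, hy.Bef,
      hβ.B_self] <;> module
  have a0 : ∀ a b c, G a b c c = 0 := fun a b c => mul_left_cancel₀ h2 (by linear_combination alt a b c c)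
  have hE : ∀ s k x y, G x y ((η s).1 (![b, b, n] k)) ((η s).1 (![n, f, f] k)) = ∑ m, s ^ m.1 * E k m (G x y) := fun s k x y => by
    have p0 : (η s).1 b = _ := hC s 0
    have p1 : (η s).1 n = _ := hC s 1
    have p2 : (η s).1 f = _ := hC s 2
    fin_cases k <;> simp [p0, p1, p2, C, E, ev, Fin.sum_univ_three, a0, alt x y n b] <;> ring
  simp only [hE]
  simp only [hC]
  refine tri h5 G (C i) (C j) (E k) fun m n l p => ?_
  have q : ∀ i m : Fin 3, i < m → C i m = 0 ∧ E i m = 0 := fun i m r => by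
    fin_cases i <;> fin_cases m <;> simp [C, E] at r ⊢
  by_contra! r
  have := mt (fun p => (q i m p).1) r.1
  have := mt (fun p => (q j n p).1) r.2.1
  have := mt (fun p => (q k l p).2) r.2.2
  omega

theorem z4_zero (hW : finrank F W = 3) (n3 : β.Q n ≠ 0) (h : Z4 b n f (G · · · ·)) (h' : Z4 f n b (G · · · ·))
    (w x y z : W) : G w x y z = 0 := by
  have a0 : ∀ a b c, G a b c c = 0 := fun a b c => mul_left_cancel₀ h2 (by linear_combination alt a b c c)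
  have k : ∀ i j k : Fin 3, G (![b, n, f] i) (![b, n, f] j) (![b, b, n] k) (![n, f, f] k) = 0 := fun i j k => by
    by_cases e : i.1 + j.1 + k.1 ≤ 3
    · exact h i j k e
    have := h' i.rev j.rev k.rev (by simp only [Fin.val_rev]; omega)
    rw [alt, neg_eq_zero]
    convert this using 1
    fin_cases i <;> fin_cases j <;> fin_cases k <;> rfl
  suffices G w x = 0 by simp [this]
  suffices G w = 0 by simp [this]
  refine ext3 hβ hy n1 n2 hW n3 _ (fun i => LinearMap.ext (ext3 hβ hy n1 n2 hW n3 _ fun j => LinearMap.ext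
    (ext3 hβ hy n1 n2 hW n3 _ fun l => LinearMap.ext (ext3 hβ hy n1 n2 hW n3 _ fun m => ?_)))) w
  have k0 : G _ _ b n = 0 := k i j 0
  have k1 : G _ _ b f = 0 := k i j 1
  have k2 : G _ _ n f = 0 := k i j 2
  fin_cases l <;> fin_cases m <;> simp [a0, k0, k1, k2, alt _ _ n b, alt _ _ f b, alt _ _ f n]
end

variable (φ) in
/-- the action on linear maps of the endomorphism ring -/
def cj4 : φ.Isom →* AddMonoid.End ((V →ₗ[F] V) →ₗ[F] V →ₗ[F] V) where
  toFun g := AddMonoidHom.mk' (fun Y => g.1.conj.toLinearMap ∘ₗ Y ∘ₗ (g⁻¹).1.conj.toLinearMap) fun _ _ => by ext; simp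
  map_one' := rfl
  map_mul' _ _ := rfl
theorem cj4_apply (g : φ.Isom) (Y Z) : cj4 φ g Y Z = cj g (Y (cj g⁻¹ Z)) := rfl

variable (t : Ten α β φ) {M : Subgroup φ.Isom} {g σ : φ.Isom}
theorem flip_tm (x : U →ₗ[F] U) (z : W →ₗ[F] W) : t.flip.tm z x = t.tm x z :=
  LinearMap.ext (t.ext' fun u w => by rw [← flip_τ, tm_τ]; simp)

theorem tm_ind {P : (V →ₗ[F] V) → Prop} (h0 : P 0) (h1 : ∀ x z, P (t.tm x z)) (h2 : ∀ x y, P x → P y → P (x + y)) (Z) : P Z := by
  obtain ⟨Z, rfl⟩ := (Xi t).surjective Z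
  induction Z with
  | zero => rwa [map_zero]
  | tmul x z => rw [Xi_tmul]; exact h1 x z
  | add x z a b => rw [map_add]; exact h2 _ _ a b

/-- the sum of the two partial traces -/
noncomputable def NN : (V →ₗ[F] V) →ₗ[F] V →ₗ[F] V :=
  (Xi t).toLinearMap ∘ₗ (TensorProduct.mk F _ _ .id ∘ₗ ptr t + (TensorProduct.mk F _ _).flip .id ∘ₗ ptr t.flip)
theorem NN_apply (Z) : NN t Z = t.tm .id (ptr t Z) + t.tm (ptr t.flip Z) .id := by simp [NN, Xi_tmul]
theorem NN_tm (x z) : NN t (t.tm x z) = LinearMap.trace F U x • t.tm .id z + LinearMap.trace F W z • t.tm x .id := by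
  rw [NN_apply, ptr_tm, ← flip_tm t x z, ptr_tm]; exact LinearMap.ext (t.ext' fun u w => by simp)

variable {t}
theorem cj4_NN (hg : g ∈ PS t) : cj4 φ g (NN t) = NN t := by
  suffices ∀ Z, cj g (NN t Z) = NN t (cj g Z) from LinearMap.ext fun Z => by rw [cj4_apply, this, cj_cj]
  have a : ∀ x y, cj g (x + y) = cj g x + cj g y := map_add (cjH φ g)
  refine tm_ind t (by rw [map_zero, show cj g 0 = 0 from map_zero (cjH φ g), map_zero]) (fun x z => ?_) fun x y i j => by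
    rw [map_add, a, a, i, j, map_add]
  rcases hg with ⟨a', η, h⟩ | ⟨a', η, h⟩
  · simp [NN_tm, a, cj_smul, cj_tm h]
  have e : ∀ x z, cj g (t.tm x z) = t.tm (η.conj z) (a'.conj x) := fun x z => LinearMap.ext (t.ext' fun u w => by
    rw [cj_apply, show (g⁻¹).1 (t.τ u w) = t.τ (a'.symm w) (η.symm u) by rw [Isom.inv_apply_eq, h]; simp]; simp [h])
  simp [NN_tm, a, cj_smul, e, add_comm]

variable (h : t.Ov M) (h2 : (2 : F) ≠ 0) (hα : α.IsQuad) (hβ : β.IsQuad) (hφ : φ.IsQuad) (hW : finrank F W = 3)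
  (h3 : finrank F U = 3) (h0 : H0 t M) (h5 : 5 ≤ Fintype.card F) (hσ : σ ∈ M) (hs : SW t σ)
include h h2 hα hβ hφ hW h3 h0 h5 hσ hs

theorem side {R : (V →ₗ[F] V) →ₗ[F] V →ₗ[F] V} (H : ∀ θ : Multiplicative F →* M, (∀ a, θ a ∈ (PS t).subgroupOf M) →
    (∀ a ≠ 1, ∀ g, g⁻¹ * θ a * g ∈ (PS t).subgroupOf M → g ∈ (PS t).subgroupOf M) → ∀ X' : AddSubgroup _,
      (∀ Y, ∑ a, (cj4 φ).comp M.subtype (θ a) Y ∈ X') → R ∈ X') (Z) (u u' : U) (w w' : W) :
    φ.B (t.τ u' w') (R Z (t.τ u w)) = φ.B (t.τ u' w) (R Z (t.τ u w')) := by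
  obtain ⟨b, f, hy⟩ := hβ.exists_hyp_of_three_le hW.ge
  obtain ⟨n, n1, n2, n3⟩ := ex_n hβ hW hy
  have hy' : β.IsHyp f b := ⟨hy.Qf, hy.Qe, by rw [hβ.B_comm, hy.Bef]⟩
  let om : (V →ₗ[F] V) →ₗ[F] W →ₗ[F] W →ₗ[F] F :=
    ⟨⟨fun Z => .mk₂ F (fun w w' => φ.B (t.τ u' w') (Z (t.τ u w)) - φ.B (t.τ u' w) (Z (t.τ u w')))
      (by intros; simp; ring) (by intros; simp [hφ.σ_eq]; ring) (by intros; simp; ring) (by intros; simp [hφ.σ_eq]; ring),
      by intros; ext; simp; ring⟩, by intros; ext; simp; ring⟩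
  let G : (U →ₗ[F] U) → ((V →ₗ[F] V) →ₗ[F] V →ₗ[F] V) → W →ₗ[F] W →ₗ[F] W →ₗ[F] W →ₗ[F] F := fun x Y =>
    (LinearMap.mk₂ F (br β) (by intros; ext; simp) (by intros; ext; simp [smul_smul, mul_comm]) (by intros; ext; simp [add_smul])
      (by intros; ext; simp [hβ.σ_eq, smul_smul])).compr₂ (om ∘ₗ Y ∘ₗ (Xi t).toLinearMap ∘ₗ TensorProduct.mk F _ _ x)
  have eG : ∀ x Y a b c d, G x Y a b c d = φ.B (t.τ u' d) (Y (t.tm x (br β a b)) (t.τ u c)) -
      φ.B (t.τ u' c) (Y (t.tm x (br β a b)) (t.τ u d)) := fun x Y a b c d => by simp [G, om, Xi_tmul]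
  have alt : ∀ x Y a b c d, G x Y a b c d = -G x Y a b d c := by simp [eG]
  have key : ∀ x {b f}, β.IsHyp b f → β.B b n = 0 → β.B f n = 0 → Z4 b n f (G x R · · · ·) := fun x b f hy n1 n2 => by
    have m : ∀ s : F, β.B b (s • n) = 0 := by simp [n1]
    let θ : Multiplicative F →* β.Isom := .mk' (fun s => β.siegel b (s.toAdd • n) (β.Q (s.toAdd • n))) fun w w' => by
      simp [β.siegel_mul hy.Qe (m _) (hβ.T_eq _) (m _) (hβ.T_eq _), hβ.Q_add, add_smul]
    refine H ((t.rt.comp θ).codRestrict M fun a => h.rt (β.siegel_mem_E hy.Qe (m _) (hβ.T_eq _))) (fun _ => .inl (t.rt_mem _))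
      (fun a i g => se3 h h2 hα hβ hW h3 h0 hy.Qe hy.e_ne_zero (m _) (by simpa [hβ.Q_smul, n3] using i) g.2 h5 hσ hs)
      ⟨⟨⟨{R | Z4 b n f (G x R · · · ·)}, fun a b i j k l => ?_⟩, fun i j k l => by simp [eG]⟩, fun a i j k l => ?_⟩ fun Y => ?_
    · have p := a i j k l
      have q := b i j k l
      simp only [eG, LinearMap.add_apply, map_add] at p q ⊢; linear_combination p + q
    · have := a i j k l
      simp only [eG, LinearMap.neg_apply, map_neg] at this ⊢; linear_combination -this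
    rw [← Equiv.sum_comp (Equiv.inv _)]
    refine fun i j k l => Eq.trans ?_ (z4_sum h2 hβ hy n1 n2 (alt x Y) h5 (η := fun s => θ (.ofAdd s)) (fun _ => rfl) i j k l)
    simp only [eG, LinearMap.sum_apply, map_sum, ← Finset.sum_sub_distrib]
    refine Fintype.sum_equiv Multiplicative.toAdd _ _ fun s => ?_
    have e : ∀ η : β.Isom, ∀ a b c d, φ.B (t.τ u' d) (cj4 φ (t.rt η)⁻¹ Y (t.tm x (br β a b)) (t.τ u c)) =
        φ.B (t.τ u' (η.1 d)) (Y (t.tm x (br β (η.1 a) (η.1 b))) (t.τ u (η.1 c))) := fun η a b c d => by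
      rw [cj4_apply, cj_apply, inv_inv, ← Isom.B_map (t.rt η), Isom.apply_inv_apply, rt_τ, rt_τ,
        cj_tm (a := .refl F U) (η := η.1) (by simp), ← cj_br]; rfl
    rw [← e, ← e, ← map_inv, ← map_inv]; rfl
  have k : ∀ x a b, om (R (t.tm x (br β a b))) w w' = 0 := fun x a b => by
    simpa [eG, om] using z4_zero h2 hβ hy n1 n2 (alt x R) hW n3 (key x hy n1 n2) (key x hy' n2 n1) a b w w'
  suffices om (R Z) w w' = 0 by simpa [om, sub_eq_zero] using this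
  refine tm_ind t (P := fun Z => om (R Z) w w' = 0) (by simp) (fun x z => ?_) (fun x y i j => by simp [i, j]) Z
  rw [show t.tm x z = t.tm x (br β (z b) f) + t.tm x (br β (z f) b) + t.tm x (br β (z n) ((β.B n n)⁻¹ • n)) from
    LinearMap.ext (t.ext' fun u w => ?_)]
  · simp [k]
  obtain ⟨c, e⟩ := dec3 hβ hW hy n1 n2 (by rintro rfl; simp at n3) w
  rw [e]
  simp [hβ.σ_eq, hβ.B_self_ne_zero h2 n3, n1, n2, β.B_symm_zero n1, β.B_symm_zero n2, hy.Bee, hy.Bff, hy.Bef, hy'.Bef]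

theorem le_PS3 (h0' : H0 t.flip M) : M ≤ PS t := fun g hg => by
  obtain ⟨T, a, H⟩ := Ff.inv_sum (Multiplicative F) ((cj4 φ).comp M.subtype) ((PS t).subgroupOf M) (N := NN t)
    fun s hs => cj4_NN hs
  have s1 := side h h2 hα hβ hφ hW h3 h0 h5 hσ hs H
  have s2 := side h.flip h2 hβ hα hφ h3 hW h0' h5 hσ hs.flip (by rw [flip_PS]; exact H)
  simp only [flip_τ] at s2
  have s3 : ∀ Z v v', φ.B ((T - NN t) Z v) v' = φ.B v ((T - NN t) Z v') := fun Z v v' => by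
    refine t.ind (P := fun v => φ.B ((T - NN t) Z v) v' = φ.B v ((T - NN t) Z v')) (fun u w => ?_) (fun _ _ i j => by
      simp only [map_add, LinearMap.add_apply, i, j]) v
    refine t.ind (P := fun v' => φ.B ((T - NN t) Z (t.τ u w)) v' = φ.B (t.τ u w) ((T - NN t) Z v')) (fun u' w' => ?_)
      (fun _ _ i j => by simp only [map_add, i, j]) v'
    rw [hφ.B_comm, s1, s2]
  have := Module.nontrivial_of_finrank_pos (R := F) (M := U) (by omega)
  obtain ⟨b, f, hy⟩ := hβ.exists_hyp_of_three_le hW.ge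
  obtain ⟨n, n1, n2, n3⟩ := ex_n hβ hW hy
  obtain ⟨u, hu⟩ := exists_ne (0 : U)
  obtain ⟨ξ, hξ⟩ := exists_dual (F := F) hu
  set Z := t.tm (ξ.smulRight u) (nn β b n) with eZ
  have e1 : NN t Z = t.tm .id (nn β b n) := by
    rw [NN_tm, LinearMap.trace_smulRight, hξ, show LinearMap.trace F W (nn β b n) = 0 by
      rw [show nn β b n = (β.B n).smulRight b - (β.B b).smulRight n by ext; simp [hβ.ε_eq]]
      simp [LinearMap.trace_smulRight, n1, β.B_symm_zero n1]]; simp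
  have e2 : T Z = cj g (T (cj g⁻¹ Z)) := (LinearMap.congr_fun (a ⟨g, hg⟩) Z).symm
  have ad : ∀ {x x' : U →ₗ[F] U} {z z' : W →ₗ[F] W}, (∀ a b, α.B (x' a) b = α.B a (x b)) → (∀ a b, β.B (z' a) b = β.B a (z b)) →
      ∀ v v', φ.B (t.tm x' z' v) v' = φ.B v (t.tm x z v') := fun {x x' z z'} i j v v' =>
    t.ind (P := fun v => φ.B (t.tm x' z' v) v' = φ.B v (t.tm x z v')) (fun u w => t.ind
      (P := fun v' => φ.B (t.tm x' z' (t.τ u w)) v' = φ.B (t.τ u w) (t.tm x z v')) (fun _ _ => by simp [i, j])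
      (fun _ _ i j => by simp only [map_add, i, j]) v') (fun _ _ i j => by simp only [map_add, LinearMap.add_apply, i, j]) v
  obtain ⟨K, hK⟩ := exists_adj (α := α) (ptr t.flip (cj g⁻¹ Z))
  obtain ⟨K', hK'⟩ := exists_adj (α := β) (ptr t (cj g⁻¹ Z))
  refine se_lie h h2 hα hβ hW h3 h0 hy.Qe hy.e_ne_zero n1 n3 hg h5 hσ hs (ζ := (1 / 2 : F) • (ptr t.flip (cj g⁻¹ Z) - K))
    (ξ := (1 / 2 : F) • (ptr t (cj g⁻¹ Z) - K')) (fun x u => ?_) (fun x u => ?_) fun v => ?_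
  · simp only [LinearMap.smul_apply, LinearMap.sub_apply, hα.B_smul_left, map_sub, map_smul, hK, smul_eq_mul]
    rw [hα.B_comm x (K u), hK, hα.B_comm u]; ring
  · simp only [LinearMap.smul_apply, LinearMap.sub_apply, hβ.B_smul_left, map_sub, map_smul, hK', smul_eq_mul]
    rw [hβ.B_comm x (K' u), hK', hβ.B_comm u]; ring
  rw [← sub_eq_zero]
  refine φ.eq_zero_of_B_right fun v' => mul_left_cancel₀ h2 ?_
  have p1 := s3 Z (g.1 v') (g.1 v)
  have p2 := s3 (cj g⁻¹ Z) v' v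
  have p3 := ad (x := .id) (x' := .id) (z := nn β b n) (z' := -nn β b n) (fun _ _ => rfl) (fun a c => by
    simp [hβ.σ_eq, hβ.ε_eq, hβ.B_comm a]; ring) (g.1 v') (g.1 v)
  have p4 := ad (x := K) (x' := ptr t.flip (cj g⁻¹ Z)) (z := .id) (z' := .id) (fun a c => by rw [hα.B_comm, ← hK, hα.B_comm])
    (fun _ _ => rfl) v' v
  have p5 := ad (x := .id) (x' := .id) (z := K') (z' := ptr t (cj g⁻¹ Z)) (fun _ _ => rfl)
    (fun a c => by rw [hβ.B_comm, ← hK', hβ.B_comm]) v' v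
  have q1 : ∀ z : W →ₗ[F] W, t.tm .id (-z) = -t.tm .id z := fun z => LinearMap.ext (t.ext' (by simp))
  have q2 : ∀ z z' : W →ₗ[F] W, t.tm .id ((1 / 2 : F) • (z - z')) = (1 / 2 : F) • (t.tm .id z - t.tm .id z') := fun z z' =>
    LinearMap.ext (t.ext' (by simp))
  have q3 : ∀ z z' : U →ₗ[F] U, t.tm ((1 / 2 : F) • (z - z')) .id = (1 / 2 : F) • (t.tm z .id - t.tm z' .id) := fun z z' =>
    LinearMap.ext (t.ext' (by simp))
  rw [q2, q3, map_sub, ← Isom.B_map g, Isom.apply_inv_apply]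
  simp only [LinearMap.sub_apply, e1, e2, cj_apply g, Isom.inv_apply_apply, map_sub, Isom.B_map] at p1
  simp only [LinearMap.sub_apply, NN_apply, map_sub, map_add, LinearMap.add_apply] at p2
  simp only [q1, LinearMap.neg_apply, map_neg] at p3
  simp only [map_add, LinearMap.smul_apply, map_smul, LinearMap.sub_apply, map_sub, smul_eq_mul]
  field_simp
  linear_combination p1 - p2 - p3 - p4 - p5

end Tn
end H10
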