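import Mathlib
import Cfsg.Agent.H10.TnX

/-! # `O_3 ≀ S_2` is maximal in `Ω_9(q)`, `q ≥ 5` odd -/

set_option autoImplicit false
set_option linter.unusedSectionVars false

namespace H10.Tn
open Module H10.Form H12.Tn H12.Tn.Ten

section
variable {F U W V : Type*} [Field F] [AddCommGroup U] [Module F U] [AddCommGroup W] [Module F W]
  [AddCommGroup V] [Module F V] {α : Form F U} {β : Form F W} {φ : Form F V}
  [α.Nondeg] [β.Nondeg] [φ.Nondeg] [FiniteDimensional F U] [FiniteDimensional F W] [FiniteDimensional F V] [Fintype F]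
  {t : Ten α β φ} {M : Subgroup φ.Isom} {σ : φ.Isom}
  (h2 : (2 : F) ≠ 0) (hα : α.IsQuad) (hβ : β.IsQuad) (hφ : φ.IsQuad) (hW : finrank F W = 3) (h3 : finrank F U = 3)
include h2 hα hβ hφ hW h3

theorem ex_adj (hV : 4 ≤ finrank F V) (g : φ.Isom) : ∃ k ∈ t.PT, g * k ∈ φ.E := by
  have gd := hφ.good_of_two_ne_zero h2
  obtain ⟨a, a', hy⟩ := hα.exists_hyp_of_three_le h3.ge
  obtain ⟨n, n1, n2, n3⟩ := ex_n hα h3 hy
  have q : ∀ u w, φ.Q (t.τ u w) = 2 * α.Q u * β.Q w := fun u w => mul_left_cancel₀ h2 (by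
    rw [← hφ.B_self, t.B_ττ, hα.B_self, hβ.B_self]; ring)
  have q1 : α.Q (a + a') = 1 := by simp [hα.Q_add, hy.Qe, hy.Qf, hy.Bef]
  have q2 : α.Q (a - a') = -1 := by simp [hα.Q_sub, hy.Qe, hy.Qf, hy.Bef]
  have key : ∀ δ : F, δ ≠ 0 → ∃ k ∈ t.PT, φ.dickson k = -1 ∧ φ.spinor k = chi δ := fun δ d0 => by
    obtain ⟨w, -, e⟩ := hβ.exists_Q_eq β.nondegOn_top (by simp [hW]) (-δ / (2 * α.Q n))
    have w0 : β.Q w ≠ 0 := by simp [e, d0, h2, n3]
    have r1 : φ.Q (t.τ (a + a') w) ≠ 0 := by rw [q, q1]; simp [h2, w0]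
    have r2 : φ.Q (t.τ (a - a') w) ≠ 0 := by rw [q, q2]; simp [h2, w0]
    have r3 : φ.Q (t.τ n w) ≠ 0 := by rw [q]; simp [h2, w0, n3]
    refine ⟨φ.refl (t.τ (a + a') w) * φ.refl (t.τ (a - a') w) * φ.refl (t.τ n w), ⟨1, (β.refl w).1, fun u x => ?_⟩, ?_, ?_⟩
    · obtain ⟨c, i⟩ := dec3 hα h3 hy n1 n2 (by rintro rfl; simp at n3) u
      generalize α.B a' u = c₁, α.B a u = c₂ at i
      subst i
      simp only [Isom.mul_apply, hφ.refl_apply, hβ.refl_apply, q, q1, q2]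
      simp only [map_add, map_sub, map_smul, LinearMap.add_apply, LinearMap.sub_apply, LinearMap.smul_apply, B_ττ, hy.Bee,
        hy.Bff, hy.Bef, hy.Bfe, hα.ε_eq, n1, n2, α.B_symm_zero n1, α.B_symm_zero n2, hα.B_self n, hβ.B_self w, smul_eq_mul,
        LinearEquiv.coe_one, id]
      match_scalars <;> field_simp <;> ring
    · simp only [map_mul, hφ.dickson_refl gd r1, hφ.dickson_refl gd r2, hφ.dickson_refl gd r3]; simp
    · rw [map_mul, map_mul, hφ.spinor_refl gd r1, hφ.spinor_refl gd r2, hφ.spinor_refl gd r3, ← chi_mul r1 r2,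
        ← chi_mul (mul_ne_zero r1 r2) r3, q, q, q, q1, q2, show 2 * 1 * β.Q w * (2 * -1 * β.Q w) * (2 * α.Q n * β.Q w) =
          2 * β.Q w * (2 * β.Q w) * δ by rw [e]; field_simp, chi_mul (by simp [h2, w0]) d0, chi_mul_self, one_mul]
  have k2 : ∀ g : φ.Isom, φ.dickson g = -1 → ∃ k ∈ t.PT, g * k ∈ φ.E := fun g e => by
    obtain ⟨δ, d0, i⟩ : ∃ δ : F, δ ≠ 0 ∧ chi δ = φ.spinor g := by
      rcases Int.units_eq_one_or (φ.spinor g) with i | i
      exacts [⟨1, one_ne_zero, by simp [i]⟩, i ▸ exists_chi_eq_neg_one h2]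
    obtain ⟨k, a, b, c⟩ := key δ d0
    exact ⟨k, a, by rw [hφ.E_eq_commutator gd hV, hφ.mem_commutator_iff gd (by omega)]; simp [e, b, c, i]⟩
  rcases Int.units_eq_one_or (φ.dickson g) with i | i
  · obtain ⟨k, a, b, -⟩ := key 1 one_ne_zero
    obtain ⟨k', c, d⟩ := k2 (g * k) (by simp [i, b])
    exact ⟨k * k', mul_mem a c, mul_assoc g k k' ▸ d⟩
  · exact k2 g i

theorem wr3 (hV : 4 ≤ finrank F V) (h5 : 5 ≤ Fintype.card F) (hs : SW t σ) (h : M ≤ φ.E) (h' : φ.E ⊓ PS t ≤ M) :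
    M ≤ PS t ∨ φ.E ≤ M := by
  have H : t.Ov M := ⟨h, fun g a b => h' ⟨a, .inl b⟩⟩
  obtain ⟨k, ⟨a, η, i⟩, j⟩ := ex_adj (t := t) h2 hα hβ hφ hW h3 hV σ
  obtain ⟨a', η', i'⟩ := hs
  have s : SW t (σ * k) := ⟨a ≪≫ₗ a', η ≪≫ₗ η', by simp [i, i']⟩
  rcases h0_or3 H h2 hα hβ hφ hW h3 h5 with p | p
  · exact (h0_or3 H.flip h2 hβ hα hφ h3 hW h5).imp_left (le_PS3 H h2 hα hβ hφ hW h3 p h5 (h' ⟨j, .inr s⟩) s)
  · exact .inr p
end

open H10.As H10.Mx H24.NM Cfsg Cfsg.Geo Matrix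

theorem act2 {F : Type*} [Field F] {m : ℕ} (π : Equiv.Perm (Fin 2)) (u : Fin 2 → GL (Fin m) F) (x y : Fin m → F) :
    (fp (Fin m) F π * ptU u).1 *ᵥ (fun c => x (c 0) * y (c 1)) = fun c => ((u 0).1 *ᵥ x) (c (π 0)) * ((u 1).1 *ᵥ y) (c (π 1)) := by
  have : (ptU u).1 *ᵥ (fun c => x (c 0) * y (c 1)) = fun c => ((u 0).1 *ᵥ x) (c 0) * ((u 1).1 *ᵥ y) (c 1) := by
    ext c
    simp [ptU_val, As.pt, mulVec, dotProduct, ← (finTwoArrowEquiv (Fin m)).symm.sum_comp, Fintype.sum_prod_type,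
      Finset.sum_mul_sum, mul_mul_mul_comm]
  rw [Units.val_mul, ← mulVec_mulVec, this]
  generalize (u 0).1 *ᵥ x = x, (u 1).1 *ᵥ y = y
  ext c
  simp [fp, mulVec, dotProduct]

theorem om9_wreath {F : Type*} [Field F] [Fintype F] {ι : Type} [Fintype ι] [DecidableEq ι] {Q : (ι → F) → F}
    (hQ : IsNondegenerateQuadraticForm Q) (ho : Odd (Fintype.card F)) (h5 : 5 ≤ Fintype.card F)
    {e : ι ≃ (Fin 2 → Fin 3)} {P : GL ι F} {f₁} (h₁ : IsSymmetricForm f₁)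
    (hT : IsTensorPowerFormStructure _root_.id (QuadraticMap.polar Q) f₁ e P) :
    IsMaximalIn (omegaGL Q) (tensorWreathSubgroup 3 2 e P ⊓ omegaGL Q) := by
  have hn : Fintype.card ι = 9 := by simpa using Fintype.card_congr e
  have hb := big_om hQ (by omega)
  obtain ⟨Q, rfl, _⟩ := exists_ofQuad hQ
  have h2 := odd_card.1 ho
  let e' := e.trans (finTwoArrowEquiv (Fin 3))
  obtain ⟨c, c0, hc⟩ := tau_form (σ := .id F) (f := QuadraticMap.polar Q) (e := e') (P := P) (sf_of_symm h₁).toSq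
    (sf_of_symm h₁).toSq (hT.imp fun c h => ⟨h.1, fun x y =>
      (h.2 (x ∘ finTwoArrowEquiv _) (y ∘ finTwoArrowEquiv _)).trans (by
        simp [formOfGram, ← (finTwoArrowEquiv (Fin 3)).symm.sum_comp])⟩)
  obtain ⟨α, _, a1, a3⟩ := exists_symF h2 h₁ c0
  obtain ⟨β, _, b1, b3⟩ := exists_symF h2 h₁ one_ne_zero
  have hq := isQuad_ofQuad Q
  have hB : ∀ x y x' y', (ofQuad Q).B (tau e' P x y) (tau e' P x' y') = α.B x x' * β.B y y' := fun _ _ _ _ => by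
    rw [a3, b3, ofQuad_B, hc]; ring
  let ε := ((Pi.basisFun F (Fin 3)).tensorProduct (Pi.basisFun F (Fin 3))).equivFun ≪≫ₗ lq e' P
  have h1 : ∀ x y, ε (x ⊗ₜ y) = tau e' P x y := fun x y => congrArg (lq e' P) (by ext ⟨i, j⟩; simp [mul_comm])
  let t : Ten α β (ofQuad Q) := ⟨ε, a1.σ_eq, b1.σ_eq, by rw [a1.ε_eq, b1.ε_eq, mul_one]; rfl, by simpa [h1] using hB,
    fun _ _ _ _ e => mul_left_cancel₀ h2 (by rwa [hq.B_self, hq.B_self] at e)⟩
  have h4 : ∀ x y, t.τ x y = lq e P fun c => x (c 0) * y (c 1) := h1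
  have h3 : ∀ (g : (ofQuad Q).Isom) π u, pl e P ((ofQuad Q).toGL g) = fp (Fin 3) F π * ptU u ↔ ∀ x y, g.1 (t.τ x y) =
      lq e P fun c => glEquiv (u 0) x (c (π 0)) * glEquiv (u 1) y (c (π 1)) := fun g π u => by
    simp only [h4, ← toGL_mulVec, mulVec_lq, (lq e P).injective.eq_iff, glEquiv_apply, ← act2, ← pl_val]
    refine ⟨fun i => by simp [i], fun i => Units.ext (Matrix.ext fun a b => ?_)⟩
    have := congrFun (i (Pi.single (b 0) 1) (Pi.single (b 1) 1)) a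
    rwa [show (fun c : Fin 2 → Fin 3 => (Pi.single (b 0) 1 : Fin 3 → F) (c 0) * (Pi.single (b 1) 1 : Fin 3 → F) (c 1)) =
      Pi.single b 1 by ext c; simp [Pi.single_apply, funext_iff, Fin.forall_fin_two, ite_and]; split_ifs <;> rfl, mulVec_single_one,
      mulVec_single_one] at this
  have h6 : (tensorWreathSubgroup 3 2 e P).comap (ofQuad Q).toGL = PS t := le_antisymm (fun g hg => by
      obtain ⟨π, u, i⟩ := wl_wreath _ hg
      rcases (by decide : ∀ π : Equiv.Perm (Fin 2), π = 1 ∨ π = .swap 0 1) π with rfl | rfl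
      · exact .inl ⟨glEquiv (u 0), glEquiv (u 1), fun x y => by rw [(h3 g _ u).1 i, h4]; rfl⟩
      · exact .inr ⟨glEquiv (u 0), glEquiv (u 1), fun x y => by rw [(h3 g _ u).1 i, h4]; simp [mul_comm]⟩) (by
      rintro g (⟨a, b, i⟩ | ⟨a, b, i⟩)
      · exact (mem_co e P).2 ((h3 g 1 ![glEquiv.symm a, glEquiv.symm b]).2 (fun x y => by rw [i, h4]; simp) ▸ mem_wreath _ _)
      · exact (mem_co e P).2 ((h3 g (.swap 0 1) ![glEquiv.symm a, glEquiv.symm b]).2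
          (fun x y => by rw [i, h4]; simp [mul_comm]) ▸ mem_wreath _ _))
  let s := (t.e.symm ≪≫ₗ TensorProduct.comm F _ _ ≪≫ₗ t.e).toLinearMap
  have s1 : ∀ x y, s (t.τ x y) = t.τ y x := fun x y => by simp [s, τ_eq]
  have s2 : ∀ x y, (ofQuad Q).B (s x) (s y) = (ofQuad Q).B x y := t.ind (fun u w =>
    t.ext' (X := (ofQuad Q).B (s (t.τ u w)) ∘ₗ s) fun _ _ => by
      simp only [LinearMap.comp_apply, s1, B_ττ, a3, b3]; ring) fun _ _ h1 h2 y => by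
        simp only [map_add, LinearMap.add_apply, h1, h2]
  have s3 : SW t ((ofQuad Q).toIsom s) := ⟨.refl _ _, .refl _ _, fun u w => by
    rw [toIsom_apply _ ⟨s2, fun x => mul_left_cancel₀ h2 (by rw [← hq.B_self, ← hq.B_self, s2])⟩, s1]; rfl⟩
  rw [omegaGL_eq_E Q (by omega)] at hb ⊢
  refine isMaximalIn_map _ (fun i => hb.not_WL (e := e) (P := P) (by simp) (by simp) (by simp) fun g hg =>
    wl_wreath g (Subgroup.map_le_iff_le_comap.2 i hg)) fun M h7 g h8 h9 h10 => ?_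
  rw [h6] at h7
  exact ((wr3 h2 a1 b1 hq (by simp) (by simp) (by simp [hn]) h5 s3 (M := M ⊓ (ofQuad Q).E) inf_le_right
    (le_inf h7 inf_le_left)).resolve_left fun e => h10 (h6.ge (e ⟨h8, h9⟩))).trans inf_le_left

end H10.Tn
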