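import Mathlib
import Cfsg.Agent.H05.Tu0

/-! # Part I of S4504: an irreducible section on which `x` acts non-trivially -/

set_option autoImplicit false
open Module H05.Tu

namespace H10.TuI
universe u

theorem ind {G : Type u} [Group G] {F : Type} [Field F] (x : G) (n : ℕ) : ∀ (V : Type) [AddCommGroup V] [Module F V]
    [FiniteDimensional F V] (σ : Representation F G V), finrank F V = n →
    (∃ (m : ℕ) (τ : Representation F G (Fin m → F)), m ≤ n ∧ τ x ≠ 1 ∧
      ∀ U : Submodule F (Fin m → F), (∀ g, ∀ v ∈ U, τ g v ∈ U) → U = ⊥ ∨ U = ⊤) ∨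
    ∀ g ∈ Subgroup.normalClosure {x}, IsNilpotent (σ g - 1) := by
  induction n using Nat.strong_induction_on with
  | _ n ih =>
  intro V _ _ _ σ hn
  by_cases c : ∀ U : Submodule F V, (∀ g, ∀ v ∈ U, σ g v ∈ U) → U = ⊥ ∨ U = ⊤
  · by_cases e : σ x = 1
    · refine .inr fun g m => ?_
      rw [show σ g = 1 from Subgroup.normalClosure_le_normal (N := MonoidHom.ker σ) (by simpa using e) m, sub_self]
      exact IsNilpotent.zero
    let b : V ≃ₗ[F] (Fin n → F) := LinearEquiv.ofFinrankEq _ _ (by simp [hn])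
    refine .inl ⟨n, b.conjRingEquiv.toMonoidHom.comp σ, le_rfl, fun k => e (b.conjRingEquiv.injective (k.trans (map_one _).symm)),
      fun U k => (c (U.comap (b : V →ₗ[F] (Fin n → F))) fun g v m => by simpa using k g _ m).imp (fun q => ?_) fun q => ?_⟩
    · rw [← Submodule.map_comap_eq_of_surjective b.surjective U, q, Submodule.map_bot]
    · rw [← Submodule.map_comap_eq_of_surjective b.surjective U, q, Submodule.map_top, LinearEquiv.range]
  push Not at c
  obtain ⟨U, k, u0, u1⟩ := c
  have d := U.finrank_quotient_add_finrank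
  have d1 := Submodule.finrank_lt u1
  have d2 : finrank F U ≠ 0 := fun e => u0 (Submodule.finrank_eq_zero.1 e)
  rcases ih _ (hn ▸ d1) U (σ.subrepresentation U k) rfl with ⟨m, τ, a, b⟩ | a
  · exact .inl ⟨m, τ, by omega, b⟩
  rcases ih (finrank F (V ⧸ U)) (by omega) _ (σ.quotient U k) rfl with ⟨m, τ, a, b⟩ | b
  · exact .inl ⟨m, τ, by omega, b⟩
  refine .inr fun g m => ?_
  obtain ⟨i, a⟩ := a g m
  obtain ⟨j, b⟩ := b g m
  have a' : ∀ (i : ℕ) (v : U), ((σ g - 1) ^ i) v.1 = (((σ.subrepresentation U k g - 1) ^ i) v).1 := fun i v => by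
    induction i with
    | zero => rfl
    | succ i h => rw [pow_succ', pow_succ', End.mul_apply, End.mul_apply, h]; rfl
  have b' : ∀ (i : ℕ) (v : V), U.mkQ (((σ g - 1) ^ i) v) = ((σ.quotient U k g - 1) ^ i) (U.mkQ v) := fun i v => by
    induction i with
    | zero => rfl
    | succ i h => rw [pow_succ', pow_succ', End.mul_apply, End.mul_apply, ← h]; rfl
  refine ⟨i + j, LinearMap.ext fun v => ?_⟩
  have : ((σ g - 1) ^ j) v ∈ U := (Submodule.Quotient.mk_eq_zero U).1 ((b' j v).trans (by rw [b]; rfl))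
  rw [pow_add, End.mul_apply, a' i ⟨_, this⟩, a]; rfl

/-- part I -/
theorem i : IStmt.{u} := fun G _ _ p hp x h hN n σ hk => by
  refine (ind x n _ σ (by simp)).resolve_right fun c => hN (Subgroup.normalClosure {x}) inferInstance ?_
  have P : IsPGroup p (Subgroup.normalClosure {x}) := fun g => by
    obtain ⟨k, e⟩ := c g.1 g.2
    have : g.1 ^ p ^ k ∈ MonoidHom.ker σ := by
      rw [MonoidHom.mem_ker, map_pow]
      rcases subsingleton_or_nontrivial (End (K p) (Fin n → K p)) with s | s
      · exact Subsingleton.elim _ _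
      have : CharP (End (K p) (Fin n → K p)) p := charP_of_injective_algebraMap (algebraMap (K p) _).injective p
      have q := sub_pow_char_pow_of_commute p k (Commute.one_right (σ g.1))
      rw [pow_eq_zero_of_le (Nat.lt_pow_self hp.1.one_lt).le e, one_pow] at q
      exact sub_eq_zero.1 q.symm
    obtain ⟨j, q⟩ := hk ⟨_, this⟩
    exact ⟨k + j, Subtype.ext (by rw [pow_add, pow_mul]; simpa using congrArg Subtype.val q)⟩
  obtain ⟨e, he⟩ := IsPGroup.iff_card.1 P
  have a := Subgroup.card_subgroup_dvd_card (Subgroup.normalClosure {x})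
  have b := (Subgroup.normalClosure {x}).orderOf_dvd_natCard (Subgroup.subset_normalClosure (Set.mem_singleton x))
  rw [he] at a b ⊢
  rw [h.o] at b
  obtain _ | _ | e := e
  · exact absurd (Nat.dvd_one.1 b) hp.1.ne_one
  · simp
  · exact absurd ((pow_dvd_pow p (by omega)).trans a) h.sq

end H10.TuI
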