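import Cfsg.Agent.H10.KH
import Cfsg.Agent.H06.W1

/-! Parts Mu and C384 of S5568. -/

set_option autoImplicit false

namespace H10.WM

open Subgroup H10.JH Cfsg MulAction H14 BG
open scoped Pointwise

theorem mu : Cfsg.Agent.H06.W.MuStmt := by
  classical
  intro g hg g2 g1
  have : Fact (Nat.Prime 2) := ⟨Nat.prime_two⟩
  have e : {i | g i ≠ i} = {q | q ∉ Finset.univ.filter fun p => g p = p} := by ext i; simp
  rw [e, ncard_compl_finset]
  rcases Cfsg.Agent.S5394.result.1 g hg (orderOf_eq_prime ((pow_two g).trans g2) g1) with b | b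
  · rw [b.2]
  · rw [Finset.filter_eq_empty_iff.2 fun p _ => b p]; simp

theorem c384 : Cfsg.Agent.H06.W.C384Stmt := by
  classical
  intro y y2 y1
  have : Fact (Nat.Prime 2) := ⟨Nat.prime_two⟩
  have o2' : orderOf y.1 = 2 := by
    rw [orderOf_coe]; exact orderOf_eq_prime ((pow_two y).trans y2) y1
  rcases Cfsg.Agent.S5394.result.1 y.1 y.2.1.1 o2' with b | b
  swap
  · exact absurd y.2.1.2 (b none)
  obtain ⟨K, Y, hx, -, hK, mY, φ, su, ke⟩ := H10.KH.base b (Finset.mem_filter.2 ⟨Finset.mem_univ _, y.2.1.2⟩)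
    (Finset.mem_filter.2 ⟨Finset.mem_univ _, y.2.2⟩)
  have yY : y ∈ Y := (mY y).2 fun x hx => (Finset.mem_filter.1 hx).2
  have cK : Nat.card K = 5760 := by
    rw [← φ.ker.card_mul_index, index_ker, MonoidHom.range_eq_top.2 su, card_top, cA, ke,
      Nat.card_congr (subgroupOfEquivOfLe hx.YK).toEquiv, hx.cY]
  have CK : ∀ c ∈ centralizer ({y} : Set Spor.M22), c ∈ K := fun c hc => by
    rw [hK, mem_stabilizer_iff]
    refine Finset.eq_of_subset_of_card_le (fun p hp => ?_) (by rw [Finset.card_smul_finset])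
    obtain ⟨r, hr, rfl⟩ := Finset.mem_smul_finset.1 hp
    refine Finset.mem_filter.2 ⟨Finset.mem_univ _, ?_⟩
    have := congrArg (fun w : Spor.M22 => w.1 r) (mem_centralizer_singleton_iff.1 hc)
    change c.1 (y.1 r) = y.1 (c.1 r) at this
    change y.1 (c.1 r) = c.1 r
    rw [← this, (Finset.mem_filter.1 hr).2]
  choose k hk ek using fun w : {w : Y // w ≠ 1} => hx.tr y yY w.1 w.1.2 y1 fun e => w.2 (Subtype.ext e)
  have cj : ∀ w (c : centralizer ({y} : Set Spor.M22)), k w * c * y * (k w * c)⁻¹ = w.1 := fun w c => by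
    rw [← ek w, mul_assoc (k w), mem_centralizer_singleton_iff.1 c.2]; group
  have h := Nat.card_le_card_of_injective
    (fun p : {w : Y // w ≠ 1} × centralizer ({y} : Set Spor.M22) => (⟨k p.1 * p.2, mul_mem (hk _) (CK _ p.2.2)⟩ : K)) (by
      rintro ⟨w, c⟩ ⟨w', c'⟩ e
      have e' : k w * c = k w' * c' := congrArg Subtype.val e
      have : w = w' := Subtype.ext (Subtype.ext (by rw [← cj w c, e', cj]))
      subst this
      exact Prod.ext rfl (Subtype.ext (mul_left_cancel e')))
  have c15 : Nat.card {w : Y // w ≠ 1} = 15 := by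
    have := Fintype.ofFinite Y
    rw [Nat.card_eq_fintype_card, Fintype.card_subtype_compl, ← Nat.card_eq_fintype_card, hx.cY]
    simp
  rw [Nat.card_prod, c15, cK] at h
  change Nat.card (centralizer ({y} : Set Spor.M22)) ≤ 384
  omega

end H10.WM
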