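import Cfsg.Agent.H23.Y0
import Cfsg.Agent.H14.MCls2

/-! Part P7 of S5569: an involution of `M₂₄` with a fixed point commutes with an element of order seven. -/

set_option autoImplicit false

namespace H10.YP7

open Subgroup Cfsg H14

theorem p7 : Cfsg.Agent.H23.Y.P7Stmt := by
  rintro k k2 ⟨p, hp⟩
  have : Fact (Nat.Prime 2) := ⟨Nat.prime_two⟩
  have : Fact (Nat.Prime 7) := ⟨by norm_num⟩
  have c : 7 ∣ Nat.card (centralizer {S24.el t2A}) := by rw [c2A_full.card]; decide +kernel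
  obtain ⟨g, hg⟩ := exists_prime_orderOf_dvd_card' 7 c
  have g7 : g.1 ^ 7 = 1 := congrArg Subtype.val (hg ▸ pow_orderOf_eq_one g : g ^ 7 = 1)
  have g1 : g.1 ≠ 1 := fun h => by
    rw [show g = 1 from Subtype.ext h, orderOf_one] at hg; omega
  by_cases k1 : k = 1
  · exact ⟨g.1, g1, g7, by rw [k1, mul_one, one_mul]⟩
  obtain ⟨h, hh, e⟩ := cls2A k.2 (by rw [orderOf_coe]; exact orderOf_eq_prime ((pow_two k).trans k2) k1)
    (Finset.ne_empty_of_mem (mem_fixS.2 hp))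
  have e' : k = ⟨h, hh⟩ * S24.el t2A * ⟨h, hh⟩⁻¹ := Subtype.ext (by rw [e, ← in2A.coe_el]; rfl)
  have cm := mem_centralizer_singleton_iff.1 g.2
  refine ⟨⟨h, hh⟩ * g.1 * ⟨h, hh⟩⁻¹, fun q => g1 (by simpa using q), by rw [conj_pow, g7]; group, ?_⟩
  rw [e']
  calc _ = (⟨h, hh⟩ : M24) * (g.1 * S24.el t2A) * ⟨h, hh⟩⁻¹ := by group
    _ = _ := by rw [cm]; group

end H10.YP7
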