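import Cfsg.Agent.H23.Y0
import Cfsg.Agent.H26.JE
import Cfsg.Agent.H21.JU1
import Cfsg.Agent.H18.YH

/-! Part Pa of S5569. -/

set_option autoImplicit false
set_option linter.unusedSectionVars false
set_option linter.unusedVariables false
open Cfsg BG Subgroup H01.XS H01.XF Cfsg.Agent.H06.J Cfsg.Agent.H23.K
open H01.XT hiding Hy QS

namespace H10.YPa
universe u

def HS : Prop := All.{u} fun {_ _ _ _ _ _ _ _ _ _ _ _ _ _ _ T d _ β q} s _ Y B A δ =>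
  (∀ y ∈ Y, y ≠ 1 → {v | T y v = v}.ncard = 256) →
  ∀ y ∈ Y, y ≠ 1 → ∀ v, T y v = v → q v = 0 → v ∉ B → ∃ y2 ∈ Y, β (v + T y2 v) (T d v) ≠ 0

theorem pa' (H : HS.{u}) : Cfsg.Agent.H23.Y.PaStmt.{u} := by
  intro G _ _ z Q V _ _ _ Γ _ _ f π ν T d M β q s K Y B A δ x c2 h256 t tz t2 tY tQ tA
  have l := s.md.lx
  have g := s.gm
  have hx := x.hk.hx
  have tw := s.md.two
  have mu := H26.JE.mul s
  have iv := H26.JE.inv s
  have mB : ∀ {W : AddSubgroup V} {x : G}, x ∈ s.md.pull W ↔ x ∈ Q ∧ ν x ∈ W := Iff.rfl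
  have BA : s.md.pull B ≤ A := c2.e3 ▸ inf_le_left
  have zQ := l.aes.mem
  have zA : z ∈ A := BA (mB.2 ⟨zQ, s.md.zz ▸ zero_mem B⟩)
  have pQ : ∀ r ∈ Q, π r = 1 := fun r i => (s.ker _ (l.le i)).2 i
  have nQ : ∀ m ∈ C_[z], ∀ r ∈ Q, m * r * m⁻¹ ∈ Q := fun m i r j => (mem_normalizer_iff.1 (l.norm i) r).1 j
  have QN : ∀ r ∈ Q, r ∈ N_(A) := fun r i => (c2.mN r (l.le i)).2 fun v j => by rw [pQ r i, g.one]; exact j
  have ab : ∀ a ∈ A, ∀ b ∈ A, a * b = b * a := fun a i b j => by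
    rw [← inv_eq_of_mul_eq_one_right (x.A2 _ (mul_mem i j)), mul_inv_rev, inv_eq_of_mul_eq_one_right (x.A2 _ i),
      inv_eq_of_mul_eq_one_right (x.A2 _ j)]
  obtain ⟨c, cA, cδ, cπ⟩ := c2.YA _ tY
  have cz := x.Az cA
  have cc := x.A2 c cA
  have ci : c⁻¹ = c := inv_eq_of_mul_eq_one_left cc
  have y1 : π t ≠ 1 := fun e => tQ ((s.ker t tz).1 e)
  obtain ⟨r0, rQ, rfl⟩ : ∃ r0 ∈ Q, t = r0 * c := ⟨t * c⁻¹, (s.ker _ (mul_mem tz (inv_mem cz))).1 (by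
    rw [mu _ tz _ (inv_mem cz), iv _ cz, cπ, mul_inv_cancel]), by group⟩
  set y := π (r0 * c) with hy
  set v := ν r0 with hv
  have e1 : r0 * (c * r0 * c⁻¹) = 1 := by rw [ci, ← t2]; group
  have yv : T y v = v := by
    have := s.md.mul _ rQ _ (nQ c cz r0 rQ)
    rw [e1, s.md.one, ← s.act c cz r0 rQ, cπ] at this
    exact add_left_cancel (this.symm.trans (tw v).symm)
  have cr : c * r0 * c⁻¹ = r0 := c2.cz c cz cδ r0 rQ (by rw [cπ]; exact yv)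
  have cr' : Commute c r0 := mul_inv_eq_iff_eq_mul.1 cr
  have r2 : r0 * r0 = 1 := by rwa [cr] at e1
  have qv : q v = 0 := (s.sq r0 rQ).2 r2
  have vB : v ∉ B := fun e => tA (mul_mem (BA ⟨rQ, e⟩) cA)
  have ct : ∀ a ∈ A, a ∈ C_[r0 * c] ↔ Commute a r0 := fun a i => by
    rw [mem_cent1, ← mul_assoc, mul_assoc r0, ← ab a i c cA, ← mul_assoc, mul_left_inj]; rfl
  let B' : AddSubgroup V := B ⊓ (β.flip v).ker
  have eB : s.md.pull B ⊓ C_[r0 * c] = s.md.pull B' := Subgroup.ext fun w =>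
    ⟨fun k => ⟨k.1.1, k.1.2, (s.b w k.1.1 r0 rQ).2 ((ct w (BA k.1)).1 k.2)⟩,
      fun k => ⟨⟨k.1, k.2.1⟩, (ct w (BA ⟨k.1, k.2.1⟩)).2 ((s.b w k.1 r0 rQ).1 k.2.2)⟩⟩
  have iso : ∀ u ∈ B, ∀ w ∈ B, β u w = 0 := fun u i w j => by
    have := g.pol u w
    rw [x.pj.qB _ (add_mem i j), x.pj.qB _ i, x.pj.qB _ j] at this
    simpa using this.symm
  obtain ⟨u0, uB, u1⟩ : ∃ u ∈ B, β u v ≠ 0 := by
    by_contra! k
    exact vB (g.toQF.perp iso (by rw [x.pj.cB]; norm_num) fun u i => by rw [g.toQF.sym]; exact k u i)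
  have z2 : ∀ a b : ZMod 2, a ≠ 0 → b ≠ 0 → a + b = 0 := by decide
  have half : ∀ (U : AddSubgroup V) (w u : V), u ∈ U → β u w ≠ 0 → Nat.card ↥(U ⊓ (β.flip w).ker) * 2 = Nat.card U := fun U w u i n => by
    have a1 := ((β.flip w).ker.addSubgroupOf U).card_mul_index
    have a2 : ((β.flip w).ker.addSubgroupOf U).index = 2 := AddSubgroup.index_eq_two_iff.2 ⟨⟨u, i⟩, fun b => by
      change Xor (β (b + u) w = 0) (β b w = 0)
      rw [map_add, AddMonoidHom.add_apply]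
      revert n; generalize β u w = a; generalize β b w = b; revert a b; unfold Xor; decide⟩
    rw [a2, ← AddSubgroup.inf_addSubgroupOf_left, Nat.card_congr (AddSubgroup.addSubgroupOfEquivOfLe inf_le_left).toEquiv] at a1
    exact a1
  have cB' : Nat.card B' = 32 := by have := half B v u0 uB u1; rw [x.pj.cB] at this; change Nat.card ↥(B ⊓ _) = 32; omega
  have c64 : Nat.card ↥(s.md.pull B ⊓ C_[r0 * c]) = 64 := by rw [eB, s.md.card_pull, cB']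
  have p4 : ∀ a ∈ A ⊓ C_[r0 * c], a ∉ s.md.pull B → π a = y := fun a i n => by
    by_contra e
    refine vB (x.pi.two _ (x.AY a i.1) y tY (fun o => n (c2.e3 ▸ ⟨i.1, (s.ker a (x.Az i.1)).1 o⟩)) y1 e v ?_ yv)
    rw [s.act a (x.Az i.1) r0 rQ, ((ct a i.1).1 i.2).eq, mul_inv_cancel_right]
  have cB : c ∉ s.md.pull B := fun o => y1 (cπ ▸ pQ c o.1)
  let W : AddSubgroup V := (AddMonoidHom.id V + T y).range
  have cW : Nat.card W = 16 := by
    have a1 := (AddMonoidHom.id V + T y).ker.card_mul_index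
    have a2 : Nat.card (AddMonoidHom.id V + T y).ker = 256 := by
      rw [← h256 y tY y1, ← Nat.card_coe_set_eq]
      refine congrArg (fun S : Set V => Nat.card S) (Set.ext fun v => ?_ :
        ((AddMonoidHom.id V + T y).ker : Set V) = {v | T y v = v})
      exact ⟨fun o => lc (show v + T y v = 0 from o), fun o => show v + T y v = 0 by rw [show T y v = v from o, tw]⟩
    rw [AddSubgroup.index_ker, a2, g.card] at a1
    show Nat.card (AddMonoidHom.id V + T y).range = 16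
    omega
  have Wp : ∀ w, T y w = w → ∀ u, β (u + T y u) w = 0 := fun w e u => by
    rw [map_add, AddMonoidHom.add_apply]
    conv_lhs => rw [← g.toQF.inv (g.qT y) u w, e]
    exact CharTwo.add_self_eq_zero _
  have cjQ : ∀ c' ∈ C_[z], π c' = y → ∀ r ∈ Q, r * c' * r⁻¹ * c'⁻¹ ∈ Q ∧ ν (r * c' * r⁻¹ * c'⁻¹) = ν r + T y (ν r) := fun c' i e r j => by
    have k := nQ c' i _ (inv_mem j)
    rw [show r * c' * r⁻¹ * c'⁻¹ = r * (c' * r⁻¹ * c'⁻¹) by group]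
    exact ⟨mul_mem j k, by rw [s.md.mul _ j _ k, ← s.act c' i _ (inv_mem j), e, s.md.inv j]⟩
  refine ⟨?_, c64, fun w hw => ?_, fun a i n => (s.ker _ (mul_mem tz (x.Az i.1))).1 (by
    rw [mu _ tz _ (x.Az i.1), p4 a i n, hx.Y2 _ tY]), c, cA, cδ, cB, fun c' hc => ?_⟩
  · have a1 := ((s.md.pull B).subgroupOf (A ⊓ C_[r0 * c])).card_mul_index
    have a2 : ((s.md.pull B).subgroupOf (A ⊓ C_[r0 * c])).index = 2 := index_eq_two_iff.2 ⟨⟨c, cA, (ct c cA).2 cr'⟩, fun b => by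
      change Xor (b.1 * c ∈ s.md.pull B) (b.1 ∈ s.md.pull B)
      by_cases o : b.1 ∈ s.md.pull B
      · exact .inr ⟨o, fun k => cB ((mul_mem_cancel_left o).1 k)⟩
      · exact .inl ⟨c2.e3 ▸ ⟨mul_mem b.2.1 cA, (s.ker _ (x.Az (mul_mem b.2.1 cA))).1 (by
          rw [mu _ (x.Az b.2.1) _ cz, p4 b b.2 o, cπ, hx.Y2 _ tY])⟩, o⟩⟩
    rw [a2, ← inf_subgroupOf_right, Nat.card_congr (subgroupOfEquivOfLe inf_le_right).toEquiv, ← inf_assoc,
      inf_eq_left.2 BA, c64] at a1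
    exact a1.symm
  · have wA := BA hw.1
    have wt := mem_cent1.1 hw.2
    obtain ⟨b, bQ, eb⟩ := s.md.sur u0
    have bA : b ∈ A := BA ⟨bQ, eb ▸ uB⟩
    have bz : b * (r0 * c) * b⁻¹ = z * (r0 * c) := by
      rcases s.md.eq (nQ b (x.Az bA) r0 rQ) rQ (s.md.cq bQ rQ) with e | e
      · exact absurd ((s.b b bQ r0 rQ).2 (mul_inv_eq_iff_eq_mul.1 e)) (eb ▸ u1)
      · rw [← mul_assoc z, ← e, mul_assoc b, mul_assoc r0, ← ab _ (inv_mem bA) c cA]; group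
    have s1 : ∀ w ∈ Q, w ∈ A → ν w ∈ W → ∃ r ∈ N_(A), r * (r0 * c) * r⁻¹ = w * (r0 * c) := fun w i iA ⟨u, e⟩ => by
      obtain ⟨r, j, rfl⟩ := s.md.sur u
      obtain ⟨k1, k2⟩ := cjQ _ tz rfl r j
      rcases s.md.eq k1 i (k2.trans e) with o | o
      · exact ⟨r, QN r j, mul_inv_eq_iff_eq_mul.1 o⟩
      · refine ⟨b * r, mul_mem (QN b bQ) (QN r j), ?_⟩
        calc b * r * (r0 * c) * (b * r)⁻¹ = b * (z * w) * b⁻¹ * (b * (r0 * c) * b⁻¹) := by rw [← o]; group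
          _ = w * (r0 * c) := by
            rw [bz, ab b bA _ (mul_mem zA iA), mul_inv_cancel_right, ab z zA w iA, mul_assoc w, ← mul_assoc z, x.A2 z zA, one_mul]
    rw [← wt]
    by_cases o : ν w ∈ W
    · exact s1 w hw.1.1 wA o
    obtain ⟨y2, Y2, n⟩ := H s K Y B A δ x h256 y tY y1 v yv qv vB
    obtain ⟨a, aA, -, rfl⟩ := c2.YA y2 Y2
    have az := x.Az aA
    have dv : T y (T d v) = T d v := by rw [← g.mul, g.Md y (x.hk.KM (hx.YK tY)), g.mul, yv]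
    have WB : W ≤ B' ⊓ (β.flip (T d v)).ker := by
      rintro _ ⟨u, rfl⟩
      exact ⟨⟨x.pj.cm y tY u, Wp v yv u⟩, Wp _ dv u⟩
    let w2 := a * r0 * a⁻¹ * r0⁻¹
    have w2Q : w2 ∈ Q := mul_mem (nQ a az r0 rQ) (inv_mem rQ)
    have n2 : ν w2 = v + T (π a) v := by rw [s.md.mul _ (nQ a az r0 rQ) _ (inv_mem rQ), s.md.inv rQ, ← s.act a az r0 rQ, add_comm]
    have w2A : w2 ∈ A := BA ⟨w2Q, n2 ▸ x.pj.cm _ Y2 v⟩
    have b2 : v + T (π a) v ∈ B' := ⟨x.pj.cm _ Y2 v, by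
      have := g.pol v (T (π a) v)
      rw [x.pj.qB _ (x.pj.cm _ Y2 v), g.qT, qv] at this
      change β (v + T (π a) v) v = 0
      rw [map_add, AddMonoidHom.add_apply, g.toQF.alt, g.toQF.sym]
      simpa using this.symm⟩
    have eW : W = B' ⊓ (β.flip (T d v)).ker := AddSubgroup.eq_of_le_of_card_ge WB (by
      have := half B' _ _ b2 n; omega)
    have wB' : ν w ∈ B' := (eB ▸ hw : w ∈ s.md.pull B').2
    obtain ⟨r, rN, e⟩ := s1 (w * w2⁻¹) (mul_mem hw.1.1 (inv_mem w2Q)) (mul_mem wA (inv_mem w2A)) (by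
      rw [s.md.mul _ hw.1.1 _ (inv_mem w2Q), s.md.inv w2Q, n2, eW]
      refine ⟨add_mem wB' b2, ?_⟩
      change β (ν w + (v + T (π a) v)) (T d v) = 0
      rw [map_add, AddMonoidHom.add_apply]
      exact z2 _ _ (fun k => o (eW ▸ ⟨wB', k⟩)) n)
    refine ⟨a * r, mul_mem (le_normalizer aA) rN, ?_⟩
    calc a * r * (r0 * c) * (a * r)⁻¹ = a * (r * (r0 * c) * r⁻¹) * a⁻¹ := by group
      _ = (a * (w * w2⁻¹) * a⁻¹) * (w2 * r0) * (a * c * a⁻¹) := by rw [e]; simp only [w2]; group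
      _ = w * (r0 * c) := by rw [ab a aA _ (mul_mem wA (inv_mem w2A)), ab a aA c cA]; group
  · have cA' : c' ∈ A := by rcases hc with rfl | rfl; exacts [cA, mul_mem cA zA]
    have cπ' : π c' = y := by
      rcases hc with rfl | rfl
      · exact cπ
      · rw [mu _ cz _ (x.Az zA), pQ z zQ, mul_one, cπ]
    have ct' : c' ∈ C_[r0 * c] := by
      rcases hc with rfl | rfl
      · exact (ct _ cA).2 cr'
      · exact mul_mem ((ct _ cA).2 cr') (mem_cent1.2 (mem_cent1.1 tz).symm)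
    rw [← cW, show Nat.card W = (W : Set V).ncard from Nat.card_coe_set_eq _]
    refine (Set.ncard_le_ncard (t := (fun x => ν (x * c'⁻¹)) '' _) ?_).trans (Set.ncard_image_le)
    rintro _ ⟨u, rfl⟩
    obtain ⟨r, j, rfl⟩ := s.md.sur u
    obtain ⟨k1, k2⟩ := cjQ c' (x.Az cA') cπ' r j
    refine ⟨r * c' * r⁻¹, ⟨?_, r, j, rfl⟩, k2⟩
    have : r * c' * r⁻¹ * c'⁻¹ ∈ s.md.pull B ⊓ C_[r0 * c] := eB ▸ ⟨k1, k2 ▸ ⟨x.pj.cm y tY _, Wp v yv _⟩⟩
    have := mul_mem this.2 ct'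
    rw [inv_mul_cancel_right] at this
    exact (mem_cent1.1 this).symm

theorem pa : Cfsg.Agent.H23.Y.PaStmt.{u} := pa' <| by
  intro G _ _ z Q V _ _ _ Γ _ _ f π ν T d M β q s K Y B A δ x c y i n v e _ b
  exact H18.YH.hx s.gm x.hk.hx x.hk.KM x.pj x.pi c i n e b

end H10.YPa
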